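import Cfsg.Statements.S3733
import Cfsg.Agent.H1.Abelian

set_option autoImplicit false
open Cfsg

namespace Cfsg.Agent.S3733

open Subgroup
open scoped IsMulCommutative

/-- Let A and V be subgroups of a finite group with V abelian and nontrivial and A normalizing V. Suppose a nonempty finite family of proper subgroups of A partitions A: every non-identity element of A lies in exactly one member. If the number of members minus one is coprime to the order of V, then some member B of the family has a non-identity fixed point on V, that is V ∩ C(B) ≠ 1. -/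
theorem result {G : Type*} [Group G] [Finite G] (A V : Subgroup G) (hVab : IsMulCommutative V) (hV : V ≠ ⊥) (hAV : A ≤ Subgroup.normalizer (V : Set G)) (𝒜 : Finset (Subgroup G)) (hne : 𝒜.Nonempty) (hprop : ∀ B ∈ 𝒜, B < A) (hpart : ∀ a ∈ A, a ≠ 1 → ∃! B, B ∈ 𝒜 ∧ a ∈ B) (hk : (𝒜.card - 1).Coprime (Nat.card V)) : ∃ B ∈ 𝒜, V ⊓ Subgroup.centralizer (B : Set G) ≠ ⊥ := by
  classical
  by_contra hcon
  push Not at hcon
  have := Fintype.ofFinite A
  set φ := H1.conjAut hAV with hφ
  have hfix : ∀ B ∈ 𝒜, ∀ w : V, (∀ b : A, (b : G) ∈ B → φ b w = w) → w = 1 := by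
    intro B hB w hw
    have : (w : G) ∈ V ⊓ centralizer (B : Set G) := ⟨w.2, mem_centralizer_iff.mpr fun b hb => by
      have := congrArg Subtype.val (hw ⟨b, (hprop B hB).le hb⟩ hb)
      rw [hφ, H1.coe_conjAut] at this
      exact mul_inv_eq_iff_eq_mul.mp this⟩
    rw [hcon B hB] at this
    exact Subtype.ext this
  obtain ⟨⟨v, hv⟩, hv1⟩ := (ne_bot_iff_exists_ne_one).mp hV
  set w : V := ⟨v, hv⟩
  have h1 : ∀ B ∈ 𝒜, ∏ a : A, (if (a : G) ∈ B then φ a w else 1) = 1 := by
    intro B hB
    refine hfix B hB _ fun b hb => ?_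
    rw [map_prod]
    conv_rhs => rw [← Equiv.prod_comp (Equiv.mulLeft b)]
    refine Finset.prod_congr rfl fun a _ => ?_
    simp only [Equiv.coe_mulLeft, coe_mul, B.mul_mem_cancel_left hb]
    split_ifs <;> simp
  have h2 : ∏ a : A, φ a w = 1 := by
    obtain ⟨B, hB⟩ := hne
    exact hfix B hB _ fun b _ => H1.smul_normHom φ b w
  have h3 : ∏ B ∈ 𝒜, ∏ a : A, (if (a : G) ∈ B then φ a w else 1) = 1 := Finset.prod_eq_one h1
  rw [Finset.prod_comm] at h3
  have h4 : ∀ a : A, ∏ B ∈ 𝒜, (if (a : G) ∈ B then φ a w else 1) =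
      φ a w * if a = 1 then w ^ (𝒜.card - 1) else 1 := by
    intro a
    rw [← Finset.prod_filter, Finset.prod_const]
    split_ifs with ha
    · subst ha
      rw [Finset.filter_true_of_mem fun B _ => by simp, map_one, MulAut.one_apply, ← pow_succ',
        Nat.sub_add_cancel hne.card_pos]
    · obtain ⟨B, hB, hu⟩ := hpart a a.2 fun h => ha (Subtype.ext h)
      have : 𝒜.filter (fun B => (a : G) ∈ B) = {B} := by
        ext C
        simp only [Finset.mem_filter, Finset.mem_singleton]
        exact ⟨hu C, fun h => h ▸ hB⟩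
      rw [this]; simp
  simp only [h4, Finset.prod_mul_distrib, h2, one_mul, Finset.prod_ite_eq', Finset.mem_univ,
    if_true] at h3
  exact hv1 (orderOf_eq_one_iff.mp (Nat.eq_one_of_dvd_coprimes hk (orderOf_dvd_of_pow_eq_one h3)
    (orderOf_dvd_natCard w)))

end Cfsg.Agent.S3733
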