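import Cfsg.Statements.S3735
import Cfsg.Agent.H1.Abelian

set_option autoImplicit false
open Cfsg

namespace Cfsg.Agent.S3735

open Subgroup

/-- Clifford's Theorem for actions on finite abelian groups, first part. Let H and V be subgroups of a finite group with V abelian and H normalizing V, and let A be a normal subgroup of H. If every H-invariant subgroup of V has an H-invariant complement in V, then every A-invariant subgroup of V has an A-invariant complement in V. -/
theorem result {G : Type*} [Group G] [Finite G] (H A V : Subgroup G) (hVab : IsMulCommutative V) (hHV : H ≤ Subgroup.normalizer (V : Set G)) (hAH : A ≤ H) (hAn : H ≤ Subgroup.normalizer (A : Set G)) (hss : ∀ U : Subgroup G, U ≤ V → H ≤ Subgroup.normalizer (U : Set G) → ∃ W : Subgroup G, W ≤ V ∧ H ≤ Subgroup.normalizer (W : Set G) ∧ U ⊓ W = ⊥ ∧ U ⊔ W = V) (U : Subgroup G) (hUV : U ≤ V) (hAU : A ≤ Subgroup.normalizer (U : Set G)) : ∃ W : Subgroup G, W ≤ V ∧ A ≤ Subgroup.normalizer (W :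 Set G) ∧ U ⊓ W = ⊥ ∧ U ⊔ W = V := by
  let P : Subgroup G → Prop := fun M => M ≤ V ∧ A ≤ normalizer (M : Set G) ∧ M ≠ ⊥
  have hnorm : ∀ X Y : Subgroup G, X ≤ V → Y ≤ V → X ≤ normalizer (Y : Set G) := fun X Y hX hY =>
    H1.le_normalizer_of_le_centralizer fun x hx => mem_centralizer_iff.mpr fun y hy =>
      setLike_mul_comm (hY hy) (hX hx)
  have hPconj : ∀ h ∈ H, ∀ M, P M → P (M.map (MulAut.conj h).toMonoidHom) := by
    intro h hh M ⟨h1, h2, h3⟩
    refine ⟨H1.map_conj_le_of_mem_normalizer h1 (hHV hh), ?_, ?_⟩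
    · rw [H1.normalizer_map_conj]
      intro a ha
      exact H1.mem_map_conj.mpr (h2 (H1.conj_mem_of_le_normalizer' hAn hh ha))
    · intro h0
      rw [← card_eq_one, H1.card_map_conj, card_eq_one] at h0
      exact h3 h0
  have hmin : ∀ h ∈ H, ∀ M, Minimal P M → Minimal P (M.map (MulAut.conj h).toMonoidHom) := by
    intro h hh M hM
    refine ⟨hPconj h hh M hM.prop, fun K hK hKM => ?_⟩
    have h1 := hM.le_of_le (hPconj h⁻¹ (inv_mem hh) K hK) (by
      have := map_mono (f := (MulAut.conj h⁻¹).toMonoidHom) hKM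
      rwa [H1.map_conj_map_conj, inv_mul_cancel, H1.map_conj_one] at this)
    have := map_mono (f := (MulAut.conj h).toMonoidHom) h1
    rwa [H1.map_conj_map_conj, mul_inv_cancel, H1.map_conj_one] at this
  set S : Subgroup G := sSup {M | Minimal P M} with hS
  have hSV : S ≤ V := sSup_le fun M hM => hM.prop.1
  have hHS : H ≤ normalizer (S : Set G) := by
    have key : ∀ h ∈ H, S.map (MulAut.conj h).toMonoidHom ≤ S := by
      intro h hh
      rw [map_le_iff_le_comap]
      exact sSup_le fun M hM => map_le_iff_le_comap.mp (le_sSup (hmin h hh M hM))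
    intro h hh
    exact H1.map_conj_eq_self_iff.mp (H1.eq_of_le_of_card_le (key h hh) (H1.card_map_conj _ _).ge)
  have hSV' : S = V := by
    obtain ⟨W, hWV, hHW, h1, h2⟩ := hss S hSV hHS
    rcases eq_or_ne W ⊥ with rfl | h0
    · simpa using h2
    obtain ⟨M, hMW, hM⟩ := exists_minimal_le_of_wellFoundedLT P W ⟨hWV, hAH.trans hHW, h0⟩
    exact absurd (le_bot_iff.mp (h1 ▸ le_inf (le_sSup hM) hMW)) hM.prop.2.2
  obtain ⟨W, -, hW⟩ := Finite.exists_le_maximal
    (p := fun W : Subgroup G => W ≤ V ∧ A ≤ normalizer (W : Set G) ∧ U ⊓ W = ⊥) (a := ⊥)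
    ⟨bot_le, le_normalizer_of_normal, inf_bot_eq U⟩
  obtain ⟨hWV, hAW, hUW⟩ := hW.prop
  refine ⟨W, hWV, hAW, hUW, le_antisymm (sup_le hUV hWV) ?_⟩
  rw [← hSV']
  refine sSup_le fun M hM => ?_
  obtain ⟨hMV, hAM, hM0⟩ := hM.prop
  by_cases h0 : M ⊓ (U ⊔ W) = ⊥
  · refine le_sup_right.trans (hW.le_of_ge (y := W ⊔ M) ⟨sup_le hWV hMV,
      H1.le_normalizer_sup hAW hAM, ?_⟩ le_sup_left) |>.trans le_sup_right
    rw [eq_bot_iff]
    rintro u ⟨hu, hu'⟩
    obtain ⟨w, hw, m, hm, rfl⟩ := (H1.mem_sup_iff_of_le_normalizer (hnorm W M hWV hMV)).mp hu'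
    have h1 : m ∈ M ⊓ (U ⊔ W) := ⟨hm, by
      have := mul_mem (inv_mem (mem_sup_right (S := U) hw)) (mem_sup_left (T := W) hu)
      simpa using this⟩
    rw [h0, mem_bot] at h1
    subst h1
    rw [← hUW]
    exact ⟨hu, by simpa using hw⟩
  · exact (hM.le_of_le (y := M ⊓ (U ⊔ W)) ⟨inf_le_left.trans hMV,
      H1.le_normalizer_inf hAM (H1.le_normalizer_sup hAU hAW), h0⟩ inf_le_left).trans inf_le_right

end Cfsg.Agent.S3735
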