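import Cfsg.Statements.S3773
import Cfsg.Agent.H7.ChevWarn
import Cfsg.Agent.H3.PBasic

set_option autoImplicit false
open Cfsg

namespace Cfsg.Agent.S3773

open Subgroup
open scoped commutatorElement

/-- Let G be a finite 2-group of nilpotency class at most 2 and exponent dividing 4 in which the elements x with x² = 1 form a subgroup N. Then |G| ≤ |N|³, and |G| < |N|³ unless G is special. -/
theorem result {G : Type*} [Group G] [Finite G] (hG : IsPGroup 2 G) (hcl : (⊤ : Subgroup G).lowerCentralSeries 2 = ⊥) (hexp : ∀ x : G, x ^ 4 = 1) (hN : ∀ x y : G, x ^ 2 = 1 → y ^ 2 = 1 → (x * y) ^ 2 = 1) : Nat.card G ≤ Nat.card {x : G // x ^ 2 = 1} ^ 3 ∧ (¬ Cfsg.IsSpecial 2 G → Nat.card G < Nat.card {x : G // x ^ 2 = 1} ^ 3) := by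
  classical
  let N : Subgroup G :=
    { carrier := {z | z ^ 2 = 1}
      one_mem' := one_pow 2
      mul_mem' := fun {x y} hx hy => hN x y hx hy
      inv_mem' := fun {x} hx => by
        show x⁻¹ ^ 2 = 1
        rw [inv_pow, show x ^ 2 = 1 from hx, inv_one] }
  have hNc : Nat.card {x : G // x ^ 2 = 1} = Nat.card N := rfl
  rw [hNc]
  have hmem : ∀ x, x ∈ N ↔ x ^ 2 = 1 := fun _ => Iff.rfl
  have hsqN : ∀ x : G, x ^ 2 ∈ N := fun x => by rw [hmem, ← pow_mul]; exact hexp x
  haveI : N.Normal := ⟨fun n hn g => by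
    rw [hmem] at hn ⊢
    rw [conj_pow, hn]; simp⟩
  have hG'Z : commutator G ≤ center G := by
    intro c hc
    rw [mem_center_iff]
    intro g
    have : ⁅c, g⁆ ∈ (⊤ : Subgroup G).lowerCentralSeries 2 := commutator_mem_commutator hc (mem_top g)
    rw [hcl, mem_bot, commutatorElement_eq_one_iff_mul_comm] at this
    exact this.symm
  have hG'N : commutator G ≤ N := by
    rw [commutator_def, commutator_le]
    intro x _ y _
    rw [← QuotientGroup.eq_one_iff]
    have h1 : ∀ x : G ⧸ N, x⁻¹ = x := by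
      intro x
      obtain ⟨x, rfl⟩ := QuotientGroup.mk_surjective x
      apply inv_eq_of_mul_eq_one_right
      rw [← pow_two, ← QuotientGroup.mk_pow, QuotientGroup.eq_one_iff]
      exact hsqN x
    rw [commutatorElement_def]
    simp only [QuotientGroup.mk_mul, QuotientGroup.mk_inv]
    rw [mul_assoc, ← mul_inv_rev, h1, ← h1 ((y : G ⧸ N) * x), mul_inv_rev, h1, h1, ← h1 ((x : G ⧸ N) * y)]
    nth_rewrite 1 [h1]
    exact mul_inv_cancel _
  have hsqZ : ∀ x : G, x ^ 2 ∈ center G := by
    intro x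
    rw [mem_center_iff]
    intro g
    have hc : ⁅g, x⁆ ∈ commutator G := commutator_mem_commutator (mem_top _) (mem_top _)
    have h1 := mem_center_iff.1 (hG'Z hc) x
    have h2 : ⁅g, x⁆ ^ 2 = 1 := hG'N hc
    rw [commutatorElement_def] at h1 h2
    calc g * x ^ 2 = (g * x * g⁻¹ * x⁻¹) * (x * (g * x * g⁻¹ * x⁻¹)) * x * g := by
          rw [pow_two]; group
      _ = (g * x * g⁻¹ * x⁻¹) ^ 2 * x ^ 2 * g := by rw [h1]; simp only [pow_two]; group
      _ = _ := by rw [h2, one_mul]
  -- the main bound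
  let s : G →* G ⧸ commutator G :=
    { toFun := fun x => ((x ^ 2 : G) : G ⧸ commutator G)
      map_one' := by simp
      map_mul' := fun x y => by
        simp only [QuotientGroup.mk_pow, QuotientGroup.mk_mul]
        exact Commute.mul_pow
          ((Subgroup.Normal.quotient_commutative_iff_commutator_le.2 le_rfl).is_comm.comm _ _) 2 }
  have hG'H : commutator G ≤ s.ker := fun c hc => by
    show ((c ^ 2 : G) : G ⧸ commutator G) = 1
    rw [show c ^ 2 = 1 from hG'N hc]; rfl
  have hNH : N ≤ s.ker := fun c hc => by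
    show ((c ^ 2 : G) : G ⧸ commutator G) = 1
    rw [show c ^ 2 = 1 from hc]; rfl
  have h1 := H7.card_le_of_sq_mem ((commutator G).subgroupOf s.ker) (N.subgroupOf s.ker)
    (fun m hm => mem_center_iff.2 fun g => Subtype.ext (mem_center_iff.1 (hG'Z hm) g))
    (fun m hm => Subtype.ext (hG'N hm))
    (fun x => (QuotientGroup.eq_one_iff ((x : G) ^ 2)).1 x.2)
    (fun x hx => congrArg Subtype.val hx)
  rw [Nat.card_congr (subgroupOfEquivOfLe hG'H).toEquiv,
    Nat.card_congr (subgroupOfEquivOfLe hNH).toEquiv] at h1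
  have h2 : Nat.card s.range ≤ Nat.card (N.map (QuotientGroup.mk' (commutator G))) :=
    card_le_of_le (by rintro _ ⟨x, rfl⟩; exact ⟨x ^ 2, hsqN x, rfl⟩)
  have h3 := H3.card_map_mk'_mul (commutator G) hG'N
  have h4 : Nat.card G = Nat.card s.range * Nat.card s.ker := by
    rw [← index_ker, index_mul_card]
  have hmain : Nat.card G ≤ Nat.card N ^ 2 * Nat.card (commutator G) := by
    rw [h4]
    calc _ ≤ Nat.card (N.map (QuotientGroup.mk' (commutator G))) *
        (Nat.card N * Nat.card (commutator G) ^ 2) := Nat.mul_le_mul h2 h1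
      _ = (Nat.card (N.map (QuotientGroup.mk' (commutator G))) * Nat.card (commutator G)) *
        (Nat.card N * Nat.card (commutator G)) := by ring
      _ = _ := by rw [h3]; ring
  have hpos : 0 < Nat.card N := Nat.card_pos
  refine ⟨hmain.trans (by rw [pow_succ _ 2]; exact Nat.mul_le_mul_left _ (card_le_of_le hG'N)), ?_⟩
  intro hns
  by_cases hEq : commutator G = N
  swap
  · refine hmain.trans_lt ?_
    rw [pow_succ _ 2]
    refine Nat.mul_lt_mul_of_pos_left ?_ (pow_pos hpos 2)
    exact lt_of_le_of_ne (card_le_of_le hG'N) fun h => hEq (eq_of_le_of_card_ge hG'N h.ge)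
  have hZN : ¬ center G ≤ N := by
    intro h
    have hZ : commutator G = center G := le_antisymm hG'Z (hEq ▸ h)
    refine hns ⟨hG, le_antisymm ?_ (hZ ▸ H3.commutator_le_frattini hG), hZ⟩
    exact H3.frattini_le_of_forall Nat.prime_two
      (fun x y => hG'Z (commutator_mem_commutator (mem_top x) (mem_top y))) hsqZ
  obtain ⟨z, hzZ, hzN⟩ := SetLike.not_le_iff_exists.1 hZN
  have hNZ : N ≤ center G := hEq ▸ hG'Z
  set K := zpowers (z ^ 2) with hK
  haveI : K.Normal := H3.zpowers_normal_of_mem_center (hsqZ z)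
  have hKc : Nat.card K = 2 := by
    rw [Nat.card_zpowers]
    exact orderOf_eq_prime (hsqN z) hzN
  have hKN : K ≤ N := (zpowers_le).2 (hsqN z)
  have hKmem : ∀ k ∈ K, k = 1 ∨ k = z ^ 2 := by
    intro k hk
    have ho : orderOf (z ^ 2) = 2 := orderOf_eq_prime (hsqN z) hzN
    rw [mem_zpowers_iff_mem_range_orderOf, ho] at hk
    simp only [Finset.mem_image, Finset.mem_range] at hk
    obtain ⟨i, hi, rfl⟩ := hk
    interval_cases i <;> simp
  haveI : (zpowers z).Normal := H3.zpowers_normal_of_mem_center hzZ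
  have h5 := H7.card_le_of_sq_mem (N.map (QuotientGroup.mk' K))
    ((N ⊔ zpowers z).map (QuotientGroup.mk' K))
    (by
      rintro _ ⟨n, hn, rfl⟩
      rw [mem_center_iff]
      intro g
      obtain ⟨g, rfl⟩ := QuotientGroup.mk'_surjective K g
      rw [← map_mul, ← map_mul, mem_center_iff.1 (hNZ hn) g])
    (by
      rintro _ ⟨n, hn, rfl⟩
      rw [← map_pow, show n ^ 2 = 1 from hn, map_one])
    (by
      intro x
      obtain ⟨x, rfl⟩ := QuotientGroup.mk'_surjective K x
      exact ⟨x ^ 2, hsqN x, map_pow _ _ _⟩)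
    (by
      intro x hx
      obtain ⟨x, rfl⟩ := QuotientGroup.mk'_surjective K x
      rw [← map_pow, QuotientGroup.mk'_apply, QuotientGroup.eq_one_iff] at hx
      refine mem_map_of_mem _ ?_
      rcases hKmem _ hx with h | h
      · exact mem_sup_left h
      · have hc : Commute x z := mem_center_iff.1 hzZ x
        have : x * z ∈ N := by
          rw [hmem, hc.mul_pow, h, ← pow_add]; exact hexp z
        have h2 := mul_mem (mem_sup_left this : x * z ∈ N ⊔ zpowers z)
          (inv_mem (mem_sup_right (mem_zpowers z)))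
        simpa using h2)
  have h6 := H3.card_map_mk'_mul K hKN
  have h7 := H3.card_map_mk'_mul K (hKN.trans (le_sup_left : N ≤ N ⊔ zpowers z))
  have h8 := H3.card_sup_mul_card_inf N (zpowers z)
  have h9 : Nat.card (zpowers z) ≤ 4 := by
    rw [Nat.card_zpowers]
    exact orderOf_le_of_pow_eq_one (by norm_num) (hexp z)
  have h10 : 2 ≤ Nat.card (N ⊓ zpowers z : Subgroup G) := by
    rw [← hKc]
    exact card_le_of_le (le_inf hKN (zpowers_le.2 (pow_mem (mem_zpowers z) 2)))
  have h11 := card_eq_card_quotient_mul_card_subgroup K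
  rw [hKc] at h6 h7 h11
  set a := Nat.card (N.map (QuotientGroup.mk' K))
  set d := Nat.card ((N ⊔ zpowers z).map (QuotientGroup.mk' K))
  have h12 : d ≤ 2 * a := by
    have : d * 2 * 2 ≤ a * 2 * 4 := by
      rw [h7, h6]
      calc _ ≤ Nat.card (N ⊔ zpowers z : Subgroup G) * Nat.card (N ⊓ zpowers z : Subgroup G) :=
            Nat.mul_le_mul_left _ h10
        _ = _ := h8
        _ ≤ _ := Nat.mul_le_mul_left _ h9
    omega
  have ha : 0 < a := Nat.card_pos
  rw [h11, ← h6]
  calc _ ≤ d * a ^ 2 * 2 := Nat.mul_le_mul_right _ h5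
    _ ≤ 2 * a * a ^ 2 * 2 := by gcongr
    _ = 4 * a ^ 3 := by ring
    _ < 8 * a ^ 3 := by have := pow_pos ha 3; omega
    _ = _ := by ring

end Cfsg.Agent.S3773
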