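import Cfsg.Statements.S3738
import Cfsg.Agent.S3773
import Cfsg.Agent.H2.ZC1
import Cfsg.Agent.H2.SL23
import Cfsg.Agent.H7.Frattini

set_option autoImplicit false
open Cfsg

namespace Cfsg.Agent.S3738


open Subgroup Cfsg.Agent.FT Cfsg.Agent.H2
open scoped commutatorElement

universe u

theorem card_dvd_sub {G : Type u} [Group G] [Finite G] {B R D : Subgroup G} (hD : D ≤ R)
    (hR : B ≤ 𝐍(R)) (hBD : B ≤ 𝐍(D)) (h : ∀ b ∈ B, b ≠ 1 → R ⊓ 𝐂[b] ≤ D) :
    𝐨(B) ∣ 𝐨(R) - 𝐨(D) := by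
  let act : MulAction B ↥((R : Set G) \ D) :=
    { smul := fun b x => ⟨b * x * (b : G)⁻¹, (mem_normalizer_iff.1 (hR b.2) _).1 x.2.1,
        fun e => x.2.2 ((mem_normalizer_iff.1 (hBD b.2) _).2 e)⟩
      one_smul := fun x => Subtype.ext (by
        change ((1 : B) : G) * x * ((1 : B) : G)⁻¹ = x
        simp)
      mul_smul := fun a b x => Subtype.ext (by
        change ((a * b : B) : G) * x * ((a * b : B) : G)⁻¹ = a * (b * x * (b : G)⁻¹) * (a : G)⁻¹
        rw [coe_mul]; group) }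
  have := H7.card_dvd_of_free_action (A := B) (X := ↥((R : Set G) \ D)) fun b x e => by
    by_contra hb
    have e' : (b : G) * x * (b : G)⁻¹ = x := congrArg Subtype.val e
    exact x.2.2 (h b b.2 (fun e => hb (Subtype.ext e)) (mem_inf.2 ⟨x.2.1,
      mem_cent1_comm.1 (mem_cent1_iff_conj.2 e')⟩))
  rwa [Nat.card_coe_set_eq, Set.ncard_sdiff hD] at this

/-- An elementary abelian `2`-group of rank at most two with a fixed-point-free `3`-group of
operators is a four-group. -/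
theorem isElem_two_of_fpf {G : Type u} [Group G] [Finite G] {B N : Subgroup G}
    (hB : IsPGroup 3 B) (hN : IsElementaryAbelian 2 N) (h1 : N ≠ ⊥) (hn : B ≤ 𝐍(N))
    (hf : N ⊓ 𝐂(B) = ⊥) (h8 : ∀ E ≤ N, ¬ IsElem 2 3 E) : IsElem 2 2 N := by
  obtain ⟨k, hk⟩ := elemAb_exists_isElem Nat.prime_two hN
  have h2 := card_modEq_card_inf_centralizer hB hn
  rw [hf, card_bot, hk.2] at h2
  have h3 : k < 3 := by
    by_contra hcon
    obtain ⟨E, hE, hE'⟩ := hk.exists_le Nat.prime_two (not_lt.1 hcon)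
    exact h8 E hE hE'
  have h4 : k ≠ 0 := by rintro rfl; exact h1 (card_eq_one.1 hk.2)
  interval_cases k
  · exact absurd rfl h4
  · exact absurd h2 (by decide)
  · exact hk

theorem aux {G : Type u} [Group G] [Finite G] {d : G} {n : ℕ} (hn : 1 ≤ n)
    (hd : orderOf d = 3 ^ n) {P : Subgroup G} (hP : IsPGroup 2 P) (hdP : d ∈ 𝐍(P))
    (hfaith : zpowers d ⊓ 𝐂(P) = ⊥) (hfpf : P ⊓ 𝐂[d] = ⊥) (h8 : ∀ E ≤ P, ¬ IsElem 2 3 E) :
    orderOf d = 3 := by
  have p3 : Nat.Prime 3 := by norm_num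
  by_contra hne
  have hn2 : 2 ≤ n := by
    by_contra hcon
    exact hne (by rw [hd, show n = 1 by omega, pow_one])
  have hcB : 𝐨(zpowers d) = 3 ^ n := by rw [Nat.card_zpowers, hd]
  have hB : IsPGroup 3 (zpowers d) := isPGroup_of_card_eq hcB
  obtain ⟨A, hAB, hA⟩ := exists_le_card_eq_prime p3 (H := zpowers d)
    (hcB ▸ dvd_pow_self 3 (by omega))
  have hBA : zpowers d ≤ 𝐍(A) :=
    (le_norm_self _).trans (norm_le_norm_of_le_cyclic inferInstance hAB)
  have hAc : 𝐨(A).Coprime 2 := by rw [hA]; norm_num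
  obtain ⟨R, hRP, hBR, hnt, hmin⟩ := H1.exists_minimal_nontrivial (A := A) (zpowers_le.2 hdP)
    fun e => ne_bot_of_card_prime (hA ▸ p3) (le_bot_iff.1 (hfaith ▸ le_inf hAB
      (cent_comm.1 (comm_eq_bot_iff.1 e))))
  have pR := hP.to_le hRP
  have hR1 : R ≠ ⊥ := by rintro rfl; exact hnt (commutator_bot_left _)
  have hc2 := H1.minimal_class_two pR hBR hAB hBA hAc hnt hmin
  have hdv := card_dvd_sub (der_le R) hBR (hBR.trans (norm_le_norm_der R)) fun b hb b1 => by
    refine le_trans (inf_le_inf_left _ ?_) (H1.minimal_centralizer_le pR hBR hAB hBA hAc hnt hmin)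
    obtain ⟨A', h1, h2⟩ := exists_le_card_eq_prime p3 (prime_dvd_card_of_isPGroup p3
      (hB.to_le (zpowers_le.2 hb)) (by simpa using b1))
    rw [← eq_of_card_prime_of_isCyclic p3 inferInstance (h1.trans (zpowers_le.2 hb)) hAB h2 hA,
      ← cent_zpowers]
    exact cent_anti h1
  obtain ⟨N, hN⟩ : ∃ N, N = omegaOne 2 𝐙(R) := ⟨_, rfl⟩
  have hNZ : N ≤ 𝐙(R) := hN ▸ omegaOne_le 2 _
  have hN2 : IsElem 2 2 N := isElem_two_of_fpf hB (hN ▸ elemAb_omegaOne (isMulComm_center R))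
    (hN ▸ omegaOne_ne_bot Nat.prime_two (prime_dvd_card_of_isPGroup Nat.prime_two
      (pR.to_le inf_le_left) (center_ne_bot (isNilpotent_of_isPGroup Nat.prime_two pR) hR1)))
    (hN ▸ (hBR.trans (norm_le_norm_center R)).trans (norm_le_norm_omegaOne _ 2))
    (by rw [eq_bot_iff, ← hfpf, cent_zpowers]
        exact inf_le_inf_right _ ((hNZ.trans inf_le_left).trans hRP))
    fun E hE => h8 E (hE.trans ((hNZ.trans inf_le_left).trans hRP))
  have hinv : ∀ x ∈ R, x ^ 2 = 1 → x ∈ N := fun x hx h2 => by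
    by_contra hcon
    exact h8 _ ((sup_le (hNZ.trans inf_le_left) (zpowers_le.2 hx)).trans hRP)
      (ZC.isElem_sup_zpowers hN2 hcon h2 (cent_comm.1 (hNZ.trans inf_le_right) hx))
  have h64 : 𝐨(R) ≤ 4 ^ 3 := by
    have e : Nat.card {x : R // x ^ 2 = 1} = 𝐨(N) := Nat.card_congr
      ⟨fun x => ⟨x.1, hinv _ x.1.2 (congrArg Subtype.val x.2)⟩,
        fun x => ⟨⟨x.1, (hNZ x.2).1⟩, Subtype.ext (hN2.1.2 _ x.2)⟩, fun _ => rfl, fun _ => rfl⟩
    have := (S3773.result pR ?_ (fun x => Subtype.ext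
      (H1.minimal_exponent_sq pR hBR hAB hBA hAc hnt hmin x x.2)) fun x y hx hy =>
        Subtype.ext (hN2.1.2 _ (mul_mem (hinv _ x.2 (congrArg Subtype.val hx))
          (hinv _ y.2 (congrArg Subtype.val hy))))).1
    · rwa [e, hN2.2] at this
    · rw [← map_eq_bot_iff_of_injective _ R.subtype_injective, map_lowerCentralSeries,
        ← MonoidHom.range_eq_map, range_subtype, Subgroup.lowerCentralSeries_succ,
        Subgroup.lowerCentralSeries_succ, Subgroup.lowerCentralSeries_zero]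
      exact comm_eq_bot_iff.2 hc2
  obtain ⟨a, ha⟩ := exists_card_eq_pow Nat.prime_two pR
  obtain ⟨b, hb⟩ := exists_card_eq_pow Nat.prime_two (pR.to_le (der_le R))
  have hba : b < a := by
    have h1 : ⁅R, R⁆ < R := lt_of_le_of_ne (der_le R) fun e => hR1 (by
      rw [e] at hc2; exact e.symm.trans (comm_eq_bot_iff.2 hc2))
    have h2 := H1.card_lt_of_lt h1
    rwa [ha, hb, Nat.pow_lt_pow_iff_right one_lt_two] at h2
  have h9 : 9 ∣ 2 ^ a - 2 ^ b := by
    rw [hcB, ha, hb] at hdv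
    exact (pow_dvd_pow 3 hn2).trans hdv
  have ha6 : a ≤ 6 := by
    rwa [ha, show 4 ^ 3 = 2 ^ 6 by norm_num, Nat.pow_le_pow_iff_right one_lt_two] at h64
  have hb0 : b = 0 ∧ a = 6 := by
    interval_cases a <;> interval_cases b <;> simp_all
  have h1 : R ≤ N := fun x hx => hinv x hx (by
    have := H1.pow_mem_frattiniOf pR hx
    rwa [H1.minimal_frattini_eq pR hBR hAB hBA hAc hnt hmin, card_eq_one.1 (by
      rw [hb, hb0.1, pow_zero] : 𝐨(⁅R, R⁆) = 1), mem_bot] at this)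
  have h2 := card_le_of_le h1
  rw [ha, hN2.2, hb0.2] at h2
  norm_num at h2

/-- Let d be a non-identity 3-element of a finite group and P a 2-subgroup normalized by d on which ⟨d⟩ acts faithfully (no non-identity power of d centralizes P) and without non-identity fixed points (C_P(d) = 1). If every abelian subgroup of P has 2-rank at most 2, then d has order 3. -/
theorem result {X : Type*} [Group X] [Finite X] (d : X) (n : ℕ) (hn : 1 ≤ n) (hd : orderOf d = 3 ^ n) (P : Subgroup X) (hP : IsPGroup 2 P) (hdP : d ∈ Subgroup.normalizer (P : Set X)) (hfaith : Subgroup.zpowers d ⊓ Subgroup.centralizer (P : Set X) = ⊥) (hfpf : P ⊓ Subgroup.centralizer {d} = ⊥) (hrank : ∀ V : Subgroup X, V ≤ P → IsMulCommutative V → Cfsg.PRankLE 2 2 V) : orderOf d = 3 := by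
  refine aux hn hd hP hdP hfaith hfpf fun E hE h => ?_
  have := hrank E hE h.comm ⊤ (FT.isMulComm_iff_le_cent.2 fun a _ => FT.mem_cent.2 fun b _ =>
    Subtype.ext (FT.mem_cent.1 (h.le_cent a.2) b b.2)) fun a _ => Subtype.ext (h.1.2 a a.2)
  rw [Subgroup.card_top, h.2] at this
  norm_num at this

end Cfsg.Agent.S3738
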