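import Cfsg.Statements.S3739
import Cfsg.Agent.S3738

set_option autoImplicit false
open Cfsg

namespace Cfsg.Agent.S3739


open Subgroup Cfsg.Agent.FT Cfsg.Agent.H2
open scoped commutatorElement

universe u

theorem le_cent_of_ne_bot {G : Type u} [Group G] [Finite G] {W : Subgroup G} (hW : IsElem 2 2 W)
    {B : Subgroup G} (hB : IsPGroup 3 B) (hn : B ≤ 𝐍(W)) (h : W ⊓ 𝐂(B) ≠ ⊥) : W ≤ 𝐂(B) := by
  by_contra hcon
  have h1 := card_modEq_card_inf_centralizer hB hn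
  rw [hW.card_eq_of_two Nat.prime_two inf_le_left h (fun e => hcon (inf_eq_left.1 e)), hW.2] at h1
  exact absurd h1 (by decide)

theorem aux {G : Type u} [Group G] [Finite G] {Q : Subgroup G} [Q.Normal] (pQ : IsPGroup 2 Q)
    (hchar : 𝐂(Q) ≤ Q) {g : G} (hg : orderOf g = 6) {d : G} (hd1 : d ≠ 1)
    (hd : IsPGroup 3 (zpowers d)) {W : Subgroup G} (hW : IsElementaryAbelian 2 W) (hW1 : W ≠ ⊥)
    (hdW : d ∈ 𝐍(W)) (hfpf : W ⊓ 𝐂[d] = ⊥) : ∃ E : Subgroup G, IsElem 2 3 E := by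
  have p3 : Nat.Prime 3 := by norm_num
  by_contra hcon
  have h8 : ∀ E : Subgroup G, ¬ IsElem 2 3 E := fun E h => hcon ⟨E, h⟩
  have hQn : ∀ X : Subgroup G, X ≤ 𝐍(Q) := fun X => le_top.trans (normalizer_eq_top Q).ge
  have h3 : ∀ X : Subgroup G, IsPGroup 3 X → X ≤ 𝐂(Q) → X = ⊥ := fun X hX h =>
    le_bot_iff.1 ((le_inf le_rfl (h.trans hchar)).trans (disjoint_iff.1 (disjoint_of_coprime_natCard
      (FT.coprime_card_of_isPGroup p3 Nat.prime_two (by norm_num) hX pQ))).le)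
  have hW2 := S3738.isElem_two_of_fpf hd hW hW1 (zpowers_le.2 hdW) (by rwa [cent_zpowers])
    fun E _ => h8 E
  have hinv : ∀ x ∈ 𝐂(W), x ^ 2 = 1 → x ∈ W := fun x hx h2 => by
    by_contra hcon
    exact h8 _ (ZC.isElem_sup_zpowers hW2 hcon h2 hx)
  have hQ1 : Q ≠ ⊥ := by
    rintro rfl
    exact hd1 (mem_bot.1 (hchar (by rw [cent_bot]; exact mem_top d)))
  obtain ⟨N, hN⟩ : ∃ N, N = omegaOne 2 𝐙(Q) := ⟨_, rfl⟩
  have hNZ : N ≤ 𝐙(Q) := hN ▸ omegaOne_le 2 _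
  have hNe : IsElementaryAbelian 2 N := hN ▸ elemAb_omegaOne (isMulComm_center Q)
  have hNn : ∀ X : Subgroup G, X ≤ 𝐍(N) := fun X =>
    hN ▸ ((hQn X).trans (norm_le_norm_center Q)).trans (norm_le_norm_omegaOne _ 2)
  have hN1 : N ≠ ⊥ := hN ▸ omegaOne_ne_bot Nat.prime_two (prime_dvd_card_of_isPGroup Nat.prime_two
      (pQ.to_le inf_le_left) (center_ne_bot (isNilpotent_of_isPGroup Nat.prime_two pQ) hQ1))
  have fix2 : ∀ {A B : Subgroup G}, IsPGroup 2 A → IsPGroup 2 B → B ≤ 𝐍(A) → A ≠ ⊥ →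
      A ⊓ 𝐂(B) ≠ ⊥ := fun {A B} hA hB hn h1 e => by
    have h2 := card_modEq_card_inf_centralizer hB hn
    rw [e, card_bot] at h2
    exact absurd ((Nat.modEq_zero_iff_dvd.2 (prime_dvd_card_of_isPGroup Nat.prime_two hA
      h1)).symm.trans h2) (by decide)
  have hWN : W ≤ N := by
    have h1 : N ⊓ 𝐂(W) ≤ W := fun x hx => hinv x hx.2 (hNe.2 x hx.1)
    have h2 := S3738.isElem_two_of_fpf hd (elemAb_of_le h1 hW)
      (fix2 (elemAb_isPGroup hNe) hW2.pgrp (hNn W) hN1)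
      (H1.le_normalizer_inf (hNn _) (H1.le_normalizer_centralizer (zpowers_le.2 hdW)))
      (by rw [eq_bot_iff, ← hfpf, cent_zpowers]; exact inf_le_inf_right _ h1) fun E _ => h8 E
    rw [← hW2.eq_of_le h2 h1]
    exact inf_le_left
  have hQW : Q ≤ 𝐂(W) := cent_comm.1 ((hWN.trans hNZ).trans inf_le_right)
  have hWn : ∀ X : Subgroup G, X ≤ 𝐍(W) := by
    rw [le_antisymm hWN fun x hx => hinv x (hQW (hNZ hx).1) (hNe.2 x hx)]
    exact hNn
  have fpf : ∀ a : G, W ⊓ 𝐂[a] = ⊥ → Q ⊓ 𝐂[a] = ⊥ := fun a h => by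
    by_contra hne
    obtain ⟨u, hu, hu2⟩ := exists_mem_orderOf_eq_prime Nat.prime_two (prime_dvd_card_of_isPGroup
      Nat.prime_two (pQ.to_le inf_le_left) hne)
    have : u ∈ W ⊓ 𝐂[a] := mem_inf.2 ⟨hinv u (hQW hu.1) (hu2 ▸ pow_orderOf_eq_one u), hu.2⟩
    rw [h, mem_bot] at this
    simp [this] at hu2
  have hd3 : orderOf d = 3 := by
    obtain ⟨n, hn⟩ := exists_card_eq_pow p3 hd
    rw [Nat.card_zpowers] at hn
    refine S3738.aux (Nat.one_le_iff_ne_zero.2 ?_) hn pQ (hQn ⊤ (mem_top d))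
      (h3 _ (hd.to_le inf_le_left) inf_le_right) (fpf d hfpf) fun E _ => h8 E
    rintro rfl
    exact hd1 (orderOf_eq_one_iff.1 hn)
  have hx3 : orderOf (g ^ 2) = 3 := by rw [orderOf_pow, hg]; norm_num
  have ht2 : orderOf (g ^ 3) = 2 := by rw [orderOf_pow, hg]; norm_num
  have hxt : g ^ 2 ∈ 𝐂[g ^ 3] := mem_cent1.2 (by group)
  generalize g ^ 2 = x at *
  generalize g ^ 3 = t at *
  have t2 : t ^ 2 = 1 := ht2 ▸ pow_orderOf_eq_one t
  have px : IsPGroup 3 (zpowers x) := isPGroup_of_card_prime (by rw [Nat.card_zpowers, hx3])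
  have hWx : W ≤ 𝐂(zpowers x) := by
    refine le_cent_of_ne_bot hW2 px (hWn _) ?_
    by_cases h : W ≤ 𝐂[t]
    · exact sharp_nonempty.1 ⟨t, mem_inf.2 ⟨hinv t (mem_cent_iff_cent1.2 h) t2, by
        rw [cent_zpowers]; exact mem_cent1_comm.1 hxt⟩, by rintro rfl; simp at ht2⟩
    · have h1 := fix2 hW2.pgrp (ZC.isPGroup_zpowers t2) (hWn _) hW1
      rw [cent_zpowers] at h1
      have h2 := card_modEq_card_inf_centralizer px (H1.le_normalizer_inf (hWn _)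
        ((zpowers_le.2 hxt).trans (le_norm_self _)))
      rw [hW2.card_eq_of_two Nat.prime_two inf_le_left h1 (fun e => h (inf_eq_left.1 e))] at h2
      intro e
      rw [le_bot_iff.1 ((inf_le_inf_right _ inf_le_left).trans e.le), card_bot] at h2
      exact absurd h2 (by decide)
  obtain ⟨D, hD, hdD⟩ := exists_isSyl_ge p3 hd (le_top : _ ≤ (⊤ : Subgroup G))
  obtain ⟨c, -, hc⟩ := hD.exists_conj_le p3 px le_top
  have hD0 : D ⊓ 𝐂(W) ≠ ⊥ := by
    refine sharp_nonempty.1 ⟨c * x * c⁻¹, mem_inf.2 ⟨hc (conj_mem_conj (mem_zpowers x) c), ?_⟩,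
      fun e => by rw [conj_eq_one_iff.1 e] at hx3; simp at hx3⟩
    rw [← conj_eq_of_mem_norm (hWn ⊤ (mem_top c)), cent_conj]
    exact conj_mem_conj (cent_comm.1 hWx (mem_zpowers x)) c
  obtain ⟨Y, hY, hY3⟩ := exists_le_card_eq_prime p3 (prime_dvd_card_of_isPGroup p3
    (hD.pgrp.to_le (inf_le_left.trans inf_le_left)) (inf_center_ne_bot (isNilpotent_of_isPGroup p3
      hD.pgrp) (N := D ⊓ 𝐂(W)) ⟨inf_le_left, H1.le_normalizer_inf (le_norm_self D)
        (H1.le_normalizer_centralizer (hWn D))⟩ hD0))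
  have hYW : Y ≤ 𝐂(W) := hY.trans (inf_le_left.trans inf_le_right)
  have hdW' : d ∉ 𝐂(W) := fun h => hW1 (by
    rw [← hfpf]; exact (inf_eq_left.2 (mem_cent_iff_cent1.1 h)).symm)
  have hcd : 𝐨(zpowers d) = 3 := by rw [Nat.card_zpowers, hd3]
  have hA : IsElem 3 (1 + 1) (Y ⊔ zpowers d) :=
    ((isElem_one_iff p3).2 hY3).sup ((isElem_one_iff p3).2 hcd)
      (hdD.trans (cent_comm.1 (hY.trans inf_le_right))) (by
        rw [inf_comm]
        exact (inf_eq_bot_or_le_of_card_prime (hcd ▸ p3) Y).resolve_right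
          fun h => hdW' (hYW (h (mem_zpowers d))))
  refine ne_bot_of_card_prime (hY3 ▸ p3) (h3 Y (isPGroup_of_card_prime hY3) (cent_comm.1 ?_))
  refine H1.le_of_forall_centralizer_le hA.comm (hA.not_isCyclic p3 le_rfl) (hQn _)
    (FT.coprime_card_of_isPGroup p3 Nat.prime_two (by norm_num) hA.pgrp pQ) fun a ha a1 => ?_
  by_cases h : W ⊓ 𝐂[a] = ⊥
  · rw [fpf a h]; exact bot_le
  have h1 : a ∈ 𝐂(W) := cent_comm.1 (le_cent_of_ne_bot hW2 (hA.pgrp.to_le (zpowers_le.2 ha))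
    (hWn _) (by rwa [cent_zpowers])) (mem_zpowers a)
  have h2 : (Y ⊔ zpowers d) ⊓ 𝐂(W) = Y := (H1.eq_of_le_of_card_le (le_inf le_sup_left hYW) (by
    rw [hY3, IsElem.card_eq_of_two p3 hA inf_le_left (sharp_nonempty.1 ⟨a, mem_inf.2 ⟨ha, h1⟩, a1⟩)
      fun e => hdW' (inf_eq_left.1 e (mem_sup_right (mem_zpowers d)))])).symm
  rw [cent1_eq_of_card_prime (hY3 ▸ p3) (h2 ▸ mem_inf.2 ⟨ha, h1⟩) a1]
  exact inf_le_right

/-- Let G be a finite group with C_G(O₂(G)) ≤ O₂(G) containing an element of order 6, and let d be a non-identity 3-element of G normalizing a nontrivial elementary abelian 2-subgroup W with C_W(d) = 1. Then G has an elementary abelian subgroup of order 8. -/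
theorem result {G : Type*} [Group G] [Finite G] (hchar : Subgroup.centralizer (Cfsg.pCore 2 G : Set G) ≤ Cfsg.pCore 2 G) (hsix : ∃ g : G, orderOf g = 6) (d : G) (hd1 : d ≠ 1) (hd : IsPGroup 3 ↥(Subgroup.zpowers d)) (W : Subgroup G) (hW : Cfsg.IsElementaryAbelian 2 W) (hW1 : W ≠ ⊥) (hdW : d ∈ Subgroup.normalizer (W : Set G)) (hfpf : W ⊓ Subgroup.centralizer {d} = ⊥) : ∃ E : Subgroup G, Cfsg.IsElementaryAbelian 2 E ∧ Nat.card E = 8 := by
  obtain ⟨g, hg⟩ := hsix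
  have : (pCore 2 G).Normal := inferInstance
  exact aux (by rw [← pCoreOf_top]; exact isPGroup_pCoreOf 2 ⊤) hchar hg hd1 hd hW hW1 hdW hfpf

end Cfsg.Agent.S3739
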