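import Cfsg.Statements.S3740
import Cfsg.Agent.H2.PStable
import Cfsg.Agent.H2.SL23
import Cfsg.Agent.H3.RankOne
import Cfsg.Agent.H5.Quadratic

set_option autoImplicit false
open Cfsg

namespace Cfsg.Agent.S3740

open Subgroup Matrix
open scoped commutatorElement

variable {F : Type} [Field F]

abbrev rho (F : Type) [Field F] : SpecialLinearGroup (Fin 2) F →* Matrix (Fin 2) (Fin 2) F :=
  SpecialLinearGroup.coeMonoidHom

theorem trace_eq (g : SpecialLinearGroup (Fin 2) F) :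
    ∃ t : F, rho F g + rho F g⁻¹ = t • (1 : Matrix (Fin 2) (Fin 2) F) := by
  refine ⟨g.1 0 0 + g.1 1 1, ?_⟩
  ext i j
  fin_cases i <;> fin_cases j <;>
    simp [SpecialLinearGroup.coeMonoidHom_apply, adjugate_fin_two, add_comm]

theorem inv_mul (g : SpecialLinearGroup (Fin 2) F) : rho F g⁻¹ * rho F g = 1 := by
  rw [← map_mul, inv_mul_cancel, map_one]

theorem mul_inv (g : SpecialLinearGroup (Fin 2) F) : rho F g * rho F g⁻¹ = 1 := by
  rw [← map_mul, mul_inv_cancel, map_one]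

theorem cast_eq_zero (p : ℕ) [CharP F p] : (p : Matrix (Fin 2) (Fin 2) F) = 0 := by
  rw [← map_natCast (algebraMap F (Matrix (Fin 2) (Fin 2) F)), CharP.cast_eq_zero, map_zero]

theorem quadratic {p : ℕ} [Fact p.Prime] [CharP F p] {a : SpecialLinearGroup (Fin 2) F} {k : ℕ}
    (ha : a ^ p ^ k = 1) : (rho F a - 1) * (rho F a - 1) = 0 := by
  obtain ⟨t, ht⟩ := trace_eq a
  have e : (rho F a⁻¹ - 1) * (rho F a - 1) = (2 - t) • (1 : Matrix (Fin 2) (Fin 2) F) := by
    rw [sub_smul, ← ht, sub_mul, mul_sub, mul_sub, inv_mul, two_smul]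
    noncomm_ring
  have h1 : (rho F a - 1) ^ p ^ k = 0 := by
    rw [sub_pow_char_pow_of_commute p k (Commute.one_right _), ← map_pow, ha, map_one, one_pow,
      sub_self]
  have hc : Commute (rho F a⁻¹ - 1) (rho F a - 1) :=
    ((((Commute.refl a).inv_left.map (rho F)).sub_right (Commute.one_right _)).sub_left
      (Commute.one_left _))
  have h2 := hc.mul_pow (p ^ k)
  rw [h1, mul_zero, e, smul_pow, one_pow, smul_eq_zero] at h2
  have h3 : 2 - t = 0 := pow_eq_zero_iff (pow_ne_zero k (Fact.out : p.Prime).ne_zero) |>.1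
    (h2.resolve_right one_ne_zero)
  calc _ = -(rho F a * ((rho F a⁻¹ - 1) * (rho F a - 1))) := by
        rw [← mul_assoc, mul_sub (rho F a), mul_inv]; noncomm_ring
    _ = 0 := by rw [e, h3, zero_smul, mul_zero, neg_zero]

theorem sq_eq_one {p : ℕ} [Fact p.Prime] [CharP F p] {a x : SpecialLinearGroup (Fin 2) F}
    (ha : (rho F a - 1) * (rho F a - 1) = 0) (ha1 : a ≠ 1) (hx : (orderOf x).Coprime p)
    (hc : Commute x a) : x ^ 2 = 1 := by
  obtain ⟨t, ht⟩ := trace_eq x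
  obtain ⟨s, hs⟩ := trace_eq (x * a)
  obtain ⟨N, hN⟩ : ∃ N, rho F a = 1 + N := ⟨rho F a - 1, by simp⟩
  rw [hN, add_sub_cancel_left] at ha
  have h1 : rho F a⁻¹ = 1 - N := by
    calc rho F a⁻¹ = rho F a⁻¹ * (rho F a * (1 - N)) := by
          rw [hN, add_mul, mul_sub, mul_sub, ha]; simp
      _ = _ := by rw [← mul_assoc, inv_mul, one_mul]
  have h2 : (rho F x - rho F x⁻¹) * N = (s - t) • (1 : Matrix (Fin 2) (Fin 2) F) := by
    rw [sub_smul, ← ht, ← hs, hc.mul_inv, map_mul, map_mul, hN, h1]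
    noncomm_ring
  have h3 : (s - t) • N = 0 := by
    rw [← one_mul N, ← smul_mul_assoc, ← h2, mul_assoc, ha, mul_zero]
  have hN0 : N ≠ 0 := fun e => ha1 (SpecialLinearGroup.coeMonoidHom_injective
    (by rw [hN, e, add_zero, map_one]))
  rw [(smul_eq_zero.1 h3).resolve_right hN0, zero_smul] at h2
  have h4 : (rho F x - rho F x⁻¹) * (rho F x - rho F x⁻¹) =
      (t * t - 4) • (1 : Matrix (Fin 2) (Fin 2) F) := by
    have : (t * t) • (1 : Matrix (Fin 2) (Fin 2) F) =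
        (rho F x + rho F x⁻¹) * (rho F x + rho F x⁻¹) := by
      rw [ht, smul_mul_smul_comm, one_mul]
    rw [sub_smul, this, show (4 : F) = 1 + 1 + 1 + 1 by norm_num]
    simp only [add_smul, one_smul, mul_add, add_mul, mul_sub, sub_mul, inv_mul, mul_inv]
    abel
  have h5 : (t * t - 4) • N = 0 := by
    rw [← one_mul N, ← smul_mul_assoc, ← h4, mul_assoc, h2, mul_zero]
  rw [(smul_eq_zero.1 h5).resolve_right hN0, zero_smul] at h4
  have h6 : (rho F (x ^ 2) - 1) * (rho F (x ^ 2) - 1) = 0 := by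
    have a1 : rho F (x ^ 2) - 1 = rho F x * (rho F x - rho F x⁻¹) := by
      rw [mul_sub, mul_inv, pow_two, map_mul]
    have a2 : rho F (x ^ 2) - 1 = (rho F x - rho F x⁻¹) * rho F x := by
      rw [sub_mul, inv_mul, pow_two, map_mul]
    nth_rewrite 1 [a1]
    rw [a2, mul_assoc, ← mul_assoc (rho F x - rho F x⁻¹), h4, zero_mul, mul_zero]
  have h7 := H2.pow_prime_eq_one_of_sq_zero (cast_eq_zero p) h6
  rw [← map_pow, ← map_one (rho F)] at h7
  exact orderOf_eq_one_iff.1 (Nat.eq_one_of_dvd_coprimes hx (orderOf_pow_dvd 2)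
    (orderOf_dvd_of_pow_eq_one (SpecialLinearGroup.coeMonoidHom_injective h7)))

theorem eq_neg_one (h2 : (2 : F) ≠ 0) {x : SpecialLinearGroup (Fin 2) F} (hx : x ^ 2 = 1)
    (h1 : x ≠ 1) : rho F x = -1 := by
  obtain ⟨t, ht⟩ := trace_eq x
  rw [show x⁻¹ = x by rw [inv_eq_iff_mul_eq_one, ← pow_two, hx], ← two_smul F] at ht
  have e : rho F x = (t / 2) • (1 : Matrix (Fin 2) (Fin 2) F) := by
    rw [div_eq_inv_mul, mul_smul, ← ht, smul_smul, inv_mul_cancel₀ h2, one_smul]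
  have h3 : rho F x * rho F x = 1 := by rw [← map_mul, ← pow_two, hx, map_one]
  rw [e, smul_mul_smul_comm, one_mul] at h3
  have h4 : t / 2 * (t / 2) = 1 := by simpa using congrFun (congrFun h3 0) 0
  rcases mul_self_eq_one_iff.1 h4 with h | h
  · exact absurd (SpecialLinearGroup.coeMonoidHom_injective (by rw [e, h, one_smul, map_one])) h1
  · rw [e, h, neg_smul, one_smul]

set_option synthInstance.maxSize 1024 in
theorem quat_rel : ∀ i j k : QuaternionGroup 2, i ^ 2 ≠ 1 → j ^ 2 ≠ 1 → k ^ 2 ≠ 1 → j ≠ i →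
    j ≠ i⁻¹ → k ≠ j → k ≠ j⁻¹ → i ≠ k → i ≠ k⁻¹ →
    (i ^ (2 * 2) = 1 ∧ j * j = i ^ 2 ∧ i * j * i = j) ∧
      (j⁻¹ * j⁻¹ = i⁻¹ ^ 2 ∧ i⁻¹ * j⁻¹ * i⁻¹ = j⁻¹) ∧ (k = i * j ∨ k⁻¹ = i⁻¹ * j⁻¹) := by
  decide +kernel

/-- Let F be a finite field of odd characteristic p and let a be a p-element of SL₂(F) normalizing a subgroup R of order prime to p with [R, a] ≠ 1. Then p = 3, R is a quaternion group of order 8, and R⟨a⟩ is isomorphic to SL₂(3). -/
theorem result (F : Type) [Field F] [Fintype F] {p : ℕ} [Fact p.Prime] [CharP F p] (hp : p ≠ 2) (a : Matrix.SpecialLinearGroup (Fin 2) F) (ha : IsPGroup p ↥(Subgroup.zpowers a)) (R : Subgroup (Matrix.SpecialLinearGroup (Fin 2) F)) (hR : (Nat.card R).Coprime p) (haR : a ∈ Subgroup.normalizer (R : Set (Matrix.SpecialLinearGroup (Fin 2) F))) (hnt : ⁅R, Subgroup.zpowers a⁆ ≠ ⊥) : p = 3 ∧ Nonempty (↥R ≃* QuaternionGroup 2) ∧ Nonempty (↥(R ⊔ Subgroup.zpowers a) ≃* Matrix.SpecialLinearGroup (Fin 2)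 (ZMod 3)) := by
  have hpp : p.Prime := Fact.out
  obtain ⟨k, hk⟩ := H2.exists_pow_eq_one_of_mem ha (mem_zpowers a)
  have hq := quadratic hk
  have ha1 : a ≠ 1 := fun e => hnt (by rw [e, zpowers_one_eq_bot, commutator_bot_right])
  have h2 : (2 : F) ≠ 0 := fun e => hp ((Nat.prime_dvd_prime_iff_eq hpp Nat.prime_two).1
    ((CharP.cast_eq_zero_iff F p 2).1 (by exact_mod_cast e)))
  have hao : orderOf a = p := orderOf_eq_prime (SpecialLinearGroup.coeMonoidHom_injective (by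
    rw [map_pow, map_one]; exact H2.pow_prime_eq_one_of_sq_zero (cast_eq_zero p) hq)) ha1
  have hRo : ∀ x ∈ R, (orderOf x).Coprime p := fun x hx =>
    hR.coprime_dvd_left (R.orderOf_dvd_natCard hx)
  have hab : ∀ L ≤ R, a ∈ normalizer (L : Set (SpecialLinearGroup (Fin 2) F)) →
      L ≤ centralizer (L : Set (SpecialLinearGroup (Fin 2) F)) → ∀ x ∈ L, Commute a x :=
    fun L hL hn hc x hx => SpecialLinearGroup.coeMonoidHom_injective (by
      rw [map_mul, map_mul]
      exact H5.commute_of_quadratic_ring hp (cast_eq_zero p) (rho F) L a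
        (fun y hy => (mem_normalizer_iff.1 hn y).1 hy)
        (fun y hy => by simpa using (mem_normalizer_iff.1 (inv_mem hn) y).1 hy)
        (fun y hy z hz => (show Commute y z from hc hz y hy).map _) hR
        (fun y hy => by
          rw [← map_pow, orderOf_dvd_iff_pow_eq_one.1 (R.orderOf_dvd_natCard (hL hy)), map_one])
        hq x hx)
  have haz : zpowers a ≤ normalizer (R : Set (SpecialLinearGroup (Fin 2) F)) := zpowers_le.2 haR
  have hR2 : IsPGroup 2 R := by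
    rw [IsPGroup.iff_card]
    refine ⟨_, Nat.eq_prime_pow_of_unique_prime_dvd Nat.card_pos.ne' fun {r} hr hd => ?_⟩
    have := Fact.mk hr
    obtain ⟨P, h1, h3, h4, h5⟩ := H1.exists_invariant_sylow haz
      (by rw [Nat.card_zpowers, hao]; exact hR.symm) (Or.inl (H1.isSolvable_of_isPGroup ha)) r
    have h6 : r ∣ Nat.card P := by
      rw [← H1.card_mul_relIndex h1] at hd
      exact (hr.dvd_mul.1 hd).resolve_right h4
    obtain ⟨Q, k1, k2, k3⟩ := H2.inf_centralizer_ne_bot_of_isPGroup h3 le_normalizer h6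
    obtain ⟨x, hx, hx1⟩ := (Q.bot_or_exists_ne_one).resolve_left k2
    obtain ⟨j, hj⟩ := H2.exists_pow_eq_one_of_mem k3 hx
    have h7 := sq_eq_one hq ha1 (hRo x (h1 (k1 hx).1)) (hab _ (inf_le_left.trans h1)
      (H1.le_normalizer_inf h5 (H1.le_normalizer_centralizer h5) (mem_zpowers a))
      (inf_le_right.trans (centralizer_le (SetLike.coe_subset_coe.2 inf_le_left))) x (k1 hx)).symm
    have h8 := orderOf_dvd_of_pow_eq_one hj
    rw [orderOf_eq_prime h7 hx1] at h8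
    exact ((Nat.prime_dvd_prime_iff_eq Nat.prime_two hr).1 (Nat.prime_two.dvd_of_dvd_pow h8)).symm
  have huniq : ∀ x y : SpecialLinearGroup (Fin 2) F, x ^ 2 = 1 → x ≠ 1 → y ^ 2 = 1 → y ≠ 1 →
      x = y := fun x y a1 a2 a3 a4 => SpecialLinearGroup.coeMonoidHom_injective
    ((eq_neg_one h2 a1 a2).trans (eq_neg_one h2 a3 a4).symm)
  obtain ⟨x, y, hx, hidx, hy, hy2, hyx⟩ : ∃ x y : R, orderOf x = 2 * 2 ∧ (zpowers x).index = 2 ∧
      y ∉ zpowers x ∧ y ^ 2 = x ^ 2 ∧ y * x * y⁻¹ = x⁻¹ := by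
    rcases H3.abelian_cyclic_cases hR2 (fun A hA => H3.isCyclic_of_isElementaryAbelian_of_card_le
      hA (by
        by_contra hcon
        have := Fintype.ofFinite A
        rw [not_le, Nat.card_eq_fintype_card, Fintype.two_lt_card_iff] at hcon
        obtain ⟨u, v, w, b1, b2, b3⟩ := hcon
        have key : ∀ u v : A, u ≠ 1 → v ≠ 1 → u = v := fun u v c1 c2 =>
          Subtype.ext (Subtype.ext (huniq _ _ (congrArg Subtype.val (hA.2 u u.2))
            (fun e => c1 (Subtype.ext (Subtype.ext e))) (congrArg Subtype.val (hA.2 v v.2))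
            (fun e => c2 (Subtype.ext (Subtype.ext e)))))
        by_cases c1 : u = 1
        · exact b3 (key v w (fun e => b1 (c1.trans e.symm)) fun e => b2 (c1.trans e.symm))
        by_cases c2 : v = 1
        · exact b2 (key u w c1 fun e => b3 (c2.trans e.symm))
        · exact b1 (key u v c1 c2))) with h | ⟨-, n, x, y, hn, hx, hidx, hy, hy2, hyx⟩
    · refine absurd (H1.commutator_eq_bot_iff_le_centralizer'.2 (zpowers_le.2 fun x hx => ?_)) hnt
      exact (hab R le_rfl haR (H2.le_centralizer_of_comm inferInstance) x hx).eq.symm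
    · have h1 : ⁅R, R⁆ ≤ zpowers (x : SpecialLinearGroup (Fin 2) F) := by
        rw [commutator_le]
        intro u hu v hv
        have h3 : ⁅(⟨u, hu⟩ : R), (⟨v, hv⟩ : R)⁆ ∈ zpowers x := by
          rw [commutatorElement_def, mul_assoc, mul_mem_iff_of_index_two hidx,
            mul_mem_iff_of_index_two hidx, mul_mem_iff_of_index_two hidx, inv_mem_iff, inv_mem_iff]
        obtain ⟨m, hm⟩ := h3
        exact ⟨m, congrArg Subtype.val hm⟩
      have h3 : ((x⁻¹ * x⁻¹ : R) : SpecialLinearGroup (Fin 2) F) ∈ ⁅R, R⁆ := by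
        nth_rewrite 1 [← hyx]
        exact commutator_mem_commutator y.2 x.2
      have h4 := sq_eq_one hq ha1 (hRo _ (x⁻¹ * x⁻¹).2) (hab _ (H1.commutator_le_of_le_normalizer
        le_normalizer) (H1.le_normalizer_commutator haz haz (mem_zpowers a))
        (h1.trans ((H2.le_centralizer_of_comm inferInstance).trans
          (centralizer_le (SetLike.coe_subset_coe.2 h1)))) _ h3).symm
      have h5 : x ^ 2 ^ 2 = 1 := by
        rw [← inv_eq_one, ← inv_pow, show 2 ^ 2 = 2 * 2 from rfl, pow_mul, pow_two x⁻¹]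
        exact Subtype.ext h4
      have h6 := orderOf_dvd_of_pow_eq_one h5
      rw [hx, Nat.pow_dvd_pow_iff_le_right (by norm_num)] at h6
      obtain rfl : n = 2 := le_antisymm h6 hn
      exact ⟨x, y, hx, hidx, hy, hy2, hyx⟩
  obtain ⟨e⟩ := H3.nonempty_mulEquiv_quaternion hx hidx hy hy2 hyx
  have c8 : Nat.card R = 8 := by
    rw [Nat.card_congr e.toEquiv, Nat.card_eq_fintype_card]; rfl
  have hx2 : x ^ 2 ≠ 1 := pow_ne_one_of_lt_orderOf (by norm_num) (by rw [hx]; norm_num)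
  have hx2' : (x : SpecialLinearGroup (Fin 2) F) ^ 2 ≠ 1 := fun h => hx2 (Subtype.ext h)
  have hx4 : ((x : SpecialLinearGroup (Fin 2) F) ^ 2) ^ 2 = 1 := by
    rw [← pow_mul, ← hx, ← orderOf_coe, pow_orderOf_eq_one]
  have hp3 : p = 3 := by
    have h1 := H2.card_modEq_card_inf_centralizer ha haz
    have h3 : R ⊓ centralizer (zpowers a : Set (SpecialLinearGroup (Fin 2) F)) =
        zpowers ((x : SpecialLinearGroup (Fin 2) F) ^ 2) := by
      refine le_antisymm (fun u hu => ?_) (zpowers_le.2 ⟨(x ^ 2).2, fun u _ =>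
        SpecialLinearGroup.coeMonoidHom_injective (by
          rw [map_mul, map_mul, eq_neg_one h2 hx4 hx2', mul_neg_one, neg_one_mul])⟩)
      by_cases hu1 : u = 1
      · rw [hu1]; exact one_mem _
      · rw [huniq u _ (sq_eq_one hq ha1 (hRo u hu.1) (hu.2 a (mem_zpowers a)).symm) hu1 hx4 hx2']
        exact mem_zpowers _
    rw [h3, Nat.card_zpowers, orderOf_eq_prime hx4 hx2', c8] at h1
    have h4 : p ∣ 2 * 3 := (Nat.modEq_iff_dvd' (by norm_num)).1 h1.symm
    rcases hpp.dvd_mul.1 h4 with h | h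
    · exact absurd ((Nat.prime_dvd_prime_iff_eq hpp Nat.prime_two).1 h) hp
    · exact (Nat.prime_dvd_prime_iff_eq hpp Nat.prime_three).1 h
  refine ⟨hp3, ⟨e⟩, ?_⟩
  subst hp3
  let σ := H1.conjAut haz ⟨a, mem_zpowers a⟩
  have hσ : ∀ u : R, (σ u : SpecialLinearGroup (Fin 2) F) = a * u * a⁻¹ := fun u => rfl
  have s1 : ∀ u : R, u ^ 2 ≠ 1 → e (σ u) ≠ e u ∧ e (σ u) ≠ (e u)⁻¹ := fun u hu => by
    have : ¬ (a * u * a⁻¹ = u ∨ a * u * a⁻¹ = (u : SpecialLinearGroup (Fin 2) F)⁻¹) := fun h =>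
      hu (Subtype.ext (sq_eq_one hq ha1 (hRo u u.2) (H2.commute_of_conj_eq_or_inv
        (by rw [hao]; norm_num) h).symm))
    rw [← map_inv, e.injective.ne_iff, e.injective.ne_iff]
    exact ⟨fun h => this (Or.inl (congrArg Subtype.val h)),
      fun h => this (Or.inr (congrArg Subtype.val h))⟩
  have s2 : ∀ u : R, u ^ 2 ≠ 1 → σ u ^ 2 ≠ 1 := fun u hu => by
    rwa [← map_pow, ← map_one σ, σ.injective.ne_iff]
  have s3 : ∀ u : R, u ^ 2 ≠ 1 → e u ^ 2 ≠ 1 := fun u hu => by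
    rwa [← map_pow, ← map_one e, e.injective.ne_iff]
  have s4 : σ (σ (σ x)) = x := Subtype.ext (by
    have : a * a * a = 1 := by rw [← pow_three', ← hao, pow_orderOf_eq_one]
    rw [hσ, hσ, hσ]
    calc _ = (a * a * a) * x * (a * a * a)⁻¹ := by simp only [_root_.mul_inv_rev, mul_assoc]
      _ = _ := by rw [this, one_mul, inv_one, mul_one])
  have s5 := s1 _ (s2 _ (s2 _ hx2))
  rw [s4] at s5
  obtain ⟨⟨r1, r2, r3⟩, ⟨r4, r5⟩, r6⟩ := quat_rel (e x) (e (σ x)) (e (σ (σ x))) (s3 _ hx2)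
    (s3 _ (s2 _ hx2)) (s3 _ (s2 _ (s2 _ hx2))) (s1 _ hx2).1 (s1 _ hx2).2 (s1 _ (s2 _ hx2)).1
    (s1 _ (s2 _ hx2)).2 s5.1 s5.2
  have fin : ∀ i : R, i ^ (2 * 2) = 1 → σ i * σ i = i ^ 2 → i * σ i * i = σ i → i ^ 2 ≠ 1 →
      σ (σ i) = i * σ i → Nonempty (↥(R ⊔ zpowers a) ≃* SpecialLinearGroup (Fin 2) (ZMod 3)) := by
    intro i a1 a2 a3 a4 a5
    have b1 := congrArg Subtype.val a1
    have b2 := congrArg Subtype.val a2
    have b3 := congrArg Subtype.val a3
    have b4 : (i : SpecialLinearGroup (Fin 2) F) ^ 2 ≠ 1 := fun h => a4 (Subtype.ext h)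
    have h1 : zpowers (i : SpecialLinearGroup (Fin 2) F) ⊔ zpowers (σ i : SpecialLinearGroup
        (Fin 2) F) = R := by
      refine H1.eq_of_le_of_card_le (sup_le (zpowers_le.2 i.2) (zpowers_le.2 (σ i).2)) ?_
      rw [← H2.range_quatHom b1 b2 b3, ← Nat.card_congr
        (MonoidHom.ofInjective (H2.quatHom_injective b1 b2 b3 b4)).toEquiv]
      exact (Nat.card_congr e.toEquiv).le
    rw [← h1]
    exact H2.nonempty_equiv_SL23 b1 b2 b3 b4 hao rfl (congrArg Subtype.val a5)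
  simp only [← map_inv, ← map_mul, ← map_pow, e.injective.eq_iff, EmbeddingLike.map_eq_one_iff]
    at r1 r2 r3 r4 r5 r6
  rcases r6 with r6 | r6
  · exact fin x r1 (by simpa using r2) r3 hx2 r6
  · exact fin x⁻¹ (by rw [inv_pow, r1, inv_one]) (by simpa using r4) r5
      (by rwa [inv_pow, ne_eq, inv_eq_one]) r6

end Cfsg.Agent.S3740
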