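import Cfsg.Statements.S3746
import Cfsg.Agent.H2.Components

set_option autoImplicit false
open Cfsg

namespace Cfsg.Agent.S3746

open Subgroup

/-- Let Z ≤ Z(G) be a central subgroup of a finite group G and E a subgroup of G containing Z whose image E/Z is a component of G/Z (subnormal and quasisimple). Then the derived subgroup [E, E] is a component of G. -/
theorem result {G : Type*} [Group G] [Finite G] (Z : Subgroup G) (hZ : Z ≤ Subgroup.center G) [Z.Normal] (E : Subgroup G) (hZE : Z ≤ E) (hE : Cfsg.IsComponent (E.map (QuotientGroup.mk' Z))) : Cfsg.IsComponent ⁅E, E⁆ := by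
  have hs := QuotientGroup.mk'_surjective Z
  have hEc : (E.map (QuotientGroup.mk' Z)).comap (QuotientGroup.mk' Z) = E := by
    rw [comap_map_eq, QuotientGroup.ker_mk', sup_eq_left.2 hZE]
  have hEs : E.IsSubnormal := hEc ▸ hE.1.comap _
  have hZc : Z ≤ centralizer (E : Set G) := hZ.trans (center_le_centralizer _)
  have hle : ⁅E, E⁆ ≤ E := le_normalizer_iff_commutator_le_left.1 le_normalizer
  have hmap : ⁅E, E⁆.map (QuotientGroup.mk' Z) = E.map (QuotientGroup.mk' Z) := by
    rw [map_commutator, H2.QS.commutator_eq hE.2]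
  have hsup : ⁅E, E⁆ ⊔ Z = E := by
    have := congrArg (comap (QuotientGroup.mk' Z)) hmap
    rwa [hEc, comap_map_eq, QuotientGroup.ker_mk'] at this
  have hperf : ⁅⁅E, E⁆, ⁅E, E⁆⁆ = ⁅E, E⁆ := by
    refine le_antisymm (commutator_mono hle hle) ?_
    have := H2.commutator_sup_le_of_le_centralizer hZc hle hZE
    rwa [hsup] at this
  refine ⟨(H2.SnIn.of_normal hle (normalizer_commutator_ge_left E E)).isSubnormal hEs,
    H2.isQuasisimple_subgroup_iff.2 ⟨hperf, fun e => H2.QS.ne_bot hE.2 ?_, fun N h1 h2 => ?_⟩⟩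
  · rw [← hmap, e, Subgroup.map_bot]
  obtain e | e := (H2.isQuasisimple_subgroup_iff.1 hE.2).2.2 (N.map (QuotientGroup.mk' Z))
    (map_mono (h1.trans hle)) (hmap ▸ (map_mono h2).trans (le_normalizer_map _))
  · left
    have h3 : N ⊔ Z = E := by
      have := congrArg (comap (QuotientGroup.mk' Z)) e
      rwa [hEc, comap_map_eq, QuotientGroup.ker_mk'] at this
    refine le_antisymm h1 ?_
    have := H2.commutator_sup_le_of_le_centralizer hZc (h1.trans hle) hZE
    rw [h3] at this
    exact this.trans (le_normalizer_iff_commutator_le_left.1 le_normalizer)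
  · right
    have h3 : ⁅N, E⁆ ≤ Z := by
      have := commutator_eq_bot_iff_le_centralizer.2 e
      rwa [← map_commutator, Subgroup.map_eq_bot_iff, QuotientGroup.ker_mk'] at this
    have h4 : ⁅⁅N, E⁆, E⁆ = ⊥ := commutator_eq_bot_iff_le_centralizer.2 (h3.trans hZc)
    rw [le_centralizer_iff, ← commutator_eq_bot_iff_le_centralizer]
    refine commutator_commutator_eq_bot_of_rotate ?_ h4
    rwa [commutator_comm E N]

end Cfsg.Agent.S3746
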