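import Cfsg.Statements.S3747
import Cfsg.Agent.H2.Components

set_option autoImplicit false
open Cfsg

namespace Cfsg.Agent.S3747

/-- Let G be a finite group. (a) If K is a component of G with trivial centre, then the normal closure of K in G is a minimal normal subgroup of G. (b) If the Fitting subgroup of G is trivial, then the layer E(G) is generated by the minimal normal subgroups of G. -/
theorem result {G : Type*} [Group G] [Finite G] : (∀ K : Subgroup G, Cfsg.IsComponent K → Subgroup.center ↥K = ⊥ → (Subgroup.normalClosure (K : Set G) ≠ ⊥ ∧ ∀ N : Subgroup G, N.Normal → N ≤ Subgroup.normalClosure (K : Set G) → N = ⊥ ∨ N = Subgroup.normalClosure (K : Set G))) ∧ (Cfsg.fittingSubgroup G = ⊥ → sSup {N : Subgroup G | N ≠ ⊥ ∧ N.Normal ∧ ∀ N' : Subgroup G, N'.Normal → N' ≤ N → N' = ⊥ ∨ N' = N} = Cfsg.layer G) := by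
  refine ⟨fun K hK hZ => ?_, fun hF => le_antisymm ?_ ?_⟩
  · exact (H2.isMinNormal_normalClosure_of_isComponent hK
      ((H2.center_eq_bot_iff_inf_centralizer K).1 hZ)).2
  · refine sSup_le fun N hN => ?_
    have := H2.IsMinNormal_le_generalizedFittingSubgroup (N := N) ⟨hN.2.1, hN.1, hN.2.2⟩
    unfold generalizedFittingSubgroup at this
    rwa [hF, sup_bot_eq] at this
  · refine sSup_le fun K hK => ?_
    have h1 := (H2.compIn_top_iff.2 hK).inf_centralizer_le_fittingOf
    rw [H2.fittingOf_top, hF, le_bot_iff] at h1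
    have := H2.isMinNormal_normalClosure_of_isComponent hK h1
    exact Subgroup.le_normalClosure.trans (le_sSup ⟨this.2.1, this.1, this.2.2⟩)

end Cfsg.Agent.S3747
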