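import Cfsg.Statements.S3749
import Cfsg.Agent.H2.Primitive

set_option autoImplicit false
open Cfsg

namespace Cfsg.Agent.S3749

open Subgroup
open scoped Pointwise

/-- Call a proper subgroup M of G primitive when M = N_G(N) for every non-trivial normal subgroup N of M. Let M be a primitive subgroup of the finite group G, p a prime with O_p(M) ≠ 1, and N a normal subgroup of G with M ∩ N = 1. Then p does not divide the order of N; for every prime q there is exactly one Sylow q-subgroup of N normalized by M; and if the order of N has at least two prime divisors then M is not a maximal subgroup of G. -/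
theorem result {G : Type*} [Group G] [Finite G] (M : Subgroup G) (hM : M ≠ ⊤) (hprim : ∀ N : Subgroup G, N ≤ M → M ≤ Subgroup.normalizer (N : Set G) → N ≠ ⊥ → Subgroup.normalizer (N : Set G) = M) {p : ℕ} [Fact p.Prime] (hOp : Cfsg.pCore p ↥M ≠ ⊥) (N : Subgroup G) [N.Normal] (hMN : M ⊓ N = ⊥) : ¬ p ∣ Nat.card N ∧ (∀ q : ℕ, [Fact q.Prime] → ∃! Q : Sylow q ↥N, M ≤ Subgroup.normalizer ((Q : Subgroup ↥N).map N.subtype : Set G)) ∧ ((∃ q r : ℕ, q.Prime ∧ r.Prime ∧ q ≠ r ∧ q ∣ Nat.card N ∧ r ∣ Nat.card N) → ¬ IsCoatom M) := by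
  have hP0 : pCoreOf p M ≠ ⊥ := fun e => hOp
    ((map_eq_bot_iff_of_injective _ M.subtype_injective).1 e)
  have hP := H2.isPGroup_pCoreOf p M
  have hN := hprim _ (H2.pCoreOf_le p M) (H2.le_normalizer_pCoreOf p M) hP0
  have hC : N ⊓ centralizer (pCoreOf p M : Set G) = ⊥ := by
    rw [eq_bot_iff, ← hMN, inf_comm]
    exact inf_le_inf_right N ((centralizer_le_normalizer _).trans hN.le)
  have ha : ¬ p ∣ Nat.card N := fun hd => by
    obtain ⟨Q, h1, h2, -⟩ := H2.inf_centralizer_ne_bot_of_isPGroup hP le_normalizer_of_normal hd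
    exact h2 (eq_bot_iff.2 (hC ▸ h1))
  have hcop : (Nat.card (pCoreOf p M)).Coprime (Nat.card N) := by
    obtain ⟨k, hk⟩ := IsPGroup.iff_card.1 hP
    rw [hk]
    exact Nat.Coprime.pow_left k ((Nat.Prime.coprime_iff_not_dvd Fact.out).2 ha)
  have hsol : Group.IsSolvable (pCoreOf p M) ∨ Group.IsSolvable N :=
    Or.inl (H1.isSolvable_of_isPGroup hP)
  have hb : ∀ q : ℕ, [Fact q.Prime] → ∃ Q : Subgroup G, Q ≤ N ∧ IsPGroup q Q ∧ ¬ q ∣ Q.relIndex N ∧
      M ≤ normalizer (Q : Set G) ∧ ∀ R : Subgroup G, R ≤ N → IsPGroup q R → ¬ q ∣ R.relIndex N →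
        pCoreOf p M ≤ normalizer (R : Set G) → R = Q := by
    intro q _
    obtain ⟨Q, h1, h2, h3, h4⟩ := H1.exists_invariant_sylow le_normalizer_of_normal hcop hsol q
    have hu : ∀ R : Subgroup G, R ≤ N → IsPGroup q R → ¬ q ∣ R.relIndex N →
        pCoreOf p M ≤ normalizer (R : Set G) → R = Q := by
      intro R k1 k2 k3 k4
      obtain ⟨c, hc, e⟩ := H1.invariant_sylow_conj le_normalizer_of_normal hcop hsol h1 h2 h3 h4
        k1 k2 k3 k4
      rw [hC, mem_bot] at hc
      rwa [hc, H1.map_conj_one] at e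
    refine ⟨Q, h1, h2, h3, fun m hm => ?_, hu⟩
    rw [H2.mem_normalizer_iff_conj_smul]
    refine hu _ ((H2.conj_smul_mono m h1).trans (Normal.conj_smul_eq_self m N).le) (h2.map _) ?_ ?_
    · have := H1.relIndex_map_conj Q N m
      rw [H2.map_conj_eq_smul, H2.map_conj_eq_smul, Normal.conj_smul_eq_self m N] at this
      rwa [this]
    · rw [H2.normalizer_conj_smul,
        ← H2.mem_normalizer_iff_conj_smul.1 (H2.le_normalizer_pCoreOf p M hm)]
      exact H2.conj_smul_mono m h4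
  refine ⟨ha, fun q _ => ?_, ?_⟩
  · obtain ⟨Q, h1, h2, h3, h4, h5⟩ := hb q
    obtain ⟨S, hS⟩ := H2.exists_sylow_map_subtype_eq h1 h2 h3
    refine ⟨S, by simpa only [hS] using h4, fun T hT => ?_⟩
    obtain ⟨k1, k2, k3⟩ := H2.sylow_map_subtype T
    have := h5 _ k1 k2 k3 ((H2.pCoreOf_le p M).trans hT)
    exact Sylow.ext (map_injective N.subtype_injective (this.trans hS.symm))
  · rintro ⟨q, r, hq, hr, hqr, h1, h2⟩ hco
    have := Fact.mk hq
    obtain ⟨Q, k1, k2, k3, k4, -⟩ := hb q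
    have hQ : ¬ Q ≤ M := fun e => by
      have : Q = ⊥ := eq_bot_iff.2 (hMN ▸ le_inf e k1)
      rw [this, relIndex_bot_left] at k3
      exact k3 h1
    have h3 : M ⊔ Q = ⊤ := hco.2 _ (lt_of_le_of_ne le_sup_left fun e => hQ (e ▸ le_sup_right))
    have h4 := H1.dedekind_right k4 k1
    rw [h3, inf_top_eq, inf_comm, hMN, bot_sup_eq] at h4
    obtain ⟨k, hk⟩ := IsPGroup.iff_card.1 k2
    rw [h4, hk] at h2
    exact hqr ((Nat.prime_dvd_prime_iff_eq hr hq).1 (hr.dvd_of_dvd_pow h2)).symm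

end Cfsg.Agent.S3749
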