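import Cfsg.Statements.S3750
import Cfsg.Agent.H2.Primitive

set_option autoImplicit false
open Cfsg

namespace Cfsg.Agent.S3750

open Subgroup

/-- Call a proper subgroup M of G primitive when M = N_G(N) for every non-trivial normal subgroup N of M. Let M be a primitive subgroup of the finite group G and N a normal subgroup of G with M ∩ F*(N) ≠ 1. Then F(G) = 1 and F*(N) = F*(G) = E(G); in particular every minimal normal subgroup of G is contained in N. -/
theorem result {G : Type*} [Group G] [Finite G] (M : Subgroup G) (hM : M ≠ ⊤) (hprim : ∀ N : Subgroup G, N ≤ M → M ≤ Subgroup.normalizer (N : Set G) → N ≠ ⊥ → Subgroup.normalizer (N : Set G) = M) (N : Subgroup G) [N.Normal] (hMF : M ⊓ (Cfsg.generalizedFittingSubgroup ↥N).map N.subtype ≠ ⊥) : Cfsg.fittingSubgroup G = ⊥ ∧ (Cfsg.generalizedFittingSubgroup ↥N).map N.subtype = Cfsg.generalizedFittingSubgroup G ∧ Cfsg.generalizedFittingSubgroup G = Cfsg.layer G ∧ ∀ K : Subgroup G, K.Normal → K ≠ ⊥ → (∀ K' : Subgroup G, K'.Normal → K' ≤ K → K' = ⊥ ∨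 K' = K) → K ≤ N := by
  change M ⊓ H2.fstarOf N ≠ ⊥ at hMF
  change _ ∧ H2.fstarOf N = _ ∧ _
  have hn : (H2.fstarOf N).Normal := H2.normal_of_top_le_normalizer
    (le_normalizer_of_normal.trans (H2.normalizer_le_normalizer_fstarOf N))
  have hC := H2.centralizer_eq_bot_of_primitive hM hprim _ hMF
  have hsn : H2.SnIn ⊤ N := H2.SnIn.of_normal le_top le_normalizer_of_normal
  have hle : H2.fstarOf N ≤ generalizedFittingSubgroup G := H2.fstarOf_top (G := G) ▸ hsn.fstarOf_le
  have hF : fittingSubgroup G = ⊥ := by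
    by_contra hne
    refine L.inf_centralizer_ne_bot_of_isNilpotent (K := fittingSubgroup G) le_rfl le_normalizer
      hne (eq_bot_iff.2 ?_)
    rw [← hC]
    refine le_trans ?_ (H2.centralizer_anti hle)
    rw [le_centralizer_iff]
    refine sup_le (H2.layer_le_centralizer_fittingSubgroup.trans
      (H2.centralizer_anti inf_le_left)) ?_
    rw [le_centralizer_iff]
    exact inf_le_right
  have hE : generalizedFittingSubgroup G = layer G := by
    unfold generalizedFittingSubgroup
    rw [hF, sup_bot_eq]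
  refine ⟨hF, le_antisymm hle ?_, hE, fun K hK hK0 hmin => ?_⟩
  · rw [hE]
    refine sSup_le fun K hK => ?_
    refine ((H2.compIn_top_iff.2 hK).le_or_le_centralizer
      (H2.snIn_top_iff.2 hn.isSubnormal)).resolve_right fun e => ?_
    exact H2.QS.ne_bot hK.2 (eq_bot_iff.2 (hC ▸ e))
  · have hK' : L.IsMinNormal K := ⟨hK, hK0, hmin⟩
    refine ((hK'.inf_eq_bot_or_le (H2.fstarOf N)).resolve_left fun e => hK0 ?_).trans
      (H2.fstarOf_le N)
    exact eq_bot_iff.2 (hC ▸ L.le_centralizer_of_normal_of_inf_eq_bot e)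

end Cfsg.Agent.S3750
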