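import Cfsg.Statements.S3751
import Cfsg.Agent.H2.Primitive

set_option autoImplicit false
open Cfsg

namespace Cfsg.Agent.S3751

open Subgroup
open scoped Pointwise

variable {G : Type*} [Group G] [Finite G] {p : ℕ} [Fact p.Prime]

/-- maximal `p`-local subgroups -/
def MaxLoc (p : ℕ) (M : Subgroup G) : Prop :=
  (∃ T : Subgroup G, IsPGroup p T ∧ T ≠ ⊥ ∧ M = normalizer (T : Set G)) ∧
    ∀ L : Subgroup G, (∃ T : Subgroup G, IsPGroup p T ∧ T ≠ ⊥ ∧ L = normalizer (T : Set G)) →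
      M ≤ L → L = M

omit [Fact p.Prime] in
theorem exists_maxLoc {T : Subgroup G} (hT : IsPGroup p T) (h0 : T ≠ ⊥) :
    ∃ M, MaxLoc p M ∧ normalizer (T : Set G) ≤ M := by
  obtain ⟨M, hM, hmax⟩ := (wellFounded_gt (α := Subgroup G)).has_min
    {M | (∃ T : Subgroup G, IsPGroup p T ∧ T ≠ ⊥ ∧ M = normalizer (T : Set G)) ∧
      normalizer (T : Set G) ≤ M} ⟨_, ⟨T, hT, h0, rfl⟩, le_rfl⟩
  refine ⟨M, ⟨hM.1, fun L hL hML => ?_⟩, hM.2⟩
  by_contra hne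
  exact hmax L ⟨hL, hM.2.trans hML⟩ (lt_of_le_of_ne hML (Ne.symm hne))

omit [Finite G] [Fact p.Prime] in
theorem MaxLoc.conj {M : Subgroup G} (h : MaxLoc p M) (g : G) :
    MaxLoc p (MulAut.conj g • M) := by
  obtain ⟨⟨T, h1, h2, rfl⟩, h4⟩ := h
  refine ⟨⟨MulAut.conj g • T, h1.map _, fun e => h2 ?_, (H2.normalizer_conj_smul T g).symm⟩, ?_⟩
  · rw [← H2.conj_smul_inj (g := g), e, smul_bot]
  · rintro _ ⟨U, k1, k2, rfl⟩ hle
    have := h4 (MulAut.conj g⁻¹ • normalizer (U : Set G)) ⟨MulAut.conj g⁻¹ • U, k1.map _,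
      fun e => k2 (by rw [← H2.conj_smul_inj (g := g⁻¹), e, smul_bot]),
      (H2.normalizer_conj_smul U g⁻¹).symm⟩ (H2.conj_smul_le_iff.1 hle)
    rw [← this, H2.conj_smul_cancel_inv]

omit [Fact p.Prime] in
theorem MaxLoc.pCoreOf_ne_bot {M : Subgroup G} (h : MaxLoc p M) : pCoreOf p M ≠ ⊥ := by
  obtain ⟨⟨T, h1, h2, rfl⟩, -⟩ := h
  exact fun e => h2 (eq_bot_iff.2 (e ▸ (H2.SnIn.of_normal le_normalizer le_rfl).le_pCoreOf h1))

omit [Fact p.Prime] in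
theorem MaxLoc.normalizer_le {M : Subgroup G} (h : MaxLoc p M) : normalizer (M : Set G) ≤ M :=
  (H2.normalizer_le_normalizer_pCoreOf p M).trans
    (h.2 _ ⟨_, H2.isPGroup_pCoreOf p M, h.pCoreOf_ne_bot, rfl⟩ (H2.le_normalizer_pCoreOf p M)).le

omit [Finite G] [Fact p.Prime] in
theorem MaxLoc.charP (hloc : IsOfLocalCharacteristic p G) {M : Subgroup G} (h : MaxLoc p M) :
    centralizer (pCore p M : Set M) ≤ pCore p M := by
  obtain ⟨⟨T, h1, h2, rfl⟩, -⟩ := h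
  exact hloc.2 T h1 h2

omit [Fact p.Prime] in
theorem MaxLoc.normalizer_eq (hloc : IsOfLocalCharacteristic p G) {M A : Subgroup G}
    (h : MaxLoc p M) (hA : A ≠ ⊥) (hAM : A ≤ M) (hn : M ≤ normalizer (A : Set G)) :
    normalizer (A : Set G) = M := by
  have h1 := H2.pCoreOf_ne_bot_of_charP (H2.centralizer_map_subtype_le_iff.1 (h.charP hloc))
    hAM hn hA
  exact le_antisymm ((H2.normalizer_le_normalizer_pCoreOf p A).trans (h.2 _
    ⟨_, H2.isPGroup_pCoreOf p A, h1, rfl⟩ (hn.trans (H2.normalizer_le_normalizer_pCoreOf p A))).le)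
    hn

theorem pCoreOf_le_of_max {M T : Subgroup G} (hT : IsPGroup p T) (hTM : T ≤ M)
    (h : ∀ R : Subgroup G, IsPGroup p R → T ≤ R → R ≤ M ⊓ normalizer (T : Set G) → R = T) :
    pCoreOf p M ≤ T := by
  have h1 : IsPGroup p (T ⊔ pCoreOf p M : Subgroup G) :=
    IsPGroup.to_sup_of_normal_right' hT (H2.isPGroup_pCoreOf p M)
      (hTM.trans (H2.le_normalizer_pCoreOf p M))
  by_contra hn
  have h2 : T < T ⊔ pCoreOf p M := lt_of_le_of_ne le_sup_left fun e => hn (e ▸ le_sup_right)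
  have := h1.isNilpotent
  have h3 := (H2.snIn_of_isNilpotent h2.le).lt_normalizer h2.ne
  exact h3.ne' (h _ h1.to_inf_right h3.le (le_inf (inf_le_right.trans
    (sup_le hTM (H2.pCoreOf_le p M))) inf_le_left))

theorem exists_pair {M₁ M₂ : Subgroup G} (h₁ : MaxLoc p M₁) (h₂ : MaxLoc p M₂) (hne : M₁ ≠ M₂)
    (hd : p ∣ Nat.card (M₁ ⊓ M₂ : Subgroup G)) :
    ∃ L₁ L₂ : Subgroup G, MaxLoc p L₁ ∧ MaxLoc p L₂ ∧ L₁ ≠ L₂ ∧
      pCoreOf p L₁ ⊔ pCoreOf p L₂ ≤ L₁ ⊓ L₂ := by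
  obtain ⟨T0, k1, k2, k3⟩ := H1.exists_sylow_le p (M₁ ⊓ M₂)
  have k0 : T0 ≠ ⊥ := fun e => k3 (by rwa [e, relIndex_bot_left])
  obtain ⟨T, ⟨hT, hT0, L₁, L₂, hL₁, hL₂, hL, hTL⟩, hmax⟩ :=
    (wellFounded_gt (α := Subgroup G)).has_min {T | IsPGroup p T ∧ T ≠ ⊥ ∧ ∃ L₁ L₂ : Subgroup G,
      MaxLoc p L₁ ∧ MaxLoc p L₂ ∧ L₁ ≠ L₂ ∧ T ≤ L₁ ⊓ L₂} ⟨T0, k2, k0, M₁, M₂, h₁, h₂, hne, k1⟩
  have key : ∀ (R A B : Subgroup G), IsPGroup p R → T ≤ R → MaxLoc p A → MaxLoc p B → A ≠ B →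
      R ≤ A ⊓ B → R = T := by
    intro R A B a1 a2 a3 a4 a5 a6
    by_contra hne
    exact hmax R ⟨a1, fun e => hT0 (eq_bot_iff.2 (e ▸ a2)), A, B, a3, a4, a5, a6⟩
      (lt_of_le_of_ne a2 (Ne.symm hne))
  have case1 : ∀ L : Subgroup G, MaxLoc p L → T ≤ L → ¬ normalizer (T : Set G) ≤ L →
      ∃ L₁ L₂ : Subgroup G, MaxLoc p L₁ ∧ MaxLoc p L₂ ∧ L₁ ≠ L₂ ∧
        pCoreOf p L₁ ⊔ pCoreOf p L₂ ≤ L₁ ⊓ L₂ := by
    intro L hL hTL hn
    obtain ⟨U, hU, hTU⟩ := exists_maxLoc hT hT0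
    have h1 : pCoreOf p L ≤ T := pCoreOf_le_of_max hT hTL fun R a1 a2 a3 =>
      key R L U a1 a2 hL hU (fun e => hn (e ▸ hTU)) (a3.trans (inf_le_inf_left _ hTU))
    obtain ⟨x, hx, hxL⟩ := SetLike.not_le_iff_exists.1 hn
    have e := H2.mem_normalizer_iff_conj_smul.1 hx
    refine ⟨L, MulAut.conj x • L, hL, hL.conj x, fun e => hxL (hL.normalizer_le
      (H2.mem_normalizer_iff_conj_smul.2 e.symm)), le_trans (sup_le h1 ?_) (le_inf hTL ?_)⟩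
    · rw [← H2.conj_smul_pCoreOf, ← e]
      exact H2.conj_smul_mono x h1
    · rw [← e]
      exact H2.conj_smul_mono x hTL
  by_cases c1 : normalizer (T : Set G) ≤ L₁
  · by_cases c2 : normalizer (T : Set G) ≤ L₂
    · refine ⟨L₁, L₂, hL₁, hL₂, hL, le_trans (sup_le ?_ ?_) hTL⟩
      · exact pCoreOf_le_of_max hT (hTL.trans inf_le_left) fun R a1 a2 a3 =>
          key R L₁ L₂ a1 a2 hL₁ hL₂ hL ((a3.trans inf_le_right).trans (le_inf c1 c2))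
      · exact pCoreOf_le_of_max hT (hTL.trans inf_le_right) fun R a1 a2 a3 =>
          key R L₁ L₂ a1 a2 hL₁ hL₂ hL ((a3.trans inf_le_right).trans (le_inf c1 c2))
    · exact case1 L₂ hL₂ (hTL.trans inf_le_right) c2
  · exact case1 L₁ hL₁ (hTL.trans inf_le_left) c1

/-- Two distinct subgroups M₁, M₂ of G form a primitive pair when, for {i, j} = {1, 2}, every non-trivial normal subgroup A of M_i contained in M₁ ∩ M₂ satisfies N_{M_j}(A) = M₁ ∩ M₂; the pair has characteristic p when moreover C_{M_i}(O_p(M_i)) ≤ O_p(M_i) for both i and O_p(M₁)O_p(M₂) ≤ M₁ ∩ M₂. Let G be a finite group, p a prime dividing its order, with O_p(G) = 1 and every p-local subgroup of characteristic p. Then either G has a primitive pair of characteristic p, or every maximal p-local subgroup M of G is strongly p-embedded in G: M is a proper subgroup, p divides its order, and for every g ∉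 M the order of M ∩ gMg⁻¹ is prime to p. -/
theorem result {G : Type*} [Group G] [Finite G] {p : ℕ} [Fact p.Prime] (hloc : Cfsg.IsOfLocalCharacteristic p G) (hOp : Cfsg.pCore p G = ⊥) : (∃ M₁ M₂ : Subgroup G, M₁ ≠ M₂ ∧ (∀ A : Subgroup G, A ≠ ⊥ → A ≤ M₁ ⊓ M₂ → (M₁ ≤ Subgroup.normalizer (A : Set G) → M₂ ⊓ Subgroup.normalizer (A : Set G) = M₁ ⊓ M₂) ∧ (M₂ ≤ Subgroup.normalizer (A : Set G) → M₁ ⊓ Subgroup.normalizer (A : Set G) = M₁ ⊓ M₂)) ∧ Subgroup.centralizer (Cfsg.pCore p ↥M₁ : Set ↥M₁) ≤ Cfsg.pCore p ↥M₁ ∧ Subgroup.centralizer (Cfsg.pCore p ↥M₂ : Set ↥M₂) ≤ Cfsg.pCore p ↥M₂ ∧ (Cfsg.pCore p ↥M₁).map M₁.subtype ⊔ (Cfsg.pCore p ↥M₂).map M₂.subtype ≤ M₁ ⊓ M₂) ∨ (∀ M : Subgroup G, (∃ T : Subgroup G, IsPGroup p T ∧ T ≠ ⊥ ∧ M = Subgroup.normalizer (T : Set G)) → (∀ L : Subgroup G, (∃ T : Subgroup G, IsPGroup p T ∧ T ≠ ⊥ ∧ L = Subgroup.normalizer (T : Set G)) → M ≤ L →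 L = M) → M ≠ ⊤ ∧ p ∣ Nat.card M ∧ ∀ g : G, g ∉ M → ¬ p ∣ Nat.card ↥(M ⊓ M.map (MulAut.conj g).toMonoidHom)) := by
  rw [or_iff_not_imp_left]
  intro hno M hM1 hM2
  have hM : MaxLoc p M := ⟨hM1, hM2⟩
  refine ⟨fun e => hM.pCoreOf_ne_bot ?_, ?_, fun g hg hd => hno ?_⟩
  · rw [e, H2.pCoreOf_top, hOp]
  · obtain ⟨k, hk⟩ := IsPGroup.iff_card.1 (H2.isPGroup_pCoreOf p M)
    refine dvd_trans ?_ (card_dvd_of_le (H2.pCoreOf_le p M))
    rw [hk]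
    refine dvd_pow_self p fun e => hM.pCoreOf_ne_bot ?_
    rwa [e, pow_zero, card_eq_one] at hk
  · obtain ⟨L₁, L₂, h1, h2, h3, h4⟩ := exists_pair hM (hM.conj g) (fun e => hg (hM.normalizer_le
      (H2.mem_normalizer_iff_conj_smul.2 e.symm))) hd
    refine ⟨L₁, L₂, h3, fun A hA hA2 => ⟨fun h => ?_, fun h => ?_⟩, h1.charP hloc, h2.charP hloc, h4⟩
    · rw [h1.normalizer_eq hloc hA (hA2.trans inf_le_left) h, inf_comm]
    · rw [h2.normalizer_eq hloc hA (hA2.trans inf_le_right) h]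

end Cfsg.Agent.S3751
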