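import Cfsg.Statements.S3754
import Cfsg.Agent.H2.TwoConj

set_option autoImplicit false
open Cfsg

namespace Cfsg.Agent.S3754

open Subgroup
open scoped Pointwise

/-- Let M be a finite p-soluble group and A a p-subgroup of M with Φ(A) ≤ O_p(M) but A ≰ O_p(M). Then there is x ∈ O_{p,p'}(M) such that L = ⟨A, xAx⁻¹⟩ satisfies: x ∈ O^p(L) and O^p(L) ≤ O_{p,p'}(M); [O^p(L), A] = O^p(L); A ∩ O_p(L) has index p in A; and [A ∩ O_p(L), L] ≤ O_p(M). Here O^p(L) is the subgroup generated by the p'-elements of L and O_{p,p'}(M) the preimage of O_{p'}(M/O_p(M)). -/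
theorem result {M : Type*} [Group M] [Finite M] {p : ℕ} [Fact p.Prime] (hM : Cfsg.IsPSolvable p M) (A : Subgroup M) (hA : IsPGroup p A) (hΦ : (frattini ↥A).map A.subtype ≤ Cfsg.pCore p M) (hnot : ¬ A ≤ Cfsg.pCore p M) : ∃ x ∈ (Cfsg.pPrimeCore p (M ⧸ Cfsg.pCore p M)).comap (QuotientGroup.mk' (Cfsg.pCore p M)), x ∈ (Cfsg.pResidual p ↥(A ⊔ A.map (MulAut.conj x).toMonoidHom)).map (A ⊔ A.map (MulAut.conj x).toMonoidHom).subtype ∧ (Cfsg.pResidual p ↥(A ⊔ A.map (MulAut.conj x).toMonoidHom)).map (A ⊔ A.map (MulAut.conj x).toMonoidHom).subtype ≤ (Cfsg.pPrimeCore p (M ⧸ Cfsg.pCore p M)).comap (QuotientGroup.mk' (Cfsg.pCore p M)) ∧ ⁅(Cfsg.pResidual p ↥(A ⊔ A.map (MulAut.conj x).toMonoidHom)).map (A ⊔ A.map (MulAut.conj x).toMonoidHom).subtype, A⁆ = (Cfsg.pResidual p ↥(A ⊔ A.map (MulAut.conj x).toMonoidHom)).map (A ⊔ A.map (MulAut.conj x).toMonoidHom).subtype ∧ (A ⊓ (Cfsg.pCore p ↥(A ⊔ A.map (MulAut.conj x).toMonoidHom)).map (A ⊔ A.map (MulAut.conj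 x).toMonoidHom).subtype).relIndex A = p ∧ ⁅A ⊓ (Cfsg.pCore p ↥(A ⊔ A.map (MulAut.conj x).toMonoidHom)).map (A ⊔ A.map (MulAut.conj x).toMonoidHom).subtype, A ⊔ A.map (MulAut.conj x).toMonoidHom⁆ ≤ Cfsg.pCore p M := by
  have hp : p.Prime := Fact.out
  have hAe : IsElementaryAbelian p (A.map (QuotientGroup.mk' (pCore p M))) := by
    refine ⟨⟨⟨?_⟩⟩, ?_⟩
    · rintro ⟨_, a, ha, rfl⟩ ⟨_, b, hb, rfl⟩
      apply Subtype.ext
      change QuotientGroup.mk' _ a * QuotientGroup.mk' _ b =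
        QuotientGroup.mk' _ b * QuotientGroup.mk' _ a
      rw [← commutatorElement_eq_one_iff_mul_comm, ← map_commutatorElement, ← MonoidHom.mem_ker,
        QuotientGroup.ker_mk']
      exact hΦ (H1.commutator_le_frattiniOf hA.isNilpotent (commutator_mem_commutator ha hb))
    · rintro _ ⟨a, ha, rfl⟩
      rw [← map_pow, ← MonoidHom.mem_ker, QuotientGroup.ker_mk']
      exact hΦ (H1.pow_mem_frattiniOf hA ha)
  have hN := L.coprime_card_pPrimeCore (G := M ⧸ pCore p M) p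
  obtain ⟨x, B, hBA, k1, k2, k3, k4, k5, k6⟩ := H2.exists_two_conj
    (QuotientGroup.mk' (pCore p M)) (QuotientGroup.mk'_surjective _) hN hAe (by
      intro h
      have h3 := H1.inf_eq_bot_of_coprime' (H1.coprime_card_of_isPGroup (hA.map (QuotientGroup.mk' (pCore p M))) hN).symm
      rw [inf_eq_left.2 (h.trans (L.centralizer_pPrimeCore_le hp (L.IsPSolvable.quotient hp hM _)
        (L.pCore_quotient_pCore hp))), Subgroup.map_eq_bot_iff, QuotientGroup.ker_mk'] at h3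
      exact hnot h3)
  rw [QuotientGroup.ker_mk'] at k5 k6
  rw [map_le_iff_le_comap] at k2
  have hB : B ≤ A ⊓ pCoreOf p (A ⊔ MulAut.conj x • A) := by
    refine le_inf hBA ?_
    have h1 : A ⊔ MulAut.conj x • A ≤ normalizer ((B ⊔ pCore p M : Subgroup M) : Set M) :=
      H2.le_normalizer_sup_of_commutator_le (le_top.trans (normalizer_eq_top _).ge)
        (k6.trans le_sup_right)
    refine le_trans (le_inf (hBA.trans le_sup_left) le_sup_left)
      ((H2.SnIn.of_normal inf_le_left (H1.le_normalizer_inf le_normalizer h1)).le_pCoreOf ?_)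
    exact (IsPGroup.to_sup_of_normal_right (hA.to_le hBA) (L.isPGroup_pCore p)).to_inf_right
  have hA2 : ¬ A ≤ pCoreOf p (A ⊔ MulAut.conj x • A) := by
    intro h
    have h1 : A ⊔ MulAut.conj x • A ≤ pCoreOf p (A ⊔ MulAut.conj x • A) := by
      refine sup_le h ?_
      rw [← H2.mem_normalizer_iff_conj_smul.1
        (H2.le_normalizer_pCoreOf p _ (H8.pResidualOf_le p _ k1))]
      exact H2.conj_smul_mono x h
    rw [H2.pResidualOf_eq_bot_of_isPGroup ((H2.isPGroup_pCoreOf p _).to_le h1), mem_bot] at k1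
    exact k3 (by rw [k1, map_one])
  have hEq : A ⊓ pCoreOf p (A ⊔ MulAut.conj x • A) = B := by
    have h1 := relIndex_mul_relIndex _ _ _ hB (inf_le_left (b := pCoreOf p (A ⊔ MulAut.conj x • A)))
    rw [k4] at h1
    rcases (Nat.dvd_prime hp).1 (Dvd.intro _ h1) with h | h
    · exact le_antisymm (relIndex_eq_one.1 h) hB
    · rw [h] at h1
      have h2 := Nat.eq_of_mul_eq_mul_left hp.pos (h1.trans (mul_one p).symm)
      exact absurd ((relIndex_eq_one.1 h2).trans inf_le_right) hA2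
  refine ⟨x, k2 k1, k1, k2, H2.commutator_pResidualOf_eq hA k1, ?_, ?_⟩
  · exact (congrArg (fun K : Subgroup M => K.relIndex A) hEq).trans k4
  · exact (congrArg (fun K : Subgroup M => ⁅K, A ⊔ MulAut.conj x • A⁆) hEq).le.trans k6

end Cfsg.Agent.S3754
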