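import Cfsg.Statements.S3755
import Cfsg.Agent.H2.S3Free

set_option autoImplicit false
open Cfsg

namespace Cfsg.Agent.S3755

open Subgroup

/-- Let M and V be subgroups of a finite group with V an elementary abelian 2-group, M normalizing V and acting faithfully on it (M ∩ C(V) = 1), and C_M(O_{2'}(M)) ≤ O_{2'}(M). If some elementary abelian 2-subgroup A of M satisfies |V : C_V(A)| < |A|², then M has a section isomorphic to the symmetric group of degree 3. -/
theorem result {X : Type*} [Group X] [Finite X] (M V : Subgroup X) (hV : Cfsg.IsElementaryAbelian 2 V) (hMV : M ≤ Subgroup.normalizer (V : Set X)) (hfaith : M ⊓ Subgroup.centralizer (V : Set X) = ⊥) (hcon : Subgroup.centralizer (Cfsg.pPrimeCore 2 ↥M : Set ↥M) ≤ Cfsg.pPrimeCore 2 ↥M) (A : Subgroup X) (hAM : A ≤ M) (hA : Cfsg.IsElementaryAbelian 2 A) (hsmall : (V ⊓ Subgroup.centralizer (A : Set X)).relIndex V < Nat.card A ^ 2) : Cfsg.Involves (Equiv.Perm (Fin 3)) ↥M := by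
  by_contra hno
  have h := (H2.noS3_of_not_involves hno).relIndex_sq_le hV hMV (MonoidHom.id M)
    Function.surjective_id (fun m => ⟨fun e => by rw [show m = 1 from e]; exact one_mem _,
      fun e => Subtype.ext (mem_bot.1 (hfaith ▸ (mem_inf.2 ⟨m.2, e⟩ : (m : X) ∈ M ⊓ _)))⟩)
    (L.coprime_card_pPrimeCore 2) hcon A hAM (H2.isPGroup_of_elemAb hA)
    ((commutator_eq_bot_iff_le_centralizer.2 (H2.le_centralizer_of_comm hA.1)).le.trans bot_le)
    (fun a ha => by rw [hA.2 a ha]; exact one_mem _)
  rw [← inf_relIndex_left A, eq_bot_iff.2 ((inf_le_inf_right _ hAM).trans hfaith.le),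
    relIndex_bot_left] at h
  rw [inf_relIndex_left] at hsmall
  omega

end Cfsg.Agent.S3755
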