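import Cfsg.Statements.S3756
import Cfsg.Agent.H2.PushUp
import Cfsg.Agent.S3751

set_option autoImplicit false
open Cfsg

namespace Cfsg.Agent.S3756

open Subgroup

/-- Let G be a finite group of even order with O₂(G) = 1 such that every 2-local subgroup of G is solvable, of characteristic 2, and has no section isomorphic to the symmetric group of degree 4. Then every maximal 2-local subgroup of G is strongly embedded in G. -/
theorem result {G : Type*} [Group G] [Finite G] (heven : Even (Nat.card G)) (hO : Cfsg.pCore 2 G = ⊥) (hloc : ∀ M : Subgroup G, Cfsg.IsTwoLocal M → Group.IsSolvable M ∧ Cfsg.IsOfCharacteristicTwo ↥M ∧ ¬ Cfsg.Involves (Equiv.Perm (Fin 4)) ↥M) (M : Subgroup G) (hM : Cfsg.IsMaximalTwoLocal M) : Cfsg.IsStronglyEmbedded M := by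
  have hloc' : IsOfLocalCharacteristic 2 G :=
    ⟨heven.two_dvd, fun T h1 h2 => (hloc _ ⟨T, h1, h2, rfl⟩).2.1⟩
  have hM' : S3751.MaxLoc 2 M := hM
  refine ⟨fun e => hM'.pCoreOf_ne_bot ?_, ?_, fun g hg => ?_⟩
  · rw [e, H2.pCoreOf_top, hO]
  · obtain ⟨k, hk⟩ := IsPGroup.iff_card.1 (H2.isPGroup_pCoreOf 2 M)
    refine even_iff_two_dvd.2 (dvd_trans ?_ (card_dvd_of_le (H2.pCoreOf_le 2 M)))
    rw [hk]
    refine dvd_pow_self 2 fun e => hM'.pCoreOf_ne_bot ?_
    rwa [e, pow_zero, card_eq_one] at hk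
  · rw [← Nat.not_even_iff_odd, even_iff_two_dvd]
    intro hd
    obtain ⟨L₁, L₂, h1, h2, h3, h4⟩ := S3751.exists_pair hM' (hM'.conj g)
      (fun e => hg (hM'.normalizer_le (H2.mem_normalizer_iff_conj_smul.2 e.symm))) hd
    obtain ⟨a1, a2, a3⟩ := hloc L₁ h1.1
    obtain ⟨b1, b2, b3⟩ := hloc L₂ h2.1
    have a2' := H2.centralizer_map_subtype_le_iff.1 a2
    have b2' := H2.centralizer_map_subtype_le_iff.1 b2
    exact H2.false_of_primitive_pair_noS3 h3
      (fun A k1 k2 k3 => inf_le_right.trans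
        (h1.normalizer_eq hloc' k1 (k2.trans inf_le_left) k3).le)
      (fun A k1 k2 k3 => inf_le_right.trans
        (h2.normalizer_eq hloc' k1 (k2.trans inf_le_right) k3).le) a2' b2'
      (le_sup_left.trans (h4.trans inf_le_right)) (le_sup_right.trans (h4.trans inf_le_left))
      (H2.noS3_of_not_involves_four a2' a3) (H2.noS3_of_not_involves_four b2' b3)
      (L.isPSolvable_of_isSolvable Nat.prime_two) (L.isPSolvable_of_isSolvable Nat.prime_two)

end Cfsg.Agent.S3756
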