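import Cfsg.Statements.S3759
import Cfsg.Agent.H2.ZC2

set_option autoImplicit false
open Cfsg

namespace Cfsg.Agent.S3759


open Subgroup Cfsg.Agent.FT Cfsg.Agent.H2 Cfsg.Agent.H2.ZC

universe u

theorem aux {G : Type u} [Group G] [Finite G] (heven : Even (Nat.card G)) (hC : CSolv G)
    (hO' : pPrimeCore 2 G = ⊥) (hO : pCore 2 G = ⊥) {S Z H : Subgroup G} (hS : IsSyl 2 S ⊤)
    (hZd : Z = omegaOne 2 𝐙(S)) (hH : H = pResidual 2 G) (hZ : 𝐂(Z) ≤ 𝐍(S)) :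
    (∃ M : Subgroup (pResidual 2 G), IsStronglyEmbedded M) ∨
    (𝐨(Z ⊓ H) = 2 ∧ ∀ h ∈ H, ∀ z ∈ Z ⊓ H, h * z * h⁻¹ ∈ S → h * z * h⁻¹ ∈ Z) ∨
    (𝐨(Z) = 4 ∧ omegaOne 2 (S ⊓ H) = Z) ∨ IsCharacteristicTwoType ↥(H ⊔ Z) := by
  have hHn : H.Normal := hH ▸ inferInstance
  have hSH : S ⊔ H = ⊤ := hH ▸ H8.sup_pResidual_eq_top (p := 2) (H := S)
    (by rw [← relIndex_top_right]; exact hS.ndvd)
  have hZe : IsElementaryAbelian 2 Z := hZd ▸ elemAb_omegaOne (isMulComm_center S)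
  have hZS : Z ≤ 𝐙(S) := hZd ▸ omegaOne_le 2 _
  have memZ : ∀ {u : G}, u ∈ 𝐙(S) → u ^ 2 = 1 → u ∈ Z := fun a b => hZd ▸ mem_omegaOne a b
  have hR : S ⊓ H ≠ ⊥ := by
    intro hR
    have h1 := hS.inf_normal Nat.prime_two (K := H) ⟨le_top, (normalizer_eq_top _).ge⟩
    have h2 : 𝐨(H).Coprime 2 := by
      have := h1.ndvd
      rw [hR, relIndex_bot_left] at this
      exact ((Nat.Prime.coprime_iff_not_dvd Nat.prime_two).2 this).symm
    have h3 : H ≤ ⊥ := by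
      rw [← hO', ← pPrimeCoreOf_top]
      exact le_pPrimeCoreOf ⟨le_top, (normalizer_eq_top _).ge⟩ h2
    rw [le_bot_iff.1 h3, sup_bot_eq] at hSH
    have h4 : S ≤ ⊥ := by
      rw [← hO, ← pCoreOf_top]
      exact le_pCoreOf ⟨le_top, by rw [hSH]; exact le_norm_self _⟩ hS.pgrp
    have h5 := card_eq_one.2 (le_bot_iff.1 h4)
    rw [hSH, card_top] at h5
    rw [h5] at heven
    norm_num at heven
  have hZH : Z ⊓ H ≠ ⊥ := by
    obtain ⟨u, hu, hu2⟩ := exists_mem_orderOf_eq_prime Nat.prime_two (prime_dvd_card_of_isPGroup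
      Nat.prime_two (hS.pgrp.to_le (inf_le_left.trans inf_le_left))
      (inf_center_ne_bot (isNilpotent_of_isPGroup Nat.prime_two hS.pgrp)
        (N := S ⊓ H) ⟨inf_le_left, H1.le_normalizer_inf (le_norm_self S)
          (le_top.trans (normalizer_eq_top _).ge)⟩ hR))
    exact sharp_nonempty.1 ⟨u, mem_inf.2 ⟨memZ (mem_inf.2 ⟨(mem_inf.1 (mem_inf.1 hu).1).1,
      (mem_inf.1 hu).2⟩) (hu2 ▸ pow_orderOf_eq_one u), (mem_inf.1 (mem_inf.1 hu).1).2⟩,
      by rintro rfl; simp at hu2⟩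
  have hKn : (H ⊔ Z).Normal := by
    rw [← normalizer_eq_top_iff, eq_top_iff, ← hSH]
    refine sup_le (H1.le_normalizer_sup (le_top.trans (normalizer_eq_top _).ge) ?_)
      (le_sup_left.trans (le_norm_self _))
    exact (cent_comm.1 (hZS.trans inf_le_right)).trans (cent_le_norm _)
  by_cases hV : ∃ V ≤ Z, IsElem 2 2 V
  · obtain ⟨V, hVZ, hV⟩ := hV
    have hSV : S ≤ 𝐂(V) := cent_comm.1 ((hVZ.trans hZS).trans inf_le_right)
    by_cases hA : ∃ A ≤ S, IsElem 2 3 A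
    · obtain ⟨A, hAS, hA⟩ := hA
      obtain ⟨B, hBA, hB⟩ := hA.exists_le Nat.prime_two (by norm_num : 2 ≤ 3)
      refine (dichotomy hC hO' (K := H ⊔ Z) (U := wc V) hS (hH ▸ hR) (hH ▸ le_sup_left)
        (hVZ.trans hZS) ?_ (fun x hx => ?_) fun s _ h1 h2 hs =>
          hC.oc_le_wc hV h1 h2 (hSV hs.1)).imp_right fun h => Or.inr (Or.inr h)
      · rw [← hC.wc_eq_of_cent hB hV ((hBA.trans hAS).trans hSV), ← hC.wc_eq hA.1 hBA hB]
        exact (hC.e8 hA).1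
      · rw [← conj_eq_self_iff, ← wc_conj, hC.wc_eq_of_cent (hV.conj x) hV (hx.trans hSV)]
    have key : ∀ s ∈ S, s ^ 2 = 1 → s ∈ V := fun s hs h2 => by
      by_contra hcon
      exact hA ⟨_, sup_le ((hVZ.trans hZS).trans inf_le_left) (zpowers_le.2 hs),
        isElem_sup_zpowers hV hcon h2 (hSV hs)⟩
    have hZV : Z = V := le_antisymm (fun s hs => key s (hZS hs).1 (hZe.2 s hs)) hVZ
    subst hZV
    by_cases hZH' : Z ≤ H
    · refine Or.inr (Or.inr (Or.inl ⟨hV.2, le_antisymm (omegaOne_le_iff.2 fun s hs h2 =>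
        key s hs.1 h2) (le_omegaOne_of_elemAb (le_inf (hZS.trans inf_le_left) hZH') hZe)⟩))
    · refine Or.inr (Or.inl ⟨hV.card_eq_of_two Nat.prime_two inf_le_left hZH
        (fun e => hZH' (inf_eq_left.1 e)), fun h _ z hz hs => key _ hs ?_⟩)
      rw [conj_pow, hZe.2 z hz.1]; group
  obtain ⟨z, hz, z1⟩ := sharp_nonempty.2 hZH
  have z2 := hZe.2 z (mem_inf.1 hz).1
  have hZz : Z = zpowers z := by
    refine le_antisymm (fun u hu => ?_) (zpowers_le.2 (mem_inf.1 hz).1)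
    by_contra hcon
    exact hV ⟨_, sup_le (zpowers_le.2 (mem_inf.1 hz).1) (zpowers_le.2 hu),
      isElem_two z1 z2 (by rintro rfl; exact hcon (one_mem _)) (hZe.2 u hu)
        (by rintro rfl; exact hcon (mem_zpowers _))
        (cent_le_cent1 (mem_inf.1 hz).1 (isMulComm_iff_le_cent.1 hZe.1 hu))⟩
  have hZH' : Z ≤ H := hZz ▸ zpowers_le.2 (mem_inf.1 hz).2
  have hc : Cen S z :=
    ⟨hS, z1, z2, (hZS (mem_inf.1 hz).1).1, mem_cent_iff_cent1.1 (hZS (mem_inf.1 hz).1).2,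
      fun u hu u1 u2 => (eq_or_eq_of_mem_zpowers z2 (hZz ▸ memZ hu u2)).resolve_left u1,
      by rwa [hZz, cent_zpowers] at hZ⟩
  by_cases hw : ∃ g : G, g * z * g⁻¹ ∈ S ∧ g * z * g⁻¹ ≠ z
  · obtain ⟨g, hg, hne⟩ := hw
    refine (dichotomy hC hO' (K := H ⊔ Z) (U := oc z) hS (hH ▸ hR) (hH ▸ le_sup_left)
      hZS (oc_cop z) (fun x hx => ?_) fun s hs h1 h2 he =>
        hc.oc_le_of_ext hC hg hne he (hH ▸ sup_le le_rfl hZH' hs) h1 h2).imp_right
          fun h => Or.inr (Or.inr h)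
    rw [← conj_eq_self_iff, ← oc_conj, hc.oc_conj_eq hC (hx (conj_mem_conj (mem_inf.1 hz).1 x))]
  · refine Or.inr (Or.inl ⟨?_, fun h _ u hu hs => ?_⟩)
    · rw [inf_of_le_left hZH', hZz, Nat.card_zpowers]; exact orderOf_eq_prime z2 z1
    · rcases eq_or_eq_of_mem_zpowers z2 (hZz ▸ (mem_inf.1 hu).1) with rfl | rfl
      · simp
      · by_contra hcon
        exact hw ⟨h, hs, fun e => hcon (e.symm ▸ (mem_inf.1 hz).1)⟩

/-- Let G be a finite group of even order in which the centralizer of every involution is solvable and C_G(Ω₁(Z(S))) ≤ N_G(S) for every Sylow 2-subgroup S, with O_{2'}(G) = 1 = O₂(G). Fix a Sylow 2-subgroup S and put Z = Ω₁(Z(S)), H = O²(G), R = S ∩ H. Then H has a strongly embedded subgroup; or Z ∩ R has order 2 and is weakly closed in R with respect to H; or Z has order 4 and equals the subgroup generated by the involutions of R; or the subgroup HZ has local characteristic 2: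 it has even order and every 2-local subgroup L of HZ satisfies C_L(O₂(L)) ≤ O₂(L). -/
theorem result {G : Type*} [Group G] [Finite G] (heven : Even (Nat.card G)) (hC : ∀ t : G, orderOf t = 2 → Group.IsSolvable ↥(Subgroup.centralizer ({t} : Set G))) (hZ : ∀ S : Sylow 2 G, Subgroup.centralizer (Cfsg.omegaOne 2 ((S : Subgroup G) ⊓ Subgroup.centralizer ((S : Subgroup G) : Set G)) : Set G) ≤ Subgroup.normalizer ((S : Subgroup G) : Set G)) (hO' : Cfsg.pPrimeCore 2 G = ⊥) (hO : Cfsg.pCore 2 G = ⊥) (S : Sylow 2 G) : (∃ M : Subgroup ↥(Cfsg.pResidual 2 G), Cfsg.IsStronglyEmbedded M) ∨ (Nat.card ↥(Cfsg.omegaOne 2 ((S : Subgroup G) ⊓ Subgroup.centralizer ((S : Subgroup G) : Set G)) ⊓ Cfsg.pResidual 2 G) = 2 ∧ ∀ h ∈ Cfsg.pResidual 2 G, ∀ z ∈ Cfsg.omegaOne 2 ((S : Subgroup G) ⊓ Subgroup.centralizer ((S : Subgroup G) : Set G)) ⊓ Cfsg.pResidual 2 G, h * z * h⁻¹ ∈ (S : Subgroup G) → h * z * h⁻¹ ∈ Cfsg.omegaOne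 2 ((S : Subgroup G) ⊓ Subgroup.centralizer ((S : Subgroup G) : Set G))) ∨ (Nat.card ↥(Cfsg.omegaOne 2 ((S : Subgroup G) ⊓ Subgroup.centralizer ((S : Subgroup G) : Set G))) = 4 ∧ Cfsg.omegaOne 2 ((S : Subgroup G) ⊓ Cfsg.pResidual 2 G) = Cfsg.omegaOne 2 ((S : Subgroup G) ⊓ Subgroup.centralizer ((S : Subgroup G) : Set G))) ∨ Cfsg.IsCharacteristicTwoType ↥(Cfsg.pResidual 2 G ⊔ Cfsg.omegaOne 2 ((S : Subgroup G) ⊓ Subgroup.centralizer ((S : Subgroup G) : Set G))) := by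
  exact aux heven (fun t h1 h2 => hC t (orderOf_eq_prime h2 h1)) hO' hO
    (isSyl_top_coe Nat.prime_two S) rfl rfl (hZ S)

end Cfsg.Agent.S3759
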