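import Cfsg.Statements.S3758
import Cfsg.Agent.H2.Amal10
import Cfsg.Agent.S3759

set_option autoImplicit false
open Cfsg

namespace Cfsg.Agent.S3758


open Subgroup Cfsg.Agent.H1 Cfsg.Agent.H2 Cfsg.Agent.H2.AM
open scoped Pointwise

theorem omega_eq {G : Type*} [Group G] (S : Subgroup G) :
    omegaOne 2 (S ⊓ centralizer (S : Set G)) = oz S := by
  ext x
  refine (H3.mem_omegaOne_of_comm (H5.zOf_isMulCommutative S)).trans ?_
  rw [pow_two]
  exact and_assoc

theorem se_map {A B : Type*} [Group A] [Group B] (e : A ≃* B) {M : Subgroup A}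
    (h : IsStronglyEmbedded M) : IsStronglyEmbedded (M.map e.toMonoidHom) := by
  refine ⟨fun c => h.1 (map_injective (f := e.toMonoidHom) e.injective (c.trans
    (map_top_of_surjective _ e.surjective).symm)), by
    rw [card_map_of_injective e.injective]; exact h.2.1, fun g hg => ?_⟩
  obtain ⟨g, rfl⟩ := e.surjective g
  have := h.2.2 g fun c => hg (mem_map_of_mem _ c)
  rwa [← card_map_of_injective (f := e.toMonoidHom) e.injective, map_inf _ _ _ e.injective,
    H2.map_conj_eq_smul, map_conj_smul] at this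

theorem aux {G : Type*} [Group G] [Finite G] (heven : Even (Nat.card G))
    (hN : ∀ L : Subgroup G, IsTwoLocal L → Group.IsSolvable L)
    (hZ : ∀ S : Sylow 2 G, centralizer (oz (S : Subgroup G) : Set G) ≤
      normalizer ((S : Subgroup G) : Set G))
    (hO' : pPrimeCore 2 G = ⊥) (hO : pCore 2 G = ⊥) (S : Sylow 2 G) {K : Subgroup G}
    (hK : K = pResidual 2 G ⊔ oz (S : Subgroup G)) (h : IsCharacteristicTwoType K) :
    (∃ M : Subgroup (pResidual 2 G), IsStronglyEmbedded M) ∨
      DS ((S : Subgroup G) ⊓ pResidual 2 G : Subgroup G) := by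
  have hSH := H8.sylow_sup_pResidual S
  have hHK : pResidual 2 G ≤ K := hK ▸ le_sup_left
  haveI : K.Normal := normal_of_top_le_normalizer (hSH.ge.trans (sup_le (hK ▸ le_normalizer_sup
    le_normalizer_of_normal (le_normalizer.trans (norm_le_norm_oz _))) (hHK.trans le_normalizer)))
  have hf := K.subtype_injective
  have hT : (⊤ : Subgroup K).map K.subtype = K :=
    (MonoidHom.range_eq_map _).symm.trans K.range_subtype
  have hS := FT.isSyl_top_coe Nat.prime_two S
  have hR : (S : Subgroup G) ⊓ pResidual 2 G ≠ ⊥ := fun e => by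
    have h1 := (hS.inf_normal Nat.prime_two (K := pResidual 2 G)
      ⟨le_top, (normalizer_eq_top _).ge⟩).ndvd
    rw [e, relIndex_bot_left] at h1
    rw [H8.hasNPC_iff_pResidual_eq_pPrimeCore.1 (H8.hasNPC_iff_not_dvd_pResidual.2 h1), hO',
      sup_bot_eq] at hSH
    have h4 : (S : Subgroup G) ≤ ⊥ := hO ▸ L.le_pCore (hSH ▸ inferInstance) S.isPGroup'
    have h5 := card_eq_one.2 (le_bot_iff.1 h4)
    rw [hSH, card_top] at h5
    exact absurd (h5 ▸ heven) (by norm_num)
  have zn : ZN K := ⟨fun U a b => by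
      haveI := isSolvable_of_le ((map_le_norm_iff hf).2 le_rfl) (hN _ ⟨_, a.map K.subtype,
        fun e => b ((map_eq_bot_iff_of_injective _ hf).1 e), rfl⟩)
      exact Group.isSolvable_of_isSolvable_injective (f := ((normalizer (U : Set K)).equivMapOfInjective _
        hf).toMonoidHom) (MulEquiv.injective _),
    fun U a b x hx => mem_map_of_mem _ (h.2 U a b (x := ⟨x, hx.1⟩)
      ((mem_cent_map (subtype_injective _)).1 hx.2)), fun T a b => by
      obtain ⟨S', h1⟩ := (a.map K.subtype).exists_le_sylow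
      have e : (S' : Subgroup G) ⊓ K = T.map K.subtype := sylow_maximal (H := K) (by
        rwa [← relIndex_map_map_of_injective _ _ hf, hT] at b) (le_inf h1 (map_subtype_le _))
        inf_le_right (S'.isPGroup'.to_le inf_le_left)
      obtain ⟨g, hg⟩ := MulAction.exists_smul_eq G S S'
      have e2 : oz (S' : Subgroup G) ≤ K := by
        rw [← hg, Sylow.coe_subgroup_smul, ← conj_oz]
        exact (conj_smul_mono g (hK ▸ le_sup_right)).trans (mem_normalizer_iff_conj_smul.1
          (le_normalizer_of_normal (mem_top g))).le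
      rw [← map_le_norm_iff hf, ← e]
      refine le_normalizer_inf (le_trans ?_ ((centralizer_le (oz_le_oz h1
        (e ▸ le_inf (oz_le _) e2))).trans (hZ S'))) le_normalizer_of_normal
      rw [oz_map hf, map_le_cent_iff hf], by
      rw [pCoreOf_top, ← map_eq_bot_iff_of_injective _ hf, L.map_subtype_pCore Nat.prime_two, hO,
        bot_inf_eq]⟩
  have e1 : (pResidual 2 K).map K.subtype = pResidual 2 G := H8.pResidualOf_eq_of_le 2 hHK
  have e2 : ((S : Subgroup G).subgroupOf K ⊓ pResidual 2 K).map K.subtype =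
      (S : Subgroup G) ⊓ pResidual 2 G := by
    rw [map_inf _ _ _ hf, e1, subgroupOf_map_subtype, inf_assoc, inf_of_le_right hHK]
  refine (zn.main (S.isPGroup'.comap_subtype (K := K)) (by
    rw [relIndex_top_right, comap_subtype, ← inf_subgroupOf_right]
    exact (hS.inf_normal Nat.prime_two ⟨le_top, (normalizer_eq_top _).ge⟩).ndvd) fun e =>
    hR (by rw [← e2]; exact (map_eq_bot_iff_of_injective _ hf).2 e)).imp ?_ fun a =>
    a.of_equiv ((equivMapOfInjective _ _ hf).trans (MulEquiv.subgroupCongr e2))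
  rintro ⟨M, hM⟩
  exact ⟨_, se_map ((equivMapOfInjective _ _ hf).trans (MulEquiv.subgroupCongr e1)) hM⟩

/-- Let G be a finite group of even order in which every 2-local subgroup is solvable and C_G(Ω₁(Z(S))) ≤ N_G(S) for every Sylow 2-subgroup S, and suppose O_{2'}(G) = 1 = O₂(G). Fix a Sylow 2-subgroup S, put Z = Ω₁(Z(S)), H = O²(G) (generated by the elements of odd order) and R = S ∩ H. Then one of the following holds: H has a strongly embedded subgroup; R is dihedral (of order at least 4) or semidihedral; Z ∩ R has order 2 and is weakly closed in R with respect to H; or Z has order 4 and is exactly the subgroup generated by the involutions of R. -/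
theorem result {G : Type*} [Group G] [Finite G] (heven : Even (Nat.card G)) (hN : ∀ L : Subgroup G, Cfsg.IsTwoLocal L → Group.IsSolvable L) (hZ : ∀ S : Sylow 2 G, Subgroup.centralizer (Cfsg.omegaOne 2 ((S : Subgroup G) ⊓ Subgroup.centralizer ((S : Subgroup G) : Set G)) : Set G) ≤ Subgroup.normalizer ((S : Subgroup G) : Set G)) (hO' : Cfsg.pPrimeCore 2 G = ⊥) (hO : Cfsg.pCore 2 G = ⊥) (S : Sylow 2 G) : (∃ M : Subgroup ↥(Cfsg.pResidual 2 G), Cfsg.IsStronglyEmbedded M) ∨ ((∃ n : ℕ, 2 ≤ n ∧ Nonempty (↥((S : Subgroup G) ⊓ Cfsg.pResidual 2 G) ≃* DihedralGroup n)) ∨ Cfsg.IsQuasiDihedral ↥((S : Subgroup G) ⊓ Cfsg.pResidual 2 G)) ∨ (Nat.card ↥(Cfsg.omegaOne 2 ((S : Subgroup G) ⊓ Subgroup.centralizer ((S : Subgroup G) : Set G)) ⊓ Cfsg.pResidual 2 G) = 2 ∧ ∀ h ∈ Cfsg.pResidual 2 G, ∀ z ∈ Cfsg.omegaOne 2 ((S : Subgroup G) ⊓ Subgroup.centralizer ((S : Subgroup G) : Set G)) ⊓ Cfsg.pResidual 2 G, h * z * h⁻¹ ∈ (S : Subgroup G) → h * z * h⁻¹ ∈ Cfsg.omegaOne 2 ((S : Subgroup G) ⊓ Subgroup.centralizer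 ((S : Subgroup G) : Set G))) ∨ (Nat.card ↥(Cfsg.omegaOne 2 ((S : Subgroup G) ⊓ Subgroup.centralizer ((S : Subgroup G) : Set G))) = 4 ∧ Cfsg.omegaOne 2 ((S : Subgroup G) ⊓ Cfsg.pResidual 2 G) = Cfsg.omegaOne 2 ((S : Subgroup G) ⊓ Subgroup.centralizer ((S : Subgroup G) : Set G))) := by
  rcases S3759.result heven (fun t ht => isSolvable_of_le ((cent_zpowers t).ge.trans
    (centralizer_le_normalizer _)) (hN _ ⟨_, H8.isPGroup_zpowers_of_orderOf (k := 1) ht,
      fun e => by simp [zpowers_eq_bot.1 e] at ht, rfl⟩)) hZ hO' hO S with h | h | h | h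
  exacts [Or.inl h, Or.inr (Or.inr (Or.inl h)), Or.inr (Or.inr (Or.inr h)),
    (aux heven hN (fun S => omega_eq (S : Subgroup G) ▸ hZ S) hO' hO S (by rw [omega_eq]) h).imp_right
      Or.inl]

end Cfsg.Agent.S3758
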