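import Cfsg.Statements.S3760
import Cfsg.Agent.H1.Basic

set_option autoImplicit false
open Cfsg

namespace Cfsg.Agent.S3760

/-- Let the group G act transitively on a set X, let x ∈ X with stabilizer H = G_x, and let K ≤ H. Then N_G(K) acts transitively on the set of fixed points of K if and only if every G-conjugate of K contained in H is already an H-conjugate of K. -/
theorem result {G : Type*} [Group G] {X : Type*} [MulAction G X] (htrans : ∀ a b : X, ∃ g : G, g • a = b) (x : X) (K : Subgroup G) (hK : K ≤ MulAction.stabilizer G x) : (∀ a b : X, (∀ k ∈ K, k • a = a) → (∀ k ∈ K, k • b = b) → ∃ g ∈ Subgroup.normalizer (K : Set G), g • a = b) ↔ ∀ g : G, K.map (MulAut.conj g).toMonoidHom ≤ MulAction.stabilizer G x → ∃ h ∈ MulAction.stabilizer G x, K.map (MulAut.conj g).toMonoidHom = K.map (MulAut.conj h).toMonoidHom := by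
  constructor
  · intro h g hg
    have h1 : ∀ k ∈ K, k • g⁻¹ • x = g⁻¹ • x := by
      intro k hk
      have h2 : (g * k * g⁻¹) • x = x := H1.map_conj_le_iff.mp hg k hk
      rw [mul_smul, mul_smul, smul_eq_iff_eq_inv_smul] at h2
      exact h2
    obtain ⟨n, hn, h2⟩ := h x (g⁻¹ • x) hK h1
    refine ⟨g * n, ?_, ?_⟩
    · rw [MulAction.mem_stabilizer_iff, mul_smul, h2, smul_inv_smul]
    · rw [← H1.map_conj_map_conj, H1.map_conj_eq_self_iff.mpr hn]
  · intro h
    have key : ∀ a : X, (∀ k ∈ K, k • a = a) → ∃ g ∈ Subgroup.normalizer (K : Set G), g • a = x := by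
      intro a ha
      obtain ⟨g, hg⟩ := htrans a x
      obtain ⟨s, hs, h2⟩ := h g (H1.map_conj_le_iff.mpr fun k hk => by
        rw [MulAction.mem_stabilizer_iff, mul_smul, mul_smul, ← hg, inv_smul_smul, ha k hk])
      refine ⟨s⁻¹ * g, ?_, ?_⟩
      · rw [← H1.map_conj_eq_self_iff, ← H1.map_conj_map_conj, h2, H1.map_conj_map_conj,
          inv_mul_cancel, H1.map_conj_one]
      · rw [mul_smul, hg, inv_smul_eq_iff]
        exact (MulAction.mem_stabilizer_iff.mp hs).symm
    intro a b ha hb
    obtain ⟨g, hg, h1⟩ := key a ha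
    obtain ⟨g', hg', h2⟩ := key b hb
    refine ⟨g'⁻¹ * g, mul_mem (inv_mem hg') hg, ?_⟩
    rw [mul_smul, h1, ← h2, inv_smul_smul]

end Cfsg.Agent.S3760
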