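import Cfsg.Statements.S3763
import Cfsg.Agent.H2.ES2

set_option autoImplicit false
open Cfsg

namespace Cfsg.Agent.S3763

/-- Let E be an extraspecial 2-group of order 2^(2n+1). Then the largest elementary abelian subgroups of E have order 2^n or 2^(n+1); and two extraspecial 2-groups of the same order whose largest elementary abelian subgroups have the same order are isomorphic. -/
theorem result {E : Type*} [Group E] [Finite E] (hE : Cfsg.IsExtraspecial 2 E) (n : ℕ) (hn : Nat.card E = 2 ^ (2 * n + 1)) : ((Cfsg.PRankLE 2 n E ∧ ¬ Cfsg.PRankLE 2 (n - 1) E) ∨ (Cfsg.PRankLE 2 (n + 1) E ∧ ¬ Cfsg.PRankLE 2 n E)) ∧ ∀ (E' : Type*) [Group E'] [Finite E'], Cfsg.IsExtraspecial 2 E' → Nat.card E' = Nat.card E → (∀ k : ℕ, Cfsg.PRankLE 2 k E ↔ Cfsg.PRankLE 2 k E') → Nonempty (E ≃* E') := by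
  have h := H2.ES2.es_of hE
  refine ⟨?_, fun E' _ _ hE' hc hr => ?_⟩
  · have h1 := h.one_le_rank
    simp only [H2.ES2.pRankLE_iff Nat.prime_two]
    rcases H2.ES2.rank_cases n E h hn with h2 | h2 <;> omega
  · simp only [H2.ES2.pRankLE_iff Nat.prime_two] at hr
    exact H2.ES2.iso _ E E' h (H2.ES2.es_of hE') rfl hc
      (le_antisymm ((hr _).2 le_rfl) ((hr _).1 le_rfl))

end Cfsg.Agent.S3763
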