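import Cfsg.Statements.S3764
import Cfsg.Agent.H1.RepExtra

set_option autoImplicit false
open Cfsg

namespace Cfsg.Agent.S3764

open scoped IsMulCommutative

/-- Let p, q, r be distinct primes and let X, Q, V be subgroups of a finite group with X of order r, Q an extraspecial q-group normalized by X with C_Q(X) = Z(Q), and V an elementary abelian p-group normalized by X and Q on which XQ acts faithfully ((X ⊔ Q) ∩ C(V) = 1). If C_V(X) = 1, then q = 2, r = 2^n + 1 for some n, and Q has order 2^(2n+1). -/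
theorem result {G : Type*} [Group G] [Finite G] {p q r : ℕ} (hp : p.Prime) (hq : q.Prime) (hr : r.Prime) (hpq : p ≠ q) (hpr : p ≠ r) (hqr : q ≠ r) (X Q V : Subgroup G) (hX : Nat.card X = r) (hQ : Cfsg.IsExtraspecial q ↥Q) (hXQ : X ≤ Subgroup.normalizer (Q : Set G)) (hCQ : Q ⊓ Subgroup.centralizer (X : Set G) = (Subgroup.center ↥Q).map Q.subtype) (hV : Cfsg.IsElementaryAbelian p V) (hXV : X ≤ Subgroup.normalizer (V : Set G)) (hQV : Q ≤ Subgroup.normalizer (V : Set G)) (hfaith : (X ⊔ Q) ⊓ Subgroup.centralizer (V : Set G) = ⊥) (hCV : V ⊓ Subgroup.centralizer (X : Set G) = ⊥) : q = 2 ∧ ∃ n : ℕ, r = 2 ^ n + 1 ∧ Nat.card Q = 2 ^ (2 * n + 1) := by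
  have := Fact.mk hr
  have := Fact.mk hq
  have := Fact.mk hp
  have := hV.1
  have hcyc : IsCyclic X := isCyclic_of_prime_card hX
  obtain ⟨g, rfl⟩ := (Subgroup.isCyclic_iff_exists_zpowers_eq_top X).mp hcyc
  obtain ⟨⟨hQp, hΦ, hcomm⟩, hZ⟩ := hQ
  have hcop : (Nat.card (Subgroup.zpowers g)).Coprime (Nat.card Q) :=
    H1.coprime_card_of_isPGroup hQp (hX ▸ (Nat.coprime_primes hr hq).mpr hqr.symm)
  have hz : ⁅Q, Subgroup.zpowers (g ^ r ^ 0)⁆ = Q := by
    rw [pow_zero, pow_one]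
    refine H1.eq_of_sup_frattini (H1.commutator_le_of_le_normalizer hXQ) ?_
    rw [hΦ, ← hCQ, H1.commutator_sup_centralizer hXQ hcop
      (Or.inl (H1.isSolvable_of_isMulCommutative inferInstance))]
  rw [Nat.card_zpowers] at hX hcop
  have hg1 : g ^ r ^ (0 + 1) = 1 := by simp [← hX]
  have hE := H1.pow_eq_one_of_isElementaryAbelian hV
  have hgQ := hXQ (Subgroup.mem_zpowers g)
  have hgV := hXV (Subgroup.mem_zpowers g)
  let σ := (H1.ambRep hE).comp (Subgroup.inclusion hQV)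
  have hcov : ∀ x, H1.ambRep hE ⟨g, hgV⟩ * σ x =
      σ (H1.conjAutOf hgQ x) * H1.ambRep hE ⟨g, hgV⟩ := by
    intro x
    simp only [σ, MonoidHom.comp_apply, ← map_mul]
    congr 1
    exact Subtype.ext (by simp [H1.coe_conjAutOf])
  have hqk : (q : AlgebraicClosure (ZMod p)) ≠ 0 := H1.cast_ne_zero_of_prime_ne hp hq hpq.symm
  obtain ⟨W, h1, h2, h3, h4⟩ := H1.exists_nofix_subspace σ (Subgroup.center Q) (hZ ▸ hqk) (by
    have : Nontrivial (Subgroup.center Q) := Finite.one_lt_card_iff_nontrivial.mp (hZ ▸ hq.one_lt)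
    obtain ⟨⟨x, hx⟩, hx1⟩ := exists_ne (1 : Subgroup.center Q)
    refine ⟨x, hx, fun h => hx1 (Subtype.ext (Subtype.ext ?_))⟩
    have h1 : (x : G) ∈ (Subgroup.zpowers g ⊔ Q) ⊓ Subgroup.centralizer (V : Set G) :=
      Subgroup.mem_inf.mpr ⟨Subgroup.mem_sup_right x.2, (H1.ambRep_eq_one_iff hE _).mp h⟩
    rw [hfaith] at h1
    exact h1)
  obtain ⟨n, e, a1, a2, a3, a4, Z, b1, b2, -, b3⟩ := H1.coprime_core' hr hq hQp hqk
    (fun a b c => (Subgroup.mem_center_iff.mp (hcomm ▸ Subgroup.commutator_mem_commutator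
      (Subgroup.mem_top a) (Subgroup.mem_top b) : _ ∈ Subgroup.center Q) c).symm) hcov (m := 0)
    (H1.conjAutOf_pow_eq_one hgQ (hg1 ▸ one_mem _))
    (H1.fpf_of_commutator_eq hgQ (by simpa using hcop) hz) h1 h2
    (h4 _ _ hcov fun x => SetLike.ext_iff.mp
      ((Subgroup.characteristic_iff_comap_eq (H := Subgroup.center Q)).mp inferInstance
        (H1.conjAutOf hgQ)) x)
    (fun v hv h => h3 v hv fun x _ => h x) (H1.cast_ne_zero_of_prime_ne hp hr hpr.symm)
    (by rw [← map_pow, ← map_one (H1.ambRep hE)]; congr 1; exact Subtype.ext hg1)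
    (fun v _ => H1.ambRep_fix_eq_zero hE _ (by
      rw [← hCV, ← Subgroup.centralizer_closure, ← Subgroup.zpowers_eq_closure]) v)
  have hZZ : Z = Subgroup.center Q :=
    le_antisymm (b3.le_center hcomm.le (hZ ▸ hq) h3) (hcomm ▸ b2)
  rw [show n = 1 by omega, pow_one] at a4
  have hq2 : q = 2 := by
    by_contra hne
    have h5 : Even r := by rw [a4]; exact ((hq.odd_of_ne_two hne).pow).add_one
    have h6 := hr.even_iff.mp h5
    have : 1 < q ^ e := Nat.one_lt_pow (by omega) hq.one_lt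
    omega
  subst hq2
  refine ⟨rfl, e, a4, ?_⟩
  rw [← Z.card_mul_index, b1, hZZ, hZ, pow_succ']

end Cfsg.Agent.S3764
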