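import Cfsg.Statements.S3765
import Cfsg.Agent.H1.EAMod

set_option autoImplicit false
open Cfsg

namespace Cfsg.Agent.S3765

/-- Let p, q, r be distinct primes and let X, Q, V be subgroups of a finite group with X of order r normalizing the q-group Q and acting faithfully on it (X ∩ C(Q) = 1), and V a nontrivial elementary abelian p-group normalized by X and Q on which XQ acts faithfully. If q = 2 and r has the form 2^n + 1, assume in addition that Q is abelian. Then C_V(X) ≠ 1. -/
theorem result {G : Type*} [Group G] [Finite G] {p q r : ℕ} (hp : p.Prime) (hq : q.Prime) (hr : r.Prime) (hpq : p ≠ q) (hpr : p ≠ r) (hqr : q ≠ r) (X Q V : Subgroup G) (hX : Nat.card X = r) (hQ : IsPGroup q Q) (hXQ : X ≤ Subgroup.normalizer (Q : Set G)) (hXfaith : X ⊓ Subgroup.centralizer (Q : Set G) = ⊥) (hV : Cfsg.IsElementaryAbelian p V) (hV1 : V ≠ ⊥) (hXV : X ≤ Subgroup.normalizer (V : Set G)) (hQV : Q ≤ Subgroup.normalizer (V : Set G)) (hfaith : (X ⊔ Q) ⊓ Subgroup.centralizer (V : Set G) = ⊥) (hexc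 : q = 2 → (∃ n : ℕ, r = 2 ^ n + 1) → IsMulCommutative Q) : V ⊓ Subgroup.centralizer (X : Set G) ≠ ⊥ := by
  intro hCV
  have := Fact.mk hr
  have := Fact.mk hq
  have hcyc : IsCyclic X := isCyclic_of_prime_card hX
  obtain ⟨g, rfl⟩ := (Subgroup.isCyclic_iff_exists_zpowers_eq_top X).mp hcyc
  rw [Nat.card_zpowers] at hX
  have hg1 : g ^ r ^ (0 + 1) = 1 := by simp [← hX]
  obtain ⟨q', hq', -, ⟨R, hRQ, hR, hnc⟩, n, e, h1, h2, h3, h4⟩ :=
    H1.hall_higman_coprime_ambient hr hp hpr.symm hV hQV
      (H1.coprime_card_of_isPGroup hQ ((Nat.coprime_primes hr hq).mpr hqr.symm)).symm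
      (H1.coprime_card_of_isPGroup hQ ((Nat.coprime_primes hp hq).mpr hpq)).symm
      (hXV (Subgroup.mem_zpowers g)) (hXQ (Subgroup.mem_zpowers g)) (m := 0)
      (hg1 ▸ one_mem _) (by
        intro h
        rw [pow_zero, pow_one] at h
        have h1 : ⁅Q, Subgroup.zpowers g⁆ = ⊥ := by
          rw [eq_bot_iff, ← hfaith]
          exact le_inf ((H1.commutator_le_of_le_normalizer hXQ).trans le_sup_right) h
        rw [H1.commutator_eq_bot_iff_le_centralizer'] at h1
        rw [inf_eq_left.mpr h1, Subgroup.zpowers_eq_bot] at hXfaith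
        rw [hXfaith, orderOf_one] at hX
        exact hr.one_lt.ne hX) (by
        rw [← hCV, ← Subgroup.centralizer_closure, ← Subgroup.zpowers_eq_closure])
  have hqq : q' = q := by
    by_contra hne
    have := Fact.mk hq'
    have h := IsPGroup.disjoint_of_ne q' q hne R R hR (hQ.to_le hRQ)
    rw [disjoint_self] at h
    exact hnc (by rw [h]; infer_instance)
  subst hqq
  have hn : n = 1 := by omega
  rw [hn, pow_one] at h4
  have hq2 : q' = 2 := by
    by_contra hne
    have h5 : Even r := by rw [h4]; exact ((hq.odd_of_ne_two hne).pow).add_one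
    have h6 := hr.even_iff.mp h5
    have : 1 < q' ^ e := Nat.one_lt_pow (by omega) hq.one_lt
    omega
  have := hexc hq2 ⟨e, by rw [h4, hq2]⟩
  exact hnc ⟨⟨fun a b => Subtype.ext (setLike_mul_comm (hRQ a.2) (hRQ b.2))⟩⟩

end Cfsg.Agent.S3765
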