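import Cfsg.Statements.S3770
import Cfsg.Agent.H1.RepFix
import Cfsg.Agent.H5.Kegel
import Cfsg.Agent.H6.Induction

set_option autoImplicit false
open Cfsg

namespace Cfsg.Agent.S3770

/-- Let G and V be subgroups of a finite group with G a Frobenius group with complement R of prime order and kernel K, G normalizing V, and V an elementary abelian ℓ-group for a prime ℓ not dividing the order of G. If C_V(R) has order ℓ, then the derived subgroup of K centralizes V. -/
theorem result {X : Type*} [Group X] [Finite X] (G : Subgroup X) (V : Subgroup X) {ℓ : ℕ} (hℓ : ℓ.Prime) (hV : Cfsg.IsElementaryAbelian ℓ V) (hℓG : ¬ ℓ ∣ Nat.card G) (hGV : G ≤ Subgroup.normalizer (V : Set X)) (R : Subgroup ↥G) (hR : Cfsg.IsFrobeniusComplement R) (hRp : (Nat.card R).Prime) (hCV : Nat.card ↥(V ⊓ Subgroup.centralizer ((R.map G.subtype : Subgroup X) : Set X)) = ℓ) : ⁅Subgroup.closure (Subtype.val '' Cfsg.frobeniusKernel R), Subgroup.closure (Subtype.val '' Cfsg.frobeniusKernel R)⁆ ≤ Subgroup.centralizer (V : Set X)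 := by
  obtain ⟨K, hKn, hK, -⟩ := H6.exists_frobeniusKernel hR
  have hcl : Subgroup.closure (Subtype.val '' Cfsg.frobeniusKernel R) = K.map G.subtype := by
    rw [hK]
    exact Subgroup.closure_eq (K.map G.subtype)
  rw [hcl]
  have := Fact.mk hRp
  have hcyc : IsCyclic R := isCyclic_of_prime_card rfl
  obtain ⟨g, rfl⟩ := (Subgroup.isCyclic_iff_exists_zpowers_eq_top R).mp hcyc
  have hg1 : g ≠ 1 := by
    rintro rfl
    exact hR.1 Subgroup.zpowers_one_eq_bot
  have hnil := H5.isNilpotent_frobeniusKernel hR hK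
  have hKG : K.map G.subtype ≤ G := Subgroup.map_subtype_le K
  rw [MonoidHom.map_zpowers, Subgroup.zpowers_eq_closure, Subgroup.centralizer_closure] at hCV
  refine H1.commutator_le_centralizer_of_fix_le
    (Group.nilpotent_of_mulEquiv (K.equivMapOfInjective _ G.subtype_injective)) hℓ hV
    (hKG.trans hGV) (fun h => hℓG (h.trans (Subgroup.card_dvd_of_le hKG))) (g := g) ?_
    (hGV g.2) hRp ?_ ?_ hCV.le
  · have h1 : g ∈ Subgroup.normalizer (K : Set G) := by
      rw [Subgroup.normalizer_eq_top]; trivial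
    exact Subgroup.le_normalizer_map G.subtype ⟨g, h1, rfl⟩
  · rw [Nat.card_zpowers, ← Subgroup.coe_pow, pow_orderOf_eq_one]; rfl
  · rw [eq_bot_iff]
    rintro _ ⟨⟨k, hk, rfl⟩, hc⟩
    have h1 : g ∉ K := fun h => hg1 (H9.eq_one_of_mem_frobeniusKernel_of_mem
      (hK ▸ h : g ∈ frobeniusKernel _) (Subgroup.mem_zpowers g))
    have h2 : g * k = k * g := Subtype.ext (Subgroup.mem_centralizer_singleton_iff.mp hc).symm
    rw [H9.frob_kernel_eq_one_of_commute hR hK h1 hk h2]
    exact one_mem _

end Cfsg.Agent.S3770
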