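import Cfsg.Statements.S3772
import Cfsg.Agent.H2.Extraspecial
import Cfsg.Agent.H3.PBasic

set_option autoImplicit false
open Cfsg

namespace Cfsg.Agent.S3772

open Subgroup
open scoped commutatorElement

theorem key {G : Type*} [Group G] [Finite G] (hG : IsPGroup 2 G) (hΦ : Nat.card (frattini G) = 2) :
    frattini G ≤ center G ∧ ((2 * Nat.card {x : G // x ^ 2 = 1} : ℤ) - Nat.card G = 0 ∨
      (((2 * Nat.card {x : G // x ^ 2 = 1} : ℤ) - Nat.card G) ^ 2 =
        Nat.card G * Nat.card (center G) ∧ center G ≠ ⊤)) := by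
  classical
  have := Fintype.ofFinite G
  have : Fact (Nat.Prime 2) := ⟨Nat.prime_two⟩
  obtain ⟨⟨z, hz⟩, hz1, hzu⟩ := (Nat.card_eq_two_iff' (1 : frattini G)).1 hΦ
  have hz1 : z ≠ 1 := fun e => hz1 (Subtype.ext e)
  have hm : ∀ a ∈ frattini G, a = 1 ∨ a = z := fun a ha => by
    by_cases h : a = 1
    · exact Or.inl h
    · exact Or.inr (congrArg Subtype.val (hzu ⟨a, ha⟩ fun e => h (congrArg Subtype.val e)))
  have hzz : z * z = 1 := (hm _ (mul_mem hz hz)).resolve_right (by simpa using hz1)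
  have hc : frattini G ≤ center G := fun a ha => mem_center_iff.2 fun g => by
    rcases hm a ha with rfl | rfl
    · simp
    · exact mul_inv_eq_iff_eq_mul.1 ((hm _ (Normal.conj_mem inferInstance _ ha g)).resolve_left
        (by simpa using hz1))
  refine ⟨hc, ?_⟩
  let ε : G → ℤ := fun g => if g = 1 then 1 else -1
  have hε : ∀ a ∈ frattini G, ∀ b ∈ frattini G, ε (a * b) = ε a * ε b := by
    intro a ha b hb
    rcases hm a ha with rfl | rfl <;> rcases hm b hb with rfl | rfl <;> simp [ε, hz1, hzz]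
  have hεε : ∀ a, ε a * ε a = 1 := fun a => by simp only [ε]; split_ifs <;> rfl
  have hsq : ∀ x : G, x ^ 2 ∈ frattini G := H3.pow_mem_frattini hG
  have hmul : ∀ x w : G, ε (x ^ 2) * ε ((x * w) ^ 2) = ε (w ^ 2) * ε ⁅x⁻¹, w⁆ := by
    intro x w
    have h1 : (x * w) ^ 2 = x ^ 2 * (⁅x⁻¹, w⁆ * w ^ 2) := by
      simp only [sq, commutatorElement_def]; group
    have h2 : ⁅x⁻¹, w⁆ ∈ frattini G := H3.commutatorElement_mem_frattini hG x⁻¹ w
    rw [h1, hε _ (hsq x) _ (mul_mem h2 (hsq w)), hε _ h2 _ (hsq w), ← mul_assoc, hεε]; ring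
  have hcount : ∀ (p : G → Prop), ∑ x : G, (if p x then (1 : ℤ) else -1) =
      2 * Nat.card {x // p x} - Nat.card G := by
    intro p
    have : ∀ x, (if p x then (1 : ℤ) else -1) = 2 * (if p x then 1 else 0) - 1 := fun x => by
      split_ifs <;> rfl
    simp only [this, Finset.sum_sub_distrib, ← Finset.mul_sum, Finset.sum_boole, Finset.sum_const,
      Finset.card_univ, Nat.card_eq_fintype_card, Fintype.card_subtype]
    simp
  have hT : ∑ x : G, ε (x ^ 2) = 2 * Nat.card {x : G // x ^ 2 = 1} - Nat.card G := hcount _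
  have hb : ∀ w : G, ∑ x : G, ε ⁅x⁻¹, w⁆ = if w ∈ center G then (Nat.card G : ℤ) else 0 := by
    intro w
    have h1 : ∑ x : G, ε ⁅x⁻¹, w⁆ = 2 * Nat.card (centralizer ({w} : Set G)) - Nat.card G := by
      rw [← hcount (· ∈ centralizer ({w} : Set G))]
      refine Finset.sum_congr rfl fun x _ => if_congr ?_ rfl rfl
      rw [commutatorElement_eq_one_iff_mul_comm, ← mem_centralizer_singleton_iff, inv_mem_iff]
    have h2 := (centralizer ({w} : Set G)).card_mul_index
    have h3 := (H2.index_centralizer_le_card_commutator w).trans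
      ((card_le_of_le (H3.commutator_le_frattini hG)).trans hΦ.le)
    have h4 : (centralizer ({w} : Set G)).index = 1 ↔ w ∈ center G := by
      rw [index_eq_one, centralizer_eq_top_iff_subset, Set.singleton_subset_iff]; rfl
    have h5 := (centralizer ({w} : Set G)).index_ne_zero_of_finite
    rw [h1]
    split_ifs with h
    · rw [h4.2 h] at h2; omega
    · rw [show (centralizer ({w} : Set G)).index = 2 by have := mt h4.1 h; omega] at h2; omega
  have hTT : (∑ x : G, ε (x ^ 2)) ^ 2 = Nat.card G * ∑ w : center G, ε ((w : G) ^ 2) := by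
    rw [sq, Finset.sum_mul_sum,
      Finset.sum_congr rfl fun x _ => (Equiv.sum_comp (Equiv.mulLeft x)
        fun y => ε (x ^ 2) * ε (y ^ 2)).symm]
    simp only [Equiv.coe_mulLeft, hmul]
    rw [Finset.sum_comm]
    simp only [← Finset.mul_sum, hb, mul_ite, mul_zero]
    rw [← Finset.sum_filter, ← Finset.sum_mul, mul_comm,
      Finset.sum_subtype _ (p := (· ∈ center G)) (by simp)]
  rw [← hT]
  by_cases h : ∀ w ∈ center G, w ^ 2 = 1
  · right
    refine ⟨?_, fun e => ?_⟩
    · rw [hTT, Finset.sum_congr rfl (g := fun _ => 1) fun (w : center G) _ => if_pos (h w w.2)]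
      simp
    · have := H3.frattini_le_of_forall (G := G) Nat.prime_two (N := ⊥)
        (fun x y => by
          rw [mem_bot, mem_center_iff.1 (e ▸ mem_top y) x]; simp)
        (fun x => h x (e ▸ mem_top x))
      exact hz1 (this hz)
  · left
    push Not at h
    obtain ⟨v, hv, hv1⟩ := h
    have h1 := Equiv.sum_comp (Equiv.mulLeft (⟨v, hv⟩ : center G)) fun w => ε ((w : G) ^ 2)
    have h2 : ∀ w : center G, ε ((v * w) ^ 2) = -ε ((w : G) ^ 2) := fun w => by
      rw [Commute.mul_pow (mem_center_iff.1 w.2 v), hε _ (hsq _) _ (hsq _)]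
      rw [show ε (v ^ 2) = -1 from if_neg hv1, neg_one_mul]
    simp only [Equiv.coe_mulLeft, coe_mul, h2, Finset.sum_neg_distrib] at h1
    rw [show ∑ w : center G, ε ((w : G) ^ 2) = 0 by omega, mul_zero] at hTT
    exact pow_eq_zero_iff two_ne_zero |>.1 hTT


/-- Let G be a finite 2-group whose Frattini subgroup Φ(G) has order 2, with |G : Φ(G)| = 2^d, and let j be the number of elements x of G with x² = 1. Then j = 2^d, or j = 2^d + 2^(d−r) or j = 2^d − 2^(d−r) for some positive integer r with 2r ≤ d. Moreover if d = 2r and j is 2^d + 2^r or 2^d − 2^r, then G is extraspecial. -/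
theorem result {G : Type*} [Group G] [Finite G] (hG : IsPGroup 2 G) (hΦ : Nat.card (frattini G) = 2) (d : ℕ) (hd : (frattini G).index = 2 ^ d) : (Nat.card {x : G // x ^ 2 = 1} = 2 ^ d ∨ ∃ r : ℕ, 1 ≤ r ∧ 2 * r ≤ d ∧ (Nat.card {x : G // x ^ 2 = 1} = 2 ^ d + 2 ^ (d - r) ∨ Nat.card {x : G // x ^ 2 = 1} + 2 ^ (d - r) = 2 ^ d)) ∧ (∀ r : ℕ, d = 2 * r → (Nat.card {x : G // x ^ 2 = 1} = 2 ^ d + 2 ^ r ∨ Nat.card {x : G // x ^ 2 = 1} + 2 ^ r = 2 ^ d) → Cfsg.IsExtraspecial 2 G) := by
  have : Fact (Nat.Prime 2) := ⟨Nat.prime_two⟩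
  obtain ⟨hc, hk⟩ := key hG hΦ
  have hcG : Nat.card G = 2 * 2 ^ d := by rw [← (frattini G).card_mul_index, hΦ, hd]
  have hder := (Subgroup.card_le_of_le (H3.commutator_le_frattini hG)).trans hΦ.le
  generalize Nat.card {x : G // x ^ 2 = 1} = j at hk ⊢
  refine ⟨?_, fun r hr hj => ?_⟩
  · rcases hk with hk | ⟨hk, hZ⟩
    · left; omega
    right
    obtain ⟨r, hr⟩ := H2.exists_index_center_eq_of_card_commutator_le hG hder
    have h1 : 2 * r ≤ d := (Nat.pow_dvd_pow_iff_le_right one_lt_two).1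
      (by rw [← hr, ← hd]; exact Subgroup.index_dvd_of_le hc)
    refine ⟨r, Nat.pos_of_ne_zero ?_, h1, ?_⟩
    · rintro rfl
      exact hZ (Subgroup.index_eq_one.1 hr)
    have h2 := (Subgroup.center G).card_mul_index
    obtain ⟨c, rfl⟩ := Nat.exists_eq_add_of_le h1
    have h3 : Nat.card (Subgroup.center G) = 2 * 2 ^ c := Nat.eq_of_mul_eq_mul_right
      (pow_pos two_pos (2 * r)) (by rw [← hr, h2, hr, hcG]; ring)
    rw [h3, hcG] at hk
    rw [show 2 * r + c - r = r + c by omega]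
    have h4 : ((2 * j : ℤ) - (2 * 2 ^ (2 * r + c) : ℕ)) ^ 2 = ((2 * 2 ^ (r + c) : ℕ) : ℤ) ^ 2 := by
      rw [hk]; push_cast; ring
    rcases sq_eq_sq_iff_eq_or_eq_neg.1 h4 with e | e <;> omega
  · have h0 : 0 < 2 ^ r := pow_pos two_pos r
    obtain ⟨hk, hZ⟩ := hk.resolve_left (by omega)
    have h4 : ((2 * j : ℤ) - Nat.card G) ^ 2 = ((2 * 2 ^ r : ℕ) : ℤ) ^ 2 := by
      rw [sq_eq_sq_iff_eq_or_eq_neg]; omega
    have h5 : Nat.card (Subgroup.center G) = 2 := by
      rw [h4, hcG, hr] at hk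
      have : (2 * 2 ^ r) ^ 2 = 2 * 2 ^ (2 * r) * Nat.card (Subgroup.center G) := by exact_mod_cast hk
      exact (Nat.eq_of_mul_eq_mul_left (by positivity : 0 < 2 * 2 ^ (2 * r))
        (by rw [← this]; ring)).symm
    have h6 : frattini G = Subgroup.center G := Subgroup.eq_of_le_of_card_ge hc (by omega)
    refine ⟨⟨hG, h6, Subgroup.eq_of_le_of_card_ge (h6 ▸ H3.commutator_le_frattini hG) ?_⟩, h5⟩
    rw [h5]
    refine (Subgroup.one_lt_card_iff_ne_bot _).2 fun e => hZ ?_
    rwa [← commutator_eq_bot_iff_center_eq_top]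

end Cfsg.Agent.S3772
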