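import Cfsg.Statements.S3774
import Cfsg.Agent.H3.PBasic

set_option autoImplicit false
open Cfsg

namespace Cfsg.Agent.S3774

open Subgroup

theorem dvd_of_pow_sub_one_dvd {a n : ℕ} (h : 2 ^ a - 1 ∣ 2 ^ n - 1) : a ∣ n := by
  have h1 := Nat.pow_sub_one_gcd_pow_sub_one 2 a n
  rw [Nat.gcd_eq_left h] at h1
  have h2 : 2 ^ a = 2 ^ Nat.gcd a n := by
    have := Nat.one_le_two_pow (n := a)
    have := Nat.one_le_two_pow (n := Nat.gcd a n)
    omega
  have h3 := Nat.pow_right_injective le_rfl h2
  exact h3 ▸ Nat.gcd_dvd_right a n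

/-- Let G be a nontrivial finite 2-group whose automorphism group permutes the involutions of G transitively. Then every involution of G is central, so that the involutions together with 1 form the subgroup Ω₁(Z(G)), and if this subgroup has order q then |G| is a power of q. -/
theorem result {G : Type*} [Group G] [Finite G] [Nontrivial G] (hG : IsPGroup 2 G) (htrans : ∀ x y : G, x ≠ 1 → x ^ 2 = 1 → y ≠ 1 → y ^ 2 = 1 → ∃ a : MulAut G, a x = y) : (∀ x : G, x ^ 2 = 1 → x ∈ Subgroup.center G) ∧ ∃ m : ℕ, Nat.card G = Nat.card {z : G // z ^ 2 = 1} ^ m := by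
  classical
  obtain ⟨z, -, hzc, hzo⟩ := H3.exists_central_orderOf_eq_prime hG ⊤ top_ne_bot
  have hz1 : z ≠ 1 := by rintro rfl; simp at hzo
  have hz2 : z ^ 2 = 1 := hzo ▸ pow_orderOf_eq_one z
  have hcen : ∀ x : G, x ^ 2 = 1 → x ∈ Subgroup.center G := by
    intro x hx
    by_cases hx1 : x = 1
    · rw [hx1]; exact one_mem _
    obtain ⟨a, rfl⟩ := htrans z x hz1 hz2 hx1 hx
    rw [mem_center_iff]
    intro g
    obtain ⟨g, rfl⟩ := a.surjective g
    rw [← map_mul, ← map_mul, mem_center_iff.1 hzc g]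
  refine ⟨hcen, ?_⟩
  let N : Subgroup G :=
    { carrier := {z | z ^ 2 = 1}
      one_mem' := one_pow 2
      mul_mem' := fun {x y} hx hy => by
        have : Commute x y := mem_center_iff.1 (hcen y hy) x
        show (x * y) ^ 2 = 1
        rw [this.mul_pow, show x ^ 2 = 1 from hx, show y ^ 2 = 1 from hy, one_mul]
      inv_mem' := fun {x} hx => by
        show x⁻¹ ^ 2 = 1
        rw [inv_pow, show x ^ 2 = 1 from hx, inv_one] }
  obtain ⟨a, ha⟩ := (hG.to_subgroup N).exists_card_eq
  obtain ⟨n, hn⟩ := hG.exists_card_eq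
  have hq : Nat.card {z : G // z ^ 2 = 1} = 2 ^ a := ha
  letI := Fintype.ofFinite G
  set S : Finset G := Finset.univ.filter fun x => x ≠ 1 with hS
  set T : Finset G := Finset.univ.filter fun x => x ≠ 1 ∧ x ^ 2 = 1 with hT
  set f : G → G := fun x => x ^ (orderOf x / 2) with hf
  have hfa : ∀ (a : MulAut G) x, f (a x) = a (f x) := by
    intro a x
    simp only [hf, map_pow, MulEquiv.orderOf_eq]
  have hmaps : ∀ x ∈ S, f x ∈ T := by
    intro x hx
    have hx1 : x ≠ 1 := (Finset.mem_filter.1 hx).2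
    obtain ⟨k, hk⟩ := IsPGroup.iff_orderOf.1 hG x
    have h2 : 2 ∣ orderOf x := by
      rw [hk]
      refine dvd_pow_self 2 ?_
      rintro rfl
      exact hx1 (orderOf_eq_one_iff.1 hk)
    have h3 := orderOf_pow_orderOf_div (orderOf_pos x).ne' h2
    refine Finset.mem_filter.2 ⟨Finset.mem_univ _, ?_, ?_⟩
    · intro h
      rw [show x ^ (orderOf x / 2) = 1 from h, orderOf_one] at h3
      omega
    · exact h3 ▸ pow_orderOf_eq_one _
  have hcard := Finset.card_eq_sum_card_fiberwise hmaps
  have hfib : ∀ t ∈ T, (S.filter fun x => f x = t).card = (S.filter fun x => f x = z).card := by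
    intro t ht
    obtain ⟨a, rfl⟩ := htrans z t hz1 hz2 (Finset.mem_filter.1 ht).2.1 (Finset.mem_filter.1 ht).2.2
    symm
    apply Finset.card_bijective a a.bijective
    intro x
    simp only [hS, Finset.mem_filter, Finset.mem_univ, true_and, hfa, a.apply_eq_iff_eq, ne_eq,
      EmbeddingLike.map_eq_one_iff]
  rw [Finset.sum_congr rfl hfib, Finset.sum_const, smul_eq_mul] at hcard
  have hScard : S.card = 2 ^ n - 1 := by
    rw [← hn, Nat.card_eq_fintype_card, hS, Finset.filter_ne', Finset.card_erase_of_mem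
      (Finset.mem_univ _), Finset.card_univ]
  have hTcard : T.card = 2 ^ a - 1 := by
    rw [← hq, Nat.card_eq_fintype_card, Fintype.card_subtype]
    rw [← Finset.card_erase_of_mem (a := (1 : G)) (by simp)]
    congr 1
    ext x
    simp [hT]
  obtain ⟨m, rfl⟩ : a ∣ n := dvd_of_pow_sub_one_dvd ⟨_, by rw [← hScard, ← hTcard, hcard]⟩
  exact ⟨m, by rw [hn, hq, pow_mul]⟩

end Cfsg.Agent.S3774
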