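import Cfsg.Statements.S3775
import Cfsg.Agent.H1.MaschkeSec

set_option autoImplicit false
open Cfsg

namespace Cfsg.Agent.S3775

open Subgroup

/-- Let A be a finite abelian p-group and X a group of automorphisms of A of order prime to p. Call a subgroup of A invariant when every element of X maps it onto itself. Then the following are equivalent: (i) A is not the direct product of two nontrivial invariant subgroups; (ii) every invariant subgroup of A is one of the subgroups Ω_i(A) = {a : a^(p^i) = 1}; (iii) the subgroup Ω₁(A) of elements of order dividing p has no invariant subgroups other than 1 and itself. -/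
theorem result {A : Type*} [CommGroup A] [Finite A] {p : ℕ} [Fact p.Prime] (hA : IsPGroup p A) (X : Subgroup (MulAut A)) (hX : (Nat.card X).Coprime p) : ((¬ ∃ B C : Subgroup A, B ≠ ⊥ ∧ C ≠ ⊥ ∧ (∀ x ∈ X, B.map x.toMonoidHom = B) ∧ (∀ x ∈ X, C.map x.toMonoidHom = C) ∧ B ⊓ C = ⊥ ∧ B ⊔ C = ⊤) ↔ (∀ B : Subgroup A, (∀ x ∈ X, B.map x.toMonoidHom = B) → ∃ i : ℕ, ∀ a : A, a ∈ B ↔ a ^ p ^ i = 1)) ∧ ((∀ B : Subgroup A, (∀ x ∈ X, B.map x.toMonoidHom = B) → ∃ i : ℕ, ∀ a : A, a ∈ B ↔ a ^ p ^ i = 1) ↔ (∀ B : Subgroup A, (∀ x ∈ X, B.map x.toMonoidHom = B) → (∀ b ∈ B, b ^ p = 1) → B = ⊥ ∨ ∀ a : A, a ∈ B ↔ a ^ p = 1)) := by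
  have hp : p.Prime := Fact.out
  have hinv : ∀ B : Subgroup A, (∀ x ∈ X, B.map x.toMonoidHom = B) ↔
      ∀ x : X, ∀ b ∈ B, X.subtype x b ∈ B := fun B =>
    ⟨fun h x b hb => h x x.2 ▸ mem_map_of_mem _ hb, fun h x hx => H1.eq_of_le_of_card_le
      (by rintro _ ⟨b, hb, rfl⟩; exact h ⟨x, hx⟩ b hb)
      (card_map_of_injective (f := x.toMonoidHom) x.injective).ge⟩
  simp only [hinv]
  have hinvp : ∀ B : Subgroup A, (∀ x : X, ∀ b ∈ B, X.subtype x b ∈ B) → ∀ n : ℕ, ∀ x : X,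
      ∀ b ∈ B.map (powMonoidHom n), X.subtype x b ∈ B.map (powMonoidHom n) := by
    rintro B hB n x _ ⟨b, hb, rfl⟩
    exact ⟨_, hB x b hb, by simp⟩
  have h23 : (∀ B : Subgroup A, (∀ x : X, ∀ b ∈ B, X.subtype x b ∈ B) → ∃ i : ℕ, ∀ a : A, a ∈ B ↔ a ^ p ^ i = 1) → (∀ B : Subgroup A, (∀ x : X, ∀ b ∈ B, X.subtype x b ∈ B) → (∀ b ∈ B, b ^ p = 1) → B = ⊥ ∨ ∀ a : A, a ∈ B ↔ a ^ p = 1) := by
    intro h B hB hBp
    obtain ⟨i, hi⟩ := h B hB
    rcases i with _ | i
    · left; ext a; simpa using hi a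
    · right
      exact fun a => ⟨hBp a, fun ha => (hi a).mpr (by rw [pow_succ', pow_mul, ha, one_pow])⟩
  have h32 : (∀ B : Subgroup A, (∀ x : X, ∀ b ∈ B, X.subtype x b ∈ B) → (∀ b ∈ B, b ^ p = 1) → B = ⊥ ∨ ∀ a : A, a ∈ B ↔ a ^ p = 1) → (∀ B : Subgroup A, (∀ x : X, ∀ b ∈ B, X.subtype x b ∈ B) → ∃ i : ℕ, ∀ a : A, a ∈ B ↔ a ^ p ^ i = 1) := by
    intro h B
    induction B using H1.subgroup_strong_induction with
    | h B ih =>
    intro hB
    rcases eq_or_ne B ⊥ with rfl | h0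
    · exact ⟨0, by simp⟩
    obtain ⟨b, hbB, -, hb⟩ := H3.exists_central_orderOf_eq_prime hA B h0
    have hb1 : b ≠ 1 := by rintro rfl; exact hp.one_lt.ne (by simpa using hb)
    have hbp : b ^ p = 1 := hb ▸ pow_orderOf_eq_one b
    have hΩ : ∀ a : A, a ^ p = 1 → a ∈ B := by
      rcases h (B ⊓ (powMonoidHom p).ker) (fun x c hc => mem_inf.mpr ⟨hB x c hc.1, by
        have := (mem_inf.mp hc).2
        rw [MonoidHom.mem_ker, powMonoidHom_apply] at this ⊢
        rw [← map_pow, this, map_one]⟩) (fun c hc => by simpa using (mem_inf.mp hc).2) with h1 | h1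
      · exact absurd (mem_bot.mp (h1 ▸ mem_inf.mpr ⟨hbB, hbp⟩)) hb1
      · exact fun a ha => ((h1 a).mpr ha).1
    have hlt : B.map (powMonoidHom p) < B := by
      refine lt_of_le_of_ne (by rintro _ ⟨c, hc, rfl⟩; exact pow_mem hc p) fun he => hb1 ?_
      have h1 := H1.card_inf_mul_relIndex (powMonoidHom p : A →* A).ker B
      rw [relIndex_ker, he, mul_eq_right₀ Nat.card_pos.ne', card_eq_one] at h1
      exact mem_bot.mp (h1 ▸ mem_inf.mpr ⟨hbp, hbB⟩)
    obtain ⟨i, hi⟩ := ih _ hlt (hinvp B hB p)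
    refine ⟨i + 1, fun a => ⟨fun ha => ?_, fun ha => ?_⟩⟩
    · rw [pow_succ', pow_mul]; exact (hi _).mp ⟨a, ha, rfl⟩
    · rw [pow_succ', pow_mul] at ha
      obtain ⟨c, hc, hca⟩ := (hi _).mpr ha
      have := hΩ (a * c⁻¹) (by rw [mul_pow, ← hca]; simp)
      simpa using mul_mem this hc
  refine ⟨⟨fun h => h32 fun B hB hBp => ?_, fun h => ?_⟩, h23, h32⟩
  · rcases subsingleton_or_nontrivial A with hs | hs
    · exact Or.inl (Subsingleton.elim _ _)
    obtain ⟨e, he1, he2⟩ := H1.exists_exponent_eq hA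
    obtain ⟨H, W, hH, hW, h1, h2, ⟨v, hv, hve⟩, h3, h4⟩ :=
      H1.exists_invariant_homocyclic_factor X.subtype hp hX he1 he2
    have hH0 : H ≠ ⊥ := by rintro rfl; exact hve (by rw [mem_bot.mp hv, one_pow])
    have hW0 : W = ⊥ := by
      by_contra hne
      exact h ⟨H, W, hH0, hne, hH, hW, h1, h2⟩
    rw [hW0, sup_bot_eq] at h2
    subst h2
    have hΩ : ∀ k ≤ e, ∀ a : A, a ^ p ^ (e + 1 - k) = 1 → ∃ c, c ^ p ^ k = a := by
      intro k
      induction k with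
      | zero => exact fun _ a _ => ⟨a, by simp⟩
      | succ k ih =>
        intro hk a ha
        obtain ⟨c, rfl⟩ := ih (by omega) a (by
          rw [show e + 1 - k = e + 1 - (k + 1) + 1 by omega, pow_succ, pow_mul, ha, one_pow])
        obtain ⟨d, -, rfl⟩ := h3 c (mem_top _) (by
          rw [← pow_mul, ← pow_add, show k + (e + 1 - (k + 1)) = e by omega] at ha; exact ha)
        exact ⟨d, by rw [← pow_mul, ← pow_succ']⟩
    rcases h4 (B.comap (powMonoidHom (p ^ e))) le_top (fun x c hc => by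
      rw [mem_comap, powMonoidHom_apply] at hc ⊢
      rw [← map_pow]; exact hB x _ hc) with h5 | h5
    · left
      rw [eq_bot_iff]
      intro b hb
      obtain ⟨c, rfl⟩ := hΩ e le_rfl b (by simpa using hBp b hb)
      exact h5 c hb
    · right
      refine fun a => ⟨hBp a, fun ha => ?_⟩
      obtain ⟨c, rfl⟩ := hΩ e le_rfl a (by simpa using ha)
      have : c ∈ B.comap (powMonoidHom (p ^ e)) := h5 ▸ mem_top c
      exact this
  · rintro ⟨B, C, hB0, hC0, hB, hC, h1, -⟩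
    obtain ⟨i, hi⟩ := h B hB
    obtain ⟨j, hj⟩ := h C hC
    rcases le_total i j with hij | hij
    · refine hB0 (h1 ▸ (inf_eq_left.mpr fun a ha => (hj a).mpr ?_).symm)
      obtain ⟨k, rfl⟩ := Nat.exists_eq_add_of_le hij
      rw [pow_add, pow_mul, (hi a).mp ha, one_pow]
    · refine hC0 (h1 ▸ (inf_eq_right.mpr fun a ha => (hi a).mpr ?_).symm)
      obtain ⟨k, rfl⟩ := Nat.exists_eq_add_of_le hij
      rw [pow_add, pow_mul, (hj a).mp ha, one_pow]

end Cfsg.Agent.S3775
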