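import Cfsg.Statements.S3776
import Cfsg.Agent.H9.Sz2
import Cfsg.Agent.H9.Sz3
import Cfsg.Agent.H9.ClassSize
import Cfsg.Agent.H1.Hall
import Cfsg.Agent.H1.PAction

set_option autoImplicit false
open Cfsg

namespace Cfsg.Agent.S3776

open Subgroup Cfsg.Agent.H9 Cfsg.Agent.H9.Sz SemidirectProduct

theorem sq_sq {G H : Type*} [Group G] [Finite G] [Group H] [Finite H] [Group.IsSolvable H]
    (hG : IsPGroup 2 G) (hna : ¬ IsMulCommutative G) (ho : Odd (Nat.card H)) (θ : H →* MulAut G)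
    {Z : Subgroup G} (hZ : ∀ x, x ∈ Z ↔ x * x = 1) (hc : Z ≤ center G) (h3 : 2 < Nat.card Z)
    (tr : ∀ x ∈ Z, ∀ y ∈ Z, x ≠ 1 → y ≠ 1 → ∃ h, θ h x = y) (x : G) : x * x ∈ Z := by
  classical
  let _ : CommGroup Z := { (inferInstance : Group Z) with
    mul_comm := fun a b => Subtype.ext (mem_center_iff.1 (hc b.2) a) }
  have hθ : ∀ h, ∀ x ∈ Z, θ h x ∈ Z := fun h x hx => by
    rw [hZ, ← map_mul, (hZ x).1 hx, map_one]
  let π := (restrictAut θ Z hθ).rangeRestrict
  let _ : DistribMulAction (restrictAut θ Z hθ).range (Additive Z) :=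
    { smul := fun h v => Additive.ofMul (h.1 v.toMul)
      one_smul := fun _ => rfl
      mul_smul := fun _ _ _ => rfl
      smul_zero := fun h => map_one h.1
      smul_add := fun h v w => map_mul h.1 v.toMul w.toMul }
  have t : Tr (restrictAut θ Z hθ).range (Additive Z) :=
    ⟨fun v => Subtype.ext ((hZ _).1 v.toMul.2), fun h hh => Subtype.ext (MulEquiv.ext hh),
      fun v w hv hw => by
        obtain ⟨h, hh⟩ := tr _ v.toMul.2 _ w.toMul.2 (fun e => hv (Subtype.ext e))
          fun e => hw (Subtype.ext e)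
        exact ⟨π h, Subtype.ext hh⟩⟩
  have := Group.isSolvable_of_surjective (restrictAut θ Z hθ).rangeRestrict_surjective
  have : Nontrivial (Additive Z) := Finite.one_lt_card_iff_nontrivial.1 (lt_trans one_lt_two h3)
  obtain ⟨F, _, _, _, φ, α, γ, M, n, h1, h2, h4, h5⟩ :=
    t.semilinear (ho.of_dvd_nat (card_range_dvd _))
  have : Finite (G ⋊[θ] H) := Finite.of_equiv _ SemidirectProduct.equivProd.symm
  let φ' : G ⋊[θ] H → F := fun x => if h : x.left ∈ Z then φ (Additive.ofMul ⟨_, h⟩) else 0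
  have e1 : ∀ z (hz : z ∈ Z), φ' (inl z) = φ (Additive.ofMul ⟨z, hz⟩) := fun z hz => dif_pos hz
  have s : Suz (inl : G →* G ⋊[θ] H).range (inr : H →* G ⋊[θ] H).range (Z.map inl) φ'
      (fun x => α (π x.right)) (fun x => γ (π x.right)) M n :=
    { pgrp := hG.of_surjective _ (MonoidHom.rangeRestrict_surjective _)
      norm := by rw [range_inl_eq_ker_rightHom, normalizer_eq_top]; exact le_top
      odd := Nat.coprime_two_right.2 (ho.of_dvd_nat (card_range_dvd _))
      memZ := fun x => ⟨by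
        rintro ⟨z, hz, rfl⟩
        exact ⟨⟨z, rfl⟩, by rw [← map_mul, (hZ z).1 hz, map_one]⟩, by
        rintro ⟨⟨z, rfl⟩, hz⟩
        exact ⟨z, (hZ z).2 (inl_injective (by rwa [map_mul, map_one])), rfl⟩⟩
      cent := by
        rintro _ ⟨x, rfl⟩ _ ⟨z, hz, rfl⟩
        exact Commute.map (mem_center_iff.1 (hc hz) x) _
      add := by
        rintro _ ⟨x, hx, rfl⟩ _ ⟨z, hz, rfl⟩
        rw [← map_mul, e1 x hx, e1 z hz, e1 _ (Z.mul_mem hx hz), ← map_add]; rfl
      ker := by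
        rintro _ ⟨x, hx, rfl⟩ e
        rw [e1 x hx, map_eq_zero_iff _ φ.injective] at e
        rw [show x = 1 from congrArg Subtype.val e, map_one]
      surj := fun y => ⟨_, ⟨_, (φ.symm y).toMul.2, rfl⟩, (e1 _ (φ.symm y).toMul.2).trans
        (φ.apply_symm_apply y)⟩
      conj := by
        rintro _ ⟨h, rfl⟩ _ ⟨x, hx, rfl⟩
        rw [← map_inv, ← inl_aut, e1 x hx, e1 _ (hθ h x hx), right_inr, ← h1]; rfl
      tr := fun x y hx hy => by
        obtain ⟨h, hh⟩ := t.tr (φ.symm x) (φ.symm y) (by simpa) (by simpa)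
        obtain ⟨h, rfl⟩ := (restrictAut θ Z hθ).rangeRestrict_surjective h
        exact ⟨_, ⟨h, rfl⟩, by
          have := h1 (π h) (φ.symm x)
          rw [hh, φ.apply_symm_apply, φ.apply_symm_apply] at this
          exact this.symm⟩
      sqr := by
        rintro _ ⟨h, rfl⟩
        obtain ⟨k, hk⟩ := ho
        refine ⟨γ (π (h ^ (k + 1))), fun x => ?_⟩
        rw [← RingAut.mul_apply, ← map_mul, ← map_mul, ← pow_add, right_inr,
          show k + 1 + (k + 1) = 2 * k + 1 + 1 by ring, ← hk, pow_succ, pow_card_eq_one', one_mul]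
      mul := fun m hm => by
        obtain ⟨h, e2, e3⟩ := h2 m hm
        obtain ⟨h, rfl⟩ := (restrictAut θ Z hθ).rangeRestrict_surjective h
        exact ⟨_, ⟨h, rfl⟩, e2, DFunLike.congr_fun e3⟩
      card := h4
      idx := h5
      two := by
        have e2 : Nat.card Z = 2 ^ n := by
          rw [← h4, ← Nat.card_eq_fintype_card, ← Nat.card_congr φ.toEquiv]; rfl
        by_contra hn
        have := Nat.pow_le_pow_right two_pos (show n ≤ 1 by omega)
        omega }
  obtain ⟨z, hz, e⟩ := s.sq_mem (fun h => hna ⟨⟨fun a b => inl_injective (φ := θ) (by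
    rw [map_mul, map_mul]
    exact congrArg Subtype.val (h.is_comm.comm ⟨_, a, rfl⟩ ⟨_, b, rfl⟩))⟩⟩) _ ⟨x, rfl⟩
  exact inl_injective (φ := θ) (e.trans (map_mul _ x x).symm) ▸ hz

/-- Let G be a finite non-abelian 2-group with more than one involution admitting a solvable group of automorphisms that permutes its involutions transitively. Then the derived subgroup, the Frattini subgroup and the centre of G coincide and consist exactly of the elements x with x² = 1. -/
theorem result {G : Type*} [Group G] [Finite G] (hG : IsPGroup 2 G) (hna : ¬ IsMulCommutative G) (htwo : ∃ x y : G, x ≠ y ∧ x ≠ 1 ∧ x ^ 2 = 1 ∧ y ≠ 1 ∧ y ^ 2 = 1) (hY : ∃ Y : Subgroup (MulAut G), Group.IsSolvable Y ∧ ∀ x y : G, x ≠ 1 → x ^ 2 = 1 → y ≠ 1 → y ^ 2 = 1 → ∃ a ∈ Y, a x = y) : commutator G = frattini G ∧ frattini G = Subgroup.center G ∧ ∀ x : G, x ∈ Subgroup.center G ↔ x ^ 2 = 1 := by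
  obtain ⟨Y, hs, hY⟩ := hY
  obtain ⟨x₁, x₂, h12, h1, e1, h2, e2⟩ := htwo
  have : Nontrivial G := ⟨_, _, h12⟩
  have : Fact (Nat.Prime 2) := ⟨Nat.prime_two⟩
  have inv : ∀ W : Subgroup G, W.Characteristic → W ≠ ⊥ → ∀ x, x ^ 2 = 1 → x ∈ W := by
    intro W hW h0 x hx
    by_cases hx1 : x = 1
    · exact hx1 ▸ W.one_mem
    obtain ⟨n, hn⟩ := (hG.to_subgroup W).exists_card_eq
    obtain ⟨z, hz⟩ := exists_prime_orderOf_dvd_card' (G := W) 2 (hn ▸ dvd_pow_self 2 (by
      rintro rfl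
      exact h0 (card_eq_one.1 hn)))
    rw [← orderOf_coe, orderOf_eq_prime_iff] at hz
    obtain ⟨a, -, rfl⟩ := hY z x hz.2 hz.1 hx1 hx
    exact characteristic_iff_map_le.1 hW a ⟨z, z.2, rfl⟩
  have := hG.isNilpotent
  have hc := inv _ inferInstance (Group.IsNilpotent.center_ne_bot G)
  let Z : Subgroup G := (MonoidHom.mk' (fun x : center G => x * x) fun a b =>
    (show Commute b a from Subtype.ext (mem_center_iff.1 a.2 b)).mul_mul_mul_comm a b).ker.map (center G).subtype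
  have hZ : ∀ x, x ∈ Z ↔ x * x = 1 := fun x => ⟨by
    rintro ⟨z, hz, rfl⟩
    exact congrArg Subtype.val hz, fun hx => ⟨⟨x, hc x (by rwa [pow_two])⟩, Subtype.ext hx, rfl⟩⟩
  have hZ2 : ∀ x, x ∈ Z ↔ x ^ 2 = 1 := fun x => by rw [hZ, pow_two]
  have h3 : 2 < Nat.card Z := by
    have := Fintype.ofFinite Z
    rw [Nat.card_eq_fintype_card, Fintype.two_lt_card_iff]
    exact ⟨1, ⟨_, (hZ2 _).2 e1⟩, ⟨_, (hZ2 _).2 e2⟩, by simp [Subtype.ext_iff, h1.symm, h2.symm, h12]⟩
  obtain ⟨H, hH1, hH2⟩ := H1.exists_isPiHall_of_isSolvable (G := Y) {2}ᶜ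
  have cop : ∀ x ∈ Z, x ≠ 1 → (MulAction.stabilizer Y x).index.Coprime H.index := by
    intro x hx x1
    obtain ⟨n, hn⟩ := (hG.to_subgroup Z).exists_card_eq
    have e3 : (MulAction.stabilizer Y x).index + 1 = 2 ^ n := by
      rw [MulAction.index_stabilizer, ← hn, ← SetLike.coe_sort_coe Z, Nat.card_coe_set_eq,
        ← Set.ncard_diff_singleton_add_one (a := 1) Z.one_mem]
      congr 2
      ext w
      refine ⟨?_, fun hw => ?_⟩
      · rintro ⟨b, rfl⟩
        exact ⟨(hZ2 _).2 (by change b.1 x ^ 2 = 1; rw [← map_pow, (hZ2 x).1 hx, map_one]),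
          fun e => x1 (b.1.map_eq_one_iff.1 e)⟩
      · obtain ⟨b, hb, e⟩ := hY x w x1 ((hZ2 x).1 hx) hw.2 ((hZ2 w).1 hw.1)
        exact ⟨⟨b, hb⟩, e⟩
    refine Nat.coprime_of_dvd fun p hp d1 d2 => hH2 p hp ?_ d2
    rintro rfl
    rcases n with _ | n
    · omega
    · rw [pow_succ] at e3
      omega
  have key := sq_sq (H := H) hG hna (Nat.not_even_iff_odd.1 fun e =>
    hH1 2 Nat.prime_two e.two_dvd rfl) (Y.subtype.comp H.subtype) hZ (map_subtype_le _) h3
    fun x hx y hy x1 y1 => by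
      obtain ⟨a, ha, rfl⟩ := hY x y x1 ((hZ2 x).1 hx) y1 ((hZ2 y).1 hy)
      obtain ⟨u, hu, c, hc, e⟩ := exists_mul_eq_of_coprime_index (H := H)
        (K := MulAction.stabilizer Y x) (Nat.Coprime.symm (cop x hx x1)) ⟨a, ha⟩
      exact ⟨⟨u, hu⟩, by
        rw [show a = u * c from congrArg Subtype.val e.symm]
        exact congrArg (u : MulAut G) hc.symm⟩
  have d1 : commutator G ≤ frattini G := H3.commutator_le_frattini hG
  have d2 : frattini G ≤ Z := H1.frattini_le_of_elementaryAbelian_quotient Nat.prime_two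
    (commutator_le.2 fun x _ y _ => P2.comm_mem_of_sq_mem (S := ⊤) (fun x _ => key x) trivial trivial)
    fun x => pow_two x ▸ key x
  have d3 : Z ≤ commutator G := fun x hx => inv _ inferInstance
    (fun e => hna ((commutator_eq_bot_iff G).1 e)) x ((hZ2 x).1 hx)
  have d4 : center G ≤ Z := fun z hz => by_contra fun hz' => hna ⟨⟨fun x y => ?_⟩⟩
  · exact ⟨le_antisymm d1 (d2.trans d3), le_antisymm (d2.trans (map_subtype_le _))
      (d4.trans (d3.trans d1)), fun x => ⟨fun hx => (hZ2 x).1 (d4 hx), hc x⟩⟩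
  by_cases hy : y * y = 1
  · exact mem_center_iff.1 (hc y (by rwa [pow_two])) x
  obtain ⟨a, -, ha⟩ := hY _ _ (mt (hZ z).2 hz') ((hZ2 _).1 (key z)) hy ((hZ2 _).1 (key y))
  have h4 : a z ∈ center G := characteristic_iff_map_le.1 inferInstance a ⟨z, hz, rfl⟩
  have h5 := hc (y * (a z)⁻¹) (by
    rw [(show Commute y (a z) from mem_center_iff.1 h4 y).inv_right.mul_pow, inv_pow, pow_two,
      pow_two, ← map_mul, ha, mul_inv_cancel])
  exact mem_center_iff.1 (by simpa using (center G).mul_mem h5 h4) x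

end Cfsg.Agent.S3776
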