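import Cfsg.Statements.S3777
import Cfsg.Agent.H3.PBasic
import Cfsg.Agent.L.MinNormal

set_option autoImplicit false
open Cfsg

namespace Cfsg.Agent.S3777

open Subgroup
open scoped commutatorElement

universe u

variable {G : Type u} [Group G] [Finite G] {p : ℕ}

theorem lemma1 (A : Subgroup G) [hA : A.Normal] {g : G} (h : A ⊔ zpowers g = ⊤) (W : Subgroup G)
    (hW : ∀ x ∈ A, x ∈ W → ⁅x, g⁆ ∈ ⁅A, A⁆) :
    Nat.card (commutator G) ≤ Nat.card ↥⁅A, A⁆ * W.relIndex A := by
  have h1 : ∀ x ∈ A, ⁅x, g⁆ ∈ A := fun x hx => by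
    have := A.mul_mem hx (hA.conj_mem _ (A.inv_mem hx) g)
    simpa [commutatorElement_def, mul_assoc] using this
  have h2 : ∀ x ∈ A, ∀ y ∈ A, Commute (x : G ⧸ ⁅A, A⁆) y := fun x hx y hy => by
    rw [← commutatorElement_eq_one_iff_commute]
    exact (QuotientGroup.eq_one_iff ⁅x, y⁆).mpr (commutator_mem_commutator hx hy)
  let f : A →* G ⧸ ⁅A, A⁆ := MonoidHom.mk' (fun x => (⁅(x : G), g⁆ : G)) fun x y => by
    have e : ⁅((x * y : A) : G), g⁆ = x * ⁅(y : G), g⁆ * (x : G)⁻¹ * ⁅(x : G), g⁆ := by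
      simp only [commutatorElement_def, coe_mul]; group
    rw [e, QuotientGroup.mk_mul, QuotientGroup.mk_mul, QuotientGroup.mk_mul, QuotientGroup.mk_inv,
      (h2 _ x.2 _ (h1 _ y.2)).eq, mul_inv_cancel_right, (h2 _ (h1 _ x.2) _ (h1 _ y.2)).eq]
  obtain ⟨R, hR⟩ : ∃ R, R = f.range.comap (QuotientGroup.mk' ⁅A, A⁆) := ⟨_, rfl⟩
  have h3 : ⁅A, A⁆ ≤ R := fun x hx => by
    rw [hR, mem_comap, QuotientGroup.mk'_apply, (QuotientGroup.eq_one_iff x).mpr hx]
    exact one_mem _
  have h4 : R ≤ A := fun x hx => by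
    rw [hR] at hx
    obtain ⟨y, hy⟩ := hx
    have := commutator_le_left A A (QuotientGroup.eq.mp hy)
    exact (mul_mem_cancel_left (inv_mem (h1 _ y.2))).mp this
  have h5 : ∀ x ∈ A, ⁅x, g⁆ ∈ R := fun x hx => hR ▸ ⟨⟨x, hx⟩, rfl⟩
  have h6 : R.Normal := by
    rw [← normalizer_eq_top_iff, eq_top_iff, ← h, sup_le_iff, zpowers_le]
    refine ⟨fun a ha => mem_normalizer_fintype fun x hx => ?_, mem_normalizer_fintype fun x hx => ?_⟩
    · have := R.mul_mem (h3 (commutator_mem_commutator ha (h4 hx))) hx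
      simpa [commutatorElement_def] using this
    · rw [hR] at hx ⊢
      obtain ⟨y, hy⟩ := hx
      refine ⟨⟨g * y * g⁻¹, hA.conj_mem _ y.2 g⟩, ?_⟩
      have e : ⁅g * y * g⁻¹, g⁆ = g * ⁅(y : G), g⁆ * g⁻¹ := by
        simp only [commutatorElement_def]; group
      change ((⁅g * y * g⁻¹, g⁆ : G) : G ⧸ ⁅A, A⁆) = _
      rw [e, map_mul, map_mul, ← hy]
      rfl
  have h7 : ∀ x y : G, ⁅x, y⁆ ∈ R → Commute (QuotientGroup.mk' R x) (QuotientGroup.mk' R y) :=
    fun x y e => by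
      rw [← commutatorElement_eq_one_iff_commute, ← map_commutatorElement]
      exact (QuotientGroup.eq_one_iff _).mpr e
  have h8 : ∀ x : G, (∀ a ∈ A, ⁅a, x⁆ ∈ R) → ⁅g, x⁆ ∈ R → ∀ y, ⁅y, x⁆ ∈ R := fun x e1 e2 y => by
    have : (⊤ : Subgroup G) ≤ (centralizer {QuotientGroup.mk' R x}).comap (QuotientGroup.mk' R) := by
      rw [← h, sup_le_iff, zpowers_le]
      exact ⟨fun a ha => mem_centralizer_singleton_iff.mpr (h7 _ _ (e1 a ha)),
        mem_centralizer_singleton_iff.mpr (h7 _ _ e2)⟩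
    rw [← QuotientGroup.eq_one_iff, ← QuotientGroup.mk'_apply, map_commutatorElement,
      commutatorElement_eq_one_iff_mul_comm]
    exact mem_centralizer_singleton_iff.mp (this (mem_top y))
  have h9 : commutator G ≤ R := commutator_le.mpr fun x _ y _ => h8 y (fun a ha => by
      rw [← commutatorElement_inv, inv_mem_iff]
      exact h8 a (fun b hb => h3 (commutator_mem_commutator hb ha)) (by
        rw [← commutatorElement_inv, inv_mem_iff]; exact h5 a ha) y)
    (by rw [← commutatorElement_inv, inv_mem_iff]; exact h8 g h5 (by simp) y) x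
  refine (card_le_of_le h9).trans ?_
  rw [hR, H3.card_comap_mk', mul_comm, ← index_ker]
  exact Nat.mul_le_mul_left _ (index_antitone fun x hx =>
    (QuotientGroup.eq_one_iff _).mpr (hW x x.2 hx))

theorem lemma2 {A : Subgroup G} [A.Normal] (hA : IsCoatom A) {a : G} (ha : a ∈ A) :
    (∀ g, ⁅a, g⁆ ∈ ⁅A, A⁆) ∨ (centralizer {a}).relIndex A < (centralizer {a}).index := by
  by_cases h : centralizer {a} ≤ A
  · right
    rw [← relIndex_mul_index h]
    exact lt_mul_of_one_lt_right (Nat.pos_of_ne_zero index_ne_zero_of_finite)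
      (one_lt_index_of_ne_top hA.1)
  · refine Or.inl fun g => ?_
    have h1 : g ∈ ((A ⊔ centralizer {a} : Subgroup G) : Set G) := by
      rw [hA.2 _ (left_lt_sup.mpr h)]; trivial
    rw [normal_mul] at h1
    obtain ⟨x, hx, c, hc, rfl⟩ := h1
    have e : ⁅a, x * c⁆ = ⁅a, x⁆ := by
      have := mem_centralizer_singleton_iff.mp hc
      calc ⁅a, x * c⁆ = a * x * (c * a * c⁻¹)⁻¹ * x⁻¹ := by simp only [commutatorElement_def]; group
        _ = _ := by rw [this, mul_inv_cancel_right, commutatorElement_def]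
    exact e ▸ commutator_mem_commutator ha hx

theorem exists_hom [hp : Fact p.Prime] (hG : IsPGroup p G) {M : Subgroup G} (hM : IsCoatom M) :
    ∃ f : G →* Multiplicative (ZMod p), ∀ x, f x = 1 ↔ x ∈ M := by
  have h1 := H3.index_eq_of_isCoatom hG hM
  have := H3.normal_of_index_eq_prime hG h1
  let e := mulEquivOfPrimeCardEq (p := p) (G := G ⧸ M) (G' := Multiplicative (ZMod p)) h1 (by simp)
  exact ⟨e.toMonoidHom.comp (QuotientGroup.mk' M), fun x => by simp⟩

theorem third [hp : Fact p.Prime] (hG : IsPGroup p G) {M N : Subgroup G} (hM : IsCoatom M)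
    (hN : IsCoatom N) (hne : M ≠ N) : ∃ A : Subgroup G, IsCoatom A ∧ (∀ x ∈ A, x ∈ M ↔ x ∈ N) ∧
      ¬ A ≤ M ∧ (p ≠ 2 → ∃ g, g ∉ A ∧ g ∉ M ∧ g ∉ N) := by
  obtain ⟨f, hf⟩ := exists_hom hG hM
  obtain ⟨f', hf'⟩ := exists_hom hG hN
  obtain ⟨x, hx, hx'⟩ := SetLike.not_le_iff_exists.mp fun e : M ≤ N =>
    hne (hM.le_iff.mp e |>.resolve_left hN.1).symm
  obtain ⟨y, hy, hy'⟩ := SetLike.not_le_iff_exists.mp fun e : N ≤ M =>
    hne (hN.le_iff.mp e |>.resolve_left hM.1)
  have h0 : ∀ z, z ∈ (f / f').ker ↔ f z = f' z := fun z => by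
    rw [MonoidHom.mem_ker, MonoidHom.div_apply, div_eq_one]
  have h1 : ∀ z ∈ (f / f').ker, z ∈ M ↔ z ∈ N := fun z hz => by rw [← hf, ← hf', (h0 z).mp hz]
  have h2 : IsCoatom (f / f').ker := H3.isCoatom_of_index_prime (by
    have h3 : (f / f').ker.index ∣ p := by
      rw [index_ker]; simpa using (f / f').range.card_subgroup_dvd_card
    rw [((Nat.dvd_prime hp.out).mp h3).resolve_left fun e =>
      hx' ((h1 x (index_eq_one.mp e ▸ mem_top x)).mp hx)]
    exact hp.out)
  refine ⟨_, h2, h1, fun e => ?_, fun hp2 => ?_⟩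
  · have e' : (f / f').ker ≤ N := fun z hz => (h1 z hz).mp (e hz)
    exact hne ((h2.le_iff.mp e |>.resolve_left hM.1).trans
      (h2.le_iff.mp e' |>.resolve_left hN.1).symm)
  rw [← hf] at hx hy'
  rw [← hf'] at hx' hy
  simp only [h0, ← hf, ← hf']
  by_cases e : f y = f' x
  · refine ⟨x ^ 2 * y, ?_⟩
    simp only [map_mul, map_pow, hx, hy, one_pow, one_mul, mul_one, e]
    refine ⟨fun e' => hx' (by simpa [sq] using e'), hx', fun e' => hp2 ?_⟩
    have h4 := orderOf_eq_prime e' hx'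
    have h5 := orderOf_dvd_natCard (f' x)
    rw [h4, show Nat.card (Multiplicative (ZMod p)) = p by simp] at h5
    exact ((Nat.prime_dvd_prime_iff_eq Nat.prime_two hp.out).mp h5).symm
  · exact ⟨x * y, by simpa [hx, hy, e, hy'] using hx'⟩

omit [Finite G] in
theorem exists_notMem {X H K : Subgroup G} (hH : ¬ X ≤ H) (hK : ¬ X ≤ K) :
    ∃ g ∈ X, g ∉ H ∧ g ∉ K := by
  obtain ⟨x, hx, hx'⟩ := SetLike.not_le_iff_exists.mp hH
  obtain ⟨y, hy, hy'⟩ := SetLike.not_le_iff_exists.mp hK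
  by_cases e : x ∈ K
  · by_cases e' : y ∈ H
    · exact ⟨x * y, mul_mem hx hy, fun h => hx' ((mul_mem_cancel_right e').mp h),
        fun h => hy' ((mul_mem_cancel_left e).mp h)⟩
    · exact ⟨y, hy, e', hy'⟩
  · exact ⟨x, hx, hx', e⟩

theorem index_le [hp : Fact p.Prime] (hG : IsPGroup p G) {H : Subgroup G} {k : ℕ}
    (h : H.index < p ^ (k + 1)) : H.index ≤ p ^ k := by
  obtain ⟨i, hi⟩ := hG.index H
  rw [hi] at h ⊢
  exact Nat.pow_le_pow_right hp.out.pos
    (Nat.lt_succ_iff.mp ((Nat.pow_lt_pow_iff_right hp.out.one_lt).mp h))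

theorem mul_card_le [hp : Fact p.Prime] (hG : IsPGroup p G) {H : Subgroup G} {k : ℕ}
    (h : Nat.card H < p ^ k) : Nat.card H * p ≤ p ^ k := by
  obtain ⟨i, hi⟩ := (hG.to_subgroup H).exists_card_eq
  rw [hi] at h ⊢
  exact Nat.pow_le_pow_right hp.out.pos ((Nat.pow_lt_pow_iff_right hp.out.one_lt).mp h)

theorem relIndex_le_index (H K : Subgroup G) : H.relIndex K ≤ H.index := by
  rw [← relIndex_top_right]
  exact relIndex_le_of_le_right le_top index_ne_zero_of_finite

/-- The inductive statement for a subgroup. -/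
def PA (p : ℕ) (X : Subgroup G) : Prop := ∀ (n : ℕ) (H K : Subgroup G), ¬ X ≤ H →
  (K ⊓ X ≤ H ∨ 3 ≤ K.relIndex X) →
  (∀ g ∈ X, g ∉ H → g ∉ K → (centralizer {g}).relIndex X < p ^ n) →
  Nat.card ↥⁅X, X⁆ ≤ p ^ n.choose 2

omit [Finite G] in
theorem index_centralizer (X : Subgroup G) (g : X) :
    (centralizer {g}).index = (centralizer {(g : G)}).relIndex X := by
  rw [relIndex]; congr 1; ext y
  simp [mem_centralizer_singleton_iff, mem_subgroupOf, Subtype.ext_iff]

omit [Finite G] in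
theorem card_commutator (X : Subgroup G) : Nat.card (commutator X) = Nat.card ↥⁅X, X⁆ := by
  rw [← map_subtype_commutator, card_subtype]

omit [Finite G] in
theorem pa_of_top {X : Subgroup G} (h : PA p (⊤ : Subgroup X)) : PA p X := by
  intro n H K h1 h2 h3
  rw [← card_commutator]
  refine h n (H.subgroupOf X) (K.subgroupOf X) (by simpa using h1) (h2.imp
    (fun e x hx => e ⟨hx.1, x.2⟩) (by rw [relIndex_top_right]; exact id)) fun g _ h4 h5 => ?_
  rw [relIndex_top_right, index_centralizer]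
  exact h3 g g.2 h4 h5

theorem choose_succ (k : ℕ) : (k + 1).choose 2 = k.choose 2 + k := by
  rw [Nat.choose_succ_succ, Nat.choose_one_right, add_comm]

theorem step5 [hp : Fact p.Prime] (hG : IsPGroup p G) (ih : ∀ X : Subgroup G, X ≠ ⊤ → PA p X)
    {D E : Subgroup G} (hD : IsCoatom D) (hE : IsCoatom E) (hne : D ≠ E) {k : ℕ}
    (h1 : ∀ a ∈ E, a ∉ D → (centralizer {a}).index ≤ p ^ k)
    (h2 : ∀ a, a ∉ D → a ∉ E → (centralizer {a}).index < p ^ k) :
    Nat.card (commutator G) < p ^ (k + 1).choose 2 := by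
  by_contra! hc
  obtain ⟨A, hA, h3, h4, -⟩ := third hG hD hE hne
  have := hG.isNilpotent
  have := H3.normal_of_isCoatom hA
  have h5 : ∀ a ∈ A, a ∉ D → (centralizer {a}).index < p ^ k := fun a ha ha' =>
    h2 a ha' (mt (h3 a ha).mpr ha')
  obtain ⟨e, he, he'⟩ := SetLike.not_le_iff_exists.mp fun e : E ≤ D =>
    hne (hE.le_iff.mp e |>.resolve_left hD.1)
  obtain ⟨K, hK⟩ : ∃ K : Subgroup G, ∀ x, x ∈ K ↔ ⁅x, e⁆ ∈ ⁅A, A⁆ :=
    ⟨(centralizer {QuotientGroup.mk' ⁅A, A⁆ e}).comap (QuotientGroup.mk' _), fun x => by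
      rw [mem_comap, mem_centralizer_singleton_iff, ← commutatorElement_eq_one_iff_mul_comm,
        ← map_commutatorElement, QuotientGroup.mk'_apply, QuotientGroup.eq_one_iff]⟩
  have h6 := hc.trans (lemma1 A (hA.2 _ (left_lt_sup.mpr fun e' => he'
    ((h3 e (e' (mem_zpowers e))).mpr he))) K fun x _ hx => (hK x).mp hx)
  have h7 := ih A hA.1 k D D h4 (Or.inl inf_le_left) fun a ha ha' _ =>
    (relIndex_le_index _ _).trans_lt (h5 a ha ha')
  have h8 : K.relIndex A ≤ p ^ k := (relIndex_le_index _ _).trans ((index_antitone fun x hx => by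
    rw [hK, commutatorElement_eq_one_iff_mul_comm.mpr (mem_centralizer_singleton_iff.mp hx)]
    exact one_mem _).trans (h1 e he he'))
  rw [choose_succ, pow_add] at h6
  have h9 := Nat.le_of_mul_le_mul_left (h6.trans (Nat.mul_le_mul_right _ h7))
    (pow_pos hp.out.pos _)
  have h10 := Nat.le_of_mul_le_mul_right (h6.trans (Nat.mul_le_mul_left _ h8))
    (pow_pos hp.out.pos _)
  have h11 : ∀ a ∈ A, a ∉ K → (centralizer {a}).relIndex A < (centralizer {a}).index :=
    fun a ha ha' => (lemma2 hA ha).resolve_left fun e' => ha' ((hK a).mpr (e' e))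
  have h12 : ∀ a : G, 0 < (centralizer {a}).relIndex A := fun a =>
    Nat.pos_of_ne_zero index_ne_zero_of_finite
  obtain ⟨a, ha, ha'⟩ := SetLike.not_le_iff_exists.mp h4
  rcases k with _ | _ | j
  · exact absurd ((relIndex_le_index _ A).trans_lt (h5 a ha ha'))
      (by have := h12 a; rw [pow_zero]; omega)
  · obtain ⟨b, hb, hb1, hb2⟩ := exists_notMem h4 (K := K) fun e' => by
      rw [relIndex_eq_one.mpr e', zero_add, pow_one] at h9
      have := hp.out.one_lt
      omega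
    have := (h11 b hb hb2).trans_le (index_le hG (h5 b hb hb1))
    have := h12 b
    rw [pow_zero] at *
    omega
  · have h13 := h10.trans (ih A hA.1 (j + 1) D K h4 (Or.inr (le_trans ?_ h9)) fun b hb hb1 hb2 =>
      (h11 b hb hb2).trans_le (index_le hG (h5 b hb hb1)))
    · rw [Nat.pow_le_pow_iff_right hp.out.one_lt, choose_succ (j + 1)] at h13
      omega
    · calc 3 ≤ 2 ^ 2 := by norm_num
        _ ≤ p ^ 2 := Nat.pow_le_pow_left hp.out.two_le 2
        _ ≤ _ := Nat.pow_le_pow_right hp.out.pos (by omega)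

theorem step [hp : Fact p.Prime] (hG : IsPGroup p G) (ih : ∀ X : Subgroup G, X ≠ ⊤ → PA p X)
    (ih' : ∀ A : Subgroup G, A ≠ ⊤ → ∀ X : Subgroup A, X ≠ ⊤ → PA p X) :
    PA p (⊤ : Subgroup G) := by
  intro n H K h1 h2 h3
  by_contra! hc
  simp only [relIndex_top_right, inf_top_eq, mem_top, true_implies] at h2 h3
  have := hG.isNilpotent
  obtain ⟨M, hM, hHM⟩ := (eq_top_or_exists_le_coatom H).resolve_left fun e => h1 e.ge
  obtain ⟨N, hN, hne, hKN⟩ : ∃ N : Subgroup G, IsCoatom N ∧ M ≠ N ∧ (K ≤ M ∨ K ≤ N ∧ 3 ≤ K.index) := by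
    by_cases e : K ≤ M
    · by_contra! e'
      have h4 := H3.isCyclic_of_isCoatom_unique (G := G) fun X Y hX hY =>
        (by_contra fun e1 => (e' X hX e1).1 e : M = X).symm.trans
          (by_contra fun e1 => (e' Y hY e1).1 e : M = Y)
      have h5 : (⁅⊤, ⊤⁆ : Subgroup G) = ⊥ := commutator_eq_bot_iff_le_centralizer.mpr
        fun x _ y _ => h4.isMulCommutative.is_comm.comm y x
      rw [h5, card_bot] at hc
      exact absurd hc (not_lt.mpr (pow_pos hp.out.pos _))
    · have h4 := h2.resolve_left fun e' => e (e'.trans hHM)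
      obtain ⟨N, hN, hKN⟩ := (eq_top_or_exists_le_coatom K).resolve_left fun e' => by
        simp [e'] at h4
      exact ⟨N, hN, fun e' => e (e' ▸ hKN), Or.inr ⟨hKN, h4⟩⟩
  obtain ⟨A, hA, h4, h5, h6⟩ := third hG hM hN hne
  have := H3.normal_of_isCoatom hA
  have h7 : ∀ a ∈ A, a ∉ M → (centralizer {a}).index < p ^ n := fun a ha ha' =>
    h3 a (fun e => ha' (hHM e)) fun e => ha' (hKN.elim (fun e' => e' e) fun e' =>
      (h4 a ha).mpr (e'.1 e))
  obtain ⟨g, hg1, hg2, hg3⟩ : ∃ g, g ∉ A ∧ g ∉ M ∧ g ∉ K := by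
    have h8 : ¬ N ≤ M := fun e => hne (hN.le_iff.mp e |>.resolve_left hM.1)
    by_cases e : N ≤ K
    · obtain ⟨e1, e2⟩ := hKN.resolve_left fun e' => h8 (e.trans e')
      rw [le_antisymm e1 e, H3.index_eq_of_isCoatom hG hN] at e2
      obtain ⟨g, e3, e4, e5⟩ := h6 (by omega)
      exact ⟨g, e3, e4, fun e' => e5 (e1 e')⟩
    · obtain ⟨g, e1, e2, e3⟩ := exists_notMem h8 e
      exact ⟨g, fun e' => e2 ((h4 g e').mpr e1), e2, e3⟩
  have h8 := h3 g (fun e => hg2 (hHM e)) hg3
  obtain _ | k := n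
  · exact absurd h8 (by
      have : (centralizer {g}).index ≠ 0 := index_ne_zero_of_finite
      rw [pow_zero]; omega)
  have h9 : A ⊔ zpowers g = ⊤ := hA.2 _ (left_lt_sup.mpr fun e => hg1 (e (mem_zpowers g)))
  obtain ⟨W, hW⟩ : ∃ W : Subgroup G, ∀ x, x ∈ W ↔ ∀ y, ⁅x, y⁆ ∈ ⁅A, A⁆ :=
    ⟨(center _).comap (QuotientGroup.mk' ⁅A, A⁆), fun x => by
      rw [mem_comap, mem_center_iff, (QuotientGroup.mk'_surjective _).forall]
      refine forall_congr' fun y => ?_
      rw [eq_comm, ← commutatorElement_eq_one_iff_mul_comm,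
        ← map_commutatorElement, QuotientGroup.mk'_apply, QuotientGroup.eq_one_iff]⟩
  have h10 := hc.trans_le (lemma1 A h9 W fun x _ hx => (hW x).mp hx g)
  have h11 := hc.trans_le (lemma1 A h9 (centralizer {g}) fun x _ hx => by
    rw [commutatorElement_eq_one_iff_mul_comm.mpr (mem_centralizer_singleton_iff.mp hx)]
    exact one_mem _)
  have h12 := ih A hA.1 (k + 1) M M h5 (Or.inl inf_le_left) fun a ha ha' _ =>
    (relIndex_le_index _ _).trans_lt (h7 a ha ha')
  have h13 : ∀ a ∈ A, a ∉ M → a ∉ W → (centralizer {a}).relIndex A < p ^ k := fun a ha e1 e2 =>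
    ((lemma2 hA ha).resolve_left (mt (hW a).mpr e2)).trans_le (index_le hG (h7 a ha e1))
  by_cases e : W ⊓ A ≤ M ∨ 3 ≤ W.relIndex A
  · have h14 := ih A hA.1 k M W h5 e h13
    rw [choose_succ, pow_add] at h11
    exact absurd h11 (not_lt.mpr (Nat.mul_le_mul h14
      ((relIndex_le_index _ _).trans (index_le hG h8))))
  push Not at e
  have h14 : W.relIndex A = 2 := by
    have h15 : W.relIndex A ≠ 0 := index_ne_zero_of_finite
    by_contra e'
    rw [show W.relIndex A = 1 by omega, mul_one] at h10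
    omega
  have hA' := hG.to_subgroup A
  obtain rfl : p = 2 := by
    obtain ⟨i, hi⟩ := hA'.index (W.subgroupOf A)
    exact ((Nat.prime_two.pow_eq_iff.mp (hi.symm.trans h14)).1)
  have := H3.normal_of_isCoatom hM
  have h15 : (M.subgroupOf A).index = 2 := ((Nat.dvd_prime Nat.prime_two).mp
    (H3.index_eq_of_isCoatom hG hM ▸ relIndex_dvd_index_of_normal M A)).resolve_left
      (mt relIndex_eq_one.mp h5)
  have h16 := step5 hA' (ih' A hA.1) (D := M.subgroupOf A) (E := W.subgroupOf A) (k := k)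
    (H3.isCoatom_of_index_prime (h15 ▸ Nat.prime_two))
    (H3.isCoatom_of_index_prime (h14 ▸ Nat.prime_two : (W.relIndex A).Prime))
    (fun e' => e.1 fun x hx => (e'.ge (show (⟨x, hx.2⟩ : A) ∈ W.subgroupOf A from hx.1) :))
    (fun a _ ha => index_centralizer A a ▸ (relIndex_le_index _ _).trans
      (index_le hG (h7 a a.2 ha)))
    fun a e1 e2 => index_centralizer A a ▸ h13 a a.2 e1 e2
  rw [card_commutator] at h16
  exact absurd h10 (not_lt.mpr (h14 ▸ mul_card_le hG h16))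

theorem pa_top [Fact p.Prime] (n : ℕ) : ∀ (G : Type u) [Group G] [Finite G], IsPGroup p G →
    Nat.card G = n → PA p (⊤ : Subgroup G) := by
  induction n using Nat.strong_induction_on with
  | _ n ih =>
  intro G _ _ hG hn
  exact step hG (fun X hX => pa_of_top (ih _ (hn ▸ L.card_lt_of_ne_top hX) X
    (hG.to_subgroup X) rfl)) fun A hA X hX => pa_of_top (ih _ (hn ▸ (L.card_lt_of_ne_top hX).trans
      (L.card_lt_of_ne_top hA)) X ((hG.to_subgroup A).to_subgroup X) rfl)


/-- Vaughan-Lee's Theorem: if G is a finite p-group in which every conjugacy class has at most p^b elements (every element has centralizer of index at most p^b), then the derived subgroup of G has order at most p^(b(b+1)/2). -/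
theorem result {G : Type*} [Group G] [Finite G] {p : ℕ} [Fact p.Prime] (hG : IsPGroup p G) (b : ℕ) (hb : ∀ x : G, (Subgroup.centralizer ({x} : Set G)).index ≤ p ^ b) : Nat.card (commutator G) ≤ p ^ (b * (b + 1) / 2) := by
  by_cases h : (⊤ : Subgroup G) ≤ ⊥
  · exact (card_le_of_le (le_top.trans h)).trans (card_bot.le.trans (pow_pos (Fact.out : p.Prime).pos _))
  have := pa_top _ G hG rfl (b + 1) ⊥ ⊥ h (Or.inl inf_le_left) fun g _ _ _ => by
    rw [relIndex_top_right]
    exact (hb g).trans_lt (Nat.pow_lt_pow_right (Fact.out : p.Prime).one_lt (by omega))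
  rwa [Nat.choose_two_right, Nat.add_sub_cancel, mul_comm] at this

end Cfsg.Agent.S3777
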