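import Cfsg.Statements.S3778
import Cfsg.Agent.H2.MaxClass

set_option autoImplicit false
open Cfsg

namespace Cfsg.Agent.S3778

open Subgroup
open scoped commutatorElement

theorem step {G : Type*} [Group G] [Finite G] {p : ℕ} [Fact p.Prime] (hG : IsPGroup p G)
    (x : G) (i : ℕ) (hx : x ∉ H2.tsc G i) :
    p * (centralizer ({x} : Set G)).relIndex (H2.lcs G (i + 1)) ≤
      (centralizer ({x} : Set G)).relIndex (H2.lcs G i) := by
  set C := centralizer ({x} : Set G) with hC
  set A := H2.lcs G i with hA
  set B := H2.lcs G (i + 1) with hB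
  have hBA : B ≤ A := H2.lcs_anti (Nat.le_succ i)
  have hlt : (C ⊓ A) ⊔ B < A := by
    refine lt_of_le_of_ne (sup_le inf_le_right hBA) fun e => hx ?_
    rw [H2.mem_tsc]
    intro u hu
    have h1 : (C ⊓ A) ⊔ B ≤ H2.cmod (H2.lcs G (i + 2)) x := by
      refine sup_le (fun c hc => H2.mem_cmod.2 ?_) (fun b hb => H2.mem_cmod.2 ?_)
      · rw [commutatorElement_eq_one_iff_mul_comm.2 (mem_centralizer_singleton_iff.1 hc.1)]
        exact one_mem _
      · exact H2.commutator_mem_lcs_succ hb x
    rw [e] at h1
    exact H2.mem_cmod.1 (h1 hu)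
  have h1 := H2.mul_card_le_of_lt (hG.to_subgroup _) hlt
  have h2 := H3.card_sup_mul_card_inf (C ⊓ A) B
  rw [inf_assoc, inf_eq_right.2 hBA] at h2
  have h3 := H3.card_inf_mul_relIndex C A
  have h4 := H3.card_inf_mul_relIndex C B
  have h5 : 0 < Nat.card (C ⊓ A : Subgroup G) := Nat.card_pos
  have h6 : 0 < Nat.card (C ⊓ B : Subgroup G) := Nat.card_pos
  rw [← h4] at h2
  have h7 : Nat.card ((C ⊓ A) ⊔ B : Subgroup G) = Nat.card (C ⊓ A : Subgroup G) * C.relIndex B := by
    apply Nat.eq_of_mul_eq_mul_right h6
    rw [h2]; ring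
  rw [h7, ← h3] at h1
  apply Nat.le_of_mul_le_mul_left _ h5
  calc _ = p * (Nat.card (C ⊓ A : Subgroup G) * C.relIndex B) := by ring
    _ ≤ _ := h1

open Classical in
theorem pow_le {G : Type*} [Group G] [Finite G] {p : ℕ} [Fact p.Prime] (hG : IsPGroup p G)
    (x : G) (k : ℕ) :
    p ^ ((Finset.range k).filter fun i => x ∉ H2.tsc G i).card *
      (centralizer ({x} : Set G)).relIndex (H2.lcs G k) ≤ (centralizer ({x} : Set G)).index := by
  induction k with
  | zero => simp [H2.lcs]
  | succ k ih =>
    refine le_trans ?_ ih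
    rw [Finset.range_add_one, Finset.filter_insert]
    split_ifs with h
    · refine Nat.mul_le_mul_left _ ?_
      exact relIndex_le_of_le_right (H2.lcs_anti (Nat.le_succ k)) (by
        rw [relIndex]; exact index_ne_zero_of_finite)
    · rw [Finset.card_insert_of_notMem (by simp), pow_succ, mul_assoc]
      exact Nat.mul_le_mul_left _ (step hG x k h)

/-- If G is a finite p-group in which every conjugacy class has at most p^b elements (every element has centralizer of index at most p^b), then G is abelian when b = 0, and when b ≥ 1 its nilpotency class c satisfies (c − 1)(p − 1) < bp, that is c < bp/(p − 1) + 1, and hence c ≤ 2b. -/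
theorem result {G : Type*} [Group G] [Finite G] {p : ℕ} [Fact p.Prime] (hG : IsPGroup p G) (b : ℕ) (hb : ∀ x : G, (Subgroup.centralizer ({x} : Set G)).index ≤ p ^ b) : ∃ c : ℕ, (⊤ : Subgroup G).lowerCentralSeries c = ⊥ ∧ (b ≠ 0 → (c - 1) * (p - 1) < b * p ∧ c ≤ 2 * b) ∧ (b = 0 → c ≤ 1) := by
  classical
  haveI := hG.isNilpotent
  have hp : p.Prime := Fact.out
  letI := Fintype.ofFinite G
  refine ⟨Group.nilpotencyClass G, Subgroup.lowerCentralSeries_nilpotencyClass, ?_, ?_⟩
  · intro hb0
    set c := Group.nilpotencyClass G with hc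
    have key : (c - 1) * (p - 1) < b * p := by
      set f : G → ℕ := fun x => ((Finset.range (c - 1)).filter fun i => x ∉ H2.tsc G i).card
        with hf
      have h1 : ∀ x, f x ≤ b := by
        intro x
        have h2 := pow_le hG x (c - 1)
        have h3 : 0 < (centralizer ({x} : Set G)).relIndex (H2.lcs G (c - 1)) :=
          Nat.pos_of_ne_zero (by rw [relIndex]; exact index_ne_zero_of_finite)
        exact (Nat.pow_le_pow_iff_right hp.one_lt).1
          ((Nat.le_mul_of_pos_right _ h3).trans (h2.trans (hb x)))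
      have h2 : f 1 = 0 := by simp [hf]
      have h3 : ∑ x, f x < b * Fintype.card G := by
        calc ∑ x, f x < ∑ _x : G, b :=
              Finset.sum_lt_sum (fun x _ => h1 x) ⟨1, Finset.mem_univ _, by omega⟩
          _ = _ := by simp [mul_comm]
      have h4 : ∑ x, f x = ∑ i ∈ Finset.range (c - 1),
          (Finset.univ.filter fun x => x ∉ H2.tsc G i).card := by
        simp only [hf, Finset.card_filter]
        exact Finset.sum_comm
      have h5 : ∀ i ∈ Finset.range (c - 1), (p - 1) * Fintype.card G ≤
          p * (Finset.univ.filter fun x => x ∉ H2.tsc G i).card := by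
        intro i hi
        have h6 : H2.lcs G (i + 1) ≠ ⊥ := by
          intro h
          have := Subgroup.lowerCentralSeries_eq_bot_iff_nilpotencyClass_le.1 h
          have := Finset.mem_range.1 hi
          omega
        have h7 := H2.mul_card_le_of_lt (hG.to_subgroup ⊤) (lt_top_iff_ne_top.2 (H2.tsc_ne_top h6))
        rw [card_top, Nat.card_eq_fintype_card (α := G)] at h7
        have h8 := Finset.card_filter_add_card_filter_not (s := (Finset.univ : Finset G))
          (fun x => x ∈ H2.tsc G i)
        have h9 : Nat.card (H2.tsc G i) = (Finset.univ.filter fun x => x ∈ H2.tsc G i).card := by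
          rw [Nat.card_eq_fintype_card, Fintype.card_subtype]
        rw [Finset.card_univ] at h8
        rw [h9] at h7
        obtain ⟨q, rfl⟩ := Nat.exists_eq_add_of_le' hp.one_le
        rw [Nat.add_sub_cancel]
        nlinarith
      have h6 := Finset.sum_le_sum h5
      rw [Finset.sum_const, Finset.card_range, smul_eq_mul, ← Finset.mul_sum, ← h4] at h6
      have h7 : 0 < Fintype.card G := Fintype.card_pos
      apply Nat.lt_of_mul_lt_mul_right (a := Fintype.card G)
      calc (c - 1) * (p - 1) * Fintype.card G = (c - 1) * ((p - 1) * Fintype.card G) := by ring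
        _ ≤ p * ∑ x, f x := h6
        _ < p * (b * Fintype.card G) := Nat.mul_lt_mul_of_pos_left h3 hp.pos
        _ = _ := by ring
    refine ⟨key, ?_⟩
    obtain ⟨q, rfl⟩ := Nat.exists_eq_add_of_le' hp.two_le
    rw [show q + 2 - 1 = q + 1 by omega] at key
    by_contra hlt
    have : 2 * b ≤ c - 1 := by omega
    nlinarith
  · rintro rfl
    rw [← Subgroup.lowerCentralSeries_eq_bot_iff_nilpotencyClass_le,
      ← H2.isMulCommutative_iff_lcs_one]
    refine ⟨⟨fun x y => ?_⟩⟩
    have h1 := hb y
    rw [pow_zero] at h1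
    have h2 : (centralizer ({y} : Set G)).index ≠ 0 := index_ne_zero_of_finite
    have h3 : centralizer ({y} : Set G) = ⊤ := index_eq_one.1 (by omega)
    exact mem_centralizer_singleton_iff.1 (h3 ▸ mem_top x)

end Cfsg.Agent.S3778
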