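import Cfsg.Statements.S3779
import Cfsg.Agent.H7.LieAut
import Cfsg.Agent.H5.Kegel
import Cfsg.Agent.H9.FrobAction
import Cfsg.Agent.H2.MaxClass

set_option autoImplicit false
open Cfsg

namespace Cfsg.Agent.S3779

open Subgroup

universe u

theorem aux {G : Type u} [Group G] [Finite G] {p : ℕ} (hp : p.Prime) (α : MulAut G)
    (hα : orderOf α = p) (hfpf : ∀ g : G, α g = g → g = 1) {h : ℕ} (H : H7.HigBound.{u} p h) :
    (⊤ : Subgroup G).lowerCentralSeries h = ⊥ := by
  haveI := Fact.mk hp
  have hαp : α ^ p = 1 := hα ▸ pow_orderOf_eq_one α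
  haveI := H5.isNilpotent_of_fpf_aut hp α hαp hfpf
  have h3 : ∀ n : ℕ, (⇑α.toMonoidHom)^[n] = ⇑(α ^ n) := by
    intro n
    induction n with
    | zero => rfl
    | succ n ih => rw [Function.iterate_succ, ih, pow_succ]; rfl
  have h4 : (⇑α.toMonoidHom)^[p] = id := by rw [h3, hαp]; rfl
  have hF : H9.IsFrobAction (zpowers α).subtype := by
    intro a ha n hn
    apply hfpf
    have h5 : α ∈ zpowers (a : MulAut G) :=
      H3.mem_zpowers_of_pow_prime_eq_one hp hαp a.2 (fun h => ha (Subtype.ext h))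
    have h6 : zpowers (a : MulAut G) ≤ MulAction.stabilizer (MulAut G) n := zpowers_le.2 hn
    exact h6 h5
  have hco := hF.coprime
  rw [Nat.card_zpowers, hα] at hco
  by_contra hne
  apply (H2.lcs_succ_lt hne).not_ge
  intro x hx
  have h5 := H7.pow_mem_lcs_of_aut α.toMonoidHom (fun x => congrFun h4 x) 1 (fun i x _ => by
    rw [MonoidHom.FixedPointFree.prod_pow_eq_one (φ := α.toMonoidHom) hfpf h4, one_pow]
    exact one_mem _) H le_rfl hx
  rw [mul_one] at h5
  have h6 : x ∈ zpowers (x ^ p ^ (h + 2)) :=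
    mem_zpowers_pow_iff.2 (Nat.Coprime.pow_left _ (hco.coprime_dvd_right (orderOf_dvd_natCard x)))
  exact (zpowers_le.2 h5) h6

/-- Let G be a finite group with an automorphism of prime order p fixing only the identity. Then G is nilpotent; if p = 2 then G is abelian, if p = 3 then G has class at most 2, and in general the class of G is at most ξ = 1 + (p−1) + (p−1)² + ⋯ + (p−1)^(n−1) with n = 2^(p−1) − 1 (the Higman–Kreknin–Kostrikin bound). -/
theorem result {G : Type*} [Group G] [Finite G] {p : ℕ} (hp : p.Prime) (α : MulAut G) (hα : orderOf α = p) (hfpf : ∀ g : G, α g = g → g = 1) : (p = 2 → (⊤ : Subgroup G).lowerCentralSeries 1 = ⊥) ∧ (p = 3 → (⊤ : Subgroup G).lowerCentralSeries 2 = ⊥) ∧ (⊤ : Subgroup G).lowerCentralSeries (Finset.sum (Finset.range (2 ^ (p - 1) - 1)) (fun i => (p - 1) ^ i)) = ⊥ := by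
  haveI := Fact.mk hp
  have h := aux hp α hα hfpf (H7.higBound_prime p)
  refine ⟨?_, ?_, h⟩
  · rintro rfl
    simpa using h
  · rintro rfl
    exact aux hp α hα hfpf H7.higBound_three

end Cfsg.Agent.S3779
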