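import Cfsg.Statements.S3780
import Cfsg.Agent.H1.AbAct

set_option autoImplicit false
open Cfsg

namespace Cfsg.Agent.S3780

/-- Let V be a finite abelian p-group and α an automorphism of V of order p whose fixed-point subgroup has order p^n. Then V can be generated by pn elements: some subset of V with at most pn elements generates V. -/
theorem result {V : Type*} [CommGroup V] [Finite V] {p : ℕ} [Fact p.Prime] (hV : IsPGroup p V) (α : MulAut V) (hα : orderOf α = p) (n : ℕ) (hfix : Nat.card {v : V // α v = v} = p ^ n) : ∃ S : Finset V, S.card ≤ p * n ∧ Subgroup.closure (S : Set V) = ⊤ := by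
  classical
  have hp : p.Prime := Fact.out
  have h1 : (powMonoidHom p : V →* V).ker ≤ MonoidHom.ker (H1.commEnd α ^ p ^ 1 : Monoid.End V) :=
    fun v hv => H1.commEnd_pow_eq_one hp (by rw [pow_one, ← hα, pow_orderOf_eq_one]) hv
  have h2 : Nat.card (MonoidHom.ker (H1.commEnd α)) = p ^ n := by
    rw [← hfix]
    exact Nat.card_congr (Equiv.subtypeEquivRight fun v => H1.mem_ker_commEnd)
  have h3 : (frattini V).index ≤ p ^ (p * n) := by
    rw [H1.index_frattini_eq_card_ker hp hV]
    refine (Subgroup.card_le_of_le h1).trans ((H1.card_ker_pow_le _ _).trans ?_)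
    rw [h2, pow_one, ← pow_mul, mul_comm]
  obtain ⟨r, hr⟩ := hV.index (frattini V)
  obtain ⟨x, hx⟩ := H7.exists_generators_of_index_frattini hr
  rw [hr, Nat.pow_le_pow_iff_right hp.one_lt] at h3
  refine ⟨Finset.univ.image x, Finset.card_image_le.trans (by simpa using h3), ?_⟩
  simpa using hx

end Cfsg.Agent.S3780
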