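import Cfsg.Statements.S3781
import Cfsg.Agent.H2.MaxClass

set_option autoImplicit false
open Cfsg

namespace Cfsg.Agent.S3781

open Subgroup
open scoped commutatorElement

/-- iterated commutators with the whole group -/
def it {G : Type*} [Group G] (A : Subgroup G) : ℕ → Subgroup G
  | 0 => A
  | k + 1 => ⁅it A k, ⊤⁆

theorem it_normal {G : Type*} [Group G] (A : Subgroup G) [hA : A.Normal] (k : ℕ) :
    (it A k).Normal := by
  induction k with
  | zero => exact hA
  | succ k ih => unfold it; infer_instance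

theorem comm_lt {G : Type*} [Group G] [Group.IsNilpotent G] (K : Subgroup G) [K.Normal]
    (hK : K ≠ ⊥) : ⁅K, ⊤⁆ < K := by
  refine lt_of_le_of_ne (commutator_le_left K ⊤) fun e => hK ?_
  have : ∀ k, K ≤ H2.lcs G k := by
    intro k
    induction k with
    | zero => exact le_top
    | succ k ih => rw [← e, H2.lcs_succ]; exact commutator_mono ih le_rfl
  rw [eq_bot_iff, ← Subgroup.lowerCentralSeries_nilpotencyClass]
  exact this _

theorem map_it {G H : Type*} [Group G] [Group H] (f : G →* H) (hf : Function.Surjective f)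
    (A : Subgroup G) (k : ℕ) : (it A k).map f = it (A.map f) k := by
  induction k with
  | zero => rfl
  | succ k ih => simp only [it, Subgroup.map_commutator, ih, map_top_of_surjective f hf]

theorem pow_mul_le {G : Type*} [Group G] [Finite G] {p : ℕ} [Fact p.Prime] (hG : IsPGroup p G)
    (A : Subgroup G) [A.Normal] (k : ℕ) (hk : it A k ≠ ⊥) :
    p ^ (k + 1) * Nat.card (it A (k + 1)) ≤ Nat.card A := by
  haveI := hG.isNilpotent
  induction k with
  | zero =>
    rw [zero_add, pow_one]
    exact H2.mul_card_le_of_lt (hG.to_subgroup _) (comm_lt A hk)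
  | succ k ih =>
    have h1 : it A k ≠ ⊥ := fun h => hk (by simp [it, h])
    haveI := it_normal A (k + 1)
    refine le_trans ?_ (ih h1)
    rw [pow_succ p (k + 1), mul_assoc]
    exact Nat.mul_le_mul_left _ (H2.mul_card_le_of_lt (hG.to_subgroup _) (comm_lt _ hk))

/-- Let G be a finite p-group and n ≥ 1, and write γ_1(G) = G, γ_{k+1}(G) = [γ_k(G), G], and likewise γ_k(N) for a subgroup N. Let N be a normal subgroup of G contained in γ_n(G). If i > 1 and γ_{i+1}(N) ≠ 1, then |γ_i(N) : γ_{i+1}(N)| ≥ p^n. -/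
theorem result {G : Type*} [Group G] [Finite G] {p : ℕ} [Fact p.Prime] (hG : IsPGroup p G) (n : ℕ) (hn : 1 ≤ n) (N : Subgroup G) [N.Normal] (hN : N ≤ (⊤ : Subgroup G).lowerCentralSeries (n - 1)) (i : ℕ) (hi : 1 < i) (hne : N.lowerCentralSeries i ≠ ⊥) : p ^ n ≤ (N.lowerCentralSeries i).relIndex (N.lowerCentralSeries (i - 1)) := by
  haveI := hG.isNilpotent
  obtain ⟨n, rfl⟩ := Nat.exists_eq_add_of_le' hn
  obtain ⟨j, rfl⟩ := Nat.exists_eq_add_of_le' hi.le
  simp only [Nat.add_sub_cancel] at hN ⊢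
  set A := N.lowerCentralSeries j with hA
  set B := N.lowerCentralSeries (j + 1) with hB
  have hBA : B = ⁅A, N⁆ := rfl
  haveI : (A.map (QuotientGroup.mk' B)).Normal :=
    Subgroup.Normal.map inferInstance _ (QuotientGroup.mk'_surjective B)
  by_cases h : it (A.map (QuotientGroup.mk' B)) n = ⊥
  · exfalso
    rw [← map_it _ (QuotientGroup.mk'_surjective B), ← H7.le_iff_map_mk'_eq_bot] at h
    have h1 := H7.commutator_lowerCentralSeries_le_of_chain (it A) (it_normal A) ⊤
      (fun _ => le_rfl) 0 n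
    rw [zero_add] at h1
    have h2 : B ≤ ⁅B, ⊤⁆ :=
      calc B = ⁅A, N⁆ := hBA
        _ ≤ ⁅it A 0, (⊤ : Subgroup G).lowerCentralSeries n⁆ := commutator_mono le_rfl hN
        _ ≤ ⁅it A n, ⊤⁆ := h1
        _ ≤ ⁅B, ⊤⁆ := commutator_mono h le_rfl
    exact (comm_lt B hne).not_ge h2
  · have h1 := pow_mul_le (hG.to_quotient B) _ n h
    have h2 := le_trans (Nat.le_mul_of_pos_right _ Nat.card_pos) h1
    have hle : B ≤ A := Subgroup.lowerCentralSeries_antitone N (Nat.le_succ j)
    have h3 := H3.card_map_mk'_mul B hle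
    rw [← H3.card_mul_relIndex hle, mul_comm] at h3
    rw [← Nat.eq_of_mul_eq_mul_left Nat.card_pos h3]
    exact h2

end Cfsg.Agent.S3781
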