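import Cfsg.Statements.S3782
import Cfsg.Agent.S3779
import Cfsg.Agent.S3781
import Cfsg.Agent.H1.Small
import Cfsg.Agent.L.PiSep
import Cfsg.Agent.H7.Frattini

set_option autoImplicit false
open Cfsg

namespace Cfsg.Agent.S3782

open Subgroup H7.AssocLie

universe u

/-- `α^p = 1` and `α` has at most `B` fixed points -/
def Pa {G : Type*} [Group G] (p B : ℕ) (α : G →* G) : Prop :=
  (∀ x, α^[p] x = x) ∧ Nat.card (α.eqLocus (MonoidHom.id G)) ≤ B

variable {G : Type u} [Group G] [Finite G] {p B : ℕ}

/-- restriction to an invariant subgroup -/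
def res (α : G →* G) (H : Subgroup G) (h : ∀ x ∈ H, α x ∈ H) : H →* H :=
  (α.comp H.subtype).codRestrict H fun x => h x x.2

theorem Pa.res {α : G →* G} (hα : Pa p B α) (H : Subgroup G) (h : ∀ x ∈ H, α x ∈ H) :
    Pa p B (res α H h) := by
  constructor
  · intro x
    apply Subtype.ext
    exact (Function.Semiconj.iterate_right (f := H.subtype) (ga := S3782.res α H h) (gb := α)
      (fun _ => rfl) p x).trans (hα.1 x)
  · refine le_trans (Nat.card_le_card_of_injective
      (fun x => (⟨x.1.1, congrArg Subtype.val x.2⟩ : α.eqLocus (MonoidHom.id G))) ?_) hα.2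
    intro x y e
    exact Subtype.ext (Subtype.ext (Subtype.mk.inj e))

theorem Pa.quot {α : G →* G} (hα : Pa p B α) (N : Subgroup G) [N.Normal] (h : N ≤ N.comap α) :
    Pa p B (QuotientGroup.map N N α h) := by
  constructor
  · intro x
    obtain ⟨x, rfl⟩ := QuotientGroup.mk'_surjective N x
    exact (Function.Semiconj.iterate_right (f := QuotientGroup.mk' N)
      (gb := QuotientGroup.map N N α h) (ga := α) (fun _ => rfl) p x).symm.trans
      (congrArg _ (hα.1 x))
  · set F := (QuotientGroup.map N N α h).eqLocus (MonoidHom.id _)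
    set C := α.eqLocus (MonoidHom.id G)
    set H := F.comap (QuotientGroup.mk' N)
    have h1 := H3.card_comap_mk' N F
    have h2 := H3.card_inf_mul_relIndex C H
    have h3 : C.relIndex H ≤ Nat.card N := by
      have hm : ∀ g : H, (g : G) * (α g)⁻¹ ∈ N := by
        intro g
        rw [← QuotientGroup.eq_one_iff, QuotientGroup.mk_mul, QuotientGroup.mk_inv,
          show ((α g : G) : G ⧸ N) = (g : G) from g.2, mul_inv_cancel]
      let f : H ⧸ C.subgroupOf H → N := Quotient.lift (fun g => ⟨_, hm g⟩) (by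
        intro a b hab
        have h4 : α ((a : G)⁻¹ * b) = (a : G)⁻¹ * b := QuotientGroup.leftRel_apply.1 hab
        apply Subtype.ext
        show (a : G) * (α a)⁻¹ = b * (α b)⁻¹
        rw [map_mul, map_inv, inv_mul_eq_iff_eq_mul] at h4
        rw [h4]; group)
      refine Nat.card_le_card_of_injective f ?_
      intro a b e
      obtain ⟨a, rfl⟩ := QuotientGroup.mk_surjective a
      obtain ⟨b, rfl⟩ := QuotientGroup.mk_surjective b
      have h4 : (a : G) * (α a)⁻¹ = b * (α b)⁻¹ := congrArg Subtype.val e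
      rw [QuotientGroup.eq]
      show α ((a : G)⁻¹ * b) = (a : G)⁻¹ * b
      rw [map_mul, map_inv]
      calc (α a)⁻¹ * α b = (a : G)⁻¹ * ((a : G) * (α a)⁻¹) * α b := by group
        _ = _ := by rw [h4]; group
    refine le_trans ?_ hα.2
    apply Nat.le_of_mul_le_mul_right _ (Nat.card_pos (α := N))
    rw [← h1, ← h2]
    exact Nat.mul_le_mul (card_le_of_le inf_le_left) h3

omit [Finite G] in
theorem Pa.bijective [hp : Fact p.Prime] {α : G →* G} (hα : Pa p B α) : Function.Bijective α :=
  (Function.bijective_iff_has_inverse.2 ⟨α^[p - 1], fun x => by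
    rw [← Function.iterate_succ_apply α, Nat.succ_eq_add_one, Nat.sub_add_cancel hp.out.one_le,
      hα.1], fun x => by
    rw [← Function.iterate_succ_apply' α, Nat.succ_eq_add_one, Nat.sub_add_cancel hp.out.one_le,
      hα.1]⟩)

theorem card_le_of_nilp {V : Type*} [AddCommGroup V] [Finite V] (δ : AddMonoid.End V) (N : ℕ) :
    ∀ S : AddSubgroup V, (∀ x ∈ S, (δ ^ N) x = 0) → Nat.card S ≤ Nat.card δ.ker ^ N := by
  induction N with
  | zero =>
    intro S hS
    have : S = ⊥ := eq_bot_iff.2 fun x hx => hS x hx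
    simp [this]
  | succ N ih =>
    intro S hS
    have h1 := ih (S.map δ) (by
      rintro _ ⟨x, hx, rfl⟩
      have := hS x hx
      rwa [pow_succ] at this)
    have h2 := AddSubgroup.relIndex_ker S δ
    have h3 : Nat.card (AddSubgroup.addSubgroupOf δ.ker S) * δ.ker.relIndex S = Nat.card S :=
      AddSubgroup.card_mul_index _
    have h4 : Nat.card (AddSubgroup.addSubgroupOf δ.ker S) ≤ Nat.card δ.ker :=
      Nat.card_le_card_of_injective (fun x => ⟨x.1.1, x.2⟩)
        fun x y e => Subtype.ext (Subtype.ext (Subtype.mk.inj e))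
    rw [← h3, h2, pow_succ']
    exact Nat.mul_le_mul h4 h1

theorem ring_aux {R : Type*} [Ring R] (hp : p.Prime) (φ : R) (h1 : φ ^ p = 1) :
    ∃ r : R, (φ - 1) ^ p = p • r := by
  obtain ⟨r, hr⟩ := (Commute.one_right (φ - 1)).exists_add_pow_prime_eq hp
  rw [sub_add_cancel, h1, one_pow] at hr
  refine ⟨-((φ - 1) * r), ?_⟩
  rw [smul_neg, nsmul_eq_mul, eq_neg_iff_add_eq_zero]
  rw [mul_one, add_right_comm, mul_assoc] at hr
  exact (add_eq_right.1 hr.symm)

theorem Pa.card_le {V : Type*} [CommGroup V] [Finite V] [hp : Fact p.Prime] {α : V →* V}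
    (hα : Pa p B α) (e : ℕ) (he : ∀ x : V, x ^ p ^ e = 1) : Nat.card V ≤ B ^ (p * e) := by
  let φ : AddMonoid.End (Additive V) := MonoidHom.toAdditive α
  have h1 : φ ^ p = 1 := by
    apply DFunLike.ext
    intro x
    rw [AddMonoid.End.coe_pow]
    exact hα.1 x.toMul
  obtain ⟨r, h2⟩ := ring_aux hp.out φ h1
  have h3 := card_le_of_nilp (φ - 1) (p * e) ⊤ (by
    intro x _
    rw [pow_mul, h2, smul_pow]
    exact he _)
  rw [AddSubgroup.card_top] at h3
  refine h3.trans (Nat.pow_le_pow_left (le_trans (le_of_eq ?_) hα.2) _)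
  refine Nat.card_congr (Equiv.subtypeEquiv Additive.toMul fun x => ?_)
  exact sub_eq_zero (a := φ x) (b := x)

omit [Finite G] in
theorem der_add (N : Subgroup G) {a b : ℕ} (h1 : derivedSeries G a ≤ N)
    (h2 : derivedSeries N b = ⊥) : derivedSeries G (a + b) = ⊥ := by
  have : ∀ k, derivedSeries G (a + k) ≤ (derivedSeries N k).map N.subtype := by
    intro k
    induction k with
    | zero => simpa [← MonoidHom.range_eq_map] using h1
    | succ k ih =>
      rw [← add_assoc, derivedSeries_succ, derivedSeries_succ, Subgroup.map_commutator]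
      exact commutator_mono ih ih
  have h3 := this b
  rwa [h2, Subgroup.map_bot, le_bot_iff] at h3

omit [Finite G] in
theorem der_le_of_quot (N : Subgroup G) [N.Normal] {a : ℕ} (h : derivedSeries (G ⧸ N) a = ⊥) :
    derivedSeries G a ≤ N := by
  rw [H7.le_iff_map_mk'_eq_bot, map_derivedSeries_eq (QuotientGroup.mk'_surjective N), h]

theorem der_of_card [Group.IsSolvable G] {M : ℕ} (h : Nat.card G ≤ M) :
    derivedSeries G M = ⊥ := by
  have : ∀ k, derivedSeries G k = ⊥ ∨ Nat.card (derivedSeries G k) + k ≤ Nat.card G := by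
    intro k
    induction k with
    | zero => right; simp
    | succ k ih =>
      by_cases hk : derivedSeries G k = ⊥
      · left; rw [derivedSeries_succ, hk, commutator_bot_left]
      · right
        have h1 := Group.IsSolvable.commutator_lt_of_ne_bot hk
        have h2 : Nat.card (derivedSeries G (k + 1)) < Nat.card (derivedSeries G k) :=
          lt_of_le_of_ne (card_le_of_le h1.le) fun e => h1.ne (eq_of_le_of_card_ge h1.le e.ge)
        have := ih.resolve_left hk
        omega
  refine (this M).resolve_right fun h1 => ?_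
  have : 0 < Nat.card (derivedSeries G M) := Nat.card_pos
  omega

theorem norm_fixed {V : Type*} [CommGroup V] {α : V →* V} (hα : ∀ x, α^[p] x = x) (x : V) :
    α (((List.range p).map fun k => α^[k] x).prod) = ((List.range p).map fun k => α^[k] x).prod := by
  have h1 : ∀ f : ℕ → V, ((List.range p).map f).prod = ∏ k ∈ Finset.range p, f k := fun f => by
    rw [Finset.prod, Finset.range_val, Multiset.range, Multiset.map_coe, Multiset.prod_coe]
  rw [h1, map_prod]
  have h2 := Finset.prod_range_succ (fun k => α^[k] x) p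
  rw [Finset.prod_range_succ', hα] at h2
  simp only [Function.iterate_succ_apply'] at h2
  exact mul_right_cancel h2

theorem relIndex_le [hp : Fact p.Prime] (hG : IsPGroup p G) {n : ℕ} {α : G →* G}
    (hα : Pa p (p ^ n) α) {h : ℕ} (H : H7.HigBound.{u} p h) {i : ℕ} (hi : h ≤ i) :
    (γ G (i + 1)).relIndex (γ G i) ≤ p ^ (n * (p * (h + 2 + n))) := by
  haveI : ∀ i, Finite (GrQ G i) := fun i =>
    inferInstanceAs (Finite (γ G i ⧸ (γ G (i + 1)).subgroupOf (γ G i)))
  let β : ∀ i, GrQ G i →* GrQ G i := fun i =>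
    QuotientGroup.map _ _ (res α (γ G i) fun x hx => map_mem α hx)
      fun x hx => map_mem α (i := i + 1) (x := x) hx
  have hβ : ∀ i, Pa p (p ^ n) (β i) := fun i => (hα.res _ _).quot _ _
  have h1 := fun x => H7.pow_mem_lcs_of_aut (x := x) α hα.1 (p ^ n) (by
    intro i x hx
    let f : γ G i →* GrQ G i := QuotientGroup.mk' _
    set y := ((List.range p).map fun k => (res α (γ G i) fun x hx => map_mem α hx)^[k] ⟨x, hx⟩).prod
      with hy
    have h2 : f y = ((List.range p).map fun k => (β i)^[k] (f ⟨x, hx⟩)).prod := by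
      rw [hy, map_list_prod, List.map_map]
      congr 2
      funext k
      exact Function.Semiconj.iterate_right (f := f) (gb := β i) (fun _ => rfl) k _
    have h3 : (y : G) = ((List.range p).map fun k => α^[k] x).prod := by
      rw [hy, ← Subgroup.coe_subtype, map_list_prod, List.map_map]
      congr 2
      funext k
      exact Function.Semiconj.iterate_right (f := (γ G i).subtype) (gb := α) (fun _ => rfl) k _
    have h4 : f y ∈ (β i).eqLocus (MonoidHom.id _) := by
      rw [h2]; exact norm_fixed (hβ i).1 _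
    have h5 : IsPGroup p (GrQ G i) := (hG.to_subgroup _).to_quotient _
    obtain ⟨k, hk⟩ := (h5.to_subgroup ((β i).eqLocus (MonoidHom.id _))).exists_card_eq
    have h6 := (hβ i).2
    rw [hk] at h6
    have h7 : (f y) ^ p ^ n = 1 := by
      apply orderOf_dvd_iff_pow_eq_one.1
      refine (Subgroup.orderOf_dvd_natCard _ h4).trans ?_
      rw [hk]
      exact pow_dvd_pow p ((Nat.pow_le_pow_iff_right hp.out.one_lt).1 h6)
    rw [← map_pow] at h7
    rw [← h3]
    exact (QuotientGroup.eq_one_iff (y ^ p ^ n)).1 h7) H hi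
  rw [pow_mul]
  refine (hβ i).card_le (h + 2 + n) fun x => ?_
  obtain ⟨x, rfl⟩ := QuotientGroup.mk'_surjective _ x
  rw [pow_add]
  exact (QuotientGroup.eq_one_iff (x ^ (p ^ (h + 2) * p ^ n))).2 (h1 _ x.2)

theorem der_pgroup [hp : Fact p.Prime] (hG : IsPGroup p G) {n : ℕ} {α : G →* G}
    (hα : Pa p (p ^ n) α) {h : ℕ} (H : H7.HigBound.{u} p h) :
    derivedSeries G (n * (p * (h + 2 + n)) + (h + 2)) = ⊥ := by
  set v := n * (p * (h + 2 + n))
  refine der_add (γ G v) (Subgroup.derived_le_lower_central v) ?_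
  refine le_bot_iff.1 ((Subgroup.derived_le_lower_central _).trans ?_)
  have h1 := relIndex_le (hG.to_subgroup (γ G v)) (hα.res _ fun x hx => map_mem α hx) H
    (Nat.le_succ h)
  rw [← relIndex_map_map_of_injective _ _ (γ G v).subtype_injective,
    top_subtype_lowerCentralSeries, top_subtype_lowerCentralSeries] at h1
  rw [le_bot_iff, ← Subgroup.map_eq_bot_iff_of_injective _ (γ G v).subtype_injective,
    top_subtype_lowerCentralSeries]
  by_contra hne
  have h2 := S3781.result hG (v + 1) (by omega) (γ G v) le_rfl (h + 2) (by omega) hne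
  have h3 := Nat.pow_lt_pow_right hp.out.one_lt (Nat.lt_succ_self v)
  exact absurd (h2.trans h1) h3.not_ge

theorem der_fpf [hp : Fact p.Prime] {α : G →* G} (hα : Pa p B α) (hf : ∀ x, α x = x → x = 1)
    {h : ℕ} (H : H7.HigBound.{u} p h) : derivedSeries G h = ⊥ := by
  refine le_bot_iff.1 ((Subgroup.derived_le_lower_central _).trans ?_)
  let β : MulAut G := MulEquiv.ofBijective α hα.bijective
  have h3 : ∀ n : ℕ, (⇑α)^[n] = ⇑(β ^ n) := by
    intro n
    induction n with
    | zero => rfl
    | succ n ih => rw [Function.iterate_succ, ih, pow_succ]; rfl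
  have h4 : β ^ p = 1 := by
    ext x
    rw [← h3]; exact hα.1 x
  by_cases h1 : β = 1
  · intro x _
    exact hf x (DFunLike.congr_fun h1 x)
  · exact (S3779.aux hp.out β (orderOf_eq_prime h4 h1) hf H).le

theorem index_pCore_le [hp : Fact p.Prime] [Group.IsSolvable G] (h1 : pPrimeCore p G = ⊥)
    {α : G →* G} (hα : Pa p B α) : (pCore p G).index ≤ (B ^ p).factorial := by
  set Q := pCore p G
  have hQ : IsPGroup p Q := L.isPGroup_pCore p
  have hαQ := hα.res Q fun x hx => L.map_pCore_le p hα.bijective.2 (mem_map_of_mem α hx)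
  have hαV := hαQ.quot (frattini Q) (frattini_le_comap_frattini_of_surjective hαQ.bijective.2)
  letI : CommGroup (Q ⧸ frattini Q) :=
    { (inferInstance : Group (Q ⧸ frattini Q)) with
      mul_comm := (Subgroup.Normal.quotient_commutative_iff_commutator_le.2
        (H3.commutator_le_frattini hQ)).is_comm.comm }
  have h2 := hαV.card_le 1 (by
    intro x
    obtain ⟨x, rfl⟩ := QuotientGroup.mk_surjective x
    rw [pow_one, ← QuotientGroup.mk_pow, QuotientGroup.eq_one_iff]
    exact H3.pow_mem_frattini hQ x)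
  rw [mul_one] at h2
  let ψ : G →* MulAut (Q ⧸ frattini Q) := H1.quotAct (MulAut.conjNormal : G →* MulAut Q)
    (frattini Q) fun a x hx => frattini_le_comap_frattini_of_surjective
      (φ := (MulAut.conjNormal a : MulAut Q).toMonoidHom) (MulEquiv.surjective _) hx
  have h3 : ψ.ker ≤ Q := by
    apply L.le_pCore inferInstance
    have h4 := H7.isPGroup_of_trivial_on_frattini_quotient hQ
      (ψ.ker.map (MulAut.conjNormal : G →* MulAut Q)) (by
        rintro _ ⟨g, hg, rfl⟩
        exact (H1.quotAct_eq_one_iff _ _ _ g).1 hg)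
    have h5 : (MulAut.conjNormal : G →* MulAut Q).ker ≤ Q := by
      refine le_trans (fun g hg => ?_)
        (L.centralizer_pCore_le hp.out (L.isPSolvable_of_isSolvable hp.out) h1)
      intro x hx
      have := congrArg (fun f : MulAut Q => (f ⟨x, hx⟩ : G)) (MonoidHom.mem_ker.1 hg)
      exact (mul_inv_eq_iff_eq_mul.1 this).symm
    exact (h4.comap_of_ker_isPGroup _ (hQ.to_le h5)).to_le (le_comap_map _ _)
  calc Q.index ≤ ψ.ker.index := index_antitone h3
    _ = Nat.card ψ.range := index_ker ψ
    _ ≤ Nat.card (MulAut (Q ⧸ frattini Q)) := card_le_card_group _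
    _ ≤ Nat.card (Equiv.Perm (Q ⧸ frattini Q)) :=
        Nat.card_le_card_of_injective _ MulEquiv.toEquiv_injective
    _ = (Nat.card (Q ⧸ frattini Q)).factorial := Nat.card_perm
    _ ≤ _ := Nat.factorial_le h2

/-- Alperin's Theorem: for each prime p and each n ≥ 0 there is an integer l such that every finite solvable group admitting an automorphism of order p with exactly p^n fixed points has derived length at most l. -/
theorem result (p : ℕ) (hp : p.Prime) (n : ℕ) : ∃ l : ℕ, ∀ (G : Type) [Group G] [Finite G], Group.IsSolvable G → ∀ α : MulAut G, orderOf α = p → Nat.card {g : G // α g = g} = p ^ n → derivedSeries G l = ⊥ := by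
  haveI := Fact.mk hp
  have H := H7.higBound_prime.{0} p
  set h := ∑ i ∈ Finset.range (2 ^ (p - 1) - 1), (p - 1) ^ i
  refine ⟨((p ^ n) ^ p).factorial + (n * (p * (h + 2 + n)) + (h + 2)) + h, ?_⟩
  intro G _ _ hG α hα hfix
  have h3 : ∀ n : ℕ, (⇑α.toMonoidHom)^[n] = ⇑(α ^ n) := by
    intro n
    induction n with
    | zero => rfl
    | succ n ih => rw [Function.iterate_succ, ih, pow_succ]; rfl
  have hc : Nat.card (α.toMonoidHom.eqLocus (MonoidHom.id G)) = p ^ n := hfix
  have hP : Pa p (p ^ n) α.toMonoidHom :=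
    ⟨fun x => by rw [h3, ← hα, pow_orderOf_eq_one]; rfl, hc.le⟩
  have hK : ∀ x ∈ pPrimeCore p G, α.toMonoidHom x ∈ pPrimeCore p G := fun x hx =>
    L.map_pPrimeCore_le p α.surjective (mem_map_of_mem _ hx)
  refine der_add (pPrimeCore p G) (der_le_of_quot _ ?_) (der_fpf (hP.res _ hK) ?_ H)
  · have hQ := hP.quot (pPrimeCore p G) hK
    refine der_add (pCore p _) (der_le_of_quot _ (der_of_card ?_))
      (der_pgroup (L.isPGroup_pCore p) (hQ.res _ fun x hx =>
        L.map_pCore_le p hQ.bijective.2 (mem_map_of_mem _ hx)) H)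
    exact index_pCore_le (L.pPrimeCore_quotient_pPrimeCore hp) hQ
  · intro x hx
    have h1 : orderOf (x : G) ∣ p ^ n :=
      hc ▸ Subgroup.orderOf_dvd_natCard _
        (show (x : G) ∈ α.toMonoidHom.eqLocus (MonoidHom.id G) from congrArg Subtype.val hx)
    have h2 := Subgroup.orderOf_dvd_natCard _ x.2
    have h4 := ((L.coprime_card_pPrimeCore (G := G) p).pow_right n).coprime_dvd_left h2
    exact Subtype.ext (orderOf_eq_one_iff.1 (Nat.Coprime.eq_one_of_dvd h4 h1))

end Cfsg.Agent.S3782
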