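import Cfsg.Statements.S3785
import Cfsg.Agent.H1.PAction
import Cfsg.Agent.H8.PComplement
import Cfsg.Agent.L.BaerSuzuki

set_option autoImplicit false
open Cfsg

namespace Cfsg.Agent.S3785

open Subgroup

/-- Let G be a finite solvable group whose Fitting subgroup F(G) has odd order. If an element g of G commutes with every element of prime order of F(G), then g ∈ F(G). -/
theorem result {G : Type*} [Group G] [Finite G] (hG : Group.IsSolvable G) (hodd : Odd (Nat.card (Cfsg.fittingSubgroup G))) (g : G) (hg : ∀ x ∈ Cfsg.fittingSubgroup G, (orderOf x).Prime → g * x = x * g) : g ∈ Cfsg.fittingSubgroup G := by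
  set F := fittingSubgroup G with hF
  set S : Set G := {x | x ∈ F ∧ (orderOf x).Prime} with hS
  set C := centralizer S with hC
  have hCn : C.Normal := ⟨fun c hc y => mem_centralizer_iff.mpr fun x hx => by
    have h1 : y⁻¹ * x * y⁻¹⁻¹ ∈ S := ⟨Normal.conj_mem inferInstance x hx.1 _, by
      have := (MulAut.conj y⁻¹).orderOf_eq x
      rw [MulAut.conj_apply] at this
      rw [this]; exact hx.2⟩
    have h2 := mem_centralizer_iff.mp hc _ h1
    calc x * (y * c * y⁻¹) = y * (y⁻¹ * x * y⁻¹⁻¹ * c) * y⁻¹ := by group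
      _ = y * c * y⁻¹ * x := by rw [h2]; group⟩
  have key : ∀ c ∈ C, ∀ p : ℕ, p.Prime → (orderOf c).Coprime p →
      c ∈ centralizer (pCore p G : Set G) := by
    intro c hc p hp hcop
    have := Fact.mk hp
    rcases eq_or_ne p 2 with rfl | hp2
    · have h0 : pCore 2 G = ⊥ := by
        have h1 := H1.coprime_card_of_isPGroup (L.isPGroup_pCore (G := G) 2)
          (Nat.coprime_two_right.mpr hodd)
        exact card_eq_one.mp (Nat.eq_one_of_dvd_coprimes h1
          (card_dvd_of_le (L.pCore_le_fittingSubgroup hp)) dvd_rfl)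
      rw [h0]; simp [mem_centralizer_singleton_iff]
    · refine H1.le_centralizer_of_centralizes_omega hp2 (A := zpowers c) (L.isPGroup_pCore p)
        (le_normalizer_of_normal) (by rwa [Nat.card_zpowers]) ?_ (mem_zpowers c)
      intro x hx hxp
      rw [zpowers_eq_closure, centralizer_closure, mem_centralizer_singleton_iff]
      rcases eq_or_ne x 1 with rfl | hx1
      · simp
      exact mem_centralizer_iff.mp hc x ⟨L.pCore_le_fittingSubgroup hp hx, by
        rw [orderOf_eq_prime hxp hx1]; exact hp⟩
  have hgC : g ∈ C := mem_centralizer_iff.mpr fun x hx => (hg x hx.1 hx.2).symm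
  refine L.mem_of_forall_pPart_mem (isOfFinOrder_of_finite g) fun q hq y hy ⟨k, hk⟩ => ?_
  have := Fact.mk hq
  have hyC : y ∈ C := zpowers_le.mpr hgC hy
  set F' := F ⊓ pPrimeCore q G with hF'
  set D := C ⊓ centralizer (F' : Set G) with hD
  have hFF' : F = pCore q G ⊔ F' := by
    rw [hF', ← H1.dedekind_left le_normalizer_of_normal (L.pCore_le_fittingSubgroup hq)]
    exact (inf_eq_left.mpr (L.fittingSubgroup_le_sup hq)).symm
  have hyD : y ∈ D := by
    refine ⟨hyC, ?_⟩
    have : F' ≤ centralizer ({y} : Set G) := by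
      refine H1.le_of_forall_isPGroup_le fun p hp P hPF hP _ => ?_
      have := Fact.mk hp
      have h1 : P ≤ pCore p G := L.le_pCore_of_le_fittingSubgroup hp hP (hPF.trans inf_le_left)
      rcases eq_or_ne p q with rfl | hpq
      · have : P ≤ ⊥ := by
          rw [← L.pCore_inf_pPrimeCore hp]; exact le_inf h1 (hPF.trans inf_le_right)
        exact this.trans bot_le
      · have h2 := key y hyC p hp ((((Nat.coprime_primes hq hp).mpr hpq.symm).pow_left k).coprime_dvd_left
          (orderOf_dvd_of_pow_eq_one hk))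
        exact fun x hx => mem_centralizer_singleton_iff.mpr (mem_centralizer_iff.mp h2 x (h1 hx))
    exact mem_centralizer_iff.mpr fun x hx => mem_centralizer_singleton_iff.mp (this hx)
  have hDq : IsPGroup q (D.map (QuotientGroup.mk' F')) := by
    rintro ⟨_, d, hd, rfl⟩
    obtain ⟨a, b, ha, hb, hab, hc, ⟨m, hm⟩, hbq⟩ := H8.exists_pPart_pPrimePart hq d
    have hbD : b ∈ D := zpowers_le.mpr hd hb
    have hbF : b ∈ F := by
      refine L.centralizer_fittingSubgroup_le ?_
      have h1 : F ≤ centralizer ({b} : Set G) := by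
        rw [hFF']
        exact sup_le (fun x hx => mem_centralizer_singleton_iff.mpr
          (mem_centralizer_iff.mp (key b hbD.1 q hq hbq) x hx))
          fun x hx => mem_centralizer_singleton_iff.mpr (mem_centralizer_iff.mp hbD.2 x hx)
      exact mem_centralizer_iff.mpr fun x hx => mem_centralizer_singleton_iff.mp (h1 hx)
    have hbF' : b ∈ F' := by
      refine ⟨hbF, ?_⟩
      have h1 := H8.hasNPC_iff_forall_mem_pPrimeCore.mp (H8.hasNPC_of_isNilpotent (G := F) q)
        ⟨b, hbF⟩ (by rwa [orderOf_mk])
      have h2 := mem_map_of_mem F.subtype h1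
      rw [L.map_subtype_pPrimeCore hq] at h2
      exact h2.1
    refine ⟨m, Subtype.ext ?_⟩
    simp only [SubmonoidClass.coe_pow, OneMemClass.coe_one]
    rw [← map_pow, QuotientGroup.mk'_apply, QuotientGroup.eq_one_iff, hab, hc.mul_pow, ← hm,
      pow_orderOf_eq_one, one_mul]
    exact pow_mem hbF' _
  have hDn : Group.IsNilpotent D :=
    L.isNilpotent_of_map_mk'_of_le_centralizer F' D inf_le_right hDq.isNilpotent
  exact L.le_fittingSubgroup inferInstance hDn hyD

end Cfsg.Agent.S3785
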