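import Cfsg.Statements.S3787
import Cfsg.Agent.H1.PExp
import Cfsg.Agent.H1.AbAct
import Cfsg.Agent.H1.SectS4
import Cfsg.Agent.H3.RankOne

set_option autoImplicit false
open Cfsg

namespace Cfsg.Agent.S3787

open Subgroup H1
open scoped commutatorElement IsMulCommutative

theorem aux_card {B : Type*} [CommGroup B] [Finite B] {p : ℕ} [hp : Fact p.Prime]
    (hB : ∀ b : B, b ^ p = 1) (α : MulAut B) (hα : α ^ p = 1) {v : B}
    (hv : (commEnd α ^ (p - 1)) v ≠ 1) (hgen : zpowers v ⊔ MonoidHom.range (commEnd α) = ⊤) :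
    Nat.card B = p ^ p ∧ Nat.card (MonoidHom.ker (commEnd α)) = p := by
  have hP : IsPGroup p B := fun b => ⟨1, by simpa using hB b⟩
  have hf : ∀ b, (commEnd α ^ p) b = 1 := fun b => by
    simpa using commEnd_pow_eq_one hp.out (n := 1) (by simpa using hα) (hB b)
  have h1 : Nat.card (MonoidHom.ker (commEnd α)) ≤ p := by
    have a1 := (MonoidHom.ker (commEnd α)).card_mul_index
    have a2 := Nat.le_of_dvd (Nat.mul_pos Nat.card_pos Nat.card_pos)
      (card_sup_dvd (A := zpowers v) (N := MonoidHom.range (commEnd α)) le_normalizer_of_normal)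
    rw [hgen, card_top, ← a1, (index_ker (commEnd α) :), Nat.card_zpowers] at a2
    exact (Nat.le_of_mul_le_mul_right a2 Nat.card_pos).trans
      (Nat.le_of_dvd hp.out.pos (orderOf_dvd_of_pow_eq_one (hB v)))
  have h2 : ∀ k ≤ p, p ^ k ≤ Nat.card (MonoidHom.ker (commEnd α ^ k : Monoid.End B)) := by
    intro k hk
    induction k with
    | zero => exact Nat.card_pos
    | succ k ih =>
      have a1 : MonoidHom.ker (commEnd α ^ k : Monoid.End B) <
          MonoidHom.ker (commEnd α ^ (k + 1) : Monoid.End B) := by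
        refine SetLike.lt_iff_le_and_exists.mpr ⟨fun x (hx : (commEnd α ^ k) x = 1) => ?_,
          (commEnd α ^ (p - 1 - k)) v, ?_, fun h => hv ?_⟩
        · change (commEnd α ^ (k + 1)) x = 1
          rw [pow_succ']
          change commEnd α ((commEnd α ^ k) x) = 1
          rw [hx, map_one]
        · change (commEnd α ^ (k + 1) * commEnd α ^ (p - 1 - k)) v = 1
          rw [← pow_add, show k + 1 + (p - 1 - k) = p by omega, hf]
        · rw [show p - 1 = k + (p - 1 - k) by omega, pow_add]; exact h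
      obtain ⟨a, ha⟩ := IsPGroup.iff_card.mp (hP.to_subgroup (MonoidHom.ker (commEnd α ^ k)))
      obtain ⟨b, hb⟩ := IsPGroup.iff_card.mp (hP.to_subgroup (MonoidHom.ker (commEnd α ^ (k + 1))))
      have a2 := card_lt_of_lt a1
      have a3 := ih (by omega)
      rw [ha, hb, Nat.pow_lt_pow_iff_right hp.out.one_lt] at a2
      rw [ha, Nat.pow_le_pow_iff_right hp.out.one_lt] at a3
      rw [hb]
      exact Nat.pow_le_pow_right hp.out.pos (by omega)
  have h3 : MonoidHom.ker (commEnd α ^ p : Monoid.End B) = ⊤ := eq_top_iff.mpr fun b _ => hf b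
  have h4 := card_ker_pow_le (commEnd α) p
  have h5 := h2 p le_rfl
  rw [h3, card_top] at h4 h5
  exact ⟨le_antisymm (h4.trans (Nat.pow_le_pow_left h1 p)) h5,
    le_antisymm h1 (by simpa using h2 1 hp.out.one_lt.le)⟩

theorem aux_norm {H : Type*} [Group H] {p : ℕ} [hp : Fact p.Prime] {V : Subgroup H} [V.Normal]
    (hV : IsElementaryAbelian p V) (g : H) {v : H} (hv : v ∈ V) :
    (v * g) ^ p = (fun w => ⁅g, w⁆)^[p - 1] v * g ^ p := by
  have := hV.1
  have hV' := pow_eq_one_of_isElementaryAbelian hV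
  obtain ⟨w, h1, h2⟩ := stdRep_geom_sum hV' g ⟨v, hv⟩ p
  have h3 := geom_sum_eq_sub_one_pow hp.out (cast_end_eq_zero p) 1 (stdRep hV' (g : H ⧸ V))
  rw [pow_one] at h3
  have h4 : ∀ n, ∃ u : V, (u : H) = (fun w => ⁅g, w⁆)^[n] v ∧
      ((stdRep hV' (g : H ⧸ V) - 1) ^ n) (eaOf hV' ⟨v, hv⟩) = eaOf hV' u := fun n => by
    induction n with
    | zero => exact ⟨_, rfl, rfl⟩
    | succ n ih =>
      obtain ⟨u, a1, a2⟩ := ih
      obtain ⟨w, b1, b2⟩ := stdRep_sub_one_apply hV' g u
      exact ⟨w, by rw [Function.iterate_succ_apply', ← a1, b1],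
        by rw [pow_succ', Module.End.mul_apply, a2, b2]⟩
  obtain ⟨u, a1, a2⟩ := h4 (p - 1)
  rw [h3, a2] at h2
  rw [h1, ← a1, (eaOf hV').injective h2]

theorem aux_wr {K W : Type*} [Group K] [Finite K] [Group W] {p : ℕ} [hp : Fact p.Prime]
    {f : K →* W} (hf : Function.Surjective f) {B : Subgroup K} [B.Normal] (hB : IsMulCommutative B)
    (hBp : ∀ b ∈ B, b ^ p = 1) (hBc : Nat.card B = p ^ p) {t : K} (h1 : B ⊔ zpowers t = ⊤)
    (h2 : Nat.card (B ⊓ centralizer {t} : Subgroup K) = p) (h3 : B ⊓ f.ker = ⊥)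
    (h4 : t ^ p ∈ f.ker) (h5 : t ∉ B ⊔ f.ker) :
    ∃ (B : Subgroup W) (t : W), B.Normal ∧ IsMulCommutative B ∧ (∀ b ∈ B, b ^ p = 1) ∧
      Nat.card B = p ^ p ∧ orderOf t = p ∧ t ∉ B ∧ Nat.card W = p ^ (p + 1) ∧
      Nat.card ↥(B ⊓ Subgroup.centralizer ({t} : Set W)) = p := by
  have := Finite.of_surjective f hf
  have hc : ∀ A ≤ B, Nat.card (A.map f) = Nat.card A := fun A hA => by
    rw [← relIndex_ker, ← inf_relIndex_right, eq_bot_iff.mpr ((inf_comm _ A).le.trans
      (h3 ▸ inf_le_inf_right _ hA)), relIndex_bot_left]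
  have ht : f t ∉ B.map f := fun h => h5 (by rwa [← comap_map_eq])
  have ho : orderOf (f t) = p := orderOf_eq_prime (by rw [← map_pow]; exact h4)
    fun h => ht (h ▸ one_mem _)
  have := Normal.map (H := B) inferInstance f hf
  refine ⟨B.map f, f t, this, inferInstance, ?_, by rw [hc B le_rfl, hBc], ho, ht, ?_, ?_⟩
  · rintro _ ⟨b, hb, rfl⟩; rw [← map_pow, hBp b hb, map_one]
  · rw [← card_top, ← map_top_of_surjective f hf, ← h1, Subgroup.map_sup, MonoidHom.map_zpowers,
      sup_comm, card_sup_of_inf_eq_bot le_normalizer_of_normal, hc B le_rfl, hBc, Nat.card_zpowers,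
      ho, pow_succ']
    refine eq_bot_iff.mpr fun x hx => by_contra fun hx1 => ht ?_
    exact zpowers_le.mpr hx.2 (H3.mem_zpowers_of_pow_prime_eq_one hp.out
      (ho ▸ pow_orderOf_eq_one _) hx.1 hx1)
  · rw [← h2, ← hc _ inf_le_left]
    congr 2
    refine le_antisymm ?_ (le_inf (map_mono inf_le_left) ?_)
    · rintro _ ⟨⟨b, hb, rfl⟩, hb'⟩
      refine ⟨b, ⟨hb, mem_centralizer_singleton_iff.mpr (commutatorElement_eq_one_iff_mul_comm.mp
        (mem_bot.mp (h3 ▸ mem_inf.mpr ⟨?_, ?_⟩)))⟩, rfl⟩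
      · rw [← commutatorElement_inv]
        exact inv_mem (mul_mem (Normal.conj_mem inferInstance _ hb _) (inv_mem hb))
      · rw [MonoidHom.mem_ker, map_commutatorElement, commutatorElement_eq_one_iff_mul_comm]
        exact mem_centralizer_singleton_iff.mp hb'
    · rintro _ ⟨b, hb, rfl⟩
      exact mem_centralizer_singleton_iff.mpr (by
        rw [← map_mul, ← map_mul, mem_centralizer_singleton_iff.mp hb.2])

/-- Let G be a finite p-soluble group, p an odd prime not of the form 2^k + 1, and suppose the wreath product C_p ≀ C_p (of order p^(p+1)) is not involved in a Sylow p-subgroup of G: no section of a Sylow p-subgroup is isomorphic to it. Then G has p-length at most 1. -/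
theorem result {G : Type*} [Group G] [Finite G] {p : ℕ} [Fact p.Prime] (hp2 : p ≠ 2) (hnf : (¬ ∃ k : ℕ, p = 2 ^ k + 1)) (hG : Cfsg.IsPSolvable p G) (P : Sylow p G) (hwr : ∀ (W : Type) [Group W] [Finite W], (∃ (B : Subgroup W) (t : W), B.Normal ∧ IsMulCommutative B ∧ (∀ b ∈ B, b ^ p = 1) ∧ Nat.card B = p ^ p ∧ orderOf t = p ∧ t ∉ B ∧ Nat.card W = p ^ (p + 1) ∧ Nat.card ↥(B ⊓ Subgroup.centralizer ({t} : Set W)) = p) → ¬ Cfsg.Involves W ↥(P : Subgroup G)) : Cfsg.PLengthLE p 1 G := by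
  have hp : p.Prime := Fact.out
  obtain ⟨H, _, _, f, hf, h1, h2, h3, h4⟩ := exists_std hp hG
  refine pLengthLE_succ_of_std hp hf h4 ((L.pLengthLE_zero_iff hp).mpr ?_)
  set V := pCore p H
  let S := P.mapSurjective hf
  have hVS : V ≤ S := L.pCore_le_sylow S
  by_contra hcon
  obtain ⟨g, hgS, hgV, hgp⟩ : ∃ g ∈ (S : Subgroup H), g ∉ V ∧ g ^ p ∈ V := by
    have a1 : ¬ (S : Subgroup H) ≤ V := fun h => hcon ((hp.coprime_iff_not_dvd.mpr fun h' =>
      S.not_dvd_index (le_antisymm h hVS ▸ h')).symm)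
    obtain ⟨g, hg, hgV⟩ := SetLike.not_le_iff_exists.mp a1
    obtain ⟨k, hk⟩ := H3.exists_pow_orderOf_eq_prime (S.isPGroup'.map (QuotientGroup.mk' V))
      (x := ⟨g, g, hg, rfl⟩) fun h => hgV ((QuotientGroup.eq_one_iff g).mp (congrArg Subtype.val h))
    rw [← orderOf_coe] at hk
    change orderOf ((g : H ⧸ V) ^ k) = p at hk
    refine ⟨g ^ k, pow_mem hg k, fun h => ?_, ?_⟩
    · rw [← QuotientGroup.mk_pow, (QuotientGroup.eq_one_iff _).mpr h, orderOf_one] at hk
      exact hp.one_lt.ne hk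
    · rw [← QuotientGroup.eq_one_iff, QuotientGroup.mk_pow, QuotientGroup.mk_pow]
      exact orderOf_dvd_iff_pow_eq_one.mp hk.dvd
  obtain ⟨v₀, hv₀, hv₀'⟩ : ∃ v ∈ V, (fun w => ⁅g, w⁆)^[p - 1] v ≠ 1 := by
    by_contra h
    push Not at h
    obtain ⟨q, hq, -, -, n, e, a1, -, a2, a3⟩ := hhb_std_norm hp h1 h2 h3 (g := g) (m := 0)
      (by simpa using hgV) fun v hv => by rw [zero_add, pow_one, aux_norm h3 g hv, h v hv, one_mul]
    exact hnf (fermat_of_prime_pow_eq hp hp2 hq a1 a2 a3).2.1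
  obtain ⟨B, -, ⟨hBV, hgB, v, hv, hv'⟩, hmin⟩ := exists_minimal_le_of_wellFoundedLT
    (fun B : Subgroup H => B ≤ V ∧ g ∈ normalizer (B : Set H) ∧
      ∃ v ∈ B, (fun w => ⁅g, w⁆)^[p - 1] v ≠ 1) V
    ⟨le_rfl, le_normalizer_of_normal (mem_top g), v₀, hv₀, hv₀'⟩
  have hBE := H3.IsElementaryAbelian_mono h3 hBV
  have := hBE.1
  have := h3.1
  have hgc : ∀ b ∈ B, Commute (g ^ p) b := fun b hb => setLike_mul_comm hgp (hBV hb)
  obtain ⟨c1, c2⟩ := aux_card (pow_eq_one_of_isElementaryAbelian hBE) (conjAutOf hgB)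
    (conjAutOf_pow_eq_one hgB (mem_centralizer_iff.mpr fun b hb => (hgc b hb).symm)) (v := ⟨v, hv⟩)
    (fun h => hv' (by
      rw [commEnd_pow_apply] at h
      exact (coe_iterate_conjAut le_rfl ⟨g, hgB⟩ _ ⟨v, hv⟩).symm.trans (congrArg Subtype.val h)))
    (by
      refine map_injective B.subtype_injective (le_antisymm (map_mono le_top) ?_)
      rw [← MonoidHom.range_eq_map, range_subtype]
      refine hmin ⟨(map_subtype_le _).trans hBV, mem_normalizer_fintype ?_, v,
        ⟨⟨v, hv⟩, mem_sup_left (mem_zpowers _), rfl⟩, hv'⟩ (map_subtype_le _)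
      rintro _ ⟨x, hx, rfl⟩
      refine ⟨commEnd (conjAutOf hgB) x * x, mul_mem (mem_sup_right ⟨x, rfl⟩) hx, ?_⟩
      rw [commEnd_apply, inv_mul_cancel_right]; rfl)
  have c3 : Nat.card (B ⊓ centralizer {g} : Subgroup H) = p := by
    rw [← c2, ← card_map_of_injective B.subtype_injective]
    congr 2
    ext x
    constructor
    · rintro ⟨a, b⟩
      exact ⟨⟨x, a⟩, mem_ker_commEnd.mpr (Subtype.ext (mul_inv_eq_iff_eq_mul.mpr
        (mem_centralizer_singleton_iff.mp b).symm)), rfl⟩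
    · rintro ⟨x, a, rfl⟩
      exact ⟨x.2, mem_centralizer_singleton_iff.mpr (mul_inv_eq_iff_eq_mul.mp
        (congrArg Subtype.val (mem_ker_commEnd.mp a))).symm⟩
  obtain ⟨u, hu, hug⟩ : ∃ u ∈ B, B ⊓ zpowers ((u * g) ^ p) = ⊥ := by
    by_cases hg : g ^ p ∈ B
    · have d1 : ∀ u : B, ((u : H) * g) ^ p =
          ((commEnd (conjAutOf hgB) ^ (p - 1)) u : B) * g ^ p := fun u => by
        rw [aux_norm h3 g (hBV u.2), commEnd_pow_apply]
        exact congrArg (· * g ^ p) (coe_iterate_conjAut le_rfl ⟨g, hgB⟩ _ u).symm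
      set w := (commEnd (conjAutOf hgB) ^ (p - 1)) ⟨v, hv⟩
      have d2 : (w : H) = (v * g) ^ p * (g ^ p)⁻¹ := eq_mul_inv_of_mul_eq (d1 ⟨v, hv⟩).symm
      have d3 : (w : H) ≠ 1 := fun h => hv' (by
        have := aux_norm h3 g (hBV hv)
        rwa [d1 ⟨v, hv⟩, h, mul_left_inj, eq_comm] at this)
      have d4 : (w : H) ∈ B ⊓ centralizer {g} := mem_inf.mpr ⟨w.2, by
        rw [d2]
        refine mul_mem (mem_centralizer_singleton_iff.mpr ?_)
          (inv_mem (mem_centralizer_singleton_iff.mpr (Commute.pow_self g p)))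
        have d5 : Commute ((v * g) ^ p) v := setLike_mul_comm (d1 ⟨v, hv⟩ ▸ mul_mem w.2 hg) hv
        simpa using (d5.inv_right.mul_right (Commute.pow_self _ p)).eq⟩
      have d5 : zpowers (w : H) = B ⊓ centralizer {g} := eq_of_le_of_card_le (zpowers_le.mpr d4)
        (by rw [c3, Nat.card_zpowers, orderOf_eq_prime (hBE.2 _ w.2) d3])
      obtain ⟨k, hk⟩ := d5.ge (inv_mem (mem_inf.mpr
        ⟨hg, mem_centralizer_singleton_iff.mpr (Commute.pow_self g p)⟩))
      refine ⟨_, ((⟨v, hv⟩ : B) ^ k).2, ?_⟩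
      rw [d1, map_zpow, coe_zpow, show (w : H) ^ k = _ from hk, inv_mul_cancel, zpowers_one_eq_bot,
        inf_bot_eq]
    · refine ⟨1, one_mem _, eq_bot_iff.mpr fun x hx => by_contra fun hx1 => hg ?_⟩
      rw [one_mul] at hx
      exact zpowers_le.mpr hx.1 (H3.mem_zpowers_of_pow_prime_eq_one hp (h3.2 _ hgp) hx.2 hx1)
  set t := u * g
  have htB : t ∈ normalizer (B : Set H) := mul_mem (le_normalizer hu) hgB
  have htV : t ∉ V := fun h => hgV (by simpa [t] using mul_mem (inv_mem (hBV hu)) h)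
  have htp : t ^ p ∈ V := by
    rw [← QuotientGroup.eq_one_iff, QuotientGroup.mk_pow, QuotientGroup.mk_mul,
      (QuotientGroup.eq_one_iff u).mpr (hBV hu), one_mul, ← QuotientGroup.mk_pow,
      QuotientGroup.eq_one_iff]
    exact hgp
  set K := B ⊔ zpowers t
  have hBK : B ≤ K := le_sup_left
  have htK : t ∈ K := mem_sup_right (mem_zpowers t)
  have : ((zpowers (t ^ p)).subgroupOf K).Normal := normal_subgroupOf_of_le
    (le_normalizer_of_le_centralizer (by
      rw [centralizer_zpowers']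
      exact sup_le (fun b hb => mem_centralizer_singleton_iff.mpr (setLike_mul_comm (hBV hb) htp))
        (zpowers_le.mpr (mem_centralizer_singleton_iff.mpr (Commute.self_pow t p)))))
  have : (B.subgroupOf K).Normal := normal_subgroupOf_of_le (sup_le le_normalizer (zpowers_le.mpr htB))
  let e := Shrink.mulEquiv.{0} (α := K ⧸ (zpowers (t ^ p)).subgroupOf K)
  let φ := e.symm.toMonoidHom.comp (QuotientGroup.mk' ((zpowers (t ^ p)).subgroupOf K))
  have hφ : Function.Surjective φ := e.symm.surjective.comp (QuotientGroup.mk'_surjective _)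
  have hk : φ.ker = (zpowers (t ^ p)).subgroupOf K := by
    rw [MonoidHom.ker_comp_of_injective _ _ e.symm.injective, QuotientGroup.ker_mk']
  have := Finite.of_surjective φ hφ
  refine hwr _ (aux_wr hφ (B := B.subgroupOf K) (t := ⟨t, htK⟩) inferInstance
    (fun b hb => Subtype.ext (hBE.2 _ hb)) (by rw [Nat.card_congr (subgroupOfEquivOfLe hBK).toEquiv, c1])
    ?_ ?_ ?_ (by rw [hk]; exact mem_zpowers (t ^ p)) ?_) ?_
  · refine map_injective K.subtype_injective ?_
    rw [Subgroup.map_sup, map_subgroupOf_eq_of_le hBK, MonoidHom.map_zpowers,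
      ← MonoidHom.range_eq_map, range_subtype]; rfl
  · rw [← c3, ← card_map_of_injective K.subtype_injective]
    congr 2
    have key : ∀ b ∈ B, Commute b t ↔ Commute b g := fun b hb =>
      ⟨fun h => by simpa [t] using (Commute.inv_right (setLike_mul_comm hb hu)).mul_right h,
        Commute.mul_right (setLike_mul_comm hb hu)⟩
    ext x
    constructor
    · rintro ⟨x, ⟨a, b⟩, rfl⟩
      exact ⟨a, mem_centralizer_singleton_iff.mpr ((key _ a).mp
        (congrArg Subtype.val (mem_centralizer_singleton_iff.mp b)))⟩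
    · rintro ⟨a, b⟩
      exact ⟨⟨x, hBK a⟩, ⟨a, mem_centralizer_singleton_iff.mpr (Subtype.ext
        ((key _ a).mpr (mem_centralizer_singleton_iff.mp b)))⟩, rfl⟩
  · rw [hk, subgroupOf, subgroupOf, ← comap_inf, hug]; exact bot_subgroupOf _
  · rw [hk, ← subgroupOf_sup hBK (zpowers_le.mpr (pow_mem htK p))]
    exact fun h => htV (sup_le hBV (zpowers_le.mpr htp) h)
  · refine involves_of_surjective (f.subgroupMap_surjective P) ?_
    have hKS : K ≤ S := sup_le (hBV.trans hVS) (zpowers_le.mpr (mul_mem (hVS (hBV hu)) hgS))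
    exact involves_of_injective (inclusion_injective hKS) (involves_of_hom hφ)

end Cfsg.Agent.S3787
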