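import Cfsg.Statements.S3788
import Cfsg.Agent.H1.PExp
import Cfsg.Agent.H1.SectS4
import Cfsg.Agent.H7.AutPGroup

set_option autoImplicit false
open Cfsg

namespace Cfsg.Agent.S3788

open Subgroup
open scoped commutatorElement

theorem mem_commStab_of {G : Type*} [Group G] {V U : Subgroup G} (hUV : U ≤ V) [Finite G] {b : G}
    (h : ∀ v ∈ V, ⁅v, b⁆ ∈ U) : b ∈ H1.commStab V U := by
  refine ⟨H1.map_conj_eq_self_iff.mp (H1.eq_of_le_of_card_le (H1.map_conj_le_iff.mpr fun u hu => ?_)
    (H1.card_map_conj _ _).ge), h⟩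
  have := mul_mem (inv_mem (h u (hUV hu))) hu
  simpa only [commutatorElement_def, mul_inv_rev, inv_inv, mul_assoc, inv_mul_cancel, mul_one]
    using this

theorem step {G : Type*} [Group G] [Finite G] {p : ℕ} [Fact p.Prime] (hG : IsPSolvable p G)
    (h1 : pPrimeCore p G = ⊥) (hV : IsElementaryAbelian p (pCore p G))
    (h : p ≠ 2 ∨ ¬ Involves (Equiv.Perm (Fin 4)) G) {a : G}
    (hn : pCore p G ≤ normalizer (zpowers a : Set G)) (hap : a ^ p ∈ pCore p G) :
    a ∈ pCore p G := by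
  have hp : p.Prime := Fact.out
  by_contra ha
  set V := pCore p G with hVdef
  have hVc := hV.1
  have hVp : IsPGroup p V := L.isPGroup_pCore p
  have hC : centralizer (V : Set G) ≤ V := L.centralizer_pCore_le hp hG h1
  have hva : ∀ v ∈ V, ⁅v, a⁆ ∈ zpowers (a ^ p) := by
    intro v hv
    have h2 : ⁅v, a⁆ ∈ V := by
      simpa only [commutatorElement_def, mul_assoc] using
        mul_mem hv (Normal.conj_mem inferInstance _ (inv_mem hv) a)
    obtain ⟨n, hn⟩ : ⁅v, a⁆ ∈ zpowers a :=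
      mul_mem (H1.conj_mem_of_le_normalizer hn hv (mem_zpowers a)) (inv_mem (mem_zpowers a))
    by_cases hd : (p : ℤ) ∣ n
    · obtain ⟨m, rfl⟩ := hd
      exact ⟨m, by rw [← hn]; simp only [zpow_mul, zpow_natCast]⟩
    · exfalso
      obtain ⟨s, t, hst⟩ := (Nat.prime_iff_prime_int.mp hp).irreducible.coprime_iff_not_dvd.mpr hd
      apply ha
      rw [← zpow_one a, ← hst, zpow_add, mul_comm s, mul_comm t, zpow_mul, zpow_mul, zpow_natCast]
      exact mul_mem (zpow_mem hap _) (zpow_mem (by simpa only [← hn] using h2) _)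
  set M := (pPrimeCore p (G ⧸ V)).comap (QuotientGroup.mk' V) with hM
  have hTM : V ≤ M := fun x hx => by
    rw [mem_comap, QuotientGroup.mk'_apply, (QuotientGroup.eq_one_iff x).mpr hx]; exact one_mem _
  have hidx : (V.relIndex M).Coprime p := by
    rw [L.relIndex_eq_card_map_mk', map_comap_eq_self_of_surjective (QuotientGroup.mk'_surjective V)]
    exact L.coprime_card_pPrimeCore p
  obtain ⟨Q, hQ1, hQ2, hQ3, hQ4⟩ := H1.exists_complement_frattini hTM
    (H1.isSolvable_of_isPGroup hVp) (H1.coprime_card_of_isPGroup hVp hidx).symm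
  obtain ⟨n, hn, hb⟩ := hQ4 a
  set b := n * a with hbdef
  have hvb : ∀ v ∈ V, ⁅v, b⁆ ∈ zpowers (a ^ p) := fun v hv => by
    have : ⁅v, b⁆ = ⁅v, a⁆ := by
      have h2 : a * v⁻¹ * a⁻¹ ∈ V := Normal.conj_mem inferInstance _ (inv_mem hv) a
      calc ⁅v, b⁆ = v * (n * (a * v⁻¹ * a⁻¹)) * n⁻¹ := by
            simp only [hbdef, commutatorElement_def]; group
        _ = ⁅v, a⁆ := by rw [setLike_mul_comm hn h2, commutatorElement_def]; group
    rw [this]; exact hva v hv
  have hcV : zpowers (a ^ p) ≤ V := zpowers_le.mpr hap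
  have hbp : b ^ p = a ^ p * ⁅a, n⁆ ^ p.choose 2 := by
    have h2 : ⁅a, n⁆ ∈ zpowers (a ^ p) := by
      rw [← commutatorElement_inv]; exact inv_mem (hva n hn)
    rw [hbdef, H1.mul_pow_of_central (setLike_mul_comm hn (hcV h2)) (by
      obtain ⟨m, hm⟩ := h2
      rw [← hm]; exact (Commute.self_pow a p).zpow_right m), hV.2 n hn, one_mul]
  have hbpV : b ^ p ∈ V := by
    rw [hbp]
    refine mul_mem hap (pow_mem (hcV ?_) _)
    rw [← commutatorElement_inv]; exact inv_mem (hva n hn)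
  have hbpC : b ^ p ∈ V ⊓ centralizer (Q : Set G) := by
    rw [← H1.inf_normalizer_eq_inf_centralizer le_normalizer_of_normal hQ2]
    exact ⟨hbpV, pow_mem hb p⟩
  obtain ⟨x, hx, hxb⟩ : ∃ x ∈ Q, ⁅x, b⁆ ≠ 1 := by
    obtain ⟨x, hx, hx1⟩ := H1.exists_commutator_ne_one_of_pCore_eq_bot hp
      (L.IsPSolvable.quotient hp hG V) (L.pCore_quotient_pCore hp) (z := (b : G ⧸ V)) (k := 1)
      (by rw [pow_one, ← QuotientGroup.mk_pow, QuotientGroup.eq_one_iff]; exact hbpV)
      (by rw [Ne, QuotientGroup.eq_one_iff]; exact fun h => ha ((V.mul_mem_cancel_left hn).mp h))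
    obtain ⟨x, rfl⟩ := QuotientGroup.mk_surjective x
    have h2 : x ∈ Q ⊔ V := hQ1 ▸ hx
    obtain ⟨y, hy, v, hv, rfl⟩ := (H1.mem_sup_iff_of_le_normalizer le_normalizer_of_normal).mp h2
    refine ⟨y, hy, fun h => hx1 ?_⟩
    rw [QuotientGroup.mk_mul, (QuotientGroup.eq_one_iff v).mpr hv, mul_one, ← QuotientGroup.mk'_apply,
      ← QuotientGroup.mk'_apply, ← map_commutatorElement, h, map_one]
  set y := ⁅x, b⁆ with hy
  have hyQ : y ∈ Q := by
    simpa only [hy, commutatorElement_def, mul_assoc] using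
      mul_mem hx ((mem_normalizer_iff.mp hb _).mp (inv_mem hx))
  have hyp : (orderOf y).Coprime p := (hQ3 ▸ hidx).coprime_dvd_left (orderOf_dvd_natCard _ hyQ)
  have hcop : (Nat.card (zpowers y)).Coprime (Nat.card V) := by
    rw [Nat.card_zpowers]; exact H1.coprime_card_of_isPGroup hVp hyp
  have hyC : ∀ z ∈ Q, z ∈ centralizer (V : Set G) → z = 1 := fun z hz hz' =>
    mem_bot.mp (hQ2 ▸ mem_inf.mpr ⟨hz, hC hz'⟩)
  have hstab : ∀ U : Subgroup G, U ≤ V → a ^ p ∈ U → x * a ^ p * x⁻¹ ∈ U → ⁅V, zpowers y⁆ ≤ U := by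
    intro U hUV h2 h3
    refine (H1.le_commStab_iff.mp (zpowers_le.mpr (mul_mem (mem_commStab_of hUV fun v hv => ?_)
      (inv_mem (mem_commStab_of hUV fun v hv => zpowers_le.mpr h2 (hvb v hv)))))).2
    obtain ⟨m, hm⟩ := hvb _ (Normal.conj_mem inferInstance _ hv x⁻¹)
    have : ⁅v, x * b * x⁻¹⁆ = (x * a ^ p * x⁻¹) ^ m := by
      rw [conj_zpow, show (a ^ p) ^ m = _ from hm]; simp only [commutatorElement_def]; group
    rw [this]; exact zpow_mem h3 m
  rcases eq_or_ne p 2 with rfl | hp2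
  · refine (h.resolve_left (by simp)) ?_
    set W := ⁅V, zpowers y⁆ with hW
    have hWV : W ≤ V := commutator_le_left _ _
    have hyW : y ∈ normalizer (W : Set G) := H1.le_normalizer_commutator_self (mem_zpowers y)
    have hCW : W ⊓ centralizer ({y} : Set G) = ⊥ := by
      rw [inf_comm, ← H1.centralizer_zpowers']
      exact H1.centralizer_inf_commutator_eq_bot hVc le_normalizer_of_normal hcop
    have hW0 : W ≠ ⊥ := fun h0 => hxb (hyC y hyQ
      (H1.commutator_eq_bot_iff_le_centralizer'.mp h0 (mem_zpowers y)))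
    have hinv : b * y * b⁻¹ = y⁻¹ := by
      have h2 := mem_centralizer_iff.mp hbpC.2 x hx
      calc b * y * b⁻¹ = b * x * b⁻¹ * (b ^ 2 * x⁻¹) * b⁻¹ * b⁻¹ := by
            simp only [hy, commutatorElement_def, sq]; group
        _ = y⁻¹ := by
          rw [show b ^ 2 * x⁻¹ = x⁻¹ * b ^ 2 by rw [eq_inv_mul_iff_mul_eq, ← mul_assoc, h2]; simp]
          simp only [hy, commutatorElement_def, sq]; group
    have hc2 : ∀ v ∈ V, Nat.card (zpowers v) ≤ 2 := fun v hv => by
      rw [Nat.card_zpowers]; exact orderOf_le_of_pow_eq_one two_pos (hV.2 v hv)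
    have hc' : x * a ^ 2 * x⁻¹ ∈ V := Normal.conj_mem inferInstance _ hap x
    have hW4 : Nat.card W ≤ 4 := by
      refine (card_le_of_le (hstab (zpowers (a ^ 2) ⊔ zpowers (x * a ^ 2 * x⁻¹))
        (sup_le hcV (zpowers_le.mpr hc')) (mem_sup_left (mem_zpowers _))
        (mem_sup_right (mem_zpowers _)))).trans ((Nat.le_of_dvd (Nat.mul_pos Nat.card_pos Nat.card_pos)
          (H1.card_sup_dvd (H1.le_normalizer_of_le_centralizer ?_))).trans
            (Nat.mul_le_mul (hc2 _ hap) (hc2 _ hc')))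
      exact fun u hu => mem_centralizer_iff.mpr fun w hw =>
        setLike_mul_comm (zpowers_le.mpr hc' hw) (hcV hu)
    obtain ⟨j, hj⟩ := (hVp.to_le hWV).exists_card_eq
    have hWc : IsMulCommutative W := ⟨⟨fun u w => Subtype.ext (setLike_mul_comm (hWV u.2) (hWV w.2))⟩⟩
    have hA := H7.card_mulAut_of_elementary hWc (fun w => Subtype.ext (hV.2 w (hWV w.2))) hj
    have hφ : ∀ i, Nat.card (MulAut W) ∣ 2 * i → y ^ i = 1 := by
      intro i hi
      have h2 : H1.conjAutOf hyW ^ i = 1 := by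
        refine orderOf_dvd_iff_pow_eq_one.mp (Nat.Coprime.dvd_of_dvd_mul_left
          (hyp.coprime_dvd_left (orderOf_dvd_of_pow_eq_one (H1.conjAutOf_pow_eq_one hyW ?_)))
          ((_root_.orderOf_dvd_natCard _).trans hi))
        rw [pow_orderOf_eq_one]; exact one_mem _
      refine hyC _ (pow_mem hyQ i) (H1.le_centralizer_of_commutator_le (A := zpowers (y ^ i))
        (H := W) le_normalizer_of_normal (H1.coprime_of_le hcop (zpowers_le.mpr
          (pow_mem (mem_zpowers y) i)) le_rfl) (commutator_mono le_rfl (zpowers_le.mpr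
          (pow_mem (mem_zpowers y) i))) (zpowers_le.mpr (mem_centralizer_iff.mpr fun w hw => ?_))
          (mem_zpowers _))
      have h3 := H1.coe_conjAutOf_pow hyW i ⟨w, hw⟩
      rw [h2] at h3
      exact eq_mul_inv_iff_mul_eq.mp h3
    have hj2 : j = 2 := by
      rw [hj, show 4 = 2 ^ 2 by norm_num, Nat.pow_le_pow_iff_right one_lt_two] at hW4
      interval_cases j
      · exact absurd (card_eq_one.mp hj) hW0
      · exact absurd (by simpa using hφ 1 (by rw [hA]; decide)) hxb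
      · rfl
    subst hj2
    have : Fact (Nat.Prime 3) := ⟨Nat.prime_three⟩
    refine H1.involves_S4 hj hyW (H1.le_normalizer_commutator (A := zpowers b)
      le_normalizer_of_normal (zpowers_le.mpr (H1.map_conj_eq_self_iff.mp ?_)) (mem_zpowers b))
      (orderOf_eq_prime (hφ 3 (by rw [hA]; decide)) hxb) (k := 2)
      (by rw [show 2 ^ 2 = 2 * 2 by norm_num, pow_mul]; exact hV.2 _ hbpV) hinv hCW
    rw [MonoidHom.map_zpowers]
    change zpowers (b * y * b⁻¹) = _
    rw [hinv, zpowers_inv]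
  · have h2 : ⁅a, n⁆ ^ p.choose 2 = 1 := by
      obtain ⟨m, hm⟩ := hp.dvd_choose_self (k := 2) two_ne_zero (lt_of_le_of_ne hp.two_le hp2.symm)
      rw [hm, pow_mul, hV.2 _ (hcV (by rw [← commutatorElement_inv]; exact inv_mem (hva n hn))),
        one_pow]
    rw [hbp, h2, mul_one] at hbpC
    refine hxb (hyC y hyQ (H1.le_centralizer_of_commutator_le le_normalizer_of_normal hcop
      (hstab _ inf_le_left hbpC ?_) (zpowers_le.mpr (mem_centralizer_iff.mpr fun w hw =>
        (mem_centralizer_iff.mp hw.2 y hyQ).symm)) (mem_zpowers y)))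
    rw [mem_centralizer_iff.mp hbpC.2 x hx, mul_inv_cancel_right]
    exact hbpC

/-- Let G be a finite p-soluble group, P a Sylow p-subgroup of G and A a cyclic normal subgroup of P. If p is odd, or if no section of G is isomorphic to the symmetric group of degree 4, then A ≤ O_{p',p}(G). -/
theorem result {G : Type*} [Group G] [Finite G] {p : ℕ} [Fact p.Prime] (hG : Cfsg.IsPSolvable p G) (P : Sylow p G) (A : Subgroup G) (hAP : A ≤ (P : Subgroup G)) (hAn : (P : Subgroup G) ≤ Subgroup.normalizer (A : Set G)) (hA : IsCyclic A) (h : p ≠ 2 ∨ ¬ Cfsg.Involves (Equiv.Perm (Fin 4)) G) : A ≤ Cfsg.pPrimePCore p G := by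
  have hp : p.Prime := Fact.out
  obtain ⟨H, _, _, f, hf, h1, h2, h3, h4⟩ := H1.exists_std hp hG
  obtain ⟨a, rfl⟩ := (Subgroup.isCyclic_iff_exists_zpowers_eq_top A).mp hA
  rw [← h4, zpowers_le, mem_comap]
  have key : ∀ (k : ℕ) (x : H), x ^ p ^ k = 1 → pCore p H ≤ normalizer (zpowers x : Set H) →
      x ∈ pCore p H := by
    intro k
    induction k with
    | zero => intro x hx _; rw [pow_zero, pow_one] at hx; rw [hx]; exact one_mem _
    | succ k ih =>
      intro x hx hn
      refine step h1 h2 h3 (h.imp_right fun h' h'' => h' (H1.involves_of_surjective hf h'')) hn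
        (ih _ (by rw [← pow_mul, ← pow_succ', hx]) fun v hv => H1.map_conj_eq_self_iff.mp
          (H1.eq_of_le_of_card_le ?_ (H1.card_map_conj _ _).ge))
      rw [MonoidHom.map_zpowers, zpowers_le]
      obtain ⟨n, hn⟩ := H1.conj_mem_of_le_normalizer hn hv (mem_zpowers x)
      refine ⟨n, ?_⟩
      change (x ^ p) ^ n = v * x ^ p * v⁻¹
      rw [← conj_pow, ← hn, ← zpow_natCast, ← zpow_natCast, ← zpow_mul, ← zpow_mul, mul_comm]
  obtain ⟨k, hk⟩ := P.isPGroup' ⟨a, hAP (mem_zpowers a)⟩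
  refine key k (f a) (by rw [← map_pow, show a ^ p ^ k = 1 from congrArg Subtype.val hk, map_one]) ?_
  rw [← MonoidHom.map_zpowers]
  exact (L.pCore_le_sylow (P.mapSurjective hf)).trans ((map_mono hAn).trans (le_normalizer_map f))

end Cfsg.Agent.S3788
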