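import Cfsg.Statements.S3789
import Cfsg.Agent.H1.HHDer
import Cfsg.Agent.H1.Der

set_option autoImplicit false
open Cfsg

namespace Cfsg.Agent.S3789

open Subgroup H1 Module
open scoped commutatorElement IsMulCommutative

theorem aux1 {H : Type*} [Group H] [Finite H] {p : ℕ} [hp : Fact p.Prime] (hp2 : p ≠ 2)
    (h1 : IsPSolvable p H) (h2 : pPrimeCore p H = ⊥) (h3 : IsElementaryAbelian p (pCore p H))
    (S : Sylow p H) (d : ℕ) (h : der (S : Subgroup H) (d + 1) = ⊥) :
    der (S : Subgroup H) d ≤ pCore p H := by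
  have hC := L.centralizer_pCore_le hp.out h1 h2
  have hVS : pCore p H ≤ S := L.pCore_le_sylow S
  rw [der_succ, commutator_eq_bot_iff_le_centralizer] at h
  rcases d with _ | d
  · exact h.trans ((centralizer_le hVS).trans hC)
  have := h3.1
  have hV := pow_eq_one_of_isElementaryAbelian h3
  have hn : ∀ n, ∀ a ∈ der (S : Subgroup H) n, ∀ v : pCore p H, ⁅a, (v : H)⁆ ∈ der (S : Subgroup H) n :=
    fun n a ha v => by
      simpa only [commutatorElement_def, mul_assoc] using mul_mem ha (conj_mem_of_le_normalizer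
        (le_normalizer_der le_normalizer n) (hVS v.2) (inv_mem ha))
  have key : ∀ a ∈ der (S : Subgroup H) (d + 1), ∀ v : pCore p H,
      (v : H) ∈ der (S : Subgroup H) (d + 1) → (stdRep hV a - 1) (eaOf hV v) = 0 := by
    intro a ha v hv
    obtain ⟨w, b1, b2⟩ := stdRep_sub_one_apply hV a v
    rw [b2, eaOf_eq_zero, Subtype.ext_iff, b1]
    exact commutatorElement_eq_one_iff_mul_comm.mpr (mem_centralizer_iff.mp (h hv) a ha)
  have h4 := commutator_le_centralizer_of_rep hp.out hp2
    (baseChangeRep (AlgebraicClosure (ZMod p)) (stdRep hV))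
    (fun g hg => eq_one_of_stdRep_eq_one hV hC ((baseChangeRep_eq_one_iff _ _ _).mp hg))
    ((S.isPGroup'.to_le (der_le _ d)).map (QuotientGroup.mk' _))
    (L.coprime_card_pPrimeCore p) le_normalizer_of_normal (by
      rw [← map_commutator]
      rintro _ ⟨a, ha, rfl⟩
      have h5 : (stdRep hV a - 1) ^ 2 = 0 := LinearMap.ext fun v => by
        obtain ⟨v, rfl⟩ := (eaOf hV).surjective v
        obtain ⟨w, b1, b2⟩ := stdRep_sub_one_apply hV a v
        rw [sq, End.mul_apply, b2, key a ha w (b1 ▸ hn (d + 1) a ha v)]; rfl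
      have := congrArg (End.baseChangeHom (ZMod p) (AlgebraicClosure (ZMod p)) _) h5
      rwa [map_pow, map_sub, map_one, map_zero] at this) (by
      rw [← map_commutator]
      rintro _ ⟨a, ha, rfl⟩ _ ⟨b, hb, rfl⟩
      have h5 : (stdRep hV a - 1) * (stdRep hV b - 1) ^ 2 = 0 := LinearMap.ext fun v => by
        obtain ⟨v, rfl⟩ := (eaOf hV).surjective v
        obtain ⟨w, b1, b2⟩ := stdRep_sub_one_apply hV b v
        obtain ⟨u, c1, c2⟩ := stdRep_sub_one_apply hV b w
        rw [sq, End.mul_apply, End.mul_apply, b2, c2, key a ha u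
          (c1 ▸ commutator_mem_commutator hb (b1 ▸ hn d b hb v))]; rfl
      have := congrArg (End.baseChangeHom (ZMod p) (AlgebraicClosure (ZMod p)) _) h5
      rwa [map_mul, map_pow, map_sub, map_sub, map_one, map_zero] at this)
  rw [← map_commutator] at h4
  intro a ha
  obtain ⟨k, hk⟩ := S.isPGroup' ⟨a, der_le _ _ ha⟩
  exact (QuotientGroup.eq_one_iff a).mp (eq_one_of_mem_pPrimeCore (k := k)
    (by rw [← QuotientGroup.mk_pow, show a ^ p ^ k = 1 from congrArg Subtype.val hk]; rfl)
    (L.centralizer_pPrimeCore_le hp.out (L.IsPSolvable.quotient hp.out h1 _)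
      (L.pCore_quotient_pCore hp.out) (h4 ⟨a, ha, rfl⟩)))

universe u in
theorem aux2 {p : ℕ} [hp : Fact p.Prime] (hp2 : p ≠ 2) (d : ℕ) :
    ∀ (G : Type u) [Group G] [Finite G], IsPSolvable p G → ∀ P : Sylow p G,
      der (P : Subgroup G) d = ⊥ → PLengthLE p d G := by
  induction d with
  | zero =>
    intro G _ _ _ P h
    refine (L.pLengthLE_zero_iff hp.out).mpr (hp.out.coprime_iff_not_dvd.mpr ?_).symm
    rw [← index_bot, ← h]
    exact P.not_dvd_index
  | succ d ih =>
    intro G _ _ hG P h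
    obtain ⟨H, _, _, f, hf, h1, h2, h3, h4⟩ := exists_std hp.out hG
    refine pLengthLE_succ_of_std hp.out hf h4 (ih _ (L.IsPSolvable.quotient hp.out h1 _)
      ((P.mapSurjective hf).mapSurjective (QuotientGroup.mk'_surjective _)) ?_)
    refine (der_le_ker_iff _ _ _).mp ?_
    rw [QuotientGroup.ker_mk']
    exact aux1 hp2 h1 h2 h3 _ d (by
      rw [Sylow.coe_mapSurjective, ← map_der, h, Subgroup.map_bot])

/-- Let p be an odd prime and G a finite p-soluble group whose Sylow p-subgroups have derived length at most d. Then G has p-length at most d. -/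
theorem result {G : Type*} [Group G] [Finite G] {p : ℕ} [Fact p.Prime] (hp : p ≠ 2) (hG : Cfsg.IsPSolvable p G) (d : ℕ) (hd : ∀ P : Sylow p G, derivedSeries ↥(P : Subgroup G) d = ⊥) : Cfsg.PLengthLE p d G := by
  obtain ⟨P⟩ : Nonempty (Sylow p G) := inferInstance
  exact aux2 hp d G hG P (der_eq_bot_iff.mpr (hd P))

end Cfsg.Agent.S3789
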