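import Cfsg.Statements.S3790
import Cfsg.Agent.L.PLength
import Cfsg.Agent.L.MinNormal

set_option autoImplicit false
open Cfsg

namespace Cfsg.Agent.S3790

open Subgroup

universe u

theorem pLenUpTo_of_normal {p : ℕ} (hp : p.Prime) (a : ℕ) : ∀ (G : Type u) [Group G] [Finite G]
    (N : Subgroup G) [N.Normal], PLengthLE p a N → L.PLenUpTo p G a N := by
  induction a with
  | zero =>
    intro G _ _ N hN h
    exact .base N hN ((L.isPiNum_compl_singleton_iff hp).2 ((L.pLengthLE_zero_iff hp).1 h))
  | succ a ih =>
    intro G _ _ N hN h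
    haveI := L.pPrimeCore_characteristic (G := N) hp
    haveI := L.pCore_characteristic (G := N ⧸ pPrimeCore p N) hp
    haveI : (pPrimePCore p N).Characteristic :=
      Subgroup.Characteristic.comap_quotient_mk inferInstance
    set K := (pPrimePCore p N).map N.subtype with hK
    have h1 : L.PLenUpTo p G 1 K := by
      refine .step 0 ((pPrimeCore p N).map N.subtype) K K (.base _ inferInstance ?_)
        (map_mono (L.pPrimeCore_le_pPrimePCore p)) le_rfl inferInstance inferInstance ?_
        (by simpa using L.isPiNum_one _)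
      · rw [card_map_of_injective N.subtype_injective]
        exact (L.isPiNum_compl_singleton_iff hp).2 (L.coprime_card_pPrimeCore p)
      · rw [relIndex_map_map_of_injective _ _ N.subtype_injective]
        unfold pPrimePCore
        rw [L.pCore_eq_piCore hp]
        exact L.isPiNum_relIndex_comap_piCore _ _
    haveI : (N.map (QuotientGroup.mk' K)).Normal := hN.map _ (QuotientGroup.mk'_surjective K)
    have h2 := ih (G ⧸ K) (N.map (QuotientGroup.mk' K)) (by
      refine L.PLengthLE.of_surjective hp (f := QuotientGroup.lift (pPrimePCore p N)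
        ((QuotientGroup.mk' K).subgroupMap N) ?_) ?_ ((L.pLengthLE_succ_iff hp).1 h)
      · intro x hx
        exact Subtype.ext ((QuotientGroup.eq_one_iff (x : G)).2 (mem_map_of_mem _ hx))
      · intro y
        obtain ⟨x, rfl⟩ := (QuotientGroup.mk' K).subgroupMap_surjective N y
        exact ⟨x, rfl⟩)
    have h3 := h1.add h2
    rwa [comap_map_eq, QuotientGroup.ker_mk', sup_eq_left.2 (map_subtype_le _), add_comm] at h3

theorem pLengthLE_add {G : Type u} [Group G] [Finite G] {p : ℕ} (hp : p.Prime) {a b : ℕ}
    (N : Subgroup G) [N.Normal] (h1 : PLengthLE p a N) (h2 : PLengthLE p b (G ⧸ N)) :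
    PLengthLE p (a + b) G := by
  have := (pLenUpTo_of_normal hp a G N h1).add ((L.pLengthLE_iff hp).1 h2)
  rw [comap_top] at this
  exact (L.pLengthLE_iff hp).2 this

theorem aux {p : ℕ} (hp : p.Prime) (r : ℕ) : ∀ (q : Fin r → ℕ), (∀ i, (q i).Prime ∧ q i ≠ p) →
    ∀ (l : Fin r → ℕ) (G : Type u) [Group G] [Finite G],
    (∀ s : ℕ, s.Prime → s ∣ Nat.card G → s ≠ p → ∃ i, q i = s) →
    (∀ i, PLengthLE (q i) (l i) G) → PLengthLE p (∏ i, (1 + l i)) G := by
  induction r with
  | zero =>
    intro q _ l G _ _ hc _
    rw [Fin.prod_univ_zero, L.pLengthLE_iff hp]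
    apply L.pLenUpTo_of_isPGroup hp
    rw [← L.isPiSubgroup_singleton_iff hp, L.isPiSubgroup_iff_isPiNum, card_top]
    intro s hs hd
    by_contra h
    obtain ⟨i, -⟩ := hc s hs hd h
    exact i.elim0
  | succ r ih =>
    intro q hq l
    rw [Fin.prod_univ_succ]
    set c := ∏ i : Fin r, (1 + l i.succ)
    have hq0 := (hq 0).1
    have key : ∀ (G : Type u) [Group G] [Finite G], (Nat.card G).Coprime (q 0) →
        (∀ s : ℕ, s.Prime → s ∣ Nat.card G → s ≠ p → ∃ i, q i = s) →
        (∀ i : Fin r, PLengthLE (q i.succ) (l i.succ) G) → PLengthLE p c G := by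
      intro G _ _ hco hc hl
      refine ih (fun i => q i.succ) (fun i => hq _) (fun i => l i.succ) G (fun s hs hd hp => ?_) hl
      obtain ⟨i, rfl⟩ := hc s hs hd hp
      rcases Fin.eq_zero_or_eq_succ i with rfl | ⟨j, rfl⟩
      · exact absurd (Nat.eq_one_of_dvd_coprimes hco hd dvd_rfl) hs.ne_one
      · exact ⟨j, rfl⟩
    have main : ∀ (k : ℕ) (G : Type u) [Group G] [Finite G], PLengthLE (q 0) k G →
        (∀ s : ℕ, s.Prime → s ∣ Nat.card G → s ≠ p → ∃ i, q i = s) →
        (∀ i : Fin r, PLengthLE (q i.succ) (l i.succ) G) → PLengthLE p ((1 + k) * c) G := by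
      intro k
      induction k with
      | zero =>
        intro G _ _ h0 hc hl
        simpa using key G ((L.pLengthLE_zero_iff hq0).1 h0) hc hl
      | succ k ihk =>
        intro G _ _ h0 hc hl
        set K := pPrimeCore (q 0) G
        have h1 := key K (L.coprime_card_pPrimeCore _)
          (fun s hs hd => hc s hs (hd.trans (card_subgroup_dvd_card K)))
          fun i => L.PLengthLE.subgroup (hq _).1 (hl i) K
        have h2 : PLengthLE (q 0) (k + 1) (G ⧸ K) := L.PLengthLE.quotient hq0 h0 K
        rw [L.pLengthLE_succ_iff hq0] at h2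
        have h3 := L.PLengthLE.of_mulEquiv hq0 (QuotientGroup.quotientMulEquivOfEq
          (L.pPrimePCore_eq_pCore hq0 (L.pPrimeCore_quotient_pPrimeCore hq0))) h2
        have h4 := ihk _ h3 (fun s hs hd => hc s hs
          (hd.trans ((card_quotient_dvd_card _).trans (card_quotient_dvd_card K))))
          fun i => L.PLengthLE.quotient (hq _).1 (L.PLengthLE.quotient (hq _).1 (hl i) K) _
        haveI := Fact.mk hq0
        have h5 := L.PLengthLE.of_quotient_coprime hp _ (by
          obtain ⟨n, hn⟩ := (L.isPGroup_pCore (G := G ⧸ K) (q 0)).exists_card_eq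
          rw [hn]
          exact Nat.Coprime.pow_left _ ((Nat.coprime_primes hq0 hp).2 (hq 0).2)) h4
        have h6 := pLengthLE_add hp K h1 h5
        rwa [show c + (1 + k) * c = (1 + (k + 1)) * c by ring] at h6
    intro G _ _ hc hl
    exact main _ G (hl 0) hc fun i => hl _

/-- Let G be a finite solvable group and p a prime. Suppose p₁, …, p_r are distinct primes, all different from p, that include every prime dividing the order of G other than p, and that G has p_i-length at most l_i for each i. Then G has p-length at most the product of the numbers 1 + l_i. -/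
theorem result {G : Type*} [Group G] [Finite G] (hG : Group.IsSolvable G) (p : ℕ) [Fact p.Prime] (r : ℕ) (q : Fin r → ℕ) (hq : ∀ i, (q i).Prime ∧ q i ≠ p) (hinj : Function.Injective q) (hcover : ∀ s : ℕ, s.Prime → s ∣ Nat.card G → s ≠ p → ∃ i, q i = s) (l : Fin r → ℕ) (hl : ∀ i, Cfsg.PLengthLE (q i) (l i) G) : Cfsg.PLengthLE p (Finset.univ.prod fun i => 1 + l i) G := by
  exact aux Fact.out r q hq l G hcover hl

end Cfsg.Agent.S3790
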