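import Cfsg.Statements.S3791
import Cfsg.Agent.H7.DerAux
import Cfsg.Agent.L.PLength
import Cfsg.Agent.L.MinNormal

set_option autoImplicit false
open Cfsg

namespace Cfsg.Agent.S3791

open Subgroup

universe u

theorem aux (r : ℕ) (q : Fin r → ℕ) (hq : ∀ i, (q i).Prime) (d : Fin r → ℕ)
    (G : Type u) [Group G] [Finite G] : Group.IsSolvable G →
    (∀ s : ℕ, s.Prime → s ∣ Nat.card G → ∃ i, q i = s) → (∀ i, H7.PDerLE (q i) (d i) G) →
    ∀ l : Fin r → ℕ, (∀ i, PLengthLE (q i) (l i) G) → derivedSeries G (∑ i, d i * l i) = ⊥ := by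
  refine L.induction_on_card (P := fun G _ _ => Group.IsSolvable G →
    (∀ s : ℕ, s.Prime → s ∣ Nat.card G → ∃ i, q i = s) → (∀ i, H7.PDerLE (q i) (d i) G) →
    ∀ l : Fin r → ℕ, (∀ i, PLengthLE (q i) (l i) G) → derivedSeries G (∑ i, d i * l i) = ⊥) G ?_
  intro G _ _ ih hG hcov hd l hl
  have hquot : ∀ (N : Subgroup G) [N.Normal], N ≠ ⊥ → ∀ l : Fin r → ℕ,
      (∀ i, PLengthLE (q i) (l i) (G ⧸ N)) → derivedSeries G (∑ i, d i * l i) ≤ N := by
    intro N _ hN l hl
    refine H7.der_le_of_quot N (ih _ (L.card_quotient_lt N hN) inferInstance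
      (fun s hs h => hcov s hs (h.trans (card_quotient_dvd_card N))) (fun i => ?_) l hl)
    haveI := Fact.mk (hq i)
    exact (hd i).of_surjective (QuotientGroup.mk'_surjective N)
  rcases subsingleton_or_nontrivial G with h | h
  · exact Subsingleton.elim _ _
  obtain ⟨M, p, hM, -, hp, hE⟩ := L.exists_isMinNormal_isElementaryAbelian_le (⊤ : Subgroup G)
    top_ne_bot
  haveI := Fact.mk hp
  have hMp : IsPGroup p M := fun x => ⟨1, Subtype.ext (by simpa using hE.2 x x.2)⟩
  have h1 : pCore p G ≠ ⊥ := fun h => hM.2.1 (le_bot_iff.1 (h ▸ L.le_pCore hM.1 hMp))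
  by_cases h2 : pPrimeCore p G = ⊥
  · have h3 : p ∣ Nat.card G := by
      refine dvd_trans ?_ (card_subgroup_dvd_card (pCore p G))
      exact ((L.isPGroup_pCore p).card_eq_or_dvd).resolve_left fun h => h1 (card_eq_one.1 h)
    obtain ⟨i, rfl⟩ := hcov p hp h3
    obtain ⟨k, hk⟩ : ∃ k, l i = k + 1 := by
      refine Nat.exists_eq_succ_of_ne_zero fun h0 => ?_
      have := hl i
      rw [h0, L.pLengthLE_zero_iff hp] at this
      exact hp.one_lt.ne' (Nat.eq_one_of_dvd_coprimes this h3 dvd_rfl)
    have h4 := hquot _ h1 (Function.update l i k) (by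
      intro j
      by_cases hj : j = i
      · subst hj
        have := hl j
        rw [hk, L.pLengthLE_succ_iff hp] at this
        rw [Function.update_self]
        exact L.PLengthLE.of_mulEquiv hp
          (QuotientGroup.quotientMulEquivOfEq (L.pPrimePCore_eq_pCore hp h2)) this
      · rw [Function.update_of_ne hj]
        exact L.PLengthLE.quotient (hq j) (hl j) _)
    have h5 := H7.der_add _ h4 (hd i _ (L.isPGroup_pCore _))
    convert h5 using 2
    rw [← Finset.add_sum_erase _ _ (Finset.mem_univ i),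
      ← Finset.add_sum_erase _ _ (Finset.mem_univ i), Function.update_self, hk,
      Finset.sum_congr rfl (f := fun j => d j * Function.update l i k j) (g := fun j => d j * l j)
        fun j hj => by rw [Function.update_of_ne (Finset.ne_of_mem_erase hj)]]
    ring
  · rw [← le_bot_iff, ← L.pCore_inf_pPrimeCore hp]
    exact le_inf (hquot _ h1 l fun i => L.PLengthLE.quotient (hq i) (hl i) _)
      (hquot _ h2 l fun i => L.PLengthLE.quotient (hq i) (hl i) _)

/-- The Hall–Higman bound on derived length: let G be a finite solvable group, let p₁, …, p_r be distinct primes that include every prime dividing the order of G, and suppose that for each i the Sylow p_i-subgroups of G have derived length at most d_i and G has p_i-length at most l_i. Then G has derived length at most Σ d_i l_i. -/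
theorem result {G : Type*} [Group G] [Finite G] (hG : Group.IsSolvable G) (r : ℕ) (q : Fin r → ℕ) (hq : ∀ i, (q i).Prime) (hinj : Function.Injective q) (hcover : ∀ s : ℕ, s.Prime → s ∣ Nat.card G → ∃ i, q i = s) (d l : Fin r → ℕ) (hd : ∀ i, ∀ P : Subgroup G, (haveI := Fact.mk (hq i); ∃ S : Sylow (q i) G, (S : Subgroup G) = P) → derivedSeries ↥P (d i) = ⊥) (hl : ∀ i, Cfsg.PLengthLE (q i) (l i) G) : derivedSeries G (Finset.univ.sum fun i => d i * l i) = ⊥ := by
  exact aux r q hq d G hG hcover (fun i => H7.pDerLE_of_sylow fun P => hd i P ⟨P, rfl⟩) l hl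

end Cfsg.Agent.S3791
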