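import Cfsg.Statements.S3792
import Cfsg.Agent.H1.Height

set_option autoImplicit false
open Cfsg

namespace Cfsg.Agent.S3792

open Subgroup Cfsg.Agent.L Cfsg.Agent.H1

/-- Powell's Theorem: let G be a finite non-abelian simple group and p an odd prime dividing its order such that every proper subgroup of G is p-soluble. Then G can be generated by three elements. -/
theorem result {G : Type*} [Group G] [Finite G] [IsSimpleGroup G] (hna : ¬ IsMulCommutative G) {p : ℕ} [Fact p.Prime] (hp : p ≠ 2) (hdvd : p ∣ Nat.card G) (hprop : ∀ H : Subgroup G, H ≠ ⊤ → Cfsg.IsPSolvable p ↥H) : ∃ x y z : G, Subgroup.closure ({x, y, z} : Set G) = ⊤ := by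
  classical
  by_contra hno
  push Not at hno
  have hpp : p.Prime := Fact.out
  have hsep : ∀ x y z : G, PiSep {p} (closure ({x, y, z} : Set G)) := fun x y z =>
    (isPSolvable_iff_piSep hpp).mp (hprop _ (hno x y z))
  have hex : ∃ k, ∀ (a b : G) σ, σ = {p} ∨ σᶜ = {p} → piSer k σ (closure {a, b}) = ⊥ := by
    have h1 : ∀ x : G × G, ∃ k, ∀ j, k ≤ j → ∀ σ, σ = {p} ∨ σᶜ = {p} →
        piSer j σ (closure {x.1, x.2}) = ⊥ := fun x => by
      have h2 : closure ({x.1, x.2} : Set G) ≤ closure {1, x.1, x.2} :=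
        Subgroup.closure_mono (Set.subset_insert _ _)
      obtain ⟨k, hk⟩ := exists_piSer_eq_bot (PiSep.of_le h2 (hsep 1 x.1 x.2))
      refine ⟨k, fun j hj => ?_⟩
      induction hj with
      | refl => exact fun σ hσ => (piSer_subtype _ _ _).mp (hk σ hσ)
      | step _ ih =>
        intro σ hσ
        rw [piSer, ih σᶜ (by rw [compl_compl]; exact hσ.symm), piRes_bot]
    choose f hf using h1
    obtain ⟨k, hk⟩ := Finite.exists_le f
    exact ⟨k, fun a b => hf (a, b) k (hk _)⟩
  have : Nontrivial G := IsSimpleGroup.toNontrivial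
  obtain ⟨k, hk⟩ := Nat.exists_eq_succ_of_ne_zero (n := Nat.find hex) fun e => by
    obtain ⟨a, ha⟩ := exists_ne (1 : G)
    have := Nat.find_spec hex a a {p} (Or.inl rfl)
    rw [e] at this
    exact ha (mem_bot.mp (this.le (subset_closure (by simp))))
  have h1 := Nat.find_min hex (m := k) (by omega)
  push Not at h1
  obtain ⟨a, b, σ, hσ, h1⟩ := h1
  obtain ⟨z, hz, hz1⟩ := (bot_or_exists_ne_one _).resolve_left h1
  have h2 : ∀ h : G, IsPiSubgroup σ (zpowers h) → ∀ y ∈ piSer k σ (closure {a, b}),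
      IsPiSubgroup σ (zpowers (y * h)) := fun h hh y hy => by
    have h3 : piSer (k + 1) σᶜ (closure {h, a, b}) = ⊥ := by
      rw [← piSer_subtype]
      by_contra e
      obtain ⟨c, d, h4⟩ := exists_two_gen hpp _ (hsep h a b) _ _
        (by rw [compl_compl]; exact hσ.symm) e
      apply h4
      have := Nat.find_spec hex c d σᶜ (by rw [compl_compl]; exact hσ.symm)
      rw [← map_eq_bot_iff_of_injective _ (closure {h, a, b}).subtype_injective, map_piSer,
        MonoidHom.map_closure, Set.image_pair]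
      rw [hk] at this
      exact this
    have h4 := piRes_eq_bot_iff.mp h3
    rw [compl_compl] at h4
    exact IsPiSubgroup.mono (zpowers_le.mpr (mul_mem (mem_sup_right
      (piSer_mono (Subgroup.closure_mono (Set.subset_insert _ _)) _ _ hy)) (mem_sup_left (mem_zpowers h))))
      (IsPiSubgroup.sup hh h4 ((zpowers_le.mpr (subset_closure (by simp))).trans
        (le_normalizer_piSer _ _ _)))
  let T : Subgroup G :=
    { carrier := {y | ∀ h : G, IsPiSubgroup σ (zpowers h) ↔ IsPiSubgroup σ (zpowers (y * h))}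
      one_mem' := fun h => by rw [one_mul]
      mul_mem' := fun {x y} hx hy h => by rw [hy, hx, mul_assoc]
      inv_mem' := fun {x} hx h => by rw [hx (x⁻¹ * h), mul_inv_cancel_left] }
  have h3 : ∀ g h : G, IsPiSubgroup σ (zpowers (g * h * g⁻¹)) ↔ IsPiSubgroup σ (zpowers h) :=
    fun g h => by
      rw [isPiSubgroup_iff_isPiNum, isPiSubgroup_iff_isPiNum, Nat.card_zpowers, Nat.card_zpowers,
        ← MulAut.conj_apply, MulEquiv.orderOf_eq]
  have hT : T.Normal := ⟨fun y hy g h => by
    rw [← h3 g⁻¹ h, hy, ← h3 g, show g * (y * (g⁻¹ * h * g⁻¹⁻¹)) * g⁻¹ = g * y * g⁻¹ * h by group]⟩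
  have h4 : T = ⊤ := (hT.eq_bot_or_eq_top).resolve_left fun e => hz1 (mem_bot.mp (e.le
    fun h => ⟨fun hh => h2 h hh z hz, fun hh => by simpa using h2 _ hh z⁻¹ (inv_mem hz)⟩))
  have h5 : IsPiSubgroup σ (⊤ : Subgroup G) := isPiSubgroup_iff_orderOf.mpr fun g _ => by
    have := (h4.ge (mem_top g) 1).mp (by rw [zpowers_one_eq_bot]; exact isPiSubgroup_bot σ)
    rwa [mul_one, isPiSubgroup_iff_isPiNum, Nat.card_zpowers] at this
  rcases hσ with rfl | e
  · have := isSolvable_of_isPGroup (((isPiSubgroup_singleton_iff hpp).mp h5).of_equiv topEquiv)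
    exact hna ⟨⟨IsSimpleGroup.comm_iff_isSolvable.mpr this⟩⟩
  · exact (e.ge (Set.mem_singleton p)) (h5 p hpp (by rwa [card_top]))

end Cfsg.Agent.S3792
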