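import Cfsg.Statements.S3796
import Cfsg.Agent.H9.KP2
import Cfsg.Agent.H9.FpfAut

set_option autoImplicit false
open Cfsg

namespace Cfsg.Agent.S3796

/-- Ward's Theorem: let G be a finite solvable group and A an elementary abelian group of automorphisms of G of order p² (p a prime) with no non-identity common fixed point. Then G has Fitting height at most 2: G has Fitting height at most m when there is a chain of normal subgroups 1 = F₀ ≤ F₁ ≤ ⋯ ≤ F_m = G with each F_{i+1}/F_i nilpotent. -/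
theorem result {G : Type*} [Group G] [Finite G] (hG : Group.IsSolvable G) {p : ℕ} (hp : p.Prime) (A : Subgroup (MulAut G)) (hA : Cfsg.IsElementaryAbelian p A) (hcard : Nat.card A = p ^ 2) (hfpf : ∀ g : G, (∀ a ∈ A, a g = g) → g = 1) : ∃ F : Fin (2 + 1) → Subgroup G, F 0 = ⊥ ∧ F (Fin.last 2) = ⊤ ∧ Monotone F ∧ (∀ i, (F i).Normal) ∧ ∀ i : Fin 2, ∃ k : ℕ, (F i.succ).lowerCentralSeries k ≤ F i.castSucc := by
  have := Fact.mk hp
  refine H9.fitLE_two_of_fpf hG A.subtype hp hp (by rw [hcard, sq]) (fun h => ?_) ?_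
    fun g hg => hfpf g fun a ha => hg ⟨a, ha⟩
  · obtain ⟨g, hg⟩ := h.exists_ofOrder_eq_natCard
    have h1 : orderOf g ∣ p := orderOf_dvd_of_pow_eq_one (Subtype.ext (hA.2 g g.2))
    rw [hg, hcard] at h1
    have := Nat.le_of_dvd hp.pos h1
    nlinarith [hp.two_le]
  · rw [hcard]
    exact (H9.coprime_of_fpf_isPGroup hp (IsPGroup.of_card hcard) A.subtype
      fun g hg => hfpf g fun a ha => hg ⟨a, ha⟩).symm.pow_left 2

end Cfsg.Agent.S3796
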