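import Cfsg.Statements.S3797
import Cfsg.Agent.H1.Aniso
import Cfsg.Agent.H1.PLocal
import Cfsg.Agent.H6.ZAction

set_option autoImplicit false
open Cfsg

namespace Cfsg.Agent.S3797

open Subgroup H1
open scoped commutatorElement IsMulCommutative

theorem aux_comm {G : Type*} [Group G] [Finite G] {T V H R : Subgroup G} (hT : IsPGroup 2 T)
    (hV : ∀ x, x ∈ V ↔ x ^ 2 = 1) (hVT : V ≤ centralizer (T : Set G))
    (hHT : H ≤ normalizer (T : Set G)) (hHR : H ≤ normalizer (R : Set G)) (hRH : R ≤ H) {r : ℕ}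
    [hr : Fact r.Prime] (hr2 : r ≠ 2) (hR : IsPGroup r R) (hRV : R ≤ centralizer (V : Set G))
    (htr : ∀ x y : G, x ≠ 1 → x ^ 2 = 1 → y ≠ 1 → y ^ 2 = 1 → ∃ h ∈ H, h * x * h⁻¹ = y) :
    ⁅R, ⁅H, H⁆⁆ ≤ centralizer (T : Set G) := by
  set A := ⁅R, ⁅H, H⁆⁆
  have hAR : A ≤ R := commutator_le_of_le_normalizer ((commutator_le_self H).trans hHR)
  have hR2 : (Nat.card R).Coprime 2 :=
    (coprime_card_of_isPGroup hR ((Nat.coprime_primes Nat.prime_two hr.out).mpr hr2.symm)).symm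
  rw [← commutator_eq_bot_iff_le_centralizer']
  by_contra hnt
  obtain ⟨T₁, h1, h2, h3, h4⟩ := exists_minimal_nontrivial hHT hnt
  have hT₁ := hT.to_le h1
  have hsq : ∀ x ∈ T₁, x ^ 2 ∈ V := fun x hx => (hV _).mpr (by
    rw [← pow_mul]
    exact minimal_exponent_sq hT₁ h2 (hAR.trans hRH)
      (le_normalizer_commutator hHR (le_normalizer_commutator le_normalizer le_normalizer))
      (hR2.coprime_dvd_left (card_dvd_of_le hAR)) h3 h4 x hx)
  obtain ⟨x, hx⟩ := ne_bot_iff_exists_ne_one.mp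
    (fun h => h3 (by rw [h, commutator_bot_left]) : T₁ ≠ ⊥)
  obtain ⟨k, hk⟩ := H3.exists_pow_orderOf_eq_prime hT₁ hx
  set u := x ^ k
  rw [← orderOf_coe] at hk
  have hu1 : (u : G) ≠ 1 := fun h => by simp [h] at hk
  have hu2 : (u : G) ^ 2 = 1 := hk ▸ pow_orderOf_eq_one _
  have hVT₁ : V ≤ T₁ := fun v hv => by
    rcases eq_or_ne v 1 with rfl | hv1
    · exact one_mem _
    obtain ⟨h, hh, rfl⟩ := htr u v hu1 hu2 hv1 ((hV v).mp hv)
    exact conj_mem_of_le_normalizer h2 hh u.2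
  have hF : ∀ v ∈ V, v ≠ 1 →
      Nat.card {t : T₁ // (t : G) ^ 2 = v} = Nat.card {t : T₁ // (t : G) ^ 2 = u} := by
    intro v hv hv1
    obtain ⟨h, hh, rfl⟩ := htr u v hu1 hu2 hv1 ((hV v).mp hv)
    refine (Nat.card_congr ((conjAut h2 ⟨h, hh⟩).toEquiv.subtypeEquiv fun t => ?_)).symm
    change _ ↔ (h * t * h⁻¹) ^ 2 = _
    rw [conj_pow, mul_left_inj, mul_right_inj]
  let φ := conjAut h2
  set R' := (R.subgroupOf H).map φ
  have hR' : IsPGroup r R' := (hR.comap_subtype (K := H)).map φ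
  have hcyc : IsCyclic R' := H3.isCyclic_of_normal_abelian_cyclic hr2 hR' fun B _ hB => by
    by_contra hnc
    have h5 := aut_eq_top_of_forall_fixed (R'.subtype.comp B.subtype)
      (coprime_card_of_isPGroup hT₁ (coprime_card_of_isPGroup (hR'.to_subgroup B)
        ((Nat.coprime_primes Nat.prime_two hr.out).mpr hr2.symm)).symm) hB hnc (H := V.subgroupOf T₁) (by
        rintro ⟨⟨_, w, hw, rfl⟩, hb⟩ hb1 g hg
        rcases aniso_centralizer (A := zpowers (w : G)) hVT₁ (hVT.trans (centralizer_le h1))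
          (fun x _ => (hV x).symm) hsq hF (zpowers_le.mpr (h2 w.2)) (zpowers_le.mpr (hRV hw))
          (hR2.coprime_dvd_left (card_dvd_of_le (zpowers_le.mpr hw))) with h | h
        · have h6 : φ w = 1 := (mem_ker_conjAut h2).mpr (h (mem_zpowers _))
          exact absurd (Subtype.ext (Subtype.ext h6)) hb1
        · refine h (mem_inf.mpr ⟨g.2, ?_⟩)
          rw [centralizer_zpowers', mem_centralizer_singleton_iff]
          exact (mul_inv_eq_iff_eq_mul.mp (congrArg Subtype.val hg)).symm)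
    exact h3 (commutator_eq_bot_iff_le_centralizer'.mpr
      (hAR.trans (hRV.trans (centralizer_le (subgroupOf_eq_top.mp h5)))))
  have h5 : (A.subgroupOf H).map φ = ⊥ := by
    rw [subgroupOf_commutator hRH (commutator_le_self H), subgroupOf_commutator le_rfl le_rfl,
      map_commutator, map_commutator, commutator_eq_bot_iff_le_centralizer']
    have h6 : (H.subgroupOf H).map φ ≤ normalizer (R' : Set (MulAut T₁)) :=
      (map_mono fun h _ => mem_normalizer_subgroupOf (hHR h.2)).trans (le_normalizer_map φ)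
    exact H6.commutator_le_centralizer_of_isCyclic h6 h6
  refine h3 (commutator_eq_bot_iff_le_centralizer'.mpr fun a ha => ?_)
  exact (mem_ker_conjAut h2).mp ((Subgroup.map_eq_bot_iff _).mp h5
    (show ⟨a, hRH (hAR ha)⟩ ∈ A.subgroupOf H from ha))

theorem aux_cen {G : Type*} [Group G] [Finite G] (S : Subgroup G) (hS : IsPGroup 2 S)
    (h0 : S ≠ ⊥) : ∃ z ∈ S, z ∈ centralizer (S : Set G) ∧ orderOf z = 2 := by
  obtain ⟨z, -, hzc, hz⟩ := H3.exists_central_orderOf_eq_prime hS ⊤ (by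
    have := (Subgroup.nontrivial_iff_ne_bot S).mpr h0
    exact top_ne_bot)
  exact ⟨z, z.2, mem_centralizer_iff.mpr fun t ht =>
    congrArg Subtype.val (mem_center_iff.mp hzc ⟨t, ht⟩), by rwa [orderOf_coe]⟩

theorem aux_normal {G : Type*} [Group G]
    (hconj : ∀ x y : G, x ≠ 1 → x ^ 2 = 1 → y ≠ 1 → y ^ 2 = 1 → IsConj x y) (K : Subgroup G)
    (hK : K.Normal) (x : G) (hx : x ∈ K) (hx2 : orderOf x = 2) (y : G) (hy : y ^ 2 = 1) :
    y ∈ K := by
  rcases eq_or_ne y 1 with rfl | hy1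
  · exact one_mem _
  obtain ⟨c, rfl⟩ := isConj_iff.mp (hconj x y (fun h => by simp [h] at hx2)
    (hx2 ▸ pow_orderOf_eq_one x) hy1 hy)
  exact hK.conj_mem x hx c

theorem aux_last {G : Type*} [Group G] [Finite G] (S : Sylow 2 G) {M : Subgroup G}
    (hder : _root_.commutator G ≤ M) (hVM : ∀ x, x ^ 2 = 1 → x ∈ centralizer (M : Set G))
    (htwo : ∃ x y : G, x ≠ y ∧ x ≠ 1 ∧ x ^ 2 = 1 ∧ y ≠ 1 ∧ y ^ 2 = 1)
    (hconj : ∀ x y : G, x ≠ 1 → x ^ 2 = 1 → y ≠ 1 → y ^ 2 = 1 → IsConj x y) :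
    (S : Subgroup G) ≤ M := by
  have hp := Nat.prime_two
  obtain ⟨x₀, y₀, hxy, hx₀, hx₀', hy₀, hy₀'⟩ := htwo
  by_cases hS0 : (S : Subgroup G) = ⊥
  · rw [hS0]; exact bot_le
  have : ((S : Subgroup G) ⊔ M).Normal := Normal.of_commutator_le _ (hder.trans le_sup_right)
  have hVK : ∀ x, x ^ 2 = 1 → x ∈ centralizer (((S : Subgroup G) ⊔ M : Subgroup G) : Set G) := by
    obtain ⟨w, -, hw, hw2⟩ := aux_cen (S : Subgroup G) S.isPGroup' hS0
    refine aux_normal hconj _ inferInstance w ?_ hw2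
    rw [mem_centralizer_iff_le]
    exact sup_le (mem_centralizer_iff_le.mp hw)
      (mem_centralizer_iff_le.mp (hVM w (hw2 ▸ pow_orderOf_eq_one w)))
  have hNS : ((S : Subgroup G).relIndex (normalizer ((S : Subgroup G) : Set G))).Coprime
      (Nat.card (S : Subgroup G)) := coprime_card_of_isPGroup S.isPGroup'
    (hp.coprime_iff_not_dvd.mpr fun h =>
      S.not_dvd_index (h.trans (relIndex_dvd_index_of_le le_normalizer))).symm
  obtain ⟨X, hX1, hX2, -, hX4⟩ := exists_complement_of_coprime le_normalizer le_rfl hNS.symm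
  rw [← hX4] at hNS
  have hC : (S : Subgroup G) ⊓ centralizer (X : Set G) = ⊥ := by
    by_contra h2
    obtain ⟨w, hw, -, hw2⟩ := aux_cen _ S.isPGroup'.to_inf_left h2
    have hw2' : w ^ 2 = 1 := hw2 ▸ pow_orderOf_eq_one w
    have h3 := mem_centralizer_iff_le.mp (hVK w hw2')
    have h4 : ⊤ ≤ centralizer ({w} : Set G) := by
      have h6 := S.normalizer_sup_eq_top' (N := (S : Subgroup G) ⊔ M) le_sup_left
      rw [← h6]
      change normalizer ((S : Subgroup G) : Set G) ⊔ _ ≤ _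
      rw [← hX2]
      exact sup_le (sup_le (mem_centralizer_iff_le.mp (mem_inf.mp hw).2) (le_sup_left.trans h3)) h3
    have h5 : ∀ y : G, y ≠ 1 → y ^ 2 = 1 → y = w := fun y a1 a2 => by
      obtain ⟨c, rfl⟩ := isConj_iff.mp (hconj w y (fun h => by simp [h] at hw2) hw2' a1 a2)
      rw [mem_centralizer_singleton_iff.mp (h4 (mem_top c)), mul_inv_cancel_right]
    exact hxy ((h5 _ hx₀ hx₀').trans (h5 _ hy₀ hy₀').symm)
  rw [← commutator_sup_centralizer hX1 hNS (Or.inr (isSolvable_of_isPGroup S.isPGroup')), hC,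
    sup_bot_eq]
  exact (commutator_mono le_top le_top).trans hder

theorem aux_odd {G : Type*} [Group G] [Finite G] [Group.IsSolvable G] (h1 : pPrimeCore 2 G = ⊥)
    (htwo : ∃ x y : G, x ≠ y ∧ x ≠ 1 ∧ x ^ 2 = 1 ∧ y ≠ 1 ∧ y ^ 2 = 1)
    (hconj : ∀ x y : G, x ≠ 1 → x ^ 2 = 1 → y ≠ 1 → y ^ 2 = 1 → IsConj x y) :
    (Nat.card (G ⧸ pCore 2 G)).Coprime 2 := by
  have hp := Nat.prime_two
  have hG : IsPSolvable 2 G := L.isPSolvable_of_isSolvable hp
  have h := aux_normal hconj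
  obtain ⟨x₀, y₀, hxy, hx₀, hx₀', hy₀, hy₀'⟩ := htwo
  have : Nontrivial G := ⟨⟨_, _, hxy⟩⟩
  set T := pCore 2 G with hT
  have hTp : IsPGroup 2 T := L.isPGroup_pCore 2
  have hT0 : T ≠ ⊥ := pCore_ne_bot hp hG h1
  set M := (pPrimeCore 2 (G ⧸ T)).comap (QuotientGroup.mk' T) with hM
  have hTM : T ≤ M := fun x hx => by
    rw [mem_comap, QuotientGroup.mk'_apply, (QuotientGroup.eq_one_iff x).mpr hx]; exact one_mem _
  have hidx : (T.relIndex M).Coprime 2 := by
    rw [L.relIndex_eq_card_map_mk', map_comap_eq_self_of_surjective (QuotientGroup.mk'_surjective T)]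
    exact L.coprime_card_pPrimeCore 2
  obtain ⟨Q, hQ1, hQ2, hQ3, hQ4⟩ := exists_complement_frattini hTM
    (isSolvable_of_isPGroup hTp) (coprime_card_of_isPGroup hTp hidx).symm
  have hcen := aux_cen (G := G)
  obtain ⟨z, hzT, hzc, hz⟩ := hcen T hTp hT0
  have hiT := h T inferInstance z hzT hz
  have hiC := h _ inferInstance z hzc hz
  have hsup : normalizer (Q : Set G) ⊔ T = ⊤ := eq_top_iff.mpr fun g _ => by
    obtain ⟨n, hn, hg⟩ := hQ4 g
    simpa using mul_mem (inv_mem (mem_sup_right hn)) (mem_sup_left hg)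
  rw [Nat.coprime_comm, hp.coprime_iff_not_dvd]
  intro hd
  by_cases h0 : T ⊓ centralizer (Q : Set G) = ⊥
  · have h2 : T.relIndex (normalizer (Q : Set G)) = Nat.card (G ⧸ T) := by
      rw [← relIndex_sup_of_le_normalizer le_normalizer_of_normal, hsup, relIndex_top_right]; rfl
    obtain ⟨y, hy⟩ := exists_prime_orderOf_dvd_card' (G := normalizer (Q : Set G)) 2
      (hd.trans (h2 ▸ relIndex_dvd_card _ _))
    have h3 : (y : G) ∈ T ⊓ normalizer (Q : Set G) :=
      ⟨hiT y (congrArg Subtype.val (hy ▸ pow_orderOf_eq_one y)), y.2⟩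
    rw [inf_normalizer_eq_inf_centralizer le_normalizer_of_normal hQ2, h0, mem_bot,
      OneMemClass.coe_eq_one] at h3
    simp [h3] at hy
  let V : Subgroup G :=
    { carrier := {x | x ^ 2 = 1}
      one_mem' := one_pow _
      mul_mem' := fun {a b} ha hb => by
        have : Commute a b := mem_centralizer_iff.mp (hiC b hb) a (hiT a ha)
        change (a * b) ^ 2 = 1
        rw [this.mul_pow, ha, hb, one_mul]
      inv_mem' := fun {a} ha => by change a⁻¹ ^ 2 = 1; rw [inv_pow, ha, inv_one] }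
  have hVM : V ≤ centralizer (M : Set G) := by
    obtain ⟨w, hw, -, hw2⟩ := hcen _ hTp.to_inf_left h0
    refine h _ inferInstance w ?_ hw2
    rw [← hQ1, mem_centralizer_iff_le]
    exact sup_le (mem_centralizer_iff_le.mp (mem_inf.mp hw).2)
      (mem_centralizer_iff_le.mp (hiC w (hw2 ▸ pow_orderOf_eq_one w)))
  have hQM : Q ≤ M := hQ1 ▸ le_sup_left
  set H := normalizer (Q : Set G)
  have htr : ∀ x y : G, x ≠ 1 → x ^ 2 = 1 → y ≠ 1 → y ^ 2 = 1 → ∃ h ∈ H, h * x * h⁻¹ = y := by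
    intro x y a1 a2 a3 a4
    obtain ⟨c, rfl⟩ := isConj_iff.mp (hconj x y a1 a2 a3 a4)
    obtain ⟨n, hn, hc⟩ := hQ4 c
    refine ⟨_, hc, ?_⟩
    calc n * c * x * (n * c)⁻¹ = n * (c * x * c⁻¹) * n⁻¹ := by group
      _ = _ := by rw [mem_centralizer_iff.mp (hiC _ a4) n hn, mul_inv_cancel_right]
  have hHm : H.map (QuotientGroup.mk' T) = ⊤ := by
    rw [← map_top_of_surjective _ (QuotientGroup.mk'_surjective T), ← hsup, Subgroup.map_sup,
      QuotientGroup.map_mk'_self, sup_bot_eq]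
  have hQm : Q.map (QuotientGroup.mk' T) = pPrimeCore 2 (G ⧸ T) := by
    rw [← map_comap_eq_self_of_surjective (QuotientGroup.mk'_surjective T) (pPrimeCore 2 (G ⧸ T)),
      ← hM, ← hQ1, Subgroup.map_sup, QuotientGroup.map_mk'_self, sup_bot_eq]
  have hder : _root_.commutator (G ⧸ T) ≤ pPrimeCore 2 (G ⧸ T) := by
    refine (le_trans ?_ L.centralizer_fittingSubgroup_le).trans
      (L.fittingSubgroup_le_sup hp |>.trans (by rw [L.pCore_quotient_pCore hp, bot_sup_eq]))
    rw [le_centralizer_iff, L.fittingSubgroup_eq_iSup_pCore]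
    refine iSup_le fun r => ?_
    rcases eq_or_ne r.1 2 with hr | hr
    · rw [hr, L.pCore_quotient_pCore hp]; exact bot_le
    have := Fact.mk r.2
    set R := Q ⊓ (pCore r (G ⧸ T)).comap (QuotientGroup.mk' T)
    have hRm : R.map (QuotientGroup.mk' T) = pCore r (G ⧸ T) := by
      refine le_antisymm (map_le_iff_le_comap.mpr inf_le_right) fun y hy => ?_
      obtain ⟨x, hx, rfl⟩ := hQm.ge (L.pCore_le_pPrimeCore r.2 hp hr hy)
      exact ⟨x, mem_inf.mpr ⟨hx, hy⟩, rfl⟩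
    have hRp : IsPGroup r R := fun x => by
      obtain ⟨k, hk⟩ := L.isPGroup_pCore r ⟨_, (mem_inf.mp x.2).2⟩
      refine ⟨k, Subtype.ext (mem_bot.mp (hQ2 ▸ mem_inf.mpr ⟨pow_mem (mem_inf.mp x.2).1 _, ?_⟩))⟩
      rw [← QuotientGroup.eq_one_iff]
      exact congrArg Subtype.val hk
    have hHR : H ≤ normalizer (R : Set G) := le_normalizer_inf le_rfl le_normalizer_of_normal
    have h2 := aux_comm hTp (V := V) (fun _ => Iff.rfl) hiC le_normalizer_of_normal hHR
      (inf_le_left.trans le_normalizer) hr hRp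
      (inf_le_left.trans (hQM.trans (le_centralizer_iff.mp hVM))) htr
    have h3 := map_mono (f := QuotientGroup.mk' T) (h2.trans (L.centralizer_pCore_le hp hG h1))
    rwa [QuotientGroup.map_mk'_self, map_commutator, map_commutator, hHm, hRm, le_bot_iff,
      commutator_eq_bot_iff_le_centralizer] at h3
  have hder' : _root_.commutator G ≤ M := by
    rw [hM, ← map_le_iff_le_comap, _root_.commutator, map_commutator,
      map_top_of_surjective _ (QuotientGroup.mk'_surjective T)]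
    exact hder
  obtain ⟨S⟩ : Nonempty (Sylow 2 G) := inferInstance
  have hST : (S : Subgroup G) = T :=
    sylow_maximal (hp.coprime_iff_not_dvd.mp hidx.symm) (L.pCore_le_sylow S)
      (aux_last S hder' hVM ⟨_, _, hxy, hx₀, hx₀', hy₀, hy₀'⟩ hconj) S.isPGroup'
  exact S.not_dvd_index (hST ▸ hd)

theorem aux_homocyclic {S : Type*} [CommGroup S] [Finite S] (hS : IsPGroup 2 S)
    (h : ∀ x y : S, x ≠ 1 → x ^ 2 = 1 → y ≠ 1 → y ^ 2 = 1 → ∃ a : MulAut S, a x = y) :
    ∃ m r : ℕ, Nonempty (S ≃* (Fin r → Multiplicative (ZMod (2 ^ m)))) := by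
  classical
  obtain ⟨ι, _, n, hn, ⟨e⟩⟩ := CommGroup.equiv_prod_multiplicative_zmod_of_finite S
  have h1 : ∀ i, ∃ k, n i = 2 ^ (k + 1) := fun i => by
    obtain ⟨k, hk⟩ := hS (e.symm (Pi.mulSingle i (Multiplicative.ofAdd 1)))
    rw [← map_pow, MulEquiv.map_eq_one_iff, ← Pi.mulSingle_pow, Pi.mulSingle_eq_one_iff,
      ← ofAdd_nsmul, ofAdd_eq_one, nsmul_one, ZMod.natCast_eq_zero_iff] at hk
    obtain ⟨j, -, hj⟩ := (Nat.dvd_prime_pow Nat.prime_two).mp hk
    rcases j with _ | j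
    · have := hn i; omega
    · exact ⟨j, hj⟩
  choose k hk using h1
  have key : ∀ i j, ¬ k i < k j := fun i j hij => by
    have h2 : ∀ i, (e.symm (Pi.mulSingle i (Multiplicative.ofAdd 1))) ^ 2 ^ k i ≠ 1 ∧
        ((e.symm (Pi.mulSingle i (Multiplicative.ofAdd 1))) ^ 2 ^ k i) ^ 2 = 1 := fun i => by
      rw [← pow_mul, ← pow_succ]
      simp only [← map_pow, Ne, MulEquiv.map_eq_one_iff, ← Pi.mulSingle_pow,
        Pi.mulSingle_eq_one_iff, ← ofAdd_nsmul, ofAdd_eq_one, nsmul_one, ZMod.natCast_eq_zero_iff,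
        hk, Nat.pow_dvd_pow_iff_le_right one_lt_two]
      omega
    obtain ⟨a, ha⟩ := h _ _ (h2 j).1 (h2 j).2 (h2 i).1 (h2 i).2
    apply (h2 i).1
    have h3 := congrFun (congrArg e ha) i
    rw [map_pow, map_pow, map_pow, MulEquiv.apply_symm_apply, Pi.pow_apply,
      ← Pi.mulSingle_pow, Pi.mulSingle_eq_same] at h3
    rw [← map_pow, MulEquiv.map_eq_one_iff, ← Pi.mulSingle_pow, Pi.mulSingle_eq_one_iff, ← h3]
    refine orderOf_dvd_iff_pow_eq_one.mp ((_root_.orderOf_dvd_natCard _).trans ?_)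
    rw [Nat.card_congr Multiplicative.toAdd, Nat.card_zmod, hk]
    exact pow_dvd_pow 2 hij
  obtain ⟨m, hm⟩ : ∃ m, n = fun _ => 2 ^ m := by
    rcases isEmpty_or_nonempty ι with _ | ⟨⟨i⟩⟩
    · exact ⟨0, Subsingleton.elim _ _⟩
    · exact ⟨k i + 1, funext fun j => by
        rw [hk, le_antisymm (not_lt.mp (key i j)) (not_lt.mp (key j i))]⟩
  subst hm
  exact ⟨m, Fintype.card ι, ⟨e.trans (MulEquiv.arrowCongr (Fintype.equivFin ι) (MulEquiv.refl _))⟩⟩

/-- Let G be a finite solvable group of even order whose Sylow 2-subgroups contain more than one involution, and suppose all involutions of G are conjugate. Then G has 2-length at most 1, and a Sylow 2-subgroup S of G is either homocyclic (a direct product of cyclic groups of one common order) or a non-abelian 2-group with more than one involution admitting a solvable group of automorphisms transitive on its involutions. -/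
theorem result {G : Type*} [Group G] [Finite G] (hG : Group.IsSolvable G) (heven : Even (Nat.card G)) (S : Sylow 2 G) (htwo : ∃ x y : G, x ∈ (S : Subgroup G) ∧ y ∈ (S : Subgroup G) ∧ x ≠ y ∧ x ≠ 1 ∧ x ^ 2 = 1 ∧ y ≠ 1 ∧ y ^ 2 = 1) (hconj : ∀ x y : G, x ≠ 1 → x ^ 2 = 1 → y ≠ 1 → y ^ 2 = 1 → IsConj x y) : Cfsg.PLengthLE 2 1 G ∧ ((∃ m r : ℕ, Nonempty (↥(S : Subgroup G) ≃* (Fin r → Multiplicative (ZMod (2 ^ m))))) ∨ (¬ IsMulCommutative (S : Subgroup G) ∧ ∃ Y : Subgroup (MulAut ↥(S : Subgroup G)), Group.IsSolvable Y ∧ ∀ x y : ↥(S : Subgroup G), x ≠ 1 → x ^ 2 = 1 → y ≠ 1 → y ^ 2 = 1 → ∃ a ∈ Y, a x = y)) := by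
  have hp := Nat.prime_two
  have hO := L.coprime_card_pPrimeCore (G := G) 2
  set O := pPrimeCore 2 G
  have hSO : ∀ x ∈ (S : Subgroup G), x ∈ O → x = 1 := fun x h1 h2 =>
    eq_one_of_mem_of_isPGroup S.isPGroup' h1 (coprime_orderOf_of_mem_pPrimeCore h2)
  have h1 : PLengthLE 2 1 G := by
    refine L.PLengthLE.of_quotient_coprime hp O hO (L.PLengthLE.of_quotient_isPGroup hp _
      (L.isPGroup_pCore 2) ((L.pLengthLE_zero_iff hp).mpr
        (aux_odd (L.pPrimeCore_quotient_pPrimeCore hp) ?_ ?_)))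
    · obtain ⟨x, y, hx, hy, hxy, hx1, hx2, hy1, hy2⟩ := htwo
      refine ⟨x, y, fun h => hxy (inv_mul_eq_one.mp (hSO _ (mul_mem (inv_mem hx) hy)
        (QuotientGroup.eq.mp h))), fun h => hx1 (hSO x hx ((QuotientGroup.eq_one_iff _).mp h)), ?_,
        fun h => hy1 (hSO y hy ((QuotientGroup.eq_one_iff _).mp h)), ?_⟩
      · rw [← QuotientGroup.mk_pow, hx2, QuotientGroup.mk_one]
      · rw [← QuotientGroup.mk_pow, hy2, QuotientGroup.mk_one]
    · intro x y hx1 hx2 hy1 hy2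
      have hx := orderOf_eq_prime hx2 hx1
      have hy := orderOf_eq_prime hy2 hy1
      obtain ⟨x, rfl, hx'⟩ := H5.exists_lift_orderOf_eq _ x (by rw [hx]; exact hO.symm)
      obtain ⟨y, rfl, hy'⟩ := H5.exists_lift_orderOf_eq _ y (by rw [hy]; exact hO.symm)
      rw [hx] at hx'
      rw [hy] at hy'
      exact MonoidHom.map_isConj _ (hconj x y (fun h => by simp [h] at hx')
        (hx' ▸ pow_orderOf_eq_one x) (fun h => by simp [h] at hy') (hy' ▸ pow_orderOf_eq_one y))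
  have h2 : ∀ x y : (S : Subgroup G), x ≠ 1 → x ^ 2 = 1 → y ≠ 1 → y ^ 2 = 1 →
      ∃ a ∈ (conjAut (le_refl (normalizer ((S : Subgroup G) : Set G)))).range, a x = y := by
    intro x y hx1 hx2 hy1 hy2
    obtain ⟨g, hg⟩ := isConj_iff.mp (hconj x y (by simpa using hx1) (congrArg Subtype.val hx2)
      (by simpa using hy1) (congrArg Subtype.val hy2))
    have h3 : (S : Subgroup G) ≤ pPrimePCore 2 G := fun s hs => by
      obtain ⟨k, hk⟩ := H8.exists_orderOf_eq_pow_of_mem S.isPGroup' hs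
      exact H8.mem_of_coprime_index
        (by rw [hk]; exact ((L.pLengthLE_one_iff_index hp).mp h1).symm.pow_left k)
    obtain ⟨l, hl, hlg⟩ := frattini_argument h3 S.isPGroup'
      (fun h => S.not_dvd_index (h.trans (relIndex_dvd_index_of_le h3)))
      (le_normalizer_of_normal (mem_top g))
    obtain ⟨s, hs, hsl⟩ := L.pCore_le_sylow (S.mapSurjective (QuotientGroup.mk'_surjective O)) hl
    have ho : s⁻¹ * l ∈ O := QuotientGroup.eq.mp hsl
    have hn : s⁻¹ * l * g ∈ normalizer ((S : Subgroup G) : Set G) := by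
      rw [mul_assoc]; exact mul_mem (inv_mem (le_normalizer hs)) hlg
    refine ⟨_, ⟨⟨_, hn⟩, rfl⟩, Subtype.ext (mul_inv_eq_one.mp (hSO _
      (mul_mem (Subtype.property _) (inv_mem y.2)) ?_))⟩
    have := mul_mem ho (Normal.conj_mem inferInstance _ (inv_mem ho) (y : G))
    convert this using 1
    rw [coe_conjAut, ← hg]
    group
  refine ⟨h1, ?_⟩
  by_cases hS : IsMulCommutative (S : Subgroup G)
  · exact Or.inl (aux_homocyclic S.isPGroup' fun x y a b c d => by
      obtain ⟨a, -, ha⟩ := h2 x y a b c d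
      exact ⟨a, ha⟩)
  · exact Or.inr ⟨hS, _, Group.isSolvable_of_surjective (MonoidHom.rangeRestrict_surjective _), h2⟩

end Cfsg.Agent.S3797
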