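import Cfsg.Statements.S3798
import Cfsg.Agent.H1.PStd
import Cfsg.Agent.H3.PBasic

set_option autoImplicit false
open Cfsg

namespace Cfsg.Agent.S3798

open Subgroup

theorem aux {G : Type*} [Group G] [Finite G] {p : ℕ} [Fact p.Prime] (hp2 : p ≠ 2)
    (hG : IsPSolvable p G) (h1 : pPrimeCore p G = ⊥)
    (h : ∀ K : Subgroup G, K.Characteristic → ∀ x ∈ K, orderOf x = p → ∀ y, orderOf y = p → y ∈ K) :
    PLengthLE p 1 G := by
  have hp : p.Prime := Fact.out
  rcases subsingleton_or_nontrivial G with hs | hs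
  · exact L.PLengthLE.mono hp zero_le_one ((L.pLengthLE_zero_iff hp).mpr (by simp))
  set T := pCore p G with hT
  have hTp : IsPGroup p T := L.isPGroup_pCore p
  have hTc : T.Characteristic := L.pCore_characteristic hp
  have hT0 : T ≠ ⊥ := H1.pCore_ne_bot hp hG h1
  refine L.PLengthLE.of_quotient_isPGroup hp T hTp ((L.pLengthLE_zero_iff hp).mpr ?_)
  set M := (pPrimeCore p (G ⧸ T)).comap (QuotientGroup.mk' T) with hM
  have hMc : M.Characteristic := Characteristic.comap_quotient_mk (L.pPrimeCore_characteristic hp)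
  have hTM : T ≤ M := fun x hx => by
    rw [mem_comap, QuotientGroup.mk'_apply, (QuotientGroup.eq_one_iff x).mpr hx]; exact one_mem _
  have hidx : (T.relIndex M).Coprime p := by
    rw [L.relIndex_eq_card_map_mk', map_comap_eq_self_of_surjective (QuotientGroup.mk'_surjective T)]
    exact L.coprime_card_pPrimeCore p
  obtain ⟨Q, hQ1, hQ2, hQ3, hQ4⟩ := H1.exists_complement_frattini hTM
    (H1.isSolvable_of_isPGroup hTp) (H1.coprime_card_of_isPGroup hTp hidx).symm
  obtain ⟨z, -, hzc, hz⟩ := H3.exists_central_orderOf_eq_prime hTp ⊤ (by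
    have := (Subgroup.nontrivial_iff_ne_bot T).mpr hT0
    exact top_ne_bot)
  have hz' : orderOf (z : G) = p := by rwa [orderOf_coe]
  by_cases h0 : T ⊓ centralizer (Q : Set G) = ⊥
  · rw [Nat.coprime_comm, hp.coprime_iff_not_dvd]
    intro hd
    have h2 : T.relIndex (normalizer (Q : Set G)) = Nat.card (G ⧸ T) := by
      rw [← H1.relIndex_sup_of_le_normalizer le_normalizer_of_normal]
      have : normalizer (Q : Set G) ⊔ T = ⊤ := eq_top_iff.mpr fun g _ => by
        obtain ⟨n, hn, hg⟩ := hQ4 g
        simpa using mul_mem (inv_mem (mem_sup_right hn)) (mem_sup_left hg)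
      rw [this, relIndex_top_right]; rfl
    obtain ⟨y, hy⟩ := exists_prime_orderOf_dvd_card' (G := normalizer (Q : Set G)) p
      (hd.trans (h2 ▸ relIndex_dvd_card _ _))
    have h3 : (y : G) ∈ T ⊓ normalizer (Q : Set G) :=
      ⟨h T hTc z z.2 hz' y (by rwa [orderOf_coe]), y.2⟩
    rw [H1.inf_normalizer_eq_inf_centralizer le_normalizer_of_normal hQ2, h0, mem_bot,
      OneMemClass.coe_eq_one] at h3
    rw [h3, orderOf_one] at hy
    exact hp.one_lt.ne hy
  · obtain ⟨⟨x, hx⟩, hx1⟩ := ne_bot_iff_exists_ne_one.mp h0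
    obtain ⟨k, hk⟩ := H3.exists_pow_orderOf_eq_prime (hTp.to_inf_left (K := centralizer (Q : Set G))) hx1
    rw [← orderOf_coe] at hk
    have h2 := h _ inferInstance (z : G) (mem_centralizer_iff.mpr fun t ht =>
      congrArg Subtype.val (mem_center_iff.mp hzc ⟨t, ht⟩)) hz' _ hk
    have h3 : x ^ k ∈ centralizer (M : Set G) := by
      rw [← hQ1, H1.mem_centralizer_iff_le]
      exact sup_le (H1.mem_centralizer_iff_le.mp (pow_mem (mem_inf.mp hx).2 k))
        (H1.mem_centralizer_iff_le.mp h2)
    have h4 : Q ≤ centralizer (T : Set G) :=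
      H1.le_centralizer_of_centralizes_omega hp2 hTp le_normalizer_of_normal (hQ3 ▸ hidx)
        fun y _ hy => by
          rcases eq_or_ne y 1 with rfl | hy1
          · exact one_mem _
          exact centralizer_le (hQ1 ▸ le_sup_left : Q ≤ M)
            (h _ inferInstance _ h3 hk y (orderOf_eq_prime hy hy1))
    have h5 : Q = ⊥ := by
      rw [← hQ2]; exact (inf_eq_left.mpr (h4.trans (L.centralizer_pCore_le hp hG h1))).symm
    rw [h5, bot_sup_eq] at hQ1
    have := H1.subsingleton_of_cores hp (L.IsPSolvable.quotient hp hG T) (L.pCore_quotient_pCore hp)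
      (L.eq_bot_of_comap_mk'_eq hQ1.ge)
    simp

/-- The Gaschütz–Yen Theorem: let G be a finite p-soluble group, p an odd prime dividing its order, such that the automorphism group of G permutes the subgroups of G of order p transitively. Then G has p-length at most 1. -/
theorem result {G : Type*} [Group G] [Finite G] {p : ℕ} [Fact p.Prime] (hp : p ≠ 2) (hdvd : p ∣ Nat.card G) (hG : Cfsg.IsPSolvable p G) (htrans : ∀ U V : Subgroup G, Nat.card U = p → Nat.card V = p → ∃ a : MulAut G, U.map a.toMonoidHom = V) : Cfsg.PLengthLE p 1 G := by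
  have hp' : p.Prime := Fact.out
  have hc := L.pPrimeCore_characteristic (G := G) hp'
  refine L.PLengthLE.of_quotient_coprime hp' _ (L.coprime_card_pPrimeCore p)
    (aux hp (L.IsPSolvable.quotient hp' hG _) (L.pPrimeCore_quotient_pPrimeCore hp') ?_)
  intro K hK x hx hxp y hyp
  obtain ⟨x, rfl, hx'⟩ := H5.exists_lift_orderOf_eq _ x
    (by rw [hxp]; exact (L.coprime_card_pPrimeCore p).symm)
  obtain ⟨y, rfl, hy'⟩ := H5.exists_lift_orderOf_eq _ y
    (by rw [hyp]; exact (L.coprime_card_pPrimeCore p).symm)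
  obtain ⟨a, ha⟩ := htrans (zpowers x) (zpowers y) (by rw [Nat.card_zpowers, hx', hxp])
    (by rw [Nat.card_zpowers, hy', hyp])
  have h1 := Characteristic.comap_quotient_mk hK
  have h2 : zpowers x ≤ K.comap (QuotientGroup.mk' _) := zpowers_le.mpr hx
  have h3 := map_mono (f := a.toMonoidHom) h2
  rw [ha, characteristic_iff_map_eq.mp h1 a] at h3
  exact h3 (mem_zpowers y)

end Cfsg.Agent.S3798
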