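import Cfsg.Statements.S3799
import Cfsg.Agent.H3.PBasic

set_option autoImplicit false
open Cfsg

namespace Cfsg.Agent.S3799

open Subgroup
open scoped commutatorElement

theorem crit {G : Type*} [Group G] [Finite G] {p : ℕ} [hp : Fact p.Prime] (h1 : ∀ x : G, x ^ p = 1)
    (h2 : Nat.card (center G) = p) (h3 : ∀ x y : G, x * y * x⁻¹ * y⁻¹ ∈ center G)
    (h4 : ∃ x y : G, x * y ≠ y * x) : IsExtraspecial p G := by
  have hG : IsPGroup p G := fun x => ⟨1, by rw [pow_one, h1]⟩
  have h5 : commutator G ≤ center G := by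
    rw [commutator_def, commutator_le]
    exact fun x _ y _ => h3 x y
  have h6 : commutator G = center G := by
    apply eq_of_le_of_card_ge h5
    rw [h2]
    obtain ⟨x, y, hxy⟩ := h4
    rcases (Nat.dvd_prime hp.out).1 (h2 ▸ card_dvd_of_le h5) with h | h
    · exfalso
      have : ⁅x, y⁆ ∈ commutator G := commutator_mem_commutator (mem_top _) (mem_top _)
      rw [card_eq_one.1 h, mem_bot, commutatorElement_eq_one_iff_mul_comm] at this
      exact hxy this
    · exact h.ge
  refine ⟨⟨hG, le_antisymm ?_ (h6 ▸ H3.commutator_le_frattini hG), h6⟩, h2⟩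
  exact H3.frattini_le_of_forall hp.out h3 fun x => by rw [h1]; exact one_mem _

@[ext] structure Hs (F : Type) (n : ℕ) where
  a : Fin n → F
  b : Fin n → F
  c : F

variable {F : Type} [CommRing F] {n : ℕ}

instance instMulHs : Mul (Hs F n) := ⟨fun x y => ⟨x.a + y.a, x.b + y.b, x.c + y.c + x.a ⬝ᵥ y.b⟩⟩
instance instOneHs : One (Hs F n) := ⟨⟨0, 0, 0⟩⟩
instance instInvHs : Inv (Hs F n) := ⟨fun x => ⟨-x.a, -x.b, -x.c + x.a ⬝ᵥ x.b⟩⟩

@[simp] theorem mul_a (x y : Hs F n) : (x * y).a = x.a + y.a := rfl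
@[simp] theorem mul_b (x y : Hs F n) : (x * y).b = x.b + y.b := rfl
@[simp] theorem mul_c (x y : Hs F n) : (x * y).c = x.c + y.c + x.a ⬝ᵥ y.b := rfl
@[simp] theorem one_a : (1 : Hs F n).a = 0 := rfl
@[simp] theorem one_b : (1 : Hs F n).b = 0 := rfl
@[simp] theorem one_c : (1 : Hs F n).c = 0 := rfl
@[simp] theorem inv_a (x : Hs F n) : x⁻¹.a = -x.a := rfl
@[simp] theorem inv_b (x : Hs F n) : x⁻¹.b = -x.b := rfl
@[simp] theorem inv_c (x : Hs F n) : x⁻¹.c = -x.c + x.a ⬝ᵥ x.b := rfl

instance instGroupHs : Group (Hs F n) := Group.ofLeftAxioms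
  (fun x y z => by
    ext
    · simp [add_assoc]
    · simp [add_assoc]
    · simp; ring)
  (fun x => by ext <;> simp)
  (fun x => by ext <;> simp)

def eqv : Hs F n ≃ (Fin n → F) × (Fin n → F) × F where
  toFun x := (x.a, x.b, x.c)
  invFun x := ⟨x.1, x.2.1, x.2.2⟩
  left_inv _ := rfl
  right_inv _ := rfl

theorem pow_eq (x : Hs F n) (k : ℕ) :
    x ^ k = ⟨(k : F) • x.a, (k : F) • x.b, k * x.c + (k.choose 2 : ℕ) * (x.a ⬝ᵥ x.b)⟩ := by
  induction k with
  | zero => ext <;> simp
  | succ k ih =>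
    rw [pow_succ, ih]
    ext
    · simp [add_mul]
    · simp [add_mul]
    · simp [Nat.choose_succ_succ' k 1]; ring

theorem mem_center_iff' (x : Hs F n) : x ∈ center (Hs F n) ↔ x.a = 0 ∧ x.b = 0 := by
  rw [mem_center_iff]
  constructor
  · intro h
    constructor
    · funext i
      have := congrArg Hs.c (h ⟨0, Pi.single i 1, 0⟩)
      simpa using this
    · funext i
      have := congrArg Hs.c (h ⟨Pi.single i 1, 0, 0⟩)
      simpa using this
  · rintro ⟨h1, h2⟩ g
    ext <;> simp [h1, h2, add_comm]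

def centerEqv : center (Hs F n) ≃ F where
  toFun x := x.1.c
  invFun c := ⟨⟨0, 0, c⟩, (mem_center_iff' _).2 ⟨rfl, rfl⟩⟩
  left_inv x := by
    obtain ⟨h1, h2⟩ := (mem_center_iff' _).1 x.2
    apply Subtype.ext
    ext <;> simp [h1, h2]
  right_inv _ := rfl

def rho : Hs F n →* Module.End F (F × (Fin n → F) × F) where
  toFun g :=
    { toFun := fun v => (v.1 + g.a ⬝ᵥ v.2.1 + g.c * v.2.2, v.2.1 + v.2.2 • g.b, v.2.2)
      map_add' := fun v w => by
        ext
        · simp; ring
        · simp; ring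
        · simp
      map_smul' := fun r v => by
        ext
        · simp; ring
        · simp; ring
        · simp }
  map_one' := by
    apply LinearMap.ext
    intro v
    simp
  map_mul' g h := by
    apply LinearMap.ext
    intro v
    ext
    · simp; ring
    · simp; ring
    · simp

theorem rho_inj : Function.Injective (rho (F := F) (n := n)) := by
  intro g h e
  have h1 := congrArg (fun f : Module.End F (F × (Fin n → F) × F) => f (0, 0, 1)) e
  simp only [rho, MonoidHom.coe_mk, OneHom.coe_mk, LinearMap.coe_mk, AddHom.coe_mk] at h1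
  ext i
  · have h2 := congrArg (fun f : Module.End F (F × (Fin n → F) × F) => (f (0, Pi.single i 1, 0)).1) e
    simpa [rho] using h2
  · simpa using congrArg (fun v => v.2.1 i) h1
  · simpa using congrArg (fun v => v.1) h1

/-- For every odd prime p and every n ≥ 1 there is an extraspecial p-group of order p^(1+2n) and exponent p; concretely, the general linear group of degree n + 2 over the field with p elements contains such a subgroup. -/
theorem result (p : ℕ) [Fact p.Prime] (hp : p ≠ 2) (n : ℕ) (hn : 1 ≤ n) : ∃ E : Subgroup (Matrix.GeneralLinearGroup (Fin (n + 2)) (ZMod p)), Cfsg.IsExtraspecial p ↥E ∧ Nat.card E = p ^ (1 + 2 * n) ∧ ∀ x ∈ E, x ^ p = 1 := by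
  have hpp : p.Prime := Fact.out
  let b := Module.finBasisOfFinrankEq (ZMod p) (ZMod p × (Fin n → ZMod p) × ZMod p) (n := n + 2)
    (by simp; ring)
  let f : Hs (ZMod p) n →* Matrix.GeneralLinearGroup (Fin (n + 2)) (ZMod p) :=
    (Matrix.GeneralLinearGroup.toLin' b).symm.toMonoidHom.comp rho.toHomUnits
  have hf : Function.Injective f :=
    (Matrix.GeneralLinearGroup.toLin' b).symm.injective.comp fun x y h =>
      rho_inj (congrArg Units.val h)
  have e := MonoidHom.ofInjective hf
  have hpow : ∀ x : Hs (ZMod p) n, x ^ p = 1 := by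
    intro x
    rw [pow_eq]
    have : ((p.choose 2 : ℕ) : ZMod p) = 0 := by
      rw [ZMod.natCast_eq_zero_iff]
      exact hpp.dvd_choose_self two_ne_zero (lt_of_le_of_ne hpp.two_le hp.symm)
    ext <;> simp [this]
  refine ⟨f.range, crit ?_ ?_ ?_ ?_, ?_, ?_⟩
  · intro x
    obtain ⟨x, rfl⟩ := e.surjective x
    rw [← map_pow, hpow, map_one]
  · rw [← Nat.card_congr (centerCongr e).toEquiv, Nat.card_congr centerEqv, Nat.card_zmod]
  · intro x y
    obtain ⟨x, rfl⟩ := e.surjective x
    obtain ⟨y, rfl⟩ := e.surjective y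
    have : x * y * x⁻¹ * y⁻¹ ∈ center (Hs (ZMod p) n) := by
      rw [mem_center_iff']
      simp
    rw [← map_inv, ← map_inv, ← map_mul, ← map_mul, ← map_mul]
    exact (centerCongr e ⟨_, this⟩).2
  · refine ⟨e ⟨Pi.single ⟨0, hn⟩ 1, 0, 0⟩, e ⟨0, Pi.single ⟨0, hn⟩ 1, 0⟩, fun h => ?_⟩
    rw [← map_mul, ← map_mul] at h
    have := congrArg Hs.c (e.injective h)
    simp at this
  · rw [← Nat.card_congr e.toEquiv, Nat.card_congr eqv]
    simp only [Nat.card_prod, Nat.card_pi, Nat.card_zmod, Finset.prod_const, Finset.card_univ,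
      Fintype.card_fin]
    ring
  · rintro _ ⟨x, rfl⟩
    rw [← map_pow, hpow, map_one]

end Cfsg.Agent.S3799
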