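import Cfsg.Statements.S3979
import Cfsg.Agent.H4.Schur2

set_option autoImplicit false
open Cfsg

namespace Cfsg.Agent.S3979


/-- A finite cyclic group has trivial Schur multiplier: every finite stem extension of it is an isomorphism, said through `HasCyclicSchurMultiplier G 1`. -/
theorem result {G : Type*} [Group G] [Finite G] [IsCyclic G] : Cfsg.HasCyclicSchurMultiplier G 1 := by
  rw [H4.hsm_one_iff]
  refine ⟨inferInstance, fun Γ _ _ σ hσ => ?_⟩
  have h : commutator Γ = ⊥ := by
    rw [commutator_eq_bot_iff]
    exact MonoidHom.isMulCommutative_of_isCyclic_of_ker_le_center σ hσ.2.1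
  exact eq_bot_iff.mpr (h ▸ hσ.2.2)

end Cfsg.Agent.S3979
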