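import Cfsg.Statements.S3950
import Cfsg.Agent.H4.Schur4
import Cfsg.Agent.S3979

set_option autoImplicit false
open Cfsg

namespace Cfsg.Agent.S3950


/-- A finite abelian group has trivial Schur multiplier if and only if it is cyclic. -/
theorem result {G : Type*} [CommGroup G] [Finite G] : Cfsg.HasCyclicSchurMultiplier G 1 ↔ IsCyclic G := by
  classical
  refine ⟨fun h => ?_, fun _ => S3979.result⟩
  obtain ⟨ι, _, n, hn, ⟨e⟩⟩ := CommGroup.equiv_prod_multiplicative_zmod_of_finite G
  by_cases hc : Pairwise fun i j => Nat.Coprime (n i) (n j)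
  · let e2 : Multiplicative (ZMod (∏ i, n i)) ≃* ((i : ι) → Multiplicative (ZMod (n i))) :=
      (AddEquiv.toMultiplicative (ZMod.prodEquivPi n hc).toAddEquiv).trans
        (MulEquiv.piMultiplicative _)
    exact isCyclic_of_surjective (e2.trans e.symm).toMonoidHom (e2.trans e.symm).surjective
  · exfalso
    simp only [Pairwise, not_forall] at hc
    obtain ⟨i, j, hij, hc⟩ := hc
    set c := Nat.gcd (n i) (n j) with hcdef
    let f1 : ZMod (n i) →+* ZMod c := ZMod.castHom (Nat.gcd_dvd_left _ _) _
    let f2 : ZMod (n j) →+* ZMod c := ZMod.castHom (Nat.gcd_dvd_right _ _) _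
    let β : G →* G →* Multiplicative (ZMod c) :=
      MonoidHom.mk' (fun x => MonoidHom.mk'
        (fun y => Multiplicative.ofAdd (f1 (e x i).toAdd * f2 (e y j).toAdd))
        (fun y y' => by simp [mul_add, ofAdd_add]))
        (fun x x' => by ext y; simp [add_mul, ofAdd_add])
    have hβ : ∀ x y : G, β x y =
        Multiplicative.ofAdd (f1 (e x i).toAdd * f2 (e y j).toAdd) := fun _ _ => rfl
    let a : G := e.symm (Pi.mulSingle i (Multiplicative.ofAdd 1))
    let b : G := e.symm (Pi.mulSingle j (Multiplicative.ofAdd 1))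
    have h1 := H4.Tw.inl_mem_mker (β := β) (mul_comm a b)
    have h2 : β a b / β b a = Multiplicative.ofAdd 1 := by
      rw [hβ, hβ]; simp [a, b, Pi.mulSingle_eq_of_ne hij]
    rw [h2, H4.hsm_one_mker_eq_bot h H4.Tw.proj_isCentralExt, Subgroup.mem_bot,
      map_eq_one_iff _ H4.Tw.inl_injective] at h1
    have h3 : ((1 : ℕ) : ZMod c) = 0 := by
      rw [Nat.cast_one]; exact h1
    rw [ZMod.natCast_eq_zero_iff, Nat.dvd_one] at h3
    exact hc h3

end Cfsg.Agent.S3950
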