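import Cfsg.Statements.S3951
import Cfsg.Agent.H4.Schur4

set_option autoImplicit false
open Cfsg

namespace Cfsg.Agent.S3951


/-- For positive integers `m` and `n` with `n` dividing `m`, the Schur multiplier of the abelian group `ZMod m × ZMod n` (written multiplicatively) is cyclic of order `n`. In particular the elementary abelian group of order `p ^ 2` has multiplier of order `p`. -/
theorem result (m n : ℕ) [NeZero m] [NeZero n] (hnm : n ∣ m) : Cfsg.HasCyclicSchurMultiplier (Multiplicative (ZMod m × ZMod n)) n := by
  let f : ZMod m →+* ZMod n := ZMod.castHom hnm (ZMod n)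
  let β : Multiplicative (ZMod m × ZMod n) →* Multiplicative (ZMod m × ZMod n) →*
      Multiplicative (ZMod n) :=
    MonoidHom.mk' (fun x => MonoidHom.mk'
      (fun y => Multiplicative.ofAdd (f x.toAdd.1 * y.toAdd.2))
      (fun y y' => by simp [mul_add, ofAdd_add]))
      (fun x x' => by ext y; simp [add_mul, ofAdd_add])
  have hβ : ∀ x y, β x y =
      Multiplicative.ofAdd (f x.toAdd.1 * y.toAdd.2) := fun _ _ => rfl
  let a : Multiplicative (ZMod m × ZMod n) := Multiplicative.ofAdd (1, 0)
  let b : Multiplicative (ZMod m × ZMod n) := Multiplicative.ofAdd (0, 1)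
  refine H4.hsm_of_bounds (H4.Tw.proj_isCentralExt (β := β)) ?_ ?_
  · have h1 := H4.Tw.inl_mem_mker (β := β) (mul_comm a b)
    have h2 : β a b / β b a = Multiplicative.ofAdd 1 := by
      rw [hβ, hβ]; simp [a, b]
    rw [h2, ← Subgroup.zpowers_le] at h1
    have h3 := Subgroup.card_le_of_le h1
    rw [Nat.card_zpowers, orderOf_injective _ H4.Tw.inl_injective, orderOf_ofAdd_eq_addOrderOf,
      ZMod.addOrderOf_one] at h3
    simpa using h3
  · intro Γ _ _ σ hσ
    have hgen : Subgroup.closure ({a, b} : Set (Multiplicative (ZMod m × ZMod n))) = ⊤ := by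
      rw [eq_top_iff]
      rintro x -
      have : x = a ^ x.toAdd.1.val * b ^ x.toAdd.2.val := by
        apply Multiplicative.toAdd.injective
        simp [a, b]
      rw [this]
      exact mul_mem (pow_mem (Subgroup.subset_closure (by simp)) _)
        (pow_mem (Subgroup.subset_closure (by simp)) _)
    have hr : b * a * b⁻¹ = a ^ (1 : ℤ) := by simp
    obtain ⟨h0, c, hc, -, h2⟩ := H4.meta_stem hσ hgen hr
    have h3 := (h2 n 0 (by
      apply Multiplicative.toAdd.injective
      simp [b])).2
    simp only [sub_self, zpow_zero, orderOf_one, mul_one] at hc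
    simp only [one_pow, Finset.sum_const, Finset.card_range, nsmul_eq_mul, mul_one, hc,
      Int.natCast_dvd_natCast] at h3
    exact H4.exists_surj_zmod_of_isCyclic h3

end Cfsg.Agent.S3951
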