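import Cfsg.Statements.S3952
import Cfsg.Agent.H4.Schur2

set_option autoImplicit false
open Cfsg

namespace Cfsg.Agent.S3952

open Subgroup H4
open scoped commutatorElement

universe u

theorem pgroup_bound (p : ℕ) [hp : Fact p.Prime] (n : ℕ) : ∀ (P : Type u) [Group P] [Finite P],
    Nat.card P = n → IsPGroup p P → ∀ z ∈ center P, z ∈ commutator P →
      orderOf z ^ 2 ∣ (center P).index := by
  induction n using Nat.strong_induction_on with
  | _ n ih =>
  intro P _ _ hn hP z hz hz'
  by_cases hz1 : z = 1
  · simp [hz1]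
  by_cases hA : ∃ w ∈ center P, orderOf w = p ∧ w ∉ zpowers z
  · obtain ⟨w, hw, hwp, hwz⟩ := hA
    have hN : (zpowers w).Normal := normal_of_le_center (by rwa [zpowers_le])
    have hcard : Nat.card (zpowers w) = p := by rw [Nat.card_zpowers, hwp]
    have hlt : Nat.card (P ⧸ zpowers w) < n := by
      rw [← hn, card_eq_card_quotient_mul_card_subgroup (zpowers w), hcard]
      exact lt_mul_of_one_lt_right Nat.card_pos hp.out.one_lt
    have hcen : center P ≤ (center (P ⧸ zpowers w)).comap (QuotientGroup.mk' _) := by
      intro x hx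
      rw [mem_comap, mem_center_iff]
      intro y
      obtain ⟨y, rfl⟩ := QuotientGroup.mk'_surjective _ y
      rw [← map_mul, ← map_mul, mem_center_iff.mp hx y]
    have h1 := ih _ hlt (P ⧸ zpowers w) rfl (hP.to_quotient _) (QuotientGroup.mk' _ z) (hcen hz)
      (by
        have := mem_map_of_mem (QuotientGroup.mk' (zpowers w)) hz'
        rw [map_commutator_eq] at this
        exact commutator_mono le_top le_top this)
    have h2 : orderOf (QuotientGroup.mk' (zpowers w) z) = orderOf z := by
      apply Nat.dvd_antisymm (orderOf_map_dvd _ _)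
      rw [orderOf_dvd_iff_pow_eq_one]
      have h3 := pow_orderOf_eq_one (QuotientGroup.mk' (zpowers w) z)
      rw [← map_pow] at h3
      have h4 : z ^ orderOf (QuotientGroup.mk' (zpowers w) z) ∈ zpowers w :=
        (QuotientGroup.eq_one_iff _).mp h3
      have : Fact (Nat.card (zpowers w)).Prime := by rw [hcard]; exact hp
      rcases ((zpowers z).subgroupOf (zpowers w)).eq_bot_or_eq_top_of_prime_card with h | h
      · have : (⟨_, h4⟩ : zpowers w) ∈ (zpowers z).subgroupOf (zpowers w) :=
          pow_mem (mem_zpowers z) _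
        rw [h] at this
        exact congrArg Subtype.val (mem_bot.mp this)
      · exact absurd (subgroupOf_eq_top.mp h (mem_zpowers w)) hwz
    rw [h2, ← index_comap_of_surjective _ (QuotientGroup.mk'_surjective _)] at h1
    exact h1.trans (index_dvd_of_le hcen)
  · push Not at hA
    have hB : ∀ w ∈ center P, w ^ p = 1 → w ∈ zpowers z := by
      intro w hw hwp
      by_cases h1 : w = 1
      · rw [h1]; exact one_mem _
      · exact hA w hw (orderOf_eq_prime hwp h1)
    have hnt : Nontrivial (P ⧸ center P) := by
      rw [QuotientGroup.nontrivial_iff]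
      intro h
      rw [← commutator_eq_bot_iff_center_eq_top] at h
      rw [h] at hz'
      exact hz1 hz'
    have hQ := hP.to_quotient (center P)
    have hnt2 := hQ.center_nontrivial
    have hdvd : p ∣ Nat.card (center (P ⧸ center P)) :=
      (hQ.to_subgroup _).card_eq_or_dvd.resolve_left Finite.one_lt_card.ne'
    obtain ⟨⟨a, ha⟩, hap⟩ := exists_prime_orderOf_dvd_card' p hdvd
    obtain ⟨a, rfl⟩ := QuotientGroup.mk_surjective a
    rw [← orderOf_coe] at hap
    have ha1 : a ∉ center P := by
      intro h
      have : ((a : P ⧸ center P)) = 1 := (QuotientGroup.eq_one_iff _).mpr h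
      simp only [this, orderOf_one] at hap
      exact hp.out.one_lt.ne hap
    have hap' : a ^ p ∈ center P := by
      rw [← QuotientGroup.eq_one_iff, QuotientGroup.mk_pow, ← hap]
      exact pow_orderOf_eq_one _
    have hc : ∀ x : P, ⁅x, a⁆ ∈ center P := by
      intro x
      rw [← QuotientGroup.eq_one_iff]
      show QuotientGroup.mk' _ ⁅x, a⁆ = 1
      rw [map_commutatorElement, commutatorElement_eq_one_iff_mul_comm]
      exact mem_center_iff.mp ha _
    let c : P →* P := MonoidHom.mk' (fun x => ⁅x, a⁆) (fun x y => by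
      show ⁅x * y, a⁆ = ⁅x, a⁆ * ⁅y, a⁆
      rw [commutatorElement_mul_left_eq_conj_mul, mem_center_iff.mp (hc y) x,
        mul_inv_cancel_right, mem_center_iff.mp (hc y)])
    have hcp : ∀ x, c x ^ p = 1 := by
      intro x
      have h1 : x * a * x⁻¹ = ⁅x, a⁆ * a := by rw [commutatorElement_def]; group
      have h2 : Commute ⁅x, a⁆ a := (mem_center_iff.mp (hc x) a).symm
      have h3 : x * a ^ p * x⁻¹ = ⁅x, a⁆ ^ p * a ^ p := by rw [← conj_pow, h1, h2.mul_pow]
      rw [mem_center_iff.mp hap' x] at h3
      show ⁅x, a⁆ ^ p = 1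
      simpa using h3.symm
    have hrange : c.range ≤ zpowers z := by
      rintro _ ⟨x, rfl⟩
      exact hB _ (hc x) (hcp x)
    have hcyc : IsCyclic c.range :=
      isCyclic_of_injective (inclusion hrange) (inclusion_injective hrange)
    have hidx : c.ker.index ∣ p := by
      rw [index_ker, ← IsCyclic.exponent_eq_card]
      apply Monoid.exponent_dvd_of_forall_pow_eq_one
      rintro ⟨_, x, rfl⟩
      exact Subtype.ext (hcp x)
    have hidx' : c.ker.index = p := by
      refine ((Nat.dvd_prime hp.out).mp hidx).resolve_left fun h => ha1 ?_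
      rw [index_eq_one] at h
      rw [mem_center_iff]
      intro x
      have : x ∈ c.ker := by rw [h]; trivial
      exact commutatorElement_eq_one_iff_mul_comm.mp this
    set C := c.ker with hC
    have hZC : center P ≤ C := by
      intro x hx
      exact commutatorElement_eq_one_iff_mul_comm.mpr (mem_center_iff.mp hx a).symm
    have haC : a ∈ C := commutatorElement_self a
    have hlt : Nat.card C < n := by
      rw [← hn, ← C.card_mul_index, hidx']
      exact lt_mul_of_one_lt_right Nat.card_pos hp.out.one_lt
    have h1 := pow_index_mem_commutator C hz hz'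
    rw [hidx', ← map_subtype_commutator] at h1
    obtain ⟨y, hy, hy'⟩ := h1
    have hZC' : (center P).subgroupOf C ≤ center C := by
      intro x hx
      rw [mem_center_iff]
      exact fun g => Subtype.ext (mem_center_iff.mp hx g)
    have h2 := ih _ hlt C rfl (hP.to_subgroup _) y (hZC' (by
      rw [mem_subgroupOf]
      have : (y : P) = z ^ p := hy'
      rw [this]; exact pow_mem hz _)) hy
    have h3 : orderOf y * p = orderOf z := by
      rw [← orderOf_coe]
      have : (y : P) = z ^ p := hy'
      rw [this, orderOf_pow_of_dvd hp.out.ne_zero (hP.dvd_orderOf hz1)]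
      exact Nat.div_mul_cancel (hP.dvd_orderOf hz1)
    have h4 : p ∣ ((center P).subgroupOf C).relIndex (center C) := by
      obtain ⟨k, hk⟩ := ((hP.to_subgroup C).to_subgroup (center C)).index
        (((center P).subgroupOf C).subgroupOf (center C))
      rcases k with _ | k
      · exfalso
        rw [pow_zero, index_eq_one, subgroupOf_eq_top] at hk
        apply ha1
        refine hk (x := ⟨a, haC⟩) ?_
        rw [mem_center_iff]
        exact fun g => Subtype.ext (commutatorElement_eq_one_iff_mul_comm.mp g.2)
      · rw [relIndex, hk, pow_succ]; simp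
    rw [← relIndex_mul_index hZC, relIndex, ← relIndex_mul_index hZC', hidx', ← h3]
    rw [mul_pow, mul_comm, sq, mul_assoc, mul_comm p (orderOf y ^ 2), ← mul_assoc]
    exact mul_dvd_mul (mul_dvd_mul h4 h2) dvd_rfl


/-- If `A` is the Schur multiplier of the finite group `Q`, then the square of the exponent of `A` divides the order of `Q`. -/
theorem result {Q : Type*} [Group Q] [Finite Q] {A : Type*} [CommGroup A] (hA : Cfsg.HasSchurMultiplier Q A) : Monoid.exponent A ^ 2 ∣ Nat.card Q := by
  obtain ⟨⟨Γ, _, _, σ, hσ, ⟨e⟩⟩, -⟩ := hA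
  have : Finite A := Finite.of_equiv _ e.toEquiv
  have hE : Monoid.exponent A ≠ 0 := Monoid.exponent_ne_zero_of_finite
  rw [← Nat.factorization_prime_le_iff_dvd (pow_ne_zero _ hE) Nat.card_pos.ne']
  intro p hp
  have := Fact.mk hp
  rw [← hp.pow_dvd_iff_le_factorization Nat.card_pos.ne', Nat.factorization_pow]
  obtain ⟨a, ha⟩ := hp.exists_orderOf_eq_pow_factorization_exponent A
  let z : Γ := e.symm a
  have hzo : orderOf z = p ^ (Monoid.exponent A).factorization p := by
    rw [orderOf_coe, MulEquiv.orderOf_eq, ha]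
  have hz : z ∈ center Γ := hσ.2.1 (e.symm a).2
  have hz' : z ∈ commutator Γ := hσ.2.2 (e.symm a).2
  have hzp : IsPGroup p (zpowers z) := IsPGroup.of_card (by rw [Nat.card_zpowers, hzo])
  obtain ⟨P, hP⟩ := hzp.exists_le_sylow
  have hzP : z ∈ P := hP (mem_zpowers z)
  have h1 := pow_index_mem_commutator (P : Subgroup Γ) hz hz'
  have h2 : z ∈ ⁅(P : Subgroup Γ), (P : Subgroup Γ)⁆ := by
    obtain ⟨k, hk⟩ := exists_pow_eq_self_of_coprime (x := z) (n := (P : Subgroup Γ).index) (by
      rw [hzo]
      exact Nat.Coprime.pow_right _ ((Nat.Prime.coprime_iff_not_dvd hp).mpr P.not_dvd_index).symm)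
    rw [← hk]; exact pow_mem h1 _
  rw [← map_subtype_commutator] at h2
  obtain ⟨y, hy, hy'⟩ := h2
  have hyz : (y : Γ) = z := hy'
  have hKP : σ.ker.subgroupOf P ≤ center (P : Subgroup Γ) := by
    intro x hx
    rw [mem_center_iff]
    exact fun g => Subtype.ext (mem_center_iff.mp (hσ.2.1 hx) g)
  have h3 := pgroup_bound p _ (P : Subgroup Γ) rfl P.2 y (hKP (by
    rw [mem_subgroupOf, hyz]; exact (e.symm a).2)) hy
  rw [← orderOf_coe, hyz, hzo, ← pow_mul, mul_comm] at h3
  refine h3.trans ((index_dvd_of_le hKP).trans ?_)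
  have h4 := relIndex_dvd_index_of_normal σ.ker (P : Subgroup Γ)
  rw [index_ker, MonoidHom.range_eq_top.mpr hσ.1, card_top] at h4
  exact h4

end Cfsg.Agent.S3952
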