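import Cfsg.Statements.S3953
import Cfsg.Agent.H4.Schur2

set_option autoImplicit false
open Cfsg

namespace Cfsg.Agent.S3953

open Subgroup H4
open scoped commutatorElement

theorem hsm_equiv_hopf {F Q A : Type*} [Group F] [Group Q] [CommGroup A] [IsFreeGroup F]
    (h : Cfsg.HasSchurMultiplier Q A) {φ : F →* Q} (hφ : Function.Surjective φ) :
    Nonempty (A ≃* mker (hopfMap φ)) := by
  have := hsm_finite h
  have := hsm_finite_base h
  have hc := hopfMap_isCentralExt hφ
  have := hc.finite_mker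
  obtain ⟨g, hg⟩ := hsm_exists_surj h hc
  obtain ⟨⟨Γ, _, _, σ, hσ, ⟨e⟩⟩, -⟩ := h
  obtain ⟨f, hf⟩ := exists_hopf_over φ (stem_isCentralExt hσ)
  obtain ⟨g', hg', -⟩ := exists_surj_mker_of_over hσ.2.1 f hf hc.surj
  have h1 : Nat.card A ≤ Nat.card (mker (hopfMap φ)) := by
    rw [← Nat.card_congr e.toEquiv, ← stem_mker_eq hσ]
    exact Nat.card_le_card_of_surjective _ hg'
  exact ⟨MulEquiv.ofBijective g (bijective_of_surjective_of_card_le g hg h1)⟩

/-- The transfer cocycle. -/
noncomputable def cocyc {F : Type*} [Group F] (K : Subgroup F) (g : F) (q : F ⧸ K) : K :=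
  ⟨(g • q).out⁻¹ * g * q.out, by
    rw [mul_assoc, ← QuotientGroup.eq, QuotientGroup.out_eq', ← smul_eq_mul,
      MulAction.Quotient.mk_smul_out]⟩

theorem cocyc_mul {F : Type*} [Group F] (K : Subgroup F) (g g' : F) (q : F ⧸ K) :
    cocyc K (g * g') q = cocyc K g (g' • q) * cocyc K g' q := by
  apply Subtype.ext
  simp [cocyc, mul_smul, mul_assoc]

theorem exists_transfer {F G : Type*} [Group F] [Group G] [Finite G] {φ : F →* G}
    (hφ : Function.Surjective φ) (H : Subgroup G) :
    ∃ (τ : mker (hopfMap φ) →* mker (hopfMap (φ.subgroupComap H)))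
      (ν : mker (hopfMap (φ.subgroupComap H)) →* mker (hopfMap φ)),
      ∀ x, ν (τ x) = x ^ H.index := by
  classical
  set K := H.comap φ with hK
  set χ : K →* H := φ.subgroupComap H with hχ
  have hχs : Function.Surjective χ := φ.subgroupComap_surjective_of_surjective H hφ
  have hχk : ∀ x : K, x ∈ χ.ker ↔ (x : F) ∈ φ.ker := fun x => by
    rw [MonoidHom.mem_ker, MonoidHom.mem_ker, Subtype.ext_iff]; rfl
  have hidx : K.index = H.index := index_comap_of_surjective H hφ
  have : K.FiniteIndex := ⟨by rw [hidx]; exact FiniteIndex.index_ne_zero⟩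
  let _ : Fintype (F ⧸ K) := K.fintypeQuotientOfFiniteIndex
  have hRK : φ.ker ≤ K := fun x hx => by
    rw [hK, mem_comap, MonoidHom.mem_ker.mp hx]; exact one_mem _
  have hcφ := hopfMap_isCentralExt hφ
  have hcχ := hopfMap_isCentralExt hχs
  let _ : CommGroup (hopfMap χ).ker :=
    { (inferInstance : Group (hopfMap χ).ker) with
      mul_comm := fun a b => Subtype.ext (mem_center_iff.mp (hcχ.central b.2) a) }
  let _ : CommGroup (hopfMap φ).ker :=
    { (inferInstance : Group (hopfMap φ).ker) with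
      mul_comm := fun a b => Subtype.ext (mem_center_iff.mp (hcφ.central b.2) a) }
  let ψ : φ.ker →* (hopfMap χ).ker :=
    ((QuotientGroup.mk' _).comp (inclusion hRK)).codRestrict _
      (fun x => (hχk (inclusion hRK x)).mpr x.2)
  let ψ' : φ.ker →* (hopfMap φ).ker :=
    ((QuotientGroup.mk' _).comp φ.ker.subtype).codRestrict _ (fun x => x.2)
  have hψ's : Function.Surjective ψ' := by
    rintro ⟨x, hx⟩
    obtain ⟨x, rfl⟩ := QuotientGroup.mk_surjective x
    exact ⟨⟨x, hx⟩, rfl⟩
  let cj : F → φ.ker →* φ.ker := fun g =>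
    MonoidHom.mk' (fun r => ⟨g⁻¹ * r * g, by
      simpa using (inferInstance : φ.ker.Normal).conj_mem r r.2 g⁻¹⟩)
      (fun a b => Subtype.ext (by simp [mul_assoc]))
  have hcj : ∀ g (r : φ.ker), (cj g r : F) = g⁻¹ * r * g := fun _ _ => rfl
  have hψc : ∀ (k : K) (r : φ.ker), ψ (cj k r) = ψ r := by
    intro k r
    apply Subtype.ext
    have h1 := mem_center_iff.mp (hcχ.central (ψ r).2) (QuotientGroup.mk' _ k⁻¹)
    have h2 : (ψ (cj k r) : HopfCover χ) =
        (QuotientGroup.mk' _ k⁻¹ : HopfCover χ) * (ψ r : HopfCover χ) *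
          (QuotientGroup.mk' _ k : HopfCover χ) := rfl
    rw [h2, h1, mul_assoc, ← map_mul]; simp
  have hψ'c : ∀ (k : F) (r : φ.ker), ψ' (cj k r) = ψ' r := by
    intro k r
    apply Subtype.ext
    have h1 := mem_center_iff.mp (hcφ.central (ψ' r).2) (QuotientGroup.mk' _ k⁻¹)
    have h2 : (ψ' (cj k r) : HopfCover φ) =
        (QuotientGroup.mk' _ k⁻¹ : HopfCover φ) * (ψ' r : HopfCover φ) *
          (QuotientGroup.mk' _ k : HopfCover φ) := rfl
    rw [h2, h1, mul_assoc, ← map_mul]; simp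
  let N : φ.ker →* (hopfMap χ).ker := ∏ q : F ⧸ K, ψ.comp (cj q.out)
  have hN : ∀ r, N r = ∏ q : F ⧸ K, ψ (cj q.out r) := fun r => by
    simp only [N, MonoidHom.finsetProd_apply, MonoidHom.comp_apply]
  have hNc : ∀ (g : F) (r : φ.ker), N (cj g r) = N r := by
    intro g r
    rw [hN, hN]
    refine Fintype.prod_equiv (MulAction.toPerm g) _ _ fun q => ?_
    rw [← hψc (cocyc K g q) (cj _ r)]
    congr 1
    apply Subtype.ext
    simp [hcj, cocyc, mul_assoc]
  have hNk : ψ'.ker ≤ N.ker := by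
    intro r hr
    have h1 : (r : F) ∈ ⁅φ.ker, (⊤ : Subgroup F)⁆ :=
      (QuotientGroup.eq_one_iff _).mp (congrArg Subtype.val hr)
    have h2 : ⁅φ.ker, (⊤ : Subgroup F)⁆ ≤ N.ker.map φ.ker.subtype := by
      rw [commutator_le]
      intro x hx g _
      refine ⟨⟨x, hx⟩ * (cj g⁻¹ ⟨x, hx⟩)⁻¹, ?_, ?_⟩
      · simp [hNc]
      · simp [hcj, commutatorElement_def, mul_assoc]
    obtain ⟨s, hs, hs'⟩ := h2 h1
    have : s = r := Subtype.ext hs'
    rwa [← this]
  let τ0 := ψ'.liftOfSurjective hψ's ⟨N, hNk⟩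
  have hτ0 : ∀ r, τ0 (ψ' r) = N r := fun r => MonoidHom.liftOfRightInverse_comp_apply ..
  have hν : ⁅χ.ker, (⊤ : Subgroup K)⁆ ≤ ⁅φ.ker, (⊤ : Subgroup F)⁆.comap K.subtype := by
    rw [commutator_le]
    intro x hx g _
    rw [mem_comap, map_commutatorElement]
    exact commutator_mem_commutator ((hχk x).mp hx) (mem_top _)
  let ν0 : HopfCover χ →* HopfCover φ := QuotientGroup.map _ _ K.subtype hν
  have hν0 : ∀ r, ν0 (ψ r) = ψ' r := fun r => rfl
  let ν1 : (hopfMap χ).ker →* (hopfMap φ).ker :=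
    (ν0.comp (hopfMap χ).ker.subtype).codRestrict _ (by
      rintro ⟨x, hx⟩
      obtain ⟨x, rfl⟩ := QuotientGroup.mk_surjective x
      exact (hχk x).mp hx)
  have hν1 : ∀ r, ν1 (ψ r) = ψ' r := fun r => rfl
  have hcomp : ∀ x, ν1 (τ0 x) = x ^ H.index := by
    intro x
    obtain ⟨r, rfl⟩ := hψ's x
    rw [hτ0, hN, map_prod]
    simp only [hν1, hψ'c, Finset.prod_const, Finset.card_univ]
    rw [← hidx, index_eq_card, Nat.card_eq_fintype_card]
  -- the transfer to the abelianization
  let V : F →* Abelianization K := MonoidHom.mk'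
    (fun g => ∏ q : F ⧸ K, Abelianization.of (cocyc K g q)) (fun g g' => by
      simp only [cocyc_mul, map_mul, Finset.prod_mul_distrib]
      congr 1
      exact Fintype.prod_equiv (MulAction.toPerm g') _ _ fun q => rfl)
  have hk : ⁅χ.ker, (⊤ : Subgroup K)⁆ ≤ (Abelianization.of : K →* _).ker := by
    rw [Abelianization.ker_of]
    exact commutator_mono le_top le_top
  let a : HopfCover χ →* Abelianization K := QuotientGroup.lift _ Abelianization.of hk
  have ha : a.ker ≤ commutator (HopfCover χ) := by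
    intro x hx
    obtain ⟨x, rfl⟩ := QuotientGroup.mk_surjective x
    have : x ∈ (Abelianization.of : K →* _).ker := hx
    rw [Abelianization.ker_of] at this
    have h2 := mem_map_of_mem (QuotientGroup.mk' ⁅χ.ker, (⊤ : Subgroup K)⁆) this
    rw [map_commutator_eq] at h2
    exact commutator_mono le_top le_top h2
  have haN : ∀ r : φ.ker, a (N r) = V r := by
    intro r
    have h1 : a (N r) = (a.comp (hopfMap χ).ker.subtype) (N r) := rfl
    rw [h1, hN, map_prod]
    refine Finset.prod_congr rfl fun q _ => ?_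
    have h2 : (r : F) • q = q := by
      conv_lhs => rw [← QuotientGroup.out_eq' q]
      conv_rhs => rw [← QuotientGroup.out_eq' q]
      rw [MulAction.Quotient.smul_mk, QuotientGroup.eq, smul_eq_mul]
      apply hRK
      simpa [mul_assoc] using (inferInstance : φ.ker.Normal).conj_mem _ (inv_mem r.2) q.out⁻¹
    show Abelianization.of _ = Abelianization.of _
    congr 1
    apply Subtype.ext
    simp [cocyc, h2, hcj]
  have hτ : ∀ x : mker (hopfMap φ), (τ0 (inclusion inf_le_left x) : HopfCover χ) ∈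
      mker (hopfMap χ) := by
    rintro ⟨x, hx⟩
    have h1 := map_mker_of_over hcφ.central (QuotientGroup.mk' _) (hopfMap_comp φ) hφ
    have hx' := hx
    rw [← h1] at hx'
    obtain ⟨r, ⟨hr1, hr2⟩, rfl⟩ := hx'
    refine ⟨Subtype.property _, ha ?_⟩
    have : inclusion inf_le_left (⟨_, hx⟩ : mker (hopfMap φ)) = ψ' ⟨r, hr1⟩ := rfl
    rw [this, hτ0, MonoidHom.mem_ker, haN]
    exact Abelianization.commutator_subset_ker V hr2
  have hν' : ∀ x : mker (hopfMap χ), ν0 x ∈ mker (hopfMap φ) := by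
    intro x
    refine ⟨(ν1 (inclusion inf_le_left x)).2, ?_⟩
    have h2 := mem_map_of_mem ν0 x.2.2
    rw [map_commutator_eq] at h2
    exact commutator_mono le_top le_top h2
  refine ⟨(((hopfMap χ).ker.subtype.comp τ0).comp (inclusion inf_le_left)).codRestrict _ hτ,
    (ν0.comp (mker _).subtype).codRestrict _ hν', fun x => ?_⟩
  apply Subtype.ext
  have h3 := congrArg Subtype.val (hcomp (inclusion inf_le_left x))
  exact h3


/-- Let `P` be a Sylow `p`-subgroup of the finite group `G`, let `A` be the Schur multiplier of `G` and `B` that of `P`. Then the `p`-primary component of `A` is isomorphic to a direct factor of `B`: there are subgroups `C` and `D` of `B` meeting trivially and generating `B`, with `C` isomorphic to the `p`-primary component of `A`. -/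
theorem result {G : Type*} [Group G] [Finite G] (p : ℕ) [Fact p.Prime] (P : Sylow p G) {A B : Type*} [CommGroup A] [CommGroup B] (hA : Cfsg.HasSchurMultiplier G A) (hB : Cfsg.HasSchurMultiplier P B) : ∃ C D : Subgroup B, C ⊓ D = ⊥ ∧ C ⊔ D = ⊤ ∧ Nonempty (CommGroup.primaryComponent A p ≃* C) := by
  obtain ⟨eA⟩ := hsm_equiv_hopf hA (taut_surjective G)
  obtain ⟨eB⟩ := hsm_equiv_hopf hB
    ((taut G).subgroupComap_surjective_of_surjective (P : Subgroup G) (taut_surjective G))
  obtain ⟨τ', ν', h'⟩ := exists_transfer (taut_surjective G) (P : Subgroup G)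
  let τ : A →* B := (eB.symm.toMonoidHom.comp τ').comp eA.toMonoidHom
  let ν : B →* A := (eA.symm.toMonoidHom.comp ν').comp eB.toMonoidHom
  have h : ∀ x, ν (τ x) = x ^ (P : Subgroup G).index := by
    intro x
    simp [τ, ν, h']
  have hBp : IsPGroup p B := by
    obtain ⟨⟨Γ, _, _, σ, hσ, ⟨e⟩⟩, -⟩ := hB
    obtain ⟨k, hk⟩ := IsPGroup.iff_card.mp P.2
    intro b
    obtain ⟨z, rfl⟩ := e.surjective b
    refine ⟨k, ?_⟩
    have h1 := pow_index_mem_commutator σ.ker (hσ.2.1 z.2) (hσ.2.2 z.2)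
    rw [index_ker, MonoidHom.range_eq_top.mpr hσ.1, card_top, hk] at h1
    have h2 : ⁅σ.ker, σ.ker⁆ = ⊥ :=
      eq_bot_iff.mpr ((commutator_mono le_rfl hσ.2.1).trans (commutator_center_right _).le)
    rw [h2, mem_bot] at h1
    rw [← map_pow, show z ^ p ^ k = 1 from Subtype.ext h1, map_one]
  have hAp : IsPGroup p (CommGroup.primaryComponent A p) := CommGroup.primaryComponent.isPGroup
  let t := τ.comp (CommGroup.primaryComponent A p).subtype
  let pe := hAp.powEquiv' P.not_dvd_index
  have hpe : ∀ x, (pe x : A) = ν (t x) := fun x => (h x).symm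
  have ht : ∀ x, ν (t x) = 1 → x = 1 := by
    intro x hx
    apply pe.injective
    apply Subtype.ext
    rw [hpe, hpe, hx]; simp
  have hti : Function.Injective t := by
    rw [injective_iff_map_eq_one]
    intro x hx
    exact ht x (by rw [hx, map_one])
  refine ⟨t.range, ν.ker, ?_, ?_, ⟨MonoidHom.ofInjective hti⟩⟩
  · rw [eq_bot_iff]
    rintro _ ⟨⟨x, rfl⟩, hx⟩
    rw [ht x hx, map_one]; exact one_mem _
  · rw [eq_top_iff]
    rintro b -
    have h1 : ν b ∈ CommGroup.primaryComponent A p := by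
      obtain ⟨k, hk⟩ := hBp b
      rw [CommGroup.mem_primaryComponent]
      exact ⟨k, by rw [← map_pow, hk, map_one]⟩
    obtain ⟨x, hx⟩ := pe.surjective ⟨_, h1⟩
    have h2 : ν (t x) = ν b := by rw [← hpe, hx]
    have : b = t x * ((t x)⁻¹ * b) := by simp
    rw [this]
    exact mul_mem_sup ⟨x, rfl⟩ (by simp [MonoidHom.mem_ker, h2])

end Cfsg.Agent.S3953
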