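import Cfsg.Statements.S3954
import Cfsg.Agent.H4.Schur2

set_option autoImplicit false
open Cfsg

namespace Cfsg.Agent.S3954


/-- Let `U` be a subgroup of index `m` in the finite group `G`, let `A` be the Schur multiplier of `G` and `B` that of `U`. Then the subgroup of `m`-th powers of `A` is isomorphic to a subgroup of `B`. -/
theorem result {G : Type*} [Group G] [Finite G] (U : Subgroup G) {A B : Type*} [CommGroup A] [CommGroup B] (hA : Cfsg.HasSchurMultiplier G A) (hB : Cfsg.HasSchurMultiplier U B) : ∃ C : Subgroup B, Nonempty ((powMonoidHom U.index : A →* A).range ≃* C) := by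
  have := H4.hsm_finite hB
  obtain ⟨⟨Γ, _, _, σ, hσ, ⟨e⟩⟩, -⟩ := hA
  let V : Subgroup Γ := U.comap σ
  have hidx : V.index = U.index := Subgroup.index_comap_of_surjective U hσ.1
  let π : V →* U := (σ.comp V.subtype).codRestrict U (fun x => x.2)
  have hπ : H4.IsCentralExt π := by
    constructor
    · rintro ⟨u, hu⟩
      obtain ⟨g, rfl⟩ := hσ.1 u
      exact ⟨⟨g, hu⟩, rfl⟩
    · intro x hx
      have h1 : (x : Γ) ∈ Subgroup.center Γ := hσ.2.1 (congrArg Subtype.val hx)
      rw [Subgroup.mem_center_iff] at h1 ⊢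
      intro g
      exact Subtype.ext (h1 g)
  obtain ⟨g, hg⟩ := H4.hsm_exists_surj hB hπ
  -- the map from `mker π` to `A`
  let i : H4.mker π →* A := e.toMonoidHom.comp
    ((V.subtype.comp (H4.mker π).subtype).codRestrict σ.ker
      (fun x => congrArg Subtype.val (show π x = 1 from x.2.1)))
  have hle : (powMonoidHom U.index : A →* A).range ≤ (i.comp g).range := by
    rintro _ ⟨a, rfl⟩
    obtain ⟨k, rfl⟩ := e.surjective a
    have h1 := H4.pow_index_mem_commutator V (hσ.2.1 k.2) (hσ.2.2 k.2)
    rw [hidx, ← Subgroup.map_subtype_commutator] at h1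
    obtain ⟨y, hy, hy'⟩ := h1
    have hy2 : y ∈ H4.mker π := ⟨by
      apply Subtype.ext
      show σ (V.subtype y) = 1
      rw [hy', map_pow, k.2, one_pow], hy⟩
    obtain ⟨b, hb⟩ := hg ⟨y, hy2⟩
    refine ⟨b, ?_⟩
    rw [MonoidHom.comp_apply, hb, powMonoidHom_apply, ← map_pow]
    exact congrArg e (Subtype.ext hy')
  obtain ⟨j, hj⟩ := H4.exists_injective_of_surjective (i.comp g).rangeRestrict
    (i.comp g).rangeRestrict_surjective
  have hj' : Function.Injective (j.comp (Subgroup.inclusion hle)) :=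
    hj.comp (Subgroup.inclusion_injective hle)
  exact ⟨_, ⟨MonoidHom.ofInjective hj'⟩⟩

end Cfsg.Agent.S3954
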