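import Cfsg.Statements.S3959
import Cfsg.Agent.H4.Schur4

set_option autoImplicit false
universe u v w
open Cfsg

namespace Cfsg.Agent.S3959

open Subgroup H4
open scoped commutatorElement

/-- The bimultiplicative map to the tensor product of the commutator quotients. -/
noncomputable def tens (Q₁ : Type u) (Q₂ : Type v) [Group Q₁] [Group Q₂] :
    Q₁ →* Q₂ →* Multiplicative
      (TensorProduct ℤ (Additive (Abelianization Q₁)) (Additive (Abelianization Q₂))) :=
  MonoidHom.mk' (fun x => MonoidHom.mk'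
    (fun y => Multiplicative.ofAdd
      (Additive.ofMul (Abelianization.of x) ⊗ₜ[ℤ] Additive.ofMul (Abelianization.of y)))
    (fun y y' => by simp [TensorProduct.tmul_add, ofAdd_add]))
    (fun x x' => by ext y; simp [TensorProduct.add_tmul])

theorem tens_apply {Q₁ : Type u} {Q₂ : Type v} [Group Q₁] [Group Q₂] (x : Q₁) (y : Q₂) :
    tens Q₁ Q₂ x y = Multiplicative.ofAdd
      (Additive.ofMul (Abelianization.of x) ⊗ₜ[ℤ] Additive.ofMul (Abelianization.of y)) := rfl

theorem tens_gen {Q₁ : Type u} {Q₂ : Type v} [Group Q₁] [Group Q₂]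
    (S : Subgroup (Multiplicative
      (TensorProduct ℤ (Additive (Abelianization Q₁)) (Additive (Abelianization Q₂)))))
    (h : ∀ x y, tens Q₁ Q₂ x y ∈ S) : S = ⊤ := by
  rw [eq_top_iff]
  rintro t -
  obtain ⟨t, rfl⟩ := Multiplicative.ofAdd.surjective t
  induction t using TensorProduct.induction_on with
  | zero => exact one_mem _
  | tmul x y =>
    obtain ⟨x, rfl⟩ := Additive.ofMul.surjective x
    obtain ⟨y, rfl⟩ := Additive.ofMul.surjective y
    obtain ⟨x, rfl⟩ := QuotientGroup.mk_surjective x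
    obtain ⟨y, rfl⟩ := QuotientGroup.mk_surjective y
    exact h x y
  | add x y hx hy => rw [ofAdd_add]; exact mul_mem hx hy

theorem tens_lift {Q₁ : Type u} {Q₂ : Type v} [Group Q₁] [Group Q₂] {K : Type*} [CommGroup K]
    (β : Q₁ →* Q₂ →* K) : ∃ g : Multiplicative
      (TensorProduct ℤ (Additive (Abelianization Q₁)) (Additive (Abelianization Q₂))) →* K,
      ∀ x y, g (tens Q₁ Q₂ x y) = β x y := by
  let β1 : Q₁ →* Abelianization Q₂ →* K := MonoidHom.mk' (fun x => Abelianization.lift (β x))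
    (fun x x' => by ext y; simp)
  let β2 : Abelianization Q₁ →* Abelianization Q₂ →* K := Abelianization.lift β1
  let β3 : Additive (Abelianization Q₁) →ₗ[ℤ] Additive (Abelianization Q₂) →ₗ[ℤ] Additive K :=
    LinearMap.mk₂ ℤ (fun x y => Additive.ofMul (β2 x.toMul y.toMul))
      (fun x x' y => by simp) (fun c x y => by simp) (fun x y y' => by simp)
      (fun c x y => by simp)
  refine ⟨AddMonoidHom.toMultiplicativeLeft (TensorProduct.lift β3).toAddMonoidHom, ?_⟩
  intro x y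
  simp [tens_apply, β3, β2, β1]

theorem tens_finite (Q₁ : Type u) (Q₂ : Type v) [Group Q₁] [Group Q₂] [Finite Q₁] [Finite Q₂] :
    Finite (Multiplicative
      (TensorProduct ℤ (Additive (Abelianization Q₁)) (Additive (Abelianization Q₂)))) := by
  have : Group.FG (Multiplicative
      (TensorProduct ℤ (Additive (Abelianization Q₁)) (Additive (Abelianization Q₂)))) := by
    refine ⟨⟨(Set.finite_range (fun p : Q₁ × Q₂ => tens Q₁ Q₂ p.1 p.2)).toFinset, ?_⟩⟩
    apply tens_gen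
    intro x y
    apply Subgroup.subset_closure
    simp only [Set.Finite.coe_toFinset]
    exact ⟨(x, y), rfl⟩
  apply CommGroup.finite_of_fg_isMulTorsion
  have := tens_gen (CommGroup.torsion _) (fun (x : Q₁) (y : Q₂) =>
    (tens Q₁ Q₂ x).isOfFinOrder (isOfFinOrder_of_finite y))
  intro g
  have hg : g ∈ CommGroup.torsion _ := by rw [this]; trivial
  exact hg

theorem commutator_le_of_closure {Γ : Type*} [Group Γ] {X : Set Γ}
    (h : closure X = ⊤) (N : Subgroup Γ) [N.Normal] (hN : ∀ x ∈ X, ∀ y ∈ X, ⁅x, y⁆ ∈ N) :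
    commutator Γ ≤ N := by
  have h2 : ∀ a : Γ, (∀ x ∈ X, (a : Γ ⧸ N) * x = x * a) →
      ∀ y : Γ, (a : Γ ⧸ N) * y = y * a := by
    intro a ha y
    have : closure X ≤ (centralizer {(a : Γ ⧸ N)}).comap (QuotientGroup.mk' N) := by
      rw [closure_le]
      intro x hx
      simp only [coe_comap, Set.mem_preimage, SetLike.mem_coe, mem_centralizer_singleton_iff]
      exact (ha x hx).symm
    rw [h] at this
    have := this (mem_top y)
    rw [mem_comap, mem_centralizer_singleton_iff] at this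
    exact this.symm
  rw [_root_.commutator_def, commutator_le]
  intro x _ y _
  rw [← QuotientGroup.eq_one_iff]
  show QuotientGroup.mk' N ⁅x, y⁆ = 1
  rw [map_commutatorElement, commutatorElement_eq_one_iff_mul_comm]
  apply h2
  intro w hw
  symm
  apply h2
  intro v hv
  rw [← commutatorElement_eq_one_iff_mul_comm]
  exact (QuotientGroup.eq_one_iff _).mpr (hN w hw v hv)

theorem upper {Q₁ : Type u} {Q₂ : Type v} [Group Q₁] [Group Q₂] {A B : Type w}
    [CommGroup A] [CommGroup B] (hA : Cfsg.HasSchurMultiplier Q₁ A)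
    (hB : Cfsg.HasSchurMultiplier Q₂ B) {Γ : Type*} [Group Γ] (σ : Γ →* Q₁ × Q₂)
    (hσ : Cfsg.IsStemExtension σ) :
    ∃ g : (A × B × Multiplicative (TensorProduct ℤ (Additive (Abelianization Q₁))
      (Additive (Abelianization Q₂)))) →* σ.ker, Function.Surjective g := by
  have hσc := stem_isCentralExt hσ
  let _ : CommGroup σ.ker :=
    { (inferInstance : Group σ.ker) with
      mul_comm := fun a b => Subtype.ext (mem_center_iff.mp (hσ.2.1 b.2) a) }
  let s := Function.surjInv hσ.1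
  have hs : ∀ q, σ (s q) = q := Function.surjInv_eq hσ.1
  let E1 : Subgroup Γ := ((MonoidHom.snd Q₁ Q₂).comp σ).ker
  let E2 : Subgroup Γ := ((MonoidHom.fst Q₁ Q₂).comp σ).ker
  have hE1 : ∀ x, x ∈ E1 ↔ (σ x).2 = 1 := fun x => Iff.rfl
  have hE2 : ∀ x, x ∈ E2 ↔ (σ x).1 = 1 := fun x => Iff.rfl
  let π1 : E1 →* Q₁ := ((MonoidHom.fst Q₁ Q₂).comp σ).comp E1.subtype
  let π2 : E2 →* Q₂ := ((MonoidHom.snd Q₁ Q₂).comp σ).comp E2.subtype
  have k1 : ∀ x : E1, x ∈ π1.ker → (x : Γ) ∈ σ.ker := fun x hx => Prod.ext hx x.2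
  have k2 : ∀ x : E2, x ∈ π2.ker → (x : Γ) ∈ σ.ker := fun x hx => Prod.ext x.2 hx
  have h1 : IsCentralExt π1 := by
    refine ⟨fun q => ⟨⟨s (q, 1), by simp [hE1, hs]⟩, by simp [π1, hs]⟩, fun x hx => ?_⟩
    rw [mem_center_iff]
    exact fun g => Subtype.ext (mem_center_iff.mp (hσ.2.1 (k1 x hx)) g)
  have h2 : IsCentralExt π2 := by
    refine ⟨fun q => ⟨⟨s (1, q), by simp [hE2, hs]⟩, by simp [π2, hs]⟩, fun x hx => ?_⟩
    rw [mem_center_iff]
    exact fun g => Subtype.ext (mem_center_iff.mp (hσ.2.1 (k2 x hx)) g)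
  obtain ⟨g1, hg1⟩ := hsm_exists_surj hA h1
  obtain ⟨g2, hg2⟩ := hsm_exists_surj hB h2
  let j1 : mker π1 →* σ.ker :=
    (E1.subtype.comp (mker _).subtype).codRestrict σ.ker (fun x => k1 x x.2.1)
  let j2 : mker π2 →* σ.ker :=
    (E2.subtype.comp (mker _).subtype).codRestrict σ.ker (fun x => k2 x x.2.1)
  have hcomm : ∀ x y : Γ, (σ x).2 = 1 → (σ y).1 = 1 → ⁅x, y⁆ ∈ σ.ker := by
    intro x y hx hy
    rw [MonoidHom.mem_ker, map_commutatorElement, commutatorElement_eq_one_iff_mul_comm]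
    ext <;> simp [hx, hy]
  have hind : ∀ x y x' y' : Γ, σ x = σ x' → σ y = σ y' → ⁅x', y'⁆ = ⁅x, y⁆ := by
    intro x y x' y' hx hy
    have h3 : x⁻¹ * x' ∈ center Γ := hσ.2.1 (by simp [MonoidHom.mem_ker, hx])
    have h4 : y⁻¹ * y' ∈ center Γ := hσ.2.1 (by simp [MonoidHom.mem_ker, hy])
    simpa using commutatorElement_mul_central (a := x) (b := y) h3 h4
  let β : Q₁ →* Q₂ →* σ.ker := MonoidHom.mk' (fun x => MonoidHom.mk'
    (fun y => ⟨⁅s (x, 1), s (1, y)⁆, hcomm _ _ (by simp [hs]) (by simp [hs])⟩)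
    (fun y y' => by
      apply Subtype.ext
      show ⁅s (x, 1), s (1, y * y')⁆ = ⁅s (x, 1), s (1, y)⁆ * ⁅s (x, 1), s (1, y')⁆
      rw [hind (s (x, 1)) (s (1, y) * s (1, y')) _ _ rfl (by simp [hs]),
        commutatorElement_mul_right_eq_mul_conj]
      have := mem_center_iff.mp (hσ.2.1 (hcomm (s (x, 1)) (s (1, y')) (by simp [hs])
        (by simp [hs]))) (s (1, y))
      rw [mul_assoc, mul_assoc, ← mul_assoc (s (1, y)), this]; simp))
    (fun x x' => by
      ext y
      show ⁅s (x * x', 1), s (1, y)⁆ = ⁅s (x, 1), s (1, y)⁆ * ⁅s (x', 1), s (1, y)⁆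
      rw [hind (s (x, 1) * s (x', 1)) (s (1, y)) _ _ (by simp [hs]) rfl,
        commutatorElement_mul_left_eq_conj_mul]
      have := mem_center_iff.mp (hσ.2.1 (hcomm (s (x', 1)) (s (1, y)) (by simp [hs])
        (by simp [hs])))
      rw [this (s (x, 1)), mul_inv_cancel_right, this])
  have hβ : ∀ x y : Γ, (σ x).2 = 1 → (σ y).1 = 1 → (β (σ x).1 (σ y).2 : Γ) = ⁅x, y⁆ := by
    intro x y hx hy
    apply hind
    · rw [hs]; ext <;> simp [hx]
    · rw [hs]; ext <;> simp [hy]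
  obtain ⟨g3, hg3⟩ := tens_lift β
  let g := (j1.comp g1).coprod ((j2.comp g2).coprod g3)
  refine ⟨g, ?_⟩
  -- the image of `g3` in `Γ`
  let S : Subgroup Γ := g3.range.map σ.ker.subtype
  have hSc : S ≤ center Γ := (map_subtype_le _).trans hσ.2.1
  have hSn : S.Normal := normal_of_le_center hSc
  have hS3 : ∀ x y : Γ, (σ x).2 = 1 → (σ y).1 = 1 → ⁅x, y⁆ ∈ S := by
    intro x y hx hy
    exact ⟨β (σ x).1 (σ y).2, ⟨tens _ _ (σ x).1 (σ y).2, hg3 _ _⟩, hβ x y hx hy⟩
  have hgen : closure ((E1 : Set Γ) ∪ E2) = ⊤ := by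
    rw [eq_top_iff]
    rintro x -
    have : x = s ((σ x).1, 1) * ((s ((σ x).1, 1))⁻¹ * x) := by simp
    rw [this]
    refine mul_mem (subset_closure (Or.inl ?_)) (subset_closure (Or.inr ?_))
    · simp [hE1, hs]
    · simp [hE2, hs]
  have hT : commutator Γ ≤ ⁅E1, E1⁆ ⊔ (⁅E2, E2⁆ ⊔ S) := by
    apply commutator_le_of_closure hgen
    rintro x (hx | hx) y (hy | hy)
    · exact mem_sup_left (commutator_mem_commutator hx hy)
    · exact mem_sup_right (mem_sup_right (hS3 x y hx hy))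
    · rw [← commutatorElement_inv]
      exact inv_mem (mem_sup_right (mem_sup_right (hS3 y x hy hx)))
    · exact mem_sup_right (mem_sup_left (commutator_mem_commutator hx hy))
  rintro ⟨k, hk⟩
  obtain ⟨c1, hc1, d, hd, rfl⟩ := mem_sup_of_normal_left.mp (hT (hσ.2.2 hk))
  obtain ⟨c2, hc2, _, ⟨z, ⟨t, rfl⟩, rfl⟩, rfl⟩ := mem_sup_of_normal_left.mp hd
  have e1 : (σ c1).2 = 1 := (hE1 _).mp (commutator_le_self E1 hc1)
  have e2 : (σ c2).1 = 1 := (hE2 _).mp (commutator_le_self E2 hc2)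
  have e3 : σ c1 * σ c2 = 1 := by
    have h5 : σ (c1 * (c2 * σ.ker.subtype (g3 t))) = 1 := hk
    have h6 : σ (σ.ker.subtype (g3 t)) = 1 := (g3 t).2
    rwa [map_mul, map_mul, h6, mul_one] at h5
  have e4 : (σ c1).1 = 1 := by simpa [e2] using congrArg Prod.fst e3
  have e5 : (σ c2).2 = 1 := by simpa [e1] using congrArg Prod.snd e3
  rw [← map_subtype_commutator] at hc1 hc2
  obtain ⟨c1, hc1, rfl⟩ := hc1
  obtain ⟨c2, hc2, rfl⟩ := hc2
  obtain ⟨a, ha⟩ := hg1 ⟨c1, e4, hc1⟩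
  obtain ⟨b, hb⟩ := hg2 ⟨c2, e5, hc2⟩
  refine ⟨(a, b, t), Subtype.ext ?_⟩
  simp only [g, MonoidHom.coprod_apply, MonoidHom.comp_apply, ha, hb]
  rfl


/-- Let `Q₁` and `Q₂` be finite groups with Schur multipliers `A` and `B`. Then the Schur multiplier of `Q₁ × Q₂` is isomorphic to `A × B × (Q₁ᵃᵇ ⊗ Q₂ᵃᵇ)`, the last factor being the tensor product over the integers of the commutator quotients, written multiplicatively. -/
theorem result {Q₁ : Type u} {Q₂ : Type v} [Group Q₁] [Group Q₂] [Finite Q₁] [Finite Q₂] {A B : Type w} [CommGroup A] [CommGroup B] (hA : Cfsg.HasSchurMultiplier Q₁ A) (hB : Cfsg.HasSchurMultiplier Q₂ B) : Cfsg.HasSchurMultiplier (Q₁ × Q₂) (A × B × Multiplicative (TensorProduct ℤ (Additive (Abelianization Q₁)) (Additive (Abelianization Q₂)))) := by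
  have := tens_finite Q₁ Q₂
  have := H4.hsm_finite hA
  have := H4.hsm_finite hB
  have hup := fun (Γ : Type (max u v)) [Group Γ] [Finite Γ] (σ : Γ →* Q₁ × Q₂) hσ =>
    upper hA hB σ hσ
  obtain ⟨⟨Γ₁, _, _, σ₁, hσ₁, ⟨e₁⟩⟩, -⟩ := hA
  obtain ⟨⟨Γ₂, _, _, σ₂, hσ₂, ⟨e₂⟩⟩, -⟩ := hB
  let β : (Γ₁ × Γ₂) →* (Γ₁ × Γ₂) →* Multiplicative
      (TensorProduct ℤ (Additive (Abelianization Q₁)) (Additive (Abelianization Q₂))) :=
    MonoidHom.mk' (fun x => (tens Q₁ Q₂ (σ₁ x.1)).comp (σ₂.comp (MonoidHom.snd _ _)))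
      (fun x y => by ext z; simp)
  have hβ : ∀ x y, β x y = tens Q₁ Q₂ (σ₁ x.1) (σ₂ y.2) := fun _ _ => rfl
  let π : Tw β →* Q₁ × Q₂ := (σ₁.prodMap σ₂).comp (Tw.proj β)
  have hπ : IsCentralExt π := by
    constructor
    · exact (hσ₁.1.prodMap hσ₂.1).comp Tw.proj_isCentralExt.surj
    · intro x hx
      have h1 : σ₁ x.g.1 = 1 := congrArg Prod.fst hx
      have h2 : σ₂ x.g.2 = 1 := congrArg Prod.snd hx
      apply Tw.mem_center_of_g
      · rw [mem_center_iff]
        intro y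
        exact Prod.ext (mem_center_iff.mp (hσ₁.2.1 h1) _) (mem_center_iff.mp (hσ₂.2.1 h2) _)
      · intro y
        rw [hβ, hβ, h1, h2]; simp
  refine hsm_of_bounds hπ ?_ hup
  let ι1 : Γ₁ →* Tw β := MonoidHom.mk' (fun x => ⟨1, (x, 1)⟩) (fun x y => by
    ext <;> simp [hβ])
  let ι2 : Γ₂ →* Tw β := MonoidHom.mk' (fun x => ⟨1, (1, x)⟩) (fun x y => by
    ext <;> simp [hβ])
  have hι1 : ∀ x ∈ commutator Γ₁, ι1 x ∈ commutator (Tw β) := by
    intro x hx
    have := mem_map_of_mem ι1 hx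
    rw [map_commutator_eq] at this
    exact commutator_mono le_top le_top this
  have hι2 : ∀ x ∈ commutator Γ₂, ι2 x ∈ commutator (Tw β) := by
    intro x hx
    have := mem_map_of_mem ι2 hx
    rw [map_commutator_eq] at this
    exact commutator_mono le_top le_top this
  have hι3 : ∀ t, Tw.inl β t ∈ commutator (Tw β) := by
    have := tens_gen ((commutator (Tw β)).comap (Tw.inl β)) (fun x y => by
      obtain ⟨x, rfl⟩ := hσ₁.1 x
      obtain ⟨y, rfl⟩ := hσ₂.1 y
      have := (Tw.inl_mem_mker (β := β) (a := (x, 1)) (b := (1, y)) (by simp)).2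
      simpa [hβ] using this)
    intro t
    have ht : t ∈ (commutator (Tw β)).comap (Tw.inl β) := by rw [this]; trivial
    exact ht
  have := hπ.finite_mker
  let f : (A × B × Multiplicative (TensorProduct ℤ (Additive (Abelianization Q₁))
      (Additive (Abelianization Q₂)))) → mker π := fun x =>
    ⟨⟨x.2.2, (e₁.symm x.1, e₂.symm x.2.1)⟩, Prod.ext (e₁.symm x.1).2 (e₂.symm x.2.1).2, by
      have : (⟨x.2.2, (e₁.symm x.1, e₂.symm x.2.1)⟩ : Tw β) =
          Tw.inl β x.2.2 * (ι2 (e₂.symm x.2.1) * ι1 (e₁.symm x.1)) := by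
        ext <;> simp [hβ, ι1, ι2]
      rw [this]
      exact mul_mem (hι3 _) (mul_mem (hι2 _ (hσ₂.2.2 (e₂.symm x.2.1).2))
        (hι1 _ (hσ₁.2.2 (e₁.symm x.1).2)))⟩
  apply Nat.card_le_card_of_injective f
  intro x y h
  have h1 := congrArg (fun p : mker π => p.1.z) h
  have h2 := congrArg (fun p : mker π => p.1.g.1) h
  have h3 := congrArg (fun p : mker π => p.1.g.2) h
  exact Prod.ext (e₁.symm.injective (Subtype.ext h2))
    (Prod.ext (e₂.symm.injective (Subtype.ext h3)) h1)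

end Cfsg.Agent.S3959
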