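import Cfsg.Statements.S3960
import Cfsg.Agent.H4.Schur2

set_option autoImplicit false
universe u
open Cfsg

namespace Cfsg.Agent.S3960


/-- A finite perfect group `Q` has a universal central extension: a finite perfect group `G` in the universe of `Q` and a surjective homomorphism `π : G →* Q` with central kernel such that for every group `X` in that universe and every surjective homomorphism `ξ : X →* Q` with central kernel there is exactly one homomorphism `η : G →* X` with `ξ ∘ η = π`. -/
theorem result {Q : Type u} [Group Q] [Finite Q] (hQ : Group.IsPerfect Q) : ∃ (G : Type u) (_ : Group G) (_ : Finite G) (π : G →* Q), Group.IsPerfect G ∧ Function.Surjective π ∧ π.ker ≤ Subgroup.center G ∧ ∀ (X : Type u) [Group X] (ξ : X →* Q), Function.Surjective ξ → ξ.ker ≤ Subgroup.center X → ∃! η : G →* X, ξ.comp η = π := by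
  have hU := H4.ucMap_isCentralExt Q
  have hfin := hU.finite_commutator
  let π : commutator (H4.UC Q) →* Q := (H4.ucMap Q).comp (commutator (H4.UC Q)).subtype
  have hπ : Function.Surjective π := by
    intro q
    have h1 : q ∈ commutator Q := by rw [hQ.commutator_eq_top]; trivial
    have h2 := map_commutator_eq (H4.UC Q) (H4.ucMap Q)
    rw [MonoidHom.range_eq_top.mpr hU.surj] at h2
    rw [commutator_def, ← h2] at h1
    obtain ⟨x, hx, rfl⟩ := h1
    exact ⟨⟨x, hx⟩, rfl⟩
  have hperf : Group.IsPerfect (commutator (H4.UC Q)) := by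
    have := H4.map_commutator_of_over hU.central (commutator (H4.UC Q)).subtype
      (fun x => hπ (H4.ucMap Q x))
    rw [Subgroup.map_subtype_commutator] at this
    exact Subgroup.isPerfect_iff.mpr this
  refine ⟨commutator (H4.UC Q), inferInstance, hfin, π, hperf, hπ, ?_, ?_⟩
  · intro x hx
    have : (x : H4.UC Q) ∈ Subgroup.center (H4.UC Q) := hU.central hx
    rw [Subgroup.mem_center_iff] at this ⊢
    intro g
    exact Subtype.ext (this g)
  · intro X _ ξ h1 h2
    obtain ⟨f, hf⟩ := H4.exists_hopf_over (H4.taut Q) (⟨h1, h2⟩ : H4.IsCentralExt ξ)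
    have hη : ξ.comp (f.comp (commutator (H4.UC Q)).subtype) = π := by
      rw [← MonoidHom.comp_assoc, hf]
    refine ⟨f.comp (commutator (H4.UC Q)).subtype, hη, fun η hη' => ?_⟩
    ext g
    exact H4.eqOn_commutator_of_over h2 (hη'.trans hη.symm) (by
      rw [hperf.commutator_eq_top]; trivial)

end Cfsg.Agent.S3960
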