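import Cfsg.Statements.S3961
import Cfsg.Agent.H4.Schur2
import Cfsg.Agent.S3962

set_option autoImplicit false
universe u v
open Cfsg

namespace Cfsg.Agent.S3961


/-- Let `π : G →* Q` be a surjective homomorphism with central kernel from a finite perfect group `G` (a perfect cover of `Q`). Then `π` is universal, in the sense that every surjective homomorphism `ξ : X →* Q` with central kernel from a group `X` in the universe of `G` admits a homomorphism `η : G →* X` with `ξ ∘ η = π`, if and only if `G` has trivial Schur multiplier. -/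
theorem result {G : Type u} {Q : Type v} [Group G] [Group Q] [Finite G] (hG : Group.IsPerfect G) (π : G →* Q) (hπ : Function.Surjective π) (hker : π.ker ≤ Subgroup.center G) : (∀ (X : Type u) [Group X] (ξ : X →* Q), Function.Surjective ξ → ξ.ker ≤ Subgroup.center X → ∃ η : G →* X, ξ.comp η = π) ↔ Cfsg.HasCyclicSchurMultiplier G 1 := by
  constructor
  · intro h
    rw [H4.hsm_one_iff]
    refine ⟨inferInstance, fun Γ _ _ σ hσ => ?_⟩
    have hΓ : Group.IsPerfect Γ := by
      constructor
      rw [eq_top_iff]
      intro x _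
      have h1 : σ x ∈ commutator G := by rw [hG.commutator_eq_top]; trivial
      have h2 := map_commutator_eq Γ σ
      rw [MonoidHom.range_eq_top.mpr hσ.1] at h2
      rw [commutator_def, ← h2] at h1
      obtain ⟨y, hy, hxy⟩ := h1
      have : x = y * (y⁻¹ * x) := by simp
      rw [this]
      exact mul_mem hy (hσ.2.2 (by simp [MonoidHom.mem_ker, hxy]))
    have hc : (π.comp σ).ker ≤ Subgroup.center Γ := by
      intro x hx
      have h1 : σ x ∈ Subgroup.center G := hker hx
      rw [← S3962.result hΓ σ hσ.1 hσ.2.1] at h1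
      obtain ⟨y, hy, hxy⟩ := h1
      have : x = y * (y⁻¹ * x) := by simp
      rw [this]
      exact mul_mem hy (hσ.2.1 (by simp [MonoidHom.mem_ker, hxy]))
    obtain ⟨η, hη⟩ := h Γ (π.comp σ) (hπ.comp hσ.1) hc
    have h2 : σ.comp η = MonoidHom.id G := by
      ext g
      exact H4.eqOn_commutator_of_over hker (η₁ := σ.comp η) (η₂ := MonoidHom.id G) hη
        (by rw [hG.commutator_eq_top]; trivial)
    have h3 := H4.map_mker_of_over hσ.2.1 η h2 Function.surjective_id
    rw [H4.stem_mker_eq hσ] at h3
    rw [← h3]
    simp [H4.mker]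
  · intro h X _ ξ h1 h2
    have hP := H4.pb1_isCentralExt π (⟨h1, h2⟩ : H4.IsCentralExt ξ)
    have h3 := H4.hsm_one_mker_eq_bot h hP
    let f : commutator (H4.pb π ξ) →* G := (H4.pb1 π ξ).comp (commutator _).subtype
    have hf : Function.Bijective f := by
      constructor
      · rw [injective_iff_map_eq_one]
        intro x hx
        have : (x : H4.pb π ξ) ∈ H4.mker (H4.pb1 π ξ) := ⟨hx, x.2⟩
        rw [h3] at this
        exact Subtype.ext this
      · intro g
        have h1 : g ∈ commutator G := by rw [hG.commutator_eq_top]; trivial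
        have h2 := map_commutator_eq _ (H4.pb1 π ξ)
        rw [MonoidHom.range_eq_top.mpr hP.surj] at h2
        rw [commutator_def, ← h2] at h1
        obtain ⟨x, hx, rfl⟩ := h1
        exact ⟨⟨x, hx⟩, rfl⟩
    let e := MulEquiv.ofBijective f hf
    refine ⟨((H4.pb2 π ξ).comp (commutator _).subtype).comp e.symm.toMonoidHom, ?_⟩
    ext g
    obtain ⟨x, rfl⟩ := e.surjective g
    have : ξ (H4.pb2 π ξ x) = π (H4.pb1 π ξ x) := (DFunLike.congr_fun (H4.pb_comm π ξ) x.1).symm
    simp only [MonoidHom.comp_apply, MulEquiv.coe_toMonoidHom, MulEquiv.symm_apply_apply]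
    exact this

end Cfsg.Agent.S3961
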