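import Cfsg.Statements.S3963
import Cfsg.Agent.H4.Schur4

set_option autoImplicit false
open Cfsg

namespace Cfsg.Agent.S3963

open QuaternionGroup in
theorem gen (n : ℕ) [NeZero n] :
    Subgroup.closure ({a 1, xa 0} : Set (QuaternionGroup n)) = ⊤ := by
  rw [eq_top_iff]
  have h1 : ∀ i : ZMod (2 * n),
      a i ∈ Subgroup.closure ({a 1, xa 0} : Set (QuaternionGroup n)) := by
    intro i
    have : a i = (a 1 : QuaternionGroup n) ^ i.val := by
      rw [a_one_pow, ZMod.natCast_zmod_val]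
    rw [this]
    exact pow_mem (Subgroup.subset_closure (by simp)) _
  rintro (i | i) -
  · exact h1 i
  · have : xa i = (xa 0 : QuaternionGroup n) * a i := by simp
    rw [this]
    exact mul_mem (Subgroup.subset_closure (by simp)) (h1 i)


/-- For every `n ≥ 1` the dicyclic (generalized quaternion) group of order `4 n` has trivial Schur multiplier. -/
theorem result (n : ℕ) [NeZero n] : Cfsg.HasCyclicSchurMultiplier (QuaternionGroup n) 1 := by
  rw [H4.hsm_one_iff]
  refine ⟨inferInstance, fun Γ _ _ σ hσ => ?_⟩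
  have hr : (QuaternionGroup.xa 0 : QuaternionGroup n) * QuaternionGroup.a 1 *
      (QuaternionGroup.xa 0)⁻¹ = QuaternionGroup.a 1 ^ (-1 : ℤ) := by
    rw [zpow_neg_one, mul_inv_eq_iff_eq_mul, eq_inv_mul_iff_mul_eq]
    simp
  obtain ⟨-, c, hc, -, h2⟩ := H4.meta_stem hσ (gen n) hr
  have h3 := (h2 2 n (by rw [QuaternionGroup.xa_sq, zpow_natCast, QuaternionGroup.a_one_pow])).1
  have h4 : orderOf ((QuaternionGroup.a 1 : QuaternionGroup n) ^ ((-1 : ℤ) - 1)) = n := by
    rw [show ((-1 : ℤ) - 1) = -((2 : ℕ) : ℤ) by norm_num, zpow_neg, orderOf_inv, zpow_natCast,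
      orderOf_pow_of_dvd (by norm_num) (by rw [QuaternionGroup.orderOf_a_one]; simp),
      QuaternionGroup.orderOf_a_one]
    simp
  rw [h4] at hc
  rw [hc, Int.natCast_dvd_natCast] at h3
  have h5 : Nat.card σ.ker ∣ 1 :=
    Nat.dvd_of_mul_dvd_mul_right (Nat.pos_of_ne_zero (NeZero.ne n)) (by simpa using h3)
  exact Subgroup.eq_bot_of_card_eq _ (Nat.dvd_one.mp h5)

end Cfsg.Agent.S3963
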