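import Cfsg.Statements.S3964
import Cfsg.Agent.H4.Schur4

set_option autoImplicit false
open Cfsg

namespace Cfsg.Agent.S3964

open DihedralGroup in
theorem gen (n : ℕ) [NeZero n] :
    Subgroup.closure ({r 1, sr 0} : Set (DihedralGroup n)) = ⊤ := by
  rw [eq_top_iff]
  have h1 : ∀ i : ZMod n,
      r i ∈ Subgroup.closure ({r 1, sr 0} : Set (DihedralGroup n)) := by
    intro i
    have : r i = (r 1 : DihedralGroup n) ^ i.val := by
      rw [r_one_pow, ZMod.natCast_zmod_val]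
    rw [this]
    exact pow_mem (Subgroup.subset_closure (by simp)) _
  rintro (i | i) -
  · exact h1 i
  · have : sr i = (sr 0 : DihedralGroup n) * r i := by simp
    rw [this]
    exact mul_mem (Subgroup.subset_closure (by simp)) (h1 i)

theorem stem_bound (n : ℕ) [NeZero n] {Γ : Type*} [Group Γ] [Finite Γ]
    {σ : Γ →* DihedralGroup n} (hσ : Cfsg.IsStemExtension σ) :
    IsCyclic σ.ker ∧ Nat.card σ.ker ∣ Nat.gcd n 2 := by
  have hr : (DihedralGroup.sr 0 : DihedralGroup n) * DihedralGroup.r 1 *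
      (DihedralGroup.sr 0)⁻¹ = DihedralGroup.r 1 ^ (-1 : ℤ) := by
    simp
  obtain ⟨h0, c, hc, h1, -⟩ := H4.meta_stem hσ (gen n) hr
  refine ⟨h0, ?_⟩
  have h3 := h1 n (by rw [zpow_natCast, DihedralGroup.r_one_pow_n])
  have h4 : orderOf ((DihedralGroup.r 1 : DihedralGroup n) ^ ((-1 : ℤ) - 1)) =
      n / Nat.gcd n 2 := by
    rw [show ((-1 : ℤ) - 1) = -((2 : ℕ) : ℤ) by norm_num, zpow_neg, orderOf_inv, zpow_natCast,
      orderOf_pow' _ (by norm_num), DihedralGroup.orderOf_r_one]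
  rw [h4] at hc
  rw [hc, Int.natCast_dvd_natCast] at h3
  have h5 : 0 < n / Nat.gcd n 2 :=
    Nat.div_pos (Nat.le_of_dvd (Nat.pos_of_ne_zero (NeZero.ne n)) (Nat.gcd_dvd_left _ _))
      (Nat.gcd_pos_of_pos_right _ (by norm_num))
  apply Nat.dvd_of_mul_dvd_mul_right h5
  rwa [Nat.mul_div_cancel' (Nat.gcd_dvd_left _ _)]


/-- For odd `n` the dihedral group of order `2 n` has trivial Schur multiplier. -/
theorem result (n : ℕ) (hn : Odd n) : Cfsg.HasCyclicSchurMultiplier (DihedralGroup n) 1 := by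
  have : NeZero n := ⟨by rintro rfl; simp at hn⟩
  rw [H4.hsm_one_iff]
  refine ⟨inferInstance, fun Γ _ _ σ hσ => ?_⟩
  have h := (stem_bound n hσ).2
  rw [Nat.coprime_two_right.mpr hn] at h
  exact Subgroup.eq_bot_of_card_eq _ (Nat.dvd_one.mp h)

end Cfsg.Agent.S3964
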