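import Cfsg.Statements.S3966
import Mathlib

set_option autoImplicit false
open Cfsg

namespace Cfsg.Agent.S3966

open QuaternionGroup DihedralGroup in
/-- The natural map from the dicyclic group onto the dihedral group. -/
def qmap (n : ℕ) : QuaternionGroup n →* DihedralGroup n :=
  MonoidHom.mk' (fun x => match x with
    | a i => r (ZMod.castHom (Dvd.intro_left 2 rfl) (ZMod n) i)
    | xa i => sr (ZMod.castHom (Dvd.intro_left 2 rfl) (ZMod n) i)) (by
    rintro (i | i) (j | j) <;> simp only [a_mul_a, a_mul_xa, xa_mul_a, xa_mul_xa, r_mul_r,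
      r_mul_sr, sr_mul_r, sr_mul_sr, map_add, map_sub, map_natCast, ZMod.natCast_self, zero_add])

theorem qmap_a (n : ℕ) (i : ZMod (2 * n)) : qmap n (QuaternionGroup.a i) =
    DihedralGroup.r (ZMod.castHom (Dvd.intro_left 2 rfl) (ZMod n) i) := rfl

theorem qmap_xa (n : ℕ) (i : ZMod (2 * n)) : qmap n (QuaternionGroup.xa i) =
    DihedralGroup.sr (ZMod.castHom (Dvd.intro_left 2 rfl) (ZMod n) i) := rfl

open QuaternionGroup in
theorem ker_qmap (n : ℕ) [NeZero n] : (qmap n).ker = Subgroup.zpowers (a (n : ZMod (2 * n))) := by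
  apply le_antisymm
  · rintro (i | i) hi
    · rw [MonoidHom.mem_ker, qmap_a, DihedralGroup.one_def, DihedralGroup.r.injEq,
        ← ZMod.natCast_zmod_val i, map_natCast, ZMod.natCast_eq_zero_iff] at hi
      obtain ⟨k, hk⟩ := hi
      refine ⟨k, ?_⟩
      show (a (n : ZMod (2 * n))) ^ (k : ℤ) = a i
      rw [zpow_natCast, ← a_one_pow, ← pow_mul, ← hk, a_one_pow, ZMod.natCast_zmod_val]
    · rw [MonoidHom.mem_ker, qmap_xa, DihedralGroup.one_def] at hi
      cases hi
  · rw [Subgroup.zpowers_le, MonoidHom.mem_ker, qmap_a, map_natCast, ZMod.natCast_self]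
    rfl


/-- For even `n ≥ 2` the dicyclic group of order `4 n` is a stem extension of the dihedral group of order `2 n` with kernel of order `2`: there is a surjective homomorphism `QuaternionGroup n →* DihedralGroup n` whose kernel is central, lies in the commutator subgroup and has two elements. Together with the order of the multiplier this exhibits the dicyclic group as a Schur covering group of the dihedral group. -/
theorem result (n : ℕ) [NeZero n] (hn : Even n) : ∃ σ : QuaternionGroup n →* DihedralGroup n, Cfsg.IsStemExtension σ ∧ Nat.card σ.ker = 2 := by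
  have h2 : (n : ZMod (2 * n)) + n = 0 := by
    rw [← Nat.cast_add, ← two_mul, ZMod.natCast_self]
  refine ⟨qmap n, ⟨?_, ?_, ?_⟩, ?_⟩
  · rintro (i | i)
    · obtain ⟨j, rfl⟩ := ZMod.castHom_surjective (Dvd.intro_left 2 rfl : n ∣ 2 * n) i
      exact ⟨QuaternionGroup.a j, rfl⟩
    · obtain ⟨j, rfl⟩ := ZMod.castHom_surjective (Dvd.intro_left 2 rfl : n ∣ 2 * n) i
      exact ⟨QuaternionGroup.xa j, rfl⟩
  · rw [ker_qmap, Subgroup.zpowers_le, Subgroup.mem_center_iff]
    rintro (i | i)
    · simp [add_comm]
    · simp only [QuaternionGroup.xa_mul_a, QuaternionGroup.a_mul_xa]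
      congr 1
      linear_combination h2
  · rw [ker_qmap, Subgroup.zpowers_le]
    obtain ⟨k, hk⟩ := hn
    have h3 : (QuaternionGroup.a 1 : QuaternionGroup n) ^ 2 ∈ commutator (QuaternionGroup n) := by
      have := Subgroup.commutator_mem_commutator
        (Subgroup.mem_top (QuaternionGroup.a 1 : QuaternionGroup n))
        (Subgroup.mem_top (QuaternionGroup.xa 0 : QuaternionGroup n))
      rw [commutator_def]
      convert this using 1
      rw [commutatorElement_def, eq_mul_inv_iff_mul_eq, eq_mul_inv_iff_mul_eq,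
        QuaternionGroup.a_one_pow]
      simp only [QuaternionGroup.xa_mul_a, QuaternionGroup.a_mul_xa]
      congr 1
      norm_num
    have := pow_mem h3 k
    rwa [← pow_mul, show 2 * k = n by omega, QuaternionGroup.a_one_pow] at this
  · rw [ker_qmap, Nat.card_zpowers, ← QuaternionGroup.a_one_pow,
      orderOf_pow_of_dvd (NeZero.ne n) (by rw [QuaternionGroup.orderOf_a_one]; simp),
      QuaternionGroup.orderOf_a_one]
    exact Nat.mul_div_cancel _ (Nat.pos_of_ne_zero (NeZero.ne n))

end Cfsg.Agent.S3966
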