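import Cfsg.Statements.S3965
import Cfsg.Agent.H4.Schur4
import Cfsg.Agent.S3964
import Cfsg.Agent.S3966

set_option autoImplicit false
open Cfsg

namespace Cfsg.Agent.S3965


/-- For even `n ≥ 2` the dihedral group of order `2 n` has Schur multiplier cyclic of order `2`. -/
theorem result (n : ℕ) [NeZero n] (hn : Even n) : Cfsg.HasCyclicSchurMultiplier (DihedralGroup n) 2 := by
  obtain ⟨σ, hσ, hcard⟩ := S3966.result n hn
  refine H4.hsm_of_bounds (H4.stem_isCentralExt hσ) ?_ ?_
  · rw [H4.stem_mker_eq hσ, hcard]; simp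
  · intro Γ _ _ τ hτ
    obtain ⟨h1, h2⟩ := S3964.stem_bound n hτ
    exact H4.exists_surj_zmod_of_isCyclic (h2.trans (Nat.gcd_dvd_right _ _))

end Cfsg.Agent.S3965
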