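import Cfsg.Statements.S3967
import Cfsg.Agent.H4.Schur4

set_option autoImplicit false
open Cfsg

namespace Cfsg.Agent.S3967

open Subgroup H4
open scoped commutatorElement

theorem pow_addRight {A : Type*} [AddGroup A] (a : A) (n : ℕ) :
    (Equiv.addRight a : Equiv.Perm A) ^ n = Equiv.addRight (n • a) := by
  induction n with
  | zero => ext x; simp
  | succ n ih => rw [pow_succ', ih]; ext x; simp [succ_nsmul, add_assoc]

theorem zpow_addRight {A : Type*} [AddGroup A] (a : A) (n : ℤ) :
    (Equiv.addRight a : Equiv.Perm A) ^ n = Equiv.addRight (n • a) := by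
  cases n with
  | ofNat n => simp
  | negSucc n =>
    rw [zpow_negSucc, pow_addRight, negSucc_zsmul, inv_eq_iff_mul_eq_one]
    ext x; simp

theorem exists_hopf_map {ι H : Type*} [Group H] (rels : Set (FreeGroup ι)) (θ : FreeGroup ι →* H)
    (h : ∀ ρ ∈ rels, ∀ i, Commute (θ (FreeGroup.of i)) (θ ρ)) :
    ∃ θ' : HopfCover (PresentedGroup.mk rels) →* H, ∀ x : FreeGroup ι, θ' x = θ x := by
  have h1 : (PresentedGroup.mk rels).ker ≤ (center θ.range).comap θ.rangeRestrict := by
    intro x hx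
    have hx' : x ∈ normalClosure rels := PresentedGroup.mk_eq_one_iff.mp hx
    refine normalClosure_le_normal (fun ρ hρ => ?_) hx'
    have h2 : closure (Set.range (FreeGroup.of : ι → FreeGroup ι)) ≤
        (centralizer {θ ρ}).comap θ := by
      rw [closure_le]
      rintro _ ⟨i, rfl⟩
      simp only [coe_comap, Set.mem_preimage, SetLike.mem_coe, mem_centralizer_singleton_iff]
      exact h ρ hρ i
    rw [FreeGroup.closure_range_of] at h2
    simp only [coe_comap, Set.mem_preimage, SetLike.mem_coe, mem_center_iff]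
    rintro ⟨_, g, rfl⟩
    apply Subtype.ext
    have := h2 (mem_top g)
    rwa [mem_comap, mem_centralizer_singleton_iff] at this
  have h2 : ⁅(PresentedGroup.mk rels).ker, (⊤ : Subgroup (FreeGroup ι))⁆ ≤ θ.ker := by
    rw [commutator_le]
    intro x hx g _
    rw [MonoidHom.mem_ker, map_commutatorElement, commutatorElement_eq_one_iff_mul_comm]
    have := mem_center_iff.mp (mem_comap.mp (h1 hx)) (θ.rangeRestrict g)
    exact (congrArg Subtype.val this).symm
  exact ⟨QuotientGroup.lift _ θ h2, fun _ => rfl⟩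

/-- A model in which the first generator has order `m`. -/
theorem exists_model (m n r t : ℕ) (hn : 0 < n) (hrn : r ^ n ≡ 1 [MOD m])
    (hrt : r * t ≡ t [MOD m]) :
    ∃ (H : Type) (_ : Group H) (a b : H), a ^ m = 1 ∧ b ^ n = a ^ t ∧ b * a * b⁻¹ = a ^ r ∧
      ∀ j : ℕ, a ^ j = 1 → m ∣ j := by
  have hr1 : (r : ZMod m) ^ n = 1 := by
    have := (ZMod.natCast_eq_natCast_iff _ _ _).mpr hrn
    simpa using this
  have hrt1 : (r : ZMod m) * t = t := by
    have := (ZMod.natCast_eq_natCast_iff _ _ _).mpr hrt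
    simpa using this
  let u : (ZMod m)ˣ := Units.mkOfMulEqOne (r : ZMod m) (r ^ (n - 1)) (by
    rw [← pow_succ', Nat.sub_add_cancel hn, hr1])
  have hu : (u : ZMod m) = r := rfl
  let α : Equiv.Perm (ZMod m × ℤ) := Equiv.addRight (1, 0)
  let β : Equiv.Perm (ZMod m × ℤ) := Equiv.prodCongr u.mulLeft (Equiv.addRight 1)
  have hα : ∀ (j : ℕ) (x : ZMod m × ℤ), (α ^ j) x = (x.1 + j, x.2) := by
    intro j x
    simp only [α, pow_addRight]
    ext <;> simp
  have hβ1 : ∀ (x : ZMod m × ℤ), β x = (r * x.1, x.2 + 1) := fun x => rfl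
  have hα1 : ∀ (x : ZMod m × ℤ), α x = (x.1 + 1, x.2) := fun x => by simpa using hα 1 x
  have hβ : ∀ (j : ℕ) (x : ZMod m × ℤ), (β ^ j) x = (r ^ j * x.1, x.2 + j) := by
    intro j x
    induction j with
    | zero => simp
    | succ j ih =>
      rw [pow_succ', Equiv.Perm.mul_apply, ih, hβ1]
      ext <;> simp <;> ring
  let z : Equiv.Perm (ZMod m × ℤ) := Equiv.addRight (-(t : ZMod m), (n : ℤ))
  have hz1 : ∀ (x : ZMod m × ℤ), z x = (x.1 - t, x.2 + n) := fun x => by
    ext <;> simp [z, sub_eq_add_neg]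
  have hαC : α ∈ centralizer {z} := by
    rw [mem_centralizer_singleton_iff]
    ext x <;> simp [hα1, hz1]; ring
  have hβC : β ∈ centralizer {z} := by
    rw [mem_centralizer_singleton_iff]
    ext x
    · simp [hβ1, hz1, mul_sub, hrt1]
    · simp [hβ1, hz1]; ring
  have hzC : z ∈ centralizer {z} := by rw [mem_centralizer_singleton_iff]
  let N : Subgroup (centralizer ({z} : Set (Equiv.Perm (ZMod m × ℤ)))) := zpowers ⟨z, hzC⟩
  have hN : N.Normal := normal_of_le_center (by
    rw [zpowers_le, mem_center_iff]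
    exact fun g => Subtype.ext (mem_centralizer_singleton_iff.mp g.2))
  refine ⟨_ ⧸ N, inferInstance, QuotientGroup.mk' N ⟨α, hαC⟩, QuotientGroup.mk' N ⟨β, hβC⟩,
    ?_, ?_, ?_, ?_⟩
  · rw [← map_pow]
    convert map_one (QuotientGroup.mk' N)
    apply Subtype.ext
    show α ^ m = 1
    ext x <;> simp [hα]
  · rw [← map_pow, ← map_pow]
    have : (⟨β, hβC⟩ : centralizer ({z} : Set (Equiv.Perm (ZMod m × ℤ)))) ^ n =
        ⟨α, hαC⟩ ^ t * ⟨z, hzC⟩ := by
      apply Subtype.ext
      show β ^ n = α ^ t * z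
      ext x <;> simp [hα, hβ, hz1, hr1]
    rw [this, map_mul, show QuotientGroup.mk' N ⟨z, hzC⟩ = 1 from
      (QuotientGroup.eq_one_iff _).mpr (mem_zpowers _), mul_one]
  · rw [← map_pow, ← map_inv, ← map_mul, ← map_mul]
    congr 1
    apply Subtype.ext
    show β * α * β⁻¹ = α ^ r
    rw [mul_inv_eq_iff_eq_mul]
    ext x <;> simp [hα, hα1, hβ1, mul_add]
  · intro j hj
    rw [← map_pow] at hj
    obtain ⟨k, hk⟩ := (QuotientGroup.eq_one_iff _).mp hj
    have h1 : z ^ k = α ^ j := congrArg Subtype.val hk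
    have h2 := congrArg (fun f : Equiv.Perm (ZMod m × ℤ) => f (0, 0)) h1
    simp only [z, zpow_addRight, hα, Equiv.coe_addRight, zero_add, Prod.smul_mk,
      Prod.mk_add_mk, Prod.mk.injEq, smul_eq_mul, mul_eq_zero] at h2
    have h3 : k = 0 := h2.2.resolve_right (by exact_mod_cast hn.ne')
    rw [h3, zero_smul] at h2
    exact (ZMod.natCast_eq_zero_iff _ _).mp h2.1.symm

/-- A model in which the relators are central and the commutator has order `e`. -/
theorem exists_model2 (e n r : ℕ) (hn : 0 < n) (hrn : r ^ n ≡ 1 [MOD e])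
    (hs : e ∣ ∑ i ∈ Finset.range n, r ^ i) :
    ∃ (H : Type) (_ : Group H) (a b : H), a ^ e = 1 ∧ b ^ n = 1 ∧
      Commute a (b * a * b⁻¹ * (a ^ r)⁻¹) ∧ Commute b (b * a * b⁻¹ * (a ^ r)⁻¹) ∧
      orderOf ⁅b, a⁆ = e := by
  have hr1 : (r : ZMod e) ^ n = 1 := by
    have := (ZMod.natCast_eq_natCast_iff _ _ _).mpr hrn
    simpa using this
  have hs1 : ∑ i ∈ Finset.range n, (r : ZMod e) ^ i = 0 := by
    have := (ZMod.natCast_eq_zero_iff _ _).mpr hs
    simpa using this
  have hu : (r : ZMod e) * r ^ (n - 1) = 1 := by rw [← pow_succ', Nat.sub_add_cancel hn, hr1]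
  let α : Equiv.Perm (ZMod e × ZMod e) := Equiv.addRight (0, 1)
  let β : Equiv.Perm (ZMod e × ZMod e) :=
    { toFun := fun x => (r * x.1 + x.2, x.2)
      invFun := fun x => (r ^ (n - 1) * (x.1 - x.2), x.2)
      left_inv := fun x => by
        ext
        · simp only [add_sub_cancel_right]; rw [← mul_assoc, mul_comm _ (r : ZMod e), hu, one_mul]
        · rfl
      right_inv := fun x => by
        ext
        · simp only; rw [← mul_assoc, hu]; ring
        · rfl }
  have hα : ∀ (j : ℕ) (x : ZMod e × ZMod e), (α ^ j) x = (x.1, x.2 + j) := by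
    intro j x
    simp only [α, pow_addRight]
    ext <;> simp
  have hβ1 : ∀ x, β x = (r * x.1 + x.2, x.2) := fun x => rfl
  have hα1 : ∀ x, α x = (x.1, x.2 + 1) := fun x => by simpa using hα 1 x
  have hβ : ∀ (j : ℕ) (x : ZMod e × ZMod e), (β ^ j) x =
      (r ^ j * x.1 + (∑ i ∈ Finset.range j, (r : ZMod e) ^ i) * x.2, x.2) := by
    intro j x
    induction j with
    | zero => simp
    | succ j ih =>
      rw [pow_succ', Equiv.Perm.mul_apply, ih, hβ1, geom_sum_succ]
      ext
      · simp only; ring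
      · rfl
  have hw : β * α * β⁻¹ * (α ^ r)⁻¹ = Equiv.addRight (1, 1 - (r : ZMod e)) := by
    rw [mul_inv_eq_iff_eq_mul, mul_inv_eq_iff_eq_mul]
    ext x
    · simp [hα, hα1, hβ1]; ring
    · simp [hα, hα1, hβ1]
  have hγ : ⁅β, α⁆ = Equiv.addRight (1, 0) := by
    rw [commutatorElement_def, mul_inv_eq_iff_eq_mul, mul_inv_eq_iff_eq_mul]
    ext x
    · simp [hα1, hβ1]; ring
    · simp [hα1, hβ1]
  refine ⟨_, inferInstance, α, β, ?_, ?_, ?_, ?_, ?_⟩
  · ext x <;> simp [hα]
  · ext x <;> simp [hβ, hr1, hs1]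
  · rw [hw]
    ext x
    · simp [hα1]
    · simp [hα1]; ring
  · rw [hw]
    ext x
    · simp [hβ1]; ring
    · simp [hβ1]
  · rw [hγ]
    apply Nat.dvd_antisymm
    · rw [orderOf_dvd_iff_pow_eq_one, pow_addRight]
      ext x <;> simp
    · have := pow_orderOf_eq_one (Equiv.addRight ((1, 0) : ZMod e × ZMod e))
      rw [pow_addRight] at this
      have h2 := congrArg (fun f : Equiv.Perm (ZMod e × ZMod e) => (f (0, 0)).1) this
      simp only [Equiv.coe_addRight, Prod.smul_mk, Prod.mk_add_mk, zero_add, nsmul_eq_mul, mul_one,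
        Equiv.Perm.coe_one, id_eq] at h2
      exact (ZMod.natCast_eq_zero_iff _ _).mp h2

theorem finite_of_meta {G : Type*} [Group G] {a b : G} (hgen : closure ({a, b} : Set G) = ⊤)
    {m n r t : ℕ} (hm : 0 < m) (hn : 0 < n) (h1 : a ^ m = 1) (h2 : b ^ n = a ^ t)
    (h3 : b * a * b⁻¹ = a ^ r) : Finite G := by
  have ha : IsOfFinOrder a := isOfFinOrder_iff_pow_eq_one.mpr ⟨m, hm, h1⟩
  have : Finite (zpowers a) := ha.finite_zpowers
  have hnorm : (zpowers a).Normal := by
    rw [← normalizer_eq_top_iff, eq_top_iff, ← hgen, closure_le]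
    rintro x (rfl | rfl)
    · exact le_normalizer (mem_zpowers x)
    · have : Finite ((zpowers a : Subgroup G) : Set G) := this
      apply mem_normalizer_fintype
      rintro _ ⟨j, rfl⟩
      refine ⟨r * j, ?_⟩
      show a ^ (r * j) = x * a ^ j * x⁻¹
      rw [← conj_zpow, h3, zpow_mul, zpow_natCast]
  have hb : IsOfFinOrder (QuotientGroup.mk' (zpowers a) b) :=
    isOfFinOrder_iff_pow_eq_one.mpr ⟨n, hn, by
      rw [← map_pow, h2]
      exact (QuotientGroup.eq_one_iff _).mpr (pow_mem (mem_zpowers a) _)⟩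
  have h4 : zpowers (QuotientGroup.mk' (zpowers a) b) = ⊤ := by
    rw [eq_top_iff, ← MonoidHom.range_eq_top.mpr (QuotientGroup.mk'_surjective (zpowers a)),
      MonoidHom.range_eq_map, ← hgen, MonoidHom.map_closure, closure_le]
    rintro _ ⟨x, rfl | rfl, rfl⟩
    · rw [show QuotientGroup.mk' (zpowers x) x = 1 from
        (QuotientGroup.eq_one_iff _).mpr (mem_zpowers x)]
      exact one_mem _
    · exact mem_zpowers _
  have : Finite (G ⧸ zpowers a) := by
    have := hb.finite_zpowers
    rw [h4] at this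
    exact Set.finite_univ_iff.mp this
  exact Finite.of_equiv _ (groupEquivQuotientProdSubgroup (s := zpowers a)).symm


/-- Let `m, n ≥ 1`, `r ≥ 1` with `r ^ n ≡ 1 (mod m)`, and `l` a natural number; put `d = gcd(m, r - 1)`, `t = m l / d` and `h = d · gcd(m, 1 + r + ⋯ + r^(n-1)) / m`. The group presented by generators `a, b` and relations `a ^ m = 1`, `b ^ n = a ^ t`, `b a b⁻¹ = a ^ r` (a metacyclic group of order `m n`) has Schur multiplier cyclic of order `gcd(l, h)`. -/
theorem result (m n r l : ℕ) (hm : 0 < m) (hn : 0 < n) (hr : 0 < r) (hrn : r ^ n ≡ 1 [MOD m]) : Cfsg.HasCyclicSchurMultiplier (PresentedGroup ({FreeGroup.of true ^ m, (FreeGroup.of false) ^ n * (FreeGroup.of true ^ (m * l / Nat.gcd m (r - 1)))⁻¹, FreeGroup.of false * FreeGroup.of true * (FreeGroup.of false)⁻¹ * (FreeGroup.of true ^ r)⁻¹} : Set (FreeGroup Bool))) (Nat.gcd l (Nat.gcd m (r - 1) * Nat.gcd m (∑ i ∈ Finset.range n, r ^ i) / m)) := by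
  set d := Nat.gcd m (r - 1) with hd
  set s := ∑ i ∈ Finset.range n, r ^ i with hs
  have hd0 : 0 < d := Nat.gcd_pos_of_pos_left _ hm
  obtain ⟨m', hm'⟩ : d ∣ m := Nat.gcd_dvd_left _ _
  obtain ⟨r', hr'⟩ : d ∣ r - 1 := Nat.gcd_dvd_right _ _
  have hm'0 : 0 < m' := Nat.pos_of_ne_zero (by rintro rfl; omega)
  have hcop : Nat.Coprime m' r' := by
    have := Nat.gcd_mul_left d m' r'
    rw [← hm', ← hr', ← hd] at this
    exact Nat.eq_of_mul_eq_mul_left hd0 (by rw [← this, mul_one])
  have ht : m * l / d = m' * l := by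
    rw [hm', mul_assoc, Nat.mul_div_cancel_left _ hd0]
  have hms : m ∣ (r - 1) * s := by
    have h1 : s * (r - 1) + 1 = r ^ n := by
      have := geom_sum_mul_add (r - 1) n
      rwa [show r - 1 + 1 = r by omega] at this
    have h2 := (Nat.modEq_iff_dvd' (Nat.one_le_pow _ _ hr)).mp hrn.symm
    rwa [← h1, Nat.add_sub_cancel, mul_comm] at h2
  have hm's : m' ∣ s := by
    rw [hm', hr', mul_assoc] at hms
    exact hcop.dvd_of_dvd_mul_left (Nat.dvd_of_mul_dvd_mul_left hd0 hms)
  obtain ⟨h, hh⟩ : m' ∣ Nat.gcd m s := Nat.dvd_gcd (Dvd.intro_left d hm'.symm) hm's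
  have hh' : d * Nat.gcd m s / m = h := by
    rw [hh, ← mul_assoc, ← hm', Nat.mul_div_cancel_left _ hm]
  have hh0 : 0 < h := Nat.pos_of_ne_zero (by
    rintro rfl
    exact (Nat.gcd_pos_of_pos_left s hm).ne' hh)
  rw [ht, hh']
  have : NeZero (Nat.gcd l h) := ⟨(Nat.gcd_pos_of_pos_right l hh0).ne'⟩
  set rels : Set (FreeGroup Bool) := {FreeGroup.of true ^ m,
    (FreeGroup.of false) ^ n * (FreeGroup.of true ^ (m' * l))⁻¹,
    FreeGroup.of false * FreeGroup.of true * (FreeGroup.of false)⁻¹ *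
      (FreeGroup.of true ^ r)⁻¹} with hrels
  let a : PresentedGroup rels := PresentedGroup.of true
  let b : PresentedGroup rels := PresentedGroup.of false
  have h1 : a ^ m = 1 := by
    have := PresentedGroup.one_of_mem (rels := rels) (x := FreeGroup.of true ^ m) (by simp [hrels])
    rwa [map_pow] at this
  have h2 : b ^ n = a ^ (m' * l) := by
    have := PresentedGroup.one_of_mem (rels := rels)
      (x := (FreeGroup.of false) ^ n * (FreeGroup.of true ^ (m' * l))⁻¹) (by simp [hrels])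
    rwa [map_mul, map_inv, map_pow, map_pow, mul_inv_eq_one] at this
  have h3 : b * a * b⁻¹ = a ^ r := by
    have := PresentedGroup.one_of_mem (rels := rels)
      (x := FreeGroup.of false * FreeGroup.of true * (FreeGroup.of false)⁻¹ *
        (FreeGroup.of true ^ r)⁻¹) (by simp [hrels])
    rwa [map_mul, map_mul, map_mul, map_inv, map_inv, map_pow, mul_inv_eq_one] at this
  have hgen : closure ({a, b} : Set (PresentedGroup rels)) = ⊤ := by
    rw [← PresentedGroup.closure_range_of rels]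
    congr 1
    ext x
    simp [a, b, or_comm]
  have hfin := finite_of_meta hgen hm hn h1 h2 h3
  have hao : orderOf a = m := by
    apply Nat.dvd_antisymm (orderOf_dvd_of_pow_eq_one h1)
    obtain ⟨H, _, α, β, g1, g2, g3, g4⟩ := exists_model m n r (m' * l) hn hrn (by
      have : r * (m' * l) = m' * l + m * (r' * l) := by
        obtain ⟨r0, rfl⟩ : ∃ r0, r = r0 + 1 := ⟨r - 1, by omega⟩
        simp only [Nat.add_sub_cancel] at hr'
        rw [hr', hm']; ring
      rw [this]
      exact Nat.add_mul_mod_self_left _ _ _)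
    let f : Bool → H := fun x => if x then α else β
    have hf : ∀ ρ ∈ rels, FreeGroup.lift f ρ = 1 := by
      rintro ρ (rfl | rfl | rfl) <;> simp [f, g1, g2, g3]
    apply g4
    have := congrArg (PresentedGroup.toGroup hf) (pow_orderOf_eq_one a)
    rwa [map_pow, PresentedGroup.toGroup.of, map_one] at this
  have hr1 : ((r : ℤ) - 1) = ((r - 1 : ℕ) : ℤ) := by push_cast [hr]; ring
  have hao' : orderOf (a ^ (r - 1)) = m' := by
    rw [orderOf_pow, hao, ← hd, hm', Nat.mul_div_cancel_left _ hd0]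
  have hφ := PresentedGroup.mk_surjective rels
  have hU := hopfMap_isCentralExt hφ
  refine hsm_of_bounds hU ?_ ?_
  · have he1 : Nat.gcd l h * m' ∣ Nat.gcd m s := by
      rw [hh, mul_comm]; exact Nat.mul_dvd_mul_left _ (Nat.gcd_dvd_right _ _)
    have he2 : Nat.gcd l h * m' ∣ m' * l := by
      rw [mul_comm]; exact Nat.mul_dvd_mul_left _ (Nat.gcd_dvd_left _ _)
    have he3 := he1.trans (Nat.gcd_dvd_left _ _)
    obtain ⟨H, _, α, β, g1, g2, g3, g4, g5⟩ := exists_model2 (Nat.gcd l h * m') n r hn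
      (hrn.of_dvd he3) (he1.trans (Nat.gcd_dvd_right _ _))
    let f : Bool → H := fun x => if x then α else β
    have g6 : α ^ m = 1 := by
      obtain ⟨k, hk⟩ := he3
      rw [hk, pow_mul, g1, one_pow]
    have g7 : α ^ (m' * l) = 1 := by
      obtain ⟨k, hk⟩ := he2
      rw [hk, pow_mul, g1, one_pow]
    obtain ⟨θ, hθ⟩ := exists_hopf_map rels (FreeGroup.lift f) (by
      rintro ρ (rfl | rfl | rfl) i
      · simp [f, g6]
      · simp [f, g7, g2]
      · cases i
        · simpa [f] using g4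
        · simpa [f] using g3)
    let x : HopfCover (PresentedGroup.mk rels) :=
      QuotientGroup.mk' _ (⁅FreeGroup.of false, FreeGroup.of true⁆ ^ m')
    have hx : x ∈ mker (hopfMap (PresentedGroup.mk rels)) := by
      constructor
      · show PresentedGroup.mk rels (⁅FreeGroup.of false, FreeGroup.of true⁆ ^ m') = 1
        rw [map_pow, map_commutatorElement]
        show ⁅b, a⁆ ^ m' = 1
        have : ⁅b, a⁆ = a ^ (r - 1) := by
          rw [commutatorElement_def, h3, mul_inv_eq_iff_eq_mul, ← pow_succ, Nat.sub_add_cancel hr]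
        rw [this, ← hao', pow_orderOf_eq_one]
      · simp only [x, map_pow, map_commutatorElement]
        exact pow_mem (commutator_mem_commutator (mem_top _) (mem_top _)) _
    have hθx : orderOf (θ x) = Nat.gcd l h := by
      have : θ x = ⁅β, α⁆ ^ m' := by
        have := hθ (⁅FreeGroup.of false, FreeGroup.of true⁆ ^ m')
        rw [map_pow, map_commutatorElement] at this
        refine this.trans ?_
        simp [f]
      rw [this, orderOf_pow_of_dvd hm'0.ne' (by rw [g5]; simp), g5, Nat.mul_div_cancel _ hm'0]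
    have := hU.finite_mker
    have h5 : Nat.gcd l h ∣ Nat.card (mker (hopfMap (PresentedGroup.mk rels))) := by
      rw [← hθx]
      refine (orderOf_map_dvd _ _).trans ?_
      exact orderOf_dvd_natCard _ hx
    simpa using Nat.le_of_dvd Nat.card_pos h5
  · intro Γ _ _ σ hσ
    obtain ⟨h0, c, hc, g1, g2⟩ := meta_stem hσ hgen (r := r) (by rw [h3, zpow_natCast])
    rw [hr1, zpow_natCast, hao'] at hc
    have g3 := g1 m (by rw [zpow_natCast, h1])
    obtain ⟨g4, g5⟩ := g2 n (m' * l : ℕ) (by rw [zpow_natCast, h2])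
    have g6 : (∑ i ∈ Finset.range n, (r : ℤ) ^ i) = (s : ℤ) := by simp [hs]
    rw [g6] at g5
    rw [Int.natCast_dvd_natCast, hc] at g3 g4 g5
    have g7 := Nat.dvd_gcd g3 g5
    rw [hh, mul_comm m'] at g7
    rw [mul_comm m'] at g4
    exact exists_surj_zmod_of_isCyclic (Nat.dvd_gcd (Nat.dvd_of_mul_dvd_mul_right hm'0 g4)
      (Nat.dvd_of_mul_dvd_mul_right hm'0 g7))

end Cfsg.Agent.S3967
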