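import Cfsg.Statements.S3968
import Cfsg.Agent.H6.ClassPi
import Cfsg.Agent.H3.PBasic

set_option autoImplicit false
open Cfsg

namespace Cfsg.Agent.S3968

open Subgroup Cfsg.Agent.H6

theorem apply_ne_zero_of_mem_center {P : Type*} [Group P] [Finite P] {ψ : P → ℂ}
    (hψ : IsIrrCharacter P ψ) {z : P} (hz : z ∈ center P) : ψ z ≠ 0 := by
  classical
  let _ := Fintype.ofFinite P
  have hf : IsClassFunction P (fun x => if x = z then 1 else 0) := fun g h => by
    have : h * g * h⁻¹ = z ↔ g = z := by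
      rw [mul_inv_eq_iff_eq_mul, ← mem_center_iff.1 hz h, mul_right_inj]
    simp only [this]
  have h := hψ.sum_mul_mul hf z⁻¹
  simp only [ite_mul, one_mul, zero_mul, Finset.sum_ite_eq', Finset.mem_univ, if_true,
    mul_inv_cancel] at h
  intro h0
  rw [h0, zero_div, zero_mul] at h
  exact hψ.one_ne_zero h

theorem comm_or_ne_zero {P : Type*} [Group P] [Finite P] {p : ℕ} (hp : p.Prime)
    (hP : IsPGroup p P) {f : P → ℂ} (hf : IsCharacter P f) (hdeg : f 1 = p)
    (hfaith : ∀ g, f g = f 1 → g = 1) :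
    (∀ a b : P, a * b = b * a) ∨ ∀ z ∈ center P, f z ≠ 0 := by
  classical
  have hfp := Fact.mk hp
  let _ := Fintype.ofFinite P
  choose d hd0 hd using fun χ : IrrCharacter P => χ.2.exists_nat_one
  choose n hn using fun χ : IrrCharacter P => hf.exists_nat_classInner χ.2.isCharacter
  have hsum : ∀ g, f g = ∑ χ : IrrCharacter P, (n χ : ℂ) * χ.1 g := fun g => by
    rw [hf.isClassFunction.apply_eq_sum_irr g]
    simp only [hn]
  have h1 : ∑ χ : IrrCharacter P, n χ * d χ = p := by
    have := hsum 1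
    simp only [hd, hdeg] at this
    exact_mod_cast this.symm
  by_cases h : ∀ χ, n χ ≠ 0 → d χ = 1
  · left
    intro a b
    rw [← mul_inv_eq_iff_eq_mul, ← mul_inv_eq_one]
    apply hfaith
    rw [hsum, hsum 1]
    refine Finset.sum_congr rfl fun χ _ => ?_
    by_cases h0 : n χ = 0
    · simp [h0]
    obtain ⟨K, -, hK1, -, hK3⟩ := χ.2.isCharacter.exists_ker
    have h5 : χ.1 1 = 1 := by rw [hd, h χ h0, Nat.cast_one]
    rw [(hK1 _).1 (hK3 a (by rw [χ.2.isCharacter.norm_eq_one_of_degree_one h5, h5, norm_one]) b)]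
  · right
    push Not at h
    obtain ⟨ψ, h2, h3⟩ := h
    obtain ⟨k, hk⟩ := IsPGroup.iff_card.1 hP
    obtain ⟨i, -, hi⟩ := (Nat.dvd_prime_pow hp).1 (hk ▸ ψ.2.degree_dvd_card (hd ψ))
    have h4 : p ≤ n ψ * d ψ := by
      have : p ≤ d ψ := by
        rw [hi]
        refine Nat.le_self_pow ?_ p
        rintro rfl
        exact h3 (by simpa using hi)
      exact this.trans (Nat.le_mul_of_pos_left _ (Nat.pos_of_ne_zero h2))
    rw [← Finset.add_sum_erase _ _ (Finset.mem_univ ψ)] at h1
    have h5 : ∑ χ ∈ Finset.univ.erase ψ, n χ * d χ = 0 := by omega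
    intro z hz
    rw [hsum, ← Finset.add_sum_erase _ _ (Finset.mem_univ ψ), Finset.sum_eq_zero, add_zero]
    · exact mul_ne_zero (Nat.cast_ne_zero.2 h2) (apply_ne_zero_of_mem_center ψ.2 hz)
    · intro χ hχ
      have := Finset.sum_eq_zero_iff.1 h5 χ hχ
      rw [(Nat.mul_eq_zero.1 this).resolve_right (hd0 χ).ne']
      simp


/-- Let `p` be a prime and `G` a finite group with a faithful irreducible complex character of degree `p` (so `G` is an irreducible linear group in `p` variables). If `p ^ 2` divides the order of `G`, then the centre of `G` is nontrivial. -/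
theorem result {G : Type*} [Group G] [Finite G] (p : ℕ) (hp : p.Prime) (χ : Cfsg.IrrCharacter G) (hdeg : χ.1 1 = p) (hfaith : ∀ g : G, χ.1 g = χ.1 1 → g = 1) (hdiv : p ^ 2 ∣ Nat.card G) : Subgroup.center G ≠ ⊥ := by
  classical
  have hfp := Fact.mk hp
  intro hZ
  obtain ⟨P⟩ : Nonempty (Sylow p G) := inferInstance
  have h1 : ∀ z : P, z ∈ center P → z ≠ 1 → χ.1 z = 0 := by
    intro z hz hz1
    have h2 : (P : Subgroup G) ≤ centralizer ({(z : G)} : Set G) := fun g hg =>
      mem_centralizer_singleton_iff.2 (congrArg Subtype.val (mem_center_iff.1 hz ⟨g, hg⟩))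
    have h3 : p.Coprime (centralizer ({(z : G)} : Set G)).index :=
      (Nat.Prime.coprime_iff_not_dvd hp).2 fun h => P.not_dvd_index (h.trans (index_dvd_of_le h2))
    refine (χ.2.eq_zero_or_norm_eq hdeg z h3).resolve_right fun h => hz1 ?_
    obtain ⟨K, -, hK1, -, hK3⟩ := χ.2.isCharacter.exists_ker
    have h4 : (z : G) ∈ center G := mem_center_iff.2 fun g => by
      have := hfaith _ ((hK1 _).1 (hK3 z (by rw [h, hdeg]; simp) g))
      rw [mul_inv_eq_one, mul_inv_eq_iff_eq_mul] at this
      exact this.symm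
    rw [hZ, mem_bot] at h4
    exact Subtype.ext h4
  have h2 : p ^ 2 ∣ Nat.card P := P.pow_dvd_card_of_pow_dvd_card hdiv
  have hf := χ.2.isCharacter.restrict (P : Subgroup G)
  rcases comm_or_ne_zero hp P.isPGroup' hf hdeg (fun g h => Subtype.ext (hfaith g h)) with h | h
  · let _ := Fintype.ofFinite P
    obtain ⟨n, hn⟩ := hf.exists_nat_classInner isCharacter_one
    rw [classInner, Finset.sum_eq_single 1] at hn
    · simp only [OneMemClass.coe_one, hdeg, Pi.one_apply, map_one, mul_one] at hn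
      rw [inv_mul_eq_iff_eq_mul₀ (card_ne_zero_complex _)] at hn
      have h3 : p = Nat.card P * n := by exact_mod_cast hn
      have h4 : p ^ 2 ∣ p := h2.trans ⟨n, h3⟩
      have := Nat.le_of_dvd hp.pos h4
      nlinarith [hp.one_lt]
    · intro b _ hb
      rw [h1 b (mem_center_iff.2 fun g => h g b) hb, zero_mul]
    · simp
  · have : Nontrivial P := by
      rw [← Finite.one_lt_card_iff_nontrivial]
      exact (Nat.one_lt_pow two_ne_zero hp.one_lt).trans_le (Nat.le_of_dvd Nat.card_pos h2)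
    obtain ⟨z, -, hz, ho⟩ := H3.exists_central_orderOf_eq_prime P.isPGroup' ⊤ top_ne_bot
    refine h z hz (h1 z hz ?_)
    rintro rfl
    rw [orderOf_one] at ho
    exact hp.one_lt.ne ho

end Cfsg.Agent.S3968
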