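import Cfsg.Statements.S3969
import Cfsg.Agent.H8.Frobenius
import Cfsg.Agent.H7.AutPGroup

set_option autoImplicit false
open Cfsg

namespace Cfsg.Agent.S3969

/-- Let `P` be an abelian Sylow `p`-subgroup of the finite group `G`, generated by `d` elements (`d` its minimal number of generators). If the order of `G` is coprime to `(p - 1)(p ^ 2 - 1) ⋯ (p ^ d - 1)`, then `G` has a normal `p`-complement. (The classical statement needs only the largest number of cyclic factors of `P` of equal order in place of `d`; the form here follows from it.) -/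
theorem result {G : Type*} [Group G] [Finite G] (p : ℕ) [Fact p.Prime] (P : Sylow p G) (hab : IsMulCommutative (P : Subgroup G)) (hcop : Nat.Coprime (Nat.card G) (∏ i ∈ Finset.Icc 1 (Group.rank (P : Subgroup G)), (p ^ i - 1))) : Cfsg.HasNormalPComplement p G := by
  have hp : p.Prime := Fact.out
  obtain ⟨n, hn⟩ := IsPGroup.iff_card.1 P.isPGroup'
  obtain ⟨r, hr⟩ := P.isPGroup'.index (frattini (P : Subgroup G))
  have hrank : r ≤ Group.rank (P : Subgroup G) := by
    have := P.isPGroup'.isNilpotent
    have := H7.isMulCommutative_quotient_frattini (G := (P : Subgroup G))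
    letI : CommGroup ((P : Subgroup G) ⧸ frattini (P : Subgroup G)) :=
      open scoped IsMulCommutative in inferInstance
    have h1 := card_dvd_exponent_pow_rank' ((P : Subgroup G) ⧸ frattini (P : Subgroup G))
      (H7.pow_eq_one_quotient_frattini P.isPGroup')
    rw [← Subgroup.index_eq_card, hr, Nat.pow_dvd_pow_iff_le_right hp.one_lt] at h1
    exact h1.trans (Group.rank_le_of_surjective _ (QuotientGroup.mk'_surjective _))
  apply H8.hasNPC_of_normalizer_le_centralizer P
  intro x hx
  obtain ⟨u, hu, c, hc, rfl⟩ := H8.exists_mul_pResidualOf (p := p) (A := (P : Subgroup G))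
    (fun hd => P.not_dvd_index
      (hd.trans (Subgroup.relIndex_dvd_index_of_le Subgroup.le_normalizer))) hx
  refine mul_mem ((P : Subgroup G).le_centralizer hu.1) ((show pResidualOf p _ ≤ _ from ?_) hc)
  apply H8.pResidualOf_le_of_forall_primePow
  intro g hg q k hq hqp hk
  by_contra hne
  have h1 : (P : Subgroup G).normalizerMonoidHom ⟨g, hg⟩ ≠ 1 := by
    rw [Ne, ← MonoidHom.mem_ker, Subgroup.normalizerMonoidHom_ker]
    exact hne
  have h2 : orderOf ((P : Subgroup G).normalizerMonoidHom ⟨g, hg⟩) ∣ q ^ k := by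
    rw [← hk]
    exact (orderOf_map_dvd _ _).trans (Subgroup.orderOf_mk g hg).dvd
  obtain ⟨j, -, hj⟩ := (Nat.dvd_prime_pow hq).1 h2
  have hj0 : j ≠ 0 := by
    rintro rfl
    exact h1 (orderOf_eq_one_iff.1 (by simpa using hj))
  have hk0 : k ≠ 0 := by
    rintro rfl
    rw [pow_zero, Nat.dvd_one, orderOf_eq_one_iff] at h2
    exact h1 h2
  have h3 : q ∣ Nat.card G := (dvd_pow_self q hk0).trans (hk ▸ orderOf_dvd_natCard g)
  have h4 := ((dvd_pow_self q hj0).trans (hj ▸ orderOf_dvd_natCard _)).trans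
    (H7.card_mulAut_dvd hn hr)
  rcases (Nat.Prime.dvd_mul hq).1 h4 with h5 | h5
  · exact hqp (hq.dvd_of_dvd_pow h5)
  obtain ⟨i, hi, h6⟩ := (Prime.dvd_finsetProd_iff hq.prime _).1 h5
  have hi' := Finset.mem_range.1 hi
  rw [show p ^ r - p ^ i = p ^ i * (p ^ (r - i) - 1) by
    rw [Nat.mul_sub_one, ← pow_add, Nat.add_sub_cancel' hi'.le]] at h6
  rcases (Nat.Prime.dvd_mul hq).1 h6 with h7 | h7
  · exact hqp (hq.dvd_of_dvd_pow h7)
  exact hq.ne_one (Nat.eq_one_of_dvd_coprimes hcop h3 (h7.trans (Finset.dvd_prod_of_mem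
    (fun i => p ^ i - 1) (Finset.mem_Icc.2 ⟨by omega, by omega⟩))))

end Cfsg.Agent.S3969
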