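import Cfsg.Statements.S3971
import Cfsg.Agent.H4.FrobOrder
import Cfsg.Agent.H8.Frobenius

set_option autoImplicit false
open Cfsg

namespace Cfsg.Agent.S3971

open Subgroup

theorem mem_centralizer_of_not_dvd {G : Type*} [Group G] [Finite G] {X : Subgroup G} {g : G}
    (hg : g ∈ normalizer (X : Set G)) {q k : ℕ} (hq : q.Prime) (ho : orderOf g = q ^ k)
    (h : ¬ q ∣ Nat.card (MulAut X)) : g ∈ centralizer (X : Set G) := by
  have h1 : orderOf (X.normalizerMonoidHom ⟨g, hg⟩) ∣ q ^ k := by
    rw [← ho, ← orderOf_mk g hg]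
    exact orderOf_map_dvd _ _
  have h2 : orderOf (X.normalizerMonoidHom ⟨g, hg⟩) = 1 :=
    Nat.eq_one_of_dvd_coprimes (((Nat.Prime.coprime_iff_not_dvd hq).2 h).pow_left k) h1
      (orderOf_dvd_natCard _)
  have h3 : (⟨g, hg⟩ : normalizer (X : Set G)) ∈ X.normalizerMonoidHom.ker :=
    orderOf_eq_one_iff.1 h2
  rw [normalizerMonoidHom_ker] at h3
  exact h3


/-- Let `G` be a finite group of order `2 ^ a * n` with `n` odd and not divisible by `3`, and suppose `G` has an element of order `2 ^ (a - 1)` (so a Sylow `2`-subgroup has a cyclic subgroup of index at most `2`). Then `G` has a normal subgroup of order `n`. -/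
theorem result {G : Type*} [Group G] [Finite G] (a n : ℕ) (hG : Nat.card G = 2 ^ a * n) (hn : Odd n) (h3 : ¬ 3 ∣ n) (hx : ∃ x : G, orderOf x = 2 ^ (a - 1)) : ∃ N : Subgroup G, N.Normal ∧ Nat.card N = n := by
  obtain ⟨x, hx⟩ := hx
  obtain ⟨P, hP⟩ := (H8.isPGroup_zpowers_of_orderOf hx).exists_le_sylow
  have hn0 : n ≠ 0 := by rintro rfl; simp at hn
  have hcP : Nat.card P = 2 ^ a := by
    rw [P.card_eq_multiplicity, hG, Nat.factorization_mul (by positivity) hn0,
      Nat.prime_two.factorization_pow, Finsupp.add_apply, Finsupp.single_eq_same,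
      Nat.factorization_eq_zero_of_not_dvd hn.not_two_dvd_nat, add_zero]
  have h1 : (zpowers x).relIndex P ≤ 2 := by
    have := H1.card_mul_relIndex hP
    rw [Nat.card_zpowers, hx, hcP] at this
    refine Nat.le_of_mul_le_mul_left ?_ (pow_pos two_pos (a - 1))
    rw [this, ← pow_succ]
    exact Nat.pow_le_pow_right two_pos (by omega)
  have h2 : HasNormalPComplement 2 G := by
    refine H8.hasNPC_of_primePow_centralizes P fun X hX _ g hg q k hq hq2 ho => ?_
    rcases Nat.eq_zero_or_pos k with rfl | hk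
    · rw [orderOf_eq_one_iff.1 (ho.trans (pow_zero q))]; exact one_mem _
    have hq3 : q ≠ 3 := by
      rintro rfl
      have : 3 ∣ 2 ^ a * n := hG ▸ ((dvd_pow_self 3 hk.ne').trans (ho ▸ orderOf_dvd_natCard g))
      exact h3 (((Nat.coprime_primes Nat.prime_three Nat.prime_two).2
        (by decide)).pow_right a |>.dvd_of_dvd_mul_left this)
    refine mem_centralizer_of_not_dvd hg hq ho ?_
    have hc : IsCyclic ((zpowers x).subgroupOf X) := by
      rw [← inf_subgroupOf_right]
      have : IsCyclic (zpowers x ⊓ X : Subgroup G) := isCyclic_of_le inf_le_left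
      exact isCyclic_of_surjective _ (subgroupOfEquivOfLe inf_le_right).symm.surjective
    obtain ⟨y, hy⟩ := (Subgroup.isCyclic_iff_exists_zpowers_eq_top _).1 hc
    refine H4.not_dvd_card_mulAut_of_index_zpowers (P.isPGroup'.to_le hX) (x := y) ?_ hq
      (hq.five_le_of_ne_two_of_ne_three hq2 hq3)
    rw [hy]
    have h4 : (zpowers x).relIndex X ≤ 2 :=
      (relIndex_le_of_le_right hX (L.relIndex_ne_zero _ _)).trans h1
    have h5 : (zpowers x).relIndex X ≠ 0 := L.relIndex_ne_zero _ _
    change (zpowers x).relIndex X ∣ 2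
    interval_cases (zpowers x).relIndex X <;> simp_all
  obtain ⟨Q, N, hN, hNQ⟩ := h2
  refine ⟨N, hN, ?_⟩
  have h4 := hNQ.card_mul_card
  rw [Nat.card_congr (Q.equiv P).toEquiv, hcP, hG, mul_comm] at h4
  exact Nat.eq_of_mul_eq_mul_left (by positivity) h4

end Cfsg.Agent.S3971
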