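import Cfsg.Statements.S3970
import Cfsg.Agent.S3971

set_option autoImplicit false
open Cfsg

namespace Cfsg.Agent.S3970

open Subgroup

theorem index_frattini_dvd {P : Type*} [Group P] [Finite P] {p : ℕ} [Fact p.Prime]
    (hP : IsPGroup p P) (h : Group.rank P ≤ 2) : (frattini P).index ∣ p ^ 2 := by
  have hnil := hP.isNilpotent
  have hcomm := H7.isMulCommutative_quotient_frattini (G := P)
  have h1 := @card_dvd_exponent_pow_rank' (P ⧸ frattini P) { mul_comm := mul_comm' } _ p
    (H7.pow_eq_one_quotient_frattini hP)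
  exact h1.trans (pow_dvd_pow p ((Group.rank_le_of_surjective (QuotientGroup.mk' (frattini P))
    (QuotientGroup.mk'_surjective _)).trans h))

theorem main (G : Type*) [Group G] [Finite G] : (∀ p : ℕ, p.Prime → p ∣ Nat.card G →
    (∃ q : ℕ, q.Prime ∧ q ∣ Nat.card G ∧ p < q) → ∀ P : Sylow p G,
      IsMulCommutative (P : Subgroup G) ∧ Group.rank (P : Subgroup G) ≤ 2) →
    ¬ 12 ∣ Nat.card G → Group.IsSolvable G := by
  refine L.induction_on_card (P := fun G _ _ => (∀ p : ℕ, p.Prime → p ∣ Nat.card G →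
    (∃ q : ℕ, q.Prime ∧ q ∣ Nat.card G ∧ p < q) → ∀ P : Sylow p G,
      IsMulCommutative (P : Subgroup G) ∧ Group.rank (P : Subgroup G) ≤ 2) →
    ¬ 12 ∣ Nat.card G → Group.IsSolvable G) G ?_
  intro G _ _ ih h h12
  rcases subsingleton_or_nontrivial G with hG | hG
  · infer_instance
  set p := (Nat.card G).minFac with hp'
  have hp : p.Prime := Nat.minFac_prime Finite.one_lt_card.ne'
  have hfp := Fact.mk hp
  have hpd : p ∣ Nat.card G := Nat.minFac_dvd _
  have hmin : ∀ q : ℕ, q.Prime → q ∣ Nat.card G → p ≤ q := fun q hq hd =>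
    Nat.minFac_le_of_dvd hq.two_le hd
  by_cases hmax : ∃ q : ℕ, q.Prime ∧ q ∣ Nat.card G ∧ p < q
  swap
  · refine H6.isSolvable_of_primes_two p p fun r hr hd => Or.inl ?_
    push Not at hmax
    exact le_antisymm (hmax r hr hd) (hmin r hr hd)
  obtain ⟨P⟩ : Nonempty (Sylow p G) := inferInstance
  obtain ⟨hP1, hP2⟩ := h p hp hpd hmax P
  obtain ⟨r, hr, hr'⟩ := (Nat.dvd_prime_pow hp).1 (index_frattini_dvd P.isPGroup' hP2)
  obtain ⟨n, hn⟩ := IsPGroup.iff_card.1 P.isPGroup'
  have haut := H7.card_mulAut_dvd hn hr'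
  have hNC : normalizer ((P : Subgroup G) : Set G) ≤ centralizer ((P : Subgroup G) : Set G) := by
    refine H1.le_of_forall_isPGroup_le fun q hq R hR hRq _ => ?_
    by_cases hqp : q = p
    · subst hqp
      have h1 : R ≤ P :=
        inf_eq_left.1 ((hRq.inf_normalizer_sylow P).symm.trans (inf_eq_left.2 hR))
      exact h1.trans (le_centralizer _)
    have hfq := Fact.mk hq
    intro g hg
    obtain ⟨k, hk⟩ := H8.exists_orderOf_eq_pow_of_mem hRq hg
    rcases Nat.eq_zero_or_pos k with rfl | hk0
    · rw [orderOf_eq_one_iff.1 (hk.trans (pow_zero q))]; exact one_mem _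
    have hqd : q ∣ Nat.card G := (dvd_pow_self q hk0.ne').trans (hk ▸ orderOf_dvd_natCard g)
    have hpq : p < q := lt_of_le_of_ne (hmin q hq hqd) (Ne.symm hqp)
    refine S3971.mem_centralizer_of_not_dvd (hR hg) hq hk fun hd => ?_
    have h2 := hp.two_le
    have hnd : ∀ m : ℕ, 0 < m → m ≤ p → ¬ q ∣ m := fun m h0 h1 h3 => by
      have := Nat.le_of_dvd h0 h3
      omega
    rcases (Nat.Prime.dvd_mul hq).1 (hd.trans haut) with h1 | h1
    · exact hnd p hp.pos le_rfl (hq.dvd_of_dvd_pow h1)
    interval_cases r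
    · exact hq.one_lt.ne' (by simpa using h1)
    · exact hnd (p - 1) (by omega) (by omega) (by simpa using h1)
    · simp only [Finset.prod_range_succ, Finset.range_zero, Finset.prod_empty, pow_zero, one_mul,
        pow_one] at h1
      have e1 : p ^ 2 - 1 = (p + 1) * (p - 1) := by simpa using Nat.sq_sub_sq p 1
      have e2 : p ^ 2 - p = p * (p - 1) := by rw [Nat.mul_sub_one, pow_two]
      rw [e1, e2] at h1
      simp only [Nat.Prime.dvd_mul hq] at h1
      rcases h1 with (h1 | h1) | h1 | h1
      · have h3 : q = p + 1 := le_antisymm (Nat.le_of_dvd p.succ_pos h1) hpq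
        have h4 : p = 2 := by
          rcases hp.eq_two_or_odd' with h4 | h4
          · exact h4
          · have h5 : Even q := h3 ▸ h4.add_one
            have := hq.even_iff.1 h5
            omega
        apply h12
        have h5 : 4 ∣ Nat.card G := by
          have : p ^ 2 ∣ Nat.card G :=
            (hr' ▸ index_dvd_card (frattini P)).trans (card_subgroup_dvd_card (P : Subgroup G))
          rwa [h4] at this
        have h6 : 3 ∣ Nat.card G := by rwa [h3, h4] at hqd
        exact Nat.Coprime.mul_dvd_of_dvd_of_dvd (by decide : Nat.Coprime 3 4) h6 h5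
      · exact hnd (p - 1) (by omega) (by omega) h1
      · exact hnd p hp.pos le_rfl h1
      · exact hnd (p - 1) (by omega) (by omega) h1
  obtain ⟨N, hN, hN1, k, hk⟩ :=
    H8.hasNPC_iff_exists.1 (H8.hasNPC_of_normalizer_le_centralizer P hNC)
  have hNt : N ≠ ⊤ := by
    rintro rfl
    rw [card_top] at hN1
    exact hp.one_lt.ne' (Nat.eq_one_of_dvd_coprimes hN1 hpd dvd_rfl)
  have hNd := card_subgroup_dvd_card N
  have : Group.IsSolvable N := by
    refine ih N (L.card_lt_of_ne_top hNt) ?_ fun h => h12 (h.trans hNd)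
    rintro s hs hsd ⟨q, hq, hqd, hsq⟩ R
    have hfs := Fact.mk hs
    have h1 : ¬ s ∣ ((R : Subgroup N).map N.subtype).index := by
      rw [index_map_subtype, hk, Nat.Prime.dvd_mul hs, not_or]
      refine ⟨R.not_dvd_index, fun h => ?_⟩
      rw [(Nat.prime_dvd_prime_iff_eq hs hp).1 (hs.dvd_of_dvd_pow h)] at hsd
      exact hp.one_lt.ne' (Nat.eq_one_of_dvd_coprimes hN1 hsd dvd_rfl)
    obtain ⟨h2, h3⟩ := h s hs (hsd.trans hNd) ⟨q, hq, hqd.trans hNd, hsq⟩
      ((R.isPGroup'.map N.subtype).toSylow h1)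
    have e := (R : Subgroup N).equivMapOfInjective _ N.subtype_injective
    refine ⟨⟨⟨fun a b => e.injective ?_⟩⟩, (Group.rank_congr e).trans_le h3⟩
    rw [map_mul, map_mul]
    exact h2.1.1 _ _
  have : Group.IsSolvable (G ⧸ N) :=
    H1.isSolvable_of_isPGroup (H8.isPGroup_quotient_iff_index.2 ⟨k, hk⟩)
  exact Group.isSolvable_of_ker_le_range N.subtype (QuotientGroup.mk' N) (by simp)


/-- Let `G` be a finite group such that for every prime `p` dividing its order, other than the largest such prime, the Sylow `p`-subgroups are abelian and generated by at most two elements, and suppose `12` does not divide the order of `G`. Then `G` is solvable. In particular a group of cube-free order not divisible by `12` is solvable. -/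
theorem result {G : Type*} [Group G] [Finite G] (h : ∀ p : ℕ, p.Prime → p ∣ Nat.card G → (∃ q : ℕ, q.Prime ∧ q ∣ Nat.card G ∧ p < q) → ∀ P : Sylow p G, IsMulCommutative (P : Subgroup G) ∧ Group.rank (P : Subgroup G) ≤ 2) (h12 : ¬ 12 ∣ Nat.card G) : Group.IsSolvable G := by
  exact main G h h12

end Cfsg.Agent.S3970
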