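import Cfsg.Statements.S3973
import Cfsg.Agent.H4.Schur2

set_option autoImplicit false
open Cfsg

namespace Cfsg.Agent.S3973

open Subgroup H4

theorem rank_le_of_free {A : Type*} [CommGroup A] [Finite A] {N : Type*} [AddCommGroup N]
    [Module.Free ℤ N] [Module.Finite ℤ N] (u : N →ₗ[ℤ] Additive A) (hu : Function.Surjective u) :
    Group.rank A ≤ Module.finrank ℤ N := by
  classical
  let b := Module.finBasis ℤ N
  let S : Finset A := Finset.univ.image (fun i => (u (b i)).toMul)
  have hS : closure (S : Set A) = ⊤ := by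
    rw [eq_top_iff]
    rintro a -
    obtain ⟨x, hx⟩ := hu (Additive.ofMul a)
    have : a = ∏ i, (u (b i)).toMul ^ (b.repr x i) := by
      apply Additive.ofMul.injective
      rw [← hx, ofMul_prod]
      conv_lhs => rw [← b.sum_repr x, map_sum]
      exact Finset.sum_congr rfl fun i _ => by rw [map_smul]; rfl
    rw [this]
    exact Subgroup.prod_mem _ fun i _ => zpow_mem (subset_closure (by simp [S])) _
  exact (Group.rank_le hS).trans (Finset.card_image_le.trans (by simp))


/-- If a finite group is presented by `n` generators and a finite set of `r` relators, then its Schur multiplier can be generated by `r - n` elements. In particular a finite group with a presentation having as many relators as generators has trivial Schur multiplier. -/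
theorem result (n : ℕ) (rels : Finset (FreeGroup (Fin n))) [Finite (PresentedGroup (rels : Set (FreeGroup (Fin n))))] {A : Type*} [CommGroup A] [Finite A] (hA : Cfsg.HasSchurMultiplier (PresentedGroup (rels : Set (FreeGroup (Fin n)))) A) : Group.rank A ≤ rels.card - n := by
  classical
  obtain ⟨⟨Γ, _, _, σ, hσ, ⟨e⟩⟩, -⟩ := hA
  set φ := PresentedGroup.mk (rels : Set (FreeGroup (Fin n))) with hφ
  obtain ⟨f0, hf0⟩ := exists_hopf_over φ (stem_isCentralExt hσ)
  let f := f0.comp (QuotientGroup.mk' _)
  have hf : σ.comp f = φ := by rw [← MonoidHom.comp_assoc, hf0]; rfl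
  have hfk : ∀ x ∈ φ.ker, f x ∈ σ.ker := fun x hx => by
    show σ (f x) = 1
    rw [← MonoidHom.comp_apply, hf]; exact hx
  have hrel : ∀ ρ : rels, (ρ : FreeGroup (Fin n)) ∈ φ.ker := fun ρ =>
    PresentedGroup.one_of_mem ρ.2
  let ab : FreeGroup (Fin n) →* Multiplicative (Fin n → ℤ) :=
    FreeGroup.lift (fun i => Multiplicative.ofAdd (Pi.single i 1))
  let u : (rels → ℤ) →ₗ[ℤ] Additive A :=
    Fintype.linearCombination ℤ (fun ρ : rels => Additive.ofMul (e ⟨f ρ, hfk _ (hrel ρ)⟩))
  let v : (rels → ℤ) →ₗ[ℤ] (Fin n → ℤ) :=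
    Fintype.linearCombination ℤ (fun ρ : rels => (ab ρ).toAdd)
  let T : Subgroup (FreeGroup (Fin n)) :=
    { carrier := {x | ∃ w, (e.symm (u w).toMul : Γ) = f x ∧ v w = (ab x).toAdd}
      one_mem' := ⟨0, by simp, by simp⟩
      mul_mem' := by
        rintro x y ⟨w, h1, h2⟩ ⟨w', h1', h2'⟩
        exact ⟨w + w', by simp [h1, h1'], by simp [h2, h2']⟩
      inv_mem' := by
        rintro x ⟨w, h1, h2⟩
        exact ⟨-w, by simp [h1], by simp [h2]⟩ }
  have hTn : T.Normal := ⟨by
    rintro x ⟨w, h1, h2⟩ g
    refine ⟨w, ?_, by simp [h2]⟩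
    have := mem_center_iff.mp (hσ.2.1 (e.symm (u w).toMul).2) (f g)
    rw [map_mul, map_mul, ← h1, this]; simp⟩
  have hT : φ.ker ≤ T := by
    intro x hx
    have hx' : x ∈ normalClosure (rels : Set (FreeGroup (Fin n))) :=
      PresentedGroup.mk_eq_one_iff.mp hx
    refine normalClosure_le_normal (fun ρ hρ => ?_) hx'
    exact ⟨Pi.single ⟨ρ, hρ⟩ 1, by simp [u], by simp [v]⟩
  have hsurj : Function.Surjective (u.comp (LinearMap.ker v).subtype) := by
    intro a
    have h1 : (e.symm a.toMul : Γ) ∈ mker σ := by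
      rw [stem_mker_eq hσ]; exact Subtype.property _
    rw [← map_mker_of_over hσ.2.1 f hf (PresentedGroup.mk_surjective _)] at h1
    obtain ⟨x, ⟨hx1, hx2⟩, hx3⟩ := h1
    obtain ⟨w, h1, h2⟩ := hT hx1
    have h3 : ab x = 1 := Abelianization.commutator_subset_ker ab hx2
    refine ⟨⟨w, by rw [LinearMap.mem_ker, h2, h3]; rfl⟩, ?_⟩
    apply Additive.toMul.injective
    apply e.symm.injective
    exact Subtype.ext (h1.trans hx3)
  have h1 := rank_le_of_free _ hsurj
  have h2 := Submodule.finrank_quotient_add_finrank (LinearMap.ker v)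
  rw [v.quotKerEquivRange.finrank_eq, Module.finrank_fintype_fun_eq_card, Fintype.card_coe] at h2
  have h3 : n ≤ Module.finrank ℤ (LinearMap.range v) := by
    set c := Nat.card (PresentedGroup (rels : Set (FreeGroup (Fin n)))) with hc
    have hc0 : (c : ℤ) ≠ 0 := by exact_mod_cast Nat.card_pos.ne'
    have hmem : ∀ x : Fin n → ℤ, (c : ℤ) • x ∈ LinearMap.range v := by
      intro x
      have : ∀ i, (c : ℤ) • (Pi.single i 1 : Fin n → ℤ) ∈ LinearMap.range v := by
        intro i
        obtain ⟨w, -, h2⟩ := hT (show FreeGroup.of i ^ c ∈ φ.ker by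
          rw [MonoidHom.mem_ker, map_pow]; exact pow_card_eq_one')
        exact ⟨w, by rw [h2]; simp [ab]⟩
      rw [pi_eq_sum_univ' x, Finset.smul_sum]
      refine Submodule.sum_mem _ fun i _ => ?_
      rw [smul_comm]
      exact Submodule.smul_mem _ _ (this i)
    let m : (Fin n → ℤ) →ₗ[ℤ] LinearMap.range v :=
      LinearMap.codRestrict _ ((c : ℤ) • LinearMap.id) hmem
    have hm : Function.Injective m := by
      intro x y hxy
      have : (c : ℤ) • x = (c : ℤ) • y := congrArg Subtype.val hxy
      exact smul_right_injective _ hc0 this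
    simpa using LinearMap.finrank_le_finrank_of_injective hm
  omega

end Cfsg.Agent.S3973
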