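import Cfsg.Statements.S3974
import Cfsg.Agent.H4.Schur2

set_option autoImplicit false
universe u v
open Cfsg

namespace Cfsg.Agent.S3974

open Subgroup H4
open scoped commutatorElement

/-- A subgroup of the fibre product mapping onto `Q` and meeting the kernel inside the commutator
subgroup maps isomorphically onto a Schur cover. -/
theorem bij_of_sub {Q : Type u} [Group Q] {A : Type v} [CommGroup A]
    (hA : Cfsg.HasSchurMultiplier Q A) {Γ P : Type*} [Group Γ] [Group P] {σ : Γ →* Q}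
    (hσ : Cfsg.IsStemExtension σ) (e : σ.ker ≃* A) {π : P →* Q} (hπ : IsCentralExt π)
    (f : P →* Γ) (hf : σ.comp f = π) (C : Subgroup P)
    (hC : Function.Surjective (π.comp C.subtype)) (hC' : C ⊓ π.ker ≤ commutator P) :
    Function.Bijective (f.comp C.subtype) := by
  constructor
  · rw [injective_iff_map_eq_one]
    intro x hx
    have h1 := ker_inf_commutator_eq_bot_of_cover hA hσ e hπ f hf
    have h2 : (x : P) ∈ f.ker := hx
    have h3 : (x : P) ∈ π.ker := by
      show π x = 1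
      rw [← hf, MonoidHom.comp_apply, h2, map_one]
    have : (x : P) ∈ f.ker ⊓ commutator P := ⟨h2, hC' ⟨x.2, h3⟩⟩
    rw [h1] at this
    exact Subtype.ext this
  · apply surjective_of_over_stem hσ
    rwa [← MonoidHom.comp_assoc, hf]

theorem unique_of_coprime {Q : Type u} [Group Q] [Finite Q] {A : Type v} [CommGroup A]
    (hA : Cfsg.HasSchurMultiplier Q A) {Γ₁ Γ₂ : Type*} [Group Γ₁] [Group Γ₂]
    (σ₁ : Γ₁ →* Q) (σ₂ : Γ₂ →* Q) (h₁ : Cfsg.IsStemExtension σ₁) (h₂ : Cfsg.IsStemExtension σ₂)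
    (e₁ : σ₁.ker ≃* A) (e₂ : σ₂.ker ≃* A)
    (hcop : Nat.Coprime (Nat.card (Abelianization Q)) (Nat.card A)) :
    ∃ e : Γ₁ ≃* Γ₂, σ₂.comp e.toMonoidHom = σ₁ := by
  have := hsm_finite hA
  set m := Nat.card (Abelianization Q) with hm
  set a := Nat.card A with ha
  have hπ := pb_isCentralExt (stem_isCentralExt h₁) (stem_isCentralExt h₂)
  set π := σ₁.comp (pb1 σ₁ σ₂) with hπdef
  let ab : pb σ₁ σ₂ →* Abelianization (pb σ₁ σ₂) := Abelianization.of
  let C : Subgroup (pb σ₁ σ₂) := (powMonoidHom m : Abelianization (pb σ₁ σ₂) →* _).ker.comap ab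
  have hC : ∀ x, x ∈ C ↔ ab x ^ m = 1 := fun x => Iff.rfl
  have hker : ∀ x ∈ π.ker, x ^ a = 1 := by
    intro x hx
    have h1 : x.1.1 ∈ σ₁.ker := hx
    have h2 : x.1.2 ∈ σ₂.ker := by
      have := x.2
      rw [mem_pb, h1] at this
      exact this.symm
    have h3 : (⟨_, h1⟩ : σ₁.ker) ^ a = 1 := by
      rw [ha, ← Nat.card_congr e₁.toEquiv]; exact pow_card_eq_one'
    have h4 : (⟨_, h2⟩ : σ₂.ker) ^ a = 1 := by
      rw [ha, ← Nat.card_congr e₂.toEquiv]; exact pow_card_eq_one'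
    exact Subtype.ext (Prod.ext (congrArg Subtype.val h3) (congrArg Subtype.val h4))
  have hC' : C ⊓ π.ker ≤ commutator _ := by
    rintro x ⟨hx1, hx2⟩
    rw [← Abelianization.ker_of, MonoidHom.mem_ker]
    have h1 : ab x ^ m = 1 := hx1
    have h2 : ab x ^ a = 1 := by rw [← map_pow, hker x hx2, map_one]
    rw [← orderOf_dvd_iff_pow_eq_one] at h1 h2
    have := Nat.dvd_gcd h1 h2
    rwa [hcop, Nat.dvd_one, orderOf_eq_one_iff] at this
  have hCs : Function.Surjective (π.comp C.subtype) := by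
    intro q
    obtain ⟨x, rfl⟩ := hπ.surj q
    have h1 : π (x ^ m) ∈ commutator Q := by
      rw [← Abelianization.ker_of, MonoidHom.mem_ker, map_pow, map_pow]
      exact pow_card_eq_one'
    have h2 := map_commutator_eq _ π
    rw [MonoidHom.range_eq_top.mpr hπ.surj] at h2
    rw [_root_.commutator_def, ← h2] at h1
    obtain ⟨y, hy, hxy⟩ := h1
    have hz : y⁻¹ * x ^ m ∈ π.ker := by simp [MonoidHom.mem_ker, hxy]
    set z := y⁻¹ * x ^ m with hzdef
    obtain ⟨k, hk⟩ := exists_pow_eq_self_of_coprime (x := z) (n := m)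
      (Nat.Coprime.coprime_dvd_right (orderOf_dvd_of_pow_eq_one (hker z hz)) hcop)
    have h3 : ab y = 1 := Abelianization.commutator_subset_ker ab hy
    refine ⟨⟨x * (z ^ k)⁻¹, ?_⟩, ?_⟩
    · rw [hC, map_mul, map_inv, mul_pow, inv_pow, ← map_pow, ← map_pow, ← pow_mul, mul_comm k,
        pow_mul, hk, hzdef, map_mul, map_inv, h3]
      simp
    · show π (x * (z ^ k)⁻¹) = π x
      rw [map_mul, map_inv, map_pow, hz]; simp
  have b1 := bij_of_sub hA h₁ e₁ hπ (pb1 σ₁ σ₂) rfl C hCs hC'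
  have b2 := bij_of_sub hA h₂ e₂ hπ (pb2 σ₁ σ₂) (pb_comm σ₁ σ₂).symm C hCs hC'
  refine ⟨(MulEquiv.ofBijective _ b1).symm.trans (MulEquiv.ofBijective _ b2), ?_⟩
  ext g
  obtain ⟨x, rfl⟩ := (MulEquiv.ofBijective _ b1).surjective g
  simp only [MulEquiv.toMonoidHom_eq_coe, MonoidHom.coe_comp, MonoidHom.coe_coe,
    Function.comp_apply, MulEquiv.trans_apply, MulEquiv.symm_apply_apply]
  exact (x.1.2).symm

theorem exists_cyclic_factor {Q : Type*} [Group Q] [Finite Q] {p : ℕ} (hp : p.Prime)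
    (h : p ∣ Nat.card (Abelianization Q)) :
    ∃ (N : ℕ) (f : Q →* Multiplicative (ZMod N)) (q : Q), p ∣ N ∧ 0 < N ∧
      f q = Multiplicative.ofAdd 1 ∧ q ^ N ∈ commutator Q := by
  classical
  obtain ⟨ι, _, n, hn, ⟨e⟩⟩ :=
    CommGroup.equiv_prod_multiplicative_zmod_of_finite (Abelianization Q)
  rw [Nat.card_congr e.toEquiv, Nat.card_pi] at h
  obtain ⟨i, -, hi⟩ := (Prime.dvd_finsetProd_iff hp.prime _).mp h
  rw [Nat.card_congr Multiplicative.toAdd, Nat.card_zmod] at hi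
  obtain ⟨q, hq⟩ := QuotientGroup.mk_surjective
    (e.symm (Pi.mulSingle i (Multiplicative.ofAdd 1)))
  have hq' : Abelianization.of q = e.symm (Pi.mulSingle i (Multiplicative.ofAdd 1)) := hq
  refine ⟨n i, ((Pi.evalMonoidHom _ i).comp e.toMonoidHom).comp Abelianization.of, q, hi,
    lt_trans zero_lt_one (hn i), by simp [hq'], ?_⟩
  rw [← Abelianization.ker_of, MonoidHom.mem_ker, map_pow, hq', ← map_pow, ← Pi.mulSingle_pow,
    ← ofAdd_nsmul]
  simp

theorem exists_not_pow {K : Type*} [CommGroup K] [Finite K] {p : ℕ} (hp : p.Prime)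
    (h : p ∣ Nat.card K) : ∃ z : K, ∀ y : K, y ^ p ≠ z := by
  by_contra! hc
  have := Fact.mk hp
  have h1 : Function.Surjective (powMonoidHom p : K →* K) := hc
  have h2 := Finite.injective_iff_surjective.mpr h1
  obtain ⟨x, hx⟩ := exists_prime_orderOf_dvd_card' p h
  have h3 : x = 1 := (injective_iff_map_eq_one _).mp h2 x (by
    rw [powMonoidHom_apply, ← hx, pow_orderOf_eq_one])
  rw [h3, orderOf_one] at hx
  exact hp.one_lt.ne hx


/-- Let `Q` be a finite group with Schur multiplier `A`. Any two Schur covering groups of `Q` (finite stem extensions `σ₁ : Γ₁ →* Q`, `σ₂ : Γ₂ →* Q` with kernels isomorphic to `A`, `Γ₁, Γ₂` in the universe of `Q`) are isomorphic over `Q` — there is a group isomorphism `e : Γ₁ ≃* Γ₂` with `σ₂ ∘ e = σ₁` — if and only if the order of the commutator quotient of `Q` is coprime to the order of `A`. In particular a finite perfect group has a unique Schur covering group up to isomorphism over it. -/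
theorem result {Q : Type u} [Group Q] [Finite Q] {A : Type v} [CommGroup A] (hA : Cfsg.HasSchurMultiplier Q A) : (∀ (Γ₁ Γ₂ : Type u) [Group Γ₁] [Finite Γ₁] [Group Γ₂] [Finite Γ₂] (σ₁ : Γ₁ →* Q) (σ₂ : Γ₂ →* Q), Cfsg.IsStemExtension σ₁ → Cfsg.IsStemExtension σ₂ → Nonempty (σ₁.ker ≃* A) → Nonempty (σ₂.ker ≃* A) → ∃ e : Γ₁ ≃* Γ₂, σ₂.comp e.toMonoidHom = σ₁) ↔ Nat.Coprime (Nat.card (Abelianization Q)) (Nat.card A) := by
  constructor
  · intro h
    by_contra hc
    obtain ⟨p, hp, hp1, hp2⟩ := Nat.Prime.not_coprime_iff_dvd.mp hc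
    obtain ⟨⟨Γ, _, _, σ, hσ, ⟨e⟩⟩, -⟩ := id hA
    obtain ⟨N, f, q, hpN, hN, hfq, hqN⟩ := exists_cyclic_factor hp hp1
    let _ : CommGroup σ.ker :=
      { (inferInstance : Group σ.ker) with
        mul_comm := fun a b => Subtype.ext (mem_center_iff.mp (hσ.2.1 b.2) a) }
    obtain ⟨z, hz⟩ := exists_not_pow (K := σ.ker) hp (by rwa [Nat.card_congr e.toEquiv])
    let g : Multiplicative ℤ →* Multiplicative (ZMod N) :=
      AddMonoidHom.toMultiplicative (Int.castAddHom (ZMod N))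
    have hg : IsCentralExt g :=
      ⟨fun x => ZMod.intCast_surjective x.toAdd, by rw [CommGroup.center_eq_top]; exact le_top⟩
    have hgN : g (Multiplicative.ofAdd (N : ℤ)) = 1 := by simp [g]
    have hu := pb1_isCentralExt (f.comp σ) hg
    set u := pb1 (f.comp σ) g with hudef
    let π := σ.comp u
    have hπ : IsCentralExt π := by
      refine ⟨hσ.1.comp hu.surj, fun x hx => pb_mem_center (hσ.2.1 hx) ?_⟩
      rw [CommGroup.center_eq_top]; trivial
    -- the commutator subgroup of the fibre product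
    have hcomm : ∀ y ∈ commutator Γ, ∃ x ∈ commutator (pb (f.comp σ) g), x.1 = (y, 1) := by
      intro y hy
      have h2 := map_commutator_eq _ u
      rw [MonoidHom.range_eq_top.mpr hu.surj] at h2
      rw [_root_.commutator_def, ← h2] at hy
      obtain ⟨x, hx, rfl⟩ := hy
      exact ⟨x, hx, Prod.ext rfl (Abelianization.commutator_subset_ker (pb2 (f.comp σ) g) hx)⟩
    let t : pb (f.comp σ) g := ⟨(1, Multiplicative.ofAdd (N : ℤ)), by
      rw [mem_pb, map_one, hgN]⟩
    obtain ⟨z', hz'c, hz'⟩ := hcomm z (hσ.2.2 z.2)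
    let S : Subgroup (pb (f.comp σ) g) := zpowers (z'⁻¹ * t)
    have hz'k : z' ∈ π.ker := by
      show σ z'.1.1 = 1
      rw [hz']; exact z.2
    have htk : t ∈ π.ker := map_one σ
    have hS : S ≤ π.ker := by
      rw [zpowers_le]; exact mul_mem (inv_mem hz'k) htk
    have hSn : S.Normal := normal_of_le_center (hS.trans hπ.central)
    have hsnd : ∀ j : ℤ, ((z'⁻¹ * t) ^ j).1.2 = Multiplicative.ofAdd (j * N : ℤ) := by
      intro j
      have : pb2 (f.comp σ) g ((z'⁻¹ * t) ^ j) = Multiplicative.ofAdd (j * N : ℤ) := by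
        rw [map_zpow, map_mul, map_inv, pb2_apply, hz', pb2_apply]
        simp [t, ← ofAdd_zsmul]
      exact this
    have h1 : S ⊓ mker π = ⊥ := by
      rw [eq_bot_iff]
      rintro _ ⟨⟨j, rfl⟩, -, hj⟩
      have h3 : ((z'⁻¹ * t) ^ j).1.2 = 1 :=
        Abelianization.commutator_subset_ker (pb2 (f.comp σ) g) hj
      rw [hsnd] at h3
      have h4 : j * N = 0 := h3
      have h5 : j = 0 := (mul_eq_zero.mp h4).resolve_right (by exact_mod_cast hN.ne')
      simp [h5]
    have h2 : S ⊔ mker π = π.ker := by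
      refine le_antisymm (sup_le hS inf_le_left) fun x hx => ?_
      have h3 : σ x.1.1 = 1 := hx
      have h4 := x.2
      rw [mem_pb, MonoidHom.comp_apply, h3, map_one] at h4
      have h5 : ((x.1.2.toAdd : ℤ) : ZMod N) = 0 := h4.symm
      obtain ⟨j, hj⟩ := (ZMod.intCast_zmod_eq_zero_iff_dvd _ _).mp h5
      have h6 : x = (z'⁻¹ * t) ^ j * (((z'⁻¹ * t) ^ j)⁻¹ * x) := by simp
      rw [h6]
      refine mul_mem_sup ⟨j, rfl⟩ ?_
      have h7 : ((z'⁻¹ * t) ^ j)⁻¹ * x ∈ π.ker := mul_mem (inv_mem (hS ⟨j, rfl⟩)) hx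
      refine ⟨h7, ?_⟩
      obtain ⟨y, hy, hy'⟩ := hcomm _ (hσ.2.2 h7)
      suffices h8 : ((z'⁻¹ * t) ^ j)⁻¹ * x = y by rw [h8]; exact hy
      apply Subtype.ext
      rw [hy']
      refine Prod.ext rfl ?_
      show (((z'⁻¹ * t) ^ j).1.2)⁻¹ * x.1.2 = 1
      rw [hsnd, inv_mul_eq_one]
      apply Multiplicative.toAdd.injective
      rw [hj, mul_comm]; rfl
    obtain ⟨hstem, ⟨e2⟩⟩ := exists_stem_of_complement hπ S hS h1 h2
    have hfin := hπ.finite_mker
    have : Finite (QuotientGroup.lift S π hS).ker := Finite.of_equiv _ e2.symm.toEquiv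
    have := finite_of_finite_ker (QuotientGroup.lift S π hS)
    obtain ⟨g1, hg1, hg1'⟩ := exists_surj_mker_of_over hσ.2.1 u rfl hπ.surj
    have hg1i : Function.Injective g1 := by
      rw [injective_iff_map_eq_one]
      intro x hx
      apply Subtype.ext; apply Subtype.ext
      refine Prod.ext ?_ (Abelianization.commutator_subset_ker (pb2 (f.comp σ) g) x.2.2)
      show u x = 1
      rw [← hg1', hx]; rfl
    let e3 : (QuotientGroup.lift S π hS).ker ≃* A :=
      ((e2.trans (MulEquiv.ofBijective g1 ⟨hg1i, hg1⟩)).trans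
        (MulEquiv.subgroupCongr (stem_mker_eq hσ))).trans e
    obtain ⟨ε, hε⟩ := h _ Γ (QuotientGroup.lift S π hS) σ hstem hσ ⟨e3⟩ ⟨e⟩
    let v : pb (f.comp σ) g →* Γ := ε.toMonoidHom.comp (QuotientGroup.mk' S)
    have hv : σ.comp v = σ.comp u := by
      rw [← MonoidHom.comp_assoc, hε]; rfl
    have hvu : ∀ x ∈ commutator (pb (f.comp σ) g), v x = u x := fun x hx =>
      eqOn_commutator_of_over hσ.2.1 hv hx
    have hvt : v t = z := by
      have h3 : v (z'⁻¹ * t) = 1 := by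
        have : QuotientGroup.mk' S (z'⁻¹ * t) = 1 :=
          (QuotientGroup.eq_one_iff _).mpr (mem_zpowers _)
        simp only [v, MonoidHom.comp_apply, this, map_one]
      rw [map_mul, map_inv, inv_mul_eq_one, hvu z' hz'c] at h3
      rw [← h3, hudef, pb1_apply, hz']
    obtain ⟨q', rfl⟩ := hσ.1 q
    let x : pb (f.comp σ) g := ⟨(q', Multiplicative.ofAdd 1), by
      rw [mem_pb, MonoidHom.comp_apply, hfq]; simp [g]⟩
    have hq' : q' ^ N ∈ commutator Γ := by
      have h2 := map_commutator_eq _ σ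
      rw [MonoidHom.range_eq_top.mpr hσ.1] at h2
      rw [_root_.commutator_def, ← h2] at hqN
      obtain ⟨y, hy, hxy⟩ := hqN
      have : q' ^ N = y * (y⁻¹ * q' ^ N) := by simp
      rw [this]
      exact mul_mem hy (hσ.2.2 (by simp [MonoidHom.mem_ker, hxy]))
    obtain ⟨y, hy, hy'⟩ := hcomm _ hq'
    have hxN : x ^ N = y * t := by
      apply Subtype.ext
      rw [Subgroup.coe_mul, hy']
      ext <;> simp [x, t]
    have hw : (u x)⁻¹ * v x ∈ σ.ker := by
      have : σ (v x) = σ (u x) := DFunLike.congr_fun hv x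
      simp [MonoidHom.mem_ker, this]
    obtain ⟨M, rfl⟩ := hpN
    apply hz (⟨_, hw⟩ ^ M)
    apply Subtype.ext
    have h3 : v x = u x * ((u x)⁻¹ * v x) := by simp
    have h4 : Commute (u x) ((u x)⁻¹ * v x) := mem_center_iff.mp (hσ.2.1 hw) _
    have h5 := congrArg v hxN
    rw [map_pow, map_mul, hvt, hvu y hy, h3, h4.mul_pow, ← map_pow, hxN, map_mul] at h5
    have h6 : u t = 1 := rfl
    rw [h6, mul_one, mul_right_inj] at h5
    rw [← pow_mul, mul_comm M, ← h5]; rfl
  · intro hcop Γ₁ Γ₂ _ _ _ _ σ₁ σ₂ h₁ h₂ ⟨e₁⟩ ⟨e₂⟩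
    exact unique_of_coprime hA σ₁ σ₂ h₁ h₂ e₁ e₂ hcop

end Cfsg.Agent.S3974
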