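import Cfsg.Statements.S3976
import Cfsg.Agent.H4.SubCount

set_option autoImplicit false
open Cfsg

namespace Cfsg.Agent.S3976

open Subgroup Pointwise


/-- Let `p` be a prime and `G` a group of order `p ^ m`. For every `s ≤ m` the number of normal subgroups of `G` of order `p ^ s` is congruent to `1` modulo `p`. -/
theorem result {G : Type*} [Group G] [Finite G] (p m s : ℕ) (hp : p.Prime) (hG : Nat.card G = p ^ m) (hs : s ≤ m) : Nat.card {H : Subgroup G // H.Normal ∧ Nat.card H = p ^ s} ≡ 1 [MOD p] := by
  have hfp := Fact.mk hp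
  have hP : IsPGroup p (ConjAct G) := IsPGroup.of_card hG
  let X : SubMulAction (ConjAct G) (Subgroup G) :=
    { carrier := {H | Nat.card H = p ^ s}
      smul_mem' := fun g H hH => by
        show Nat.card (g • H : Subgroup G) = p ^ s
        rw [← show Nat.card H = p ^ s from hH]
        exact (Nat.card_congr (equivSMul g H).toEquiv).symm }
  have h1 := hP.card_modEq_card_fixedPoints X
  have h2 : Nat.card (MulAction.fixedPoints (ConjAct G) X) =
      Nat.card {H : Subgroup G // H.Normal ∧ Nat.card H = p ^ s} := by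
    refine Nat.card_congr ⟨fun H => ⟨H.1.1, Normal.of_conjugate_fixed fun g =>
      congrArg Subtype.val (H.2 g), H.1.2⟩, fun H => ⟨⟨H.1, H.2.2⟩, fun g =>
        Subtype.ext (H.2.1.conjAct g)⟩, fun _ => rfl, fun _ => rfl⟩
  rw [← h2]
  exact h1.symm.trans (H4.card_subgroup_pow_modEq hp (hG ▸ pow_dvd_pow p hs))

end Cfsg.Agent.S3976
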