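import Cfsg.Statements.S3977
import Cfsg.Agent.H3.RankOne

set_option autoImplicit false
open Cfsg

namespace Cfsg.Agent.S3977


/-- Let `p` be a prime and `G` a group of order `p ^ m` which has exactly one subgroup of order `p ^ s`, where `1 ≤ s < m`, and where `s ≥ 2` if `p = 2`. Then `G` is cyclic. (For `p = 2` and `s = 1` the generalized quaternion groups also occur; that case is the classical criterion for a unique involution.) -/
theorem result {G : Type*} [Group G] [Finite G] (p m s : ℕ) (hp : p.Prime) (hG : Nat.card G = p ^ m) (hs : 1 ≤ s) (hsm : s < m) (h2 : p ≠ 2 ∨ 2 ≤ s) (huniq : ∀ H K : Subgroup G, Nat.card H = p ^ s → Nat.card K = p ^ s → H = K) : IsCyclic G := by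
  haveI := Fact.mk hp
  have hP : IsPGroup p G := IsPGroup.of_card hG
  obtain ⟨H, hH⟩ := Sylow.exists_subgroup_card_pow_prime p (G := G) (n := s)
    (hG ▸ pow_dvd_pow p hsm.le)
  have hle : ∀ (K : Subgroup G) (k : ℕ), k ≤ s → Nat.card K = p ^ k → K ≤ H := by
    intro K k hk hK
    obtain ⟨L, hL, hKL⟩ := Sylow.exists_subgroup_card_pow_prime_le p
      (hG ▸ pow_dvd_pow p hsm.le : p ^ s ∣ Nat.card G) K hK hk
    exact huniq L H hL hH ▸ hKL
  have hcyc : IsCyclic H := by
    obtain ⟨L, hL, hHL⟩ := Sylow.exists_subgroup_card_pow_prime_le p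
      (hG ▸ pow_dvd_pow p hsm : p ^ (s + 1) ∣ Nat.card G) H hH s.le_succ
    haveI : IsCyclic L := by
      apply H3.isCyclic_of_isCoatom_unique
      have : ∀ M : Subgroup L, IsCoatom M → Nat.card (M.map L.subtype) = p ^ s := by
        intro M hM
        have h1 := M.index_mul_card
        rw [H3.index_eq_of_isCoatom (hP.to_subgroup L) hM, hL, pow_succ'] at h1
        rw [Subgroup.card_map_of_injective L.subtype_injective]
        exact Nat.eq_of_mul_eq_mul_left hp.pos h1
      intro M K hM hK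
      exact Subgroup.map_injective L.subtype_injective (huniq _ _ (this M hM) (this K hK))
    exact Subgroup.isCyclic_of_le hHL
  obtain ⟨w, rfl⟩ := (Subgroup.isCyclic_iff_exists_zpowers_eq_top H).mp hcyc
  have hel : ∀ A : Subgroup G, Cfsg.IsElementaryAbelian p A → IsCyclic A := by
    intro A hA
    refine Subgroup.isCyclic_of_le (H' := Subgroup.zpowers w) fun a ha => ?_
    by_cases ha1 : a = 1
    · rw [ha1]; exact one_mem _
    · exact hle (Subgroup.zpowers a) 1 hs
        (by rw [Nat.card_zpowers, orderOf_eq_prime (hA.2 a ha) ha1, pow_one])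
        (Subgroup.mem_zpowers a)
  rcases H3.abelian_cyclic_cases hP hel with h | ⟨rfl, n, x, y, hn, hx, hidx, hy, h1, h3⟩
  · exact h
  exfalso
  have hs2 : 2 ≤ s := h2.resolve_left (by simp)
  obtain ⟨k, rfl⟩ : ∃ k, n = k + 2 := ⟨n - 2, by omega⟩
  have hu : orderOf (x ^ 2 ^ k) = 2 ^ 2 := by
    rw [orderOf_pow_of_dvd (by positivity) (hx ▸ pow_dvd_pow 2 (by omega)), hx, pow_add,
      Nat.mul_div_cancel_left _ (by positivity)]
  have hyo : orderOf y = 2 ^ 2 := by
    apply orderOf_eq_prime_pow (p := 2) (n := 1)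
    · rw [pow_one, h1, ← orderOf_dvd_iff_pow_eq_one, hx, Nat.pow_dvd_pow_iff_le_right one_lt_two]
      omega
    · rw [show 2 ^ (1 + 1) = 2 * 2 by norm_num, pow_mul, h1, ← pow_mul, ← pow_succ,
        show k + 2 - 1 + 1 = k + 2 by omega, ← hx, pow_orderOf_eq_one]
  have hu' := hle (Subgroup.zpowers (x ^ 2 ^ k)) 2 hs2 (by rw [Nat.card_zpowers, hu])
    (Subgroup.mem_zpowers _)
  have hy' := hle (Subgroup.zpowers y) 2 hs2 (by rw [Nat.card_zpowers, hyo])
    (Subgroup.mem_zpowers _)
  have hc := H3.mul_comm_of_mem (A := Subgroup.zpowers w) inferInstance hy' hu'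
  have h4 : y * x ^ 2 ^ k * y⁻¹ = (x ^ 2 ^ k)⁻¹ := by rw [← conj_pow, h3, inv_pow]
  rw [hc, mul_inv_cancel_right, eq_inv_iff_mul_eq_one, ← sq, ← orderOf_dvd_iff_pow_eq_one,
    hu] at h4
  norm_num at h4

end Cfsg.Agent.S3977
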