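import Cfsg.Statements.S3978
import Cfsg.Agent.H4.Schur3

set_option autoImplicit false
open Cfsg

namespace Cfsg.Agent.S3978


/-- A finite group `Q` has trivial Schur multiplier if and only if, for every `n`, every homomorphism from `Q` to the projective general linear group (the quotient of `GL n ℂ` by its centre) lifts to a homomorphism into `GL n ℂ`. -/
theorem result {Q : Type*} [Group Q] [Finite Q] : Cfsg.HasCyclicSchurMultiplier Q 1 ↔ ∀ (n : ℕ) (γ : Q →* (GL (Fin n) ℂ ⧸ Subgroup.center (GL (Fin n) ℂ))), ∃ ρ : Q →* GL (Fin n) ℂ, (QuotientGroup.mk' (Subgroup.center (GL (Fin n) ℂ))).comp ρ = γ := by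
  constructor
  · intro h n γ
    have : Subsingleton (MonoidHom.id Q).ker := by
      rw [MonoidHom.ker_id]; infer_instance
    have : Unique (MonoidHom.id Q).ker := uniqueOfSubsingleton 1
    exact H4.exists_lift_of_cover h (H4.id_isStem Q)
      (MulEquiv.ofUnique (M := (MonoidHom.id Q).ker) (N := Multiplicative (ZMod 1))) n γ
  · intro h
    rw [H4.hsm_one_iff]
    refine ⟨inferInstance, fun Γ _ _ σ hσ => ?_⟩
    obtain ⟨g, hg⟩ := H4.exists_surj_ker_of_pb (H4.id_isStem Q) hσ
      (H4.mker_pb_eq_bot_of_lift (MonoidHom.id Q) h (H4.stem_isCentralExt hσ))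
    have : Subsingleton (MonoidHom.id Q).ker := by
      rw [MonoidHom.ker_id]; infer_instance
    rw [eq_bot_iff]
    intro x hx
    obtain ⟨a, ha⟩ := hg ⟨x, hx⟩
    rw [Subsingleton.elim a 1, map_one] at ha
    exact (congrArg Subtype.val ha).symm

end Cfsg.Agent.S3978
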