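import Cfsg.Statements.S3980
import Cfsg.Agent.H4.Schur4
import Cfsg.Agent.S3959

set_option autoImplicit false
universe u v w
open Cfsg

namespace Cfsg.Agent.S3980


/-- Let `Q₁` and `Q₂` be finite groups whose commutator quotients have coprime orders, with Schur multipliers `A` and `B`. Then the Schur multiplier of `Q₁ × Q₂` is isomorphic to `A × B`. -/
theorem result {Q₁ : Type u} {Q₂ : Type v} [Group Q₁] [Group Q₂] [Finite Q₁] [Finite Q₂] {A B : Type w} [CommGroup A] [CommGroup B] (hA : Cfsg.HasSchurMultiplier Q₁ A) (hB : Cfsg.HasSchurMultiplier Q₂ B) (hcop : Nat.Coprime (Nat.card (Abelianization Q₁)) (Nat.card (Abelianization Q₂))) : Cfsg.HasSchurMultiplier (Q₁ × Q₂) (A × B) := by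
  have h := S3959.result hA hB
  have hsub : Subsingleton (Multiplicative
      (TensorProduct ℤ (Additive (Abelianization Q₁)) (Additive (Abelianization Q₂)))) := by
    have := S3959.tens_gen (Q₁ := Q₁) (Q₂ := Q₂) ⊥ (fun x y => by
      rw [Subgroup.mem_bot, ← orderOf_eq_one_iff, ← Nat.dvd_one, ← hcop]
      obtain ⟨g1, hg1⟩ : ∃ g : Abelianization Q₁ →* _, g (Abelianization.of x) =
        S3959.tens Q₁ Q₂ x y := ⟨Abelianization.lift ((S3959.tens Q₁ Q₂).flip y), rfl⟩
      obtain ⟨g2, hg2⟩ : ∃ g : Abelianization Q₂ →* _, g (Abelianization.of y) =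
        S3959.tens Q₁ Q₂ x y := ⟨Abelianization.lift (S3959.tens Q₁ Q₂ x), rfl⟩
      apply Nat.dvd_gcd
      · rw [← hg1]; exact (orderOf_map_dvd _ _).trans (orderOf_dvd_natCard _)
      · rw [← hg2]; exact (orderOf_map_dvd _ _).trans (orderOf_dvd_natCard _))
    exact Subgroup.subsingleton_iff.mp (subsingleton_of_bot_eq_top this)
  have : Unique (Multiplicative
      (TensorProduct ℤ (Additive (Abelianization Q₁)) (Additive (Abelianization Q₂)))) :=
    uniqueOfSubsingleton 1
  exact H4.hsm_congr_right h (MulEquiv.prodCongr (MulEquiv.refl A) MulEquiv.prodUnique)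

end Cfsg.Agent.S3980
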