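import Cfsg.Statements.S3992
import Cfsg.Agent.H4.Higman
import Cfsg.Agent.H6.Burnside
import Cfsg.Agent.L.SimpleRed

set_option autoImplicit false
open Cfsg

namespace Cfsg.Agent.S3992

def NoPQ (G : Type*) [Group G] : Prop :=
  ∀ (g : G) (p q : ℕ), p.Prime → q.Prime → p ≠ q → orderOf g ≠ p * q

theorem NoPQ.subgroup {G : Type*} [Group G] (h : NoPQ G) (H : Subgroup G) : NoPQ H :=
  fun g p q hp hq hpq e => h g p q hp hq hpq (by rw [← e, Subgroup.orderOf_coe])

theorem NoPQ.false_of_commute {G : Type*} [Group G] [Finite G] (h : NoPQ G) {A B : Subgroup G}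
    (hA : ¬ Group.IsSolvable A) (hB : B ≠ ⊥) (hc : ∀ a ∈ A, ∀ b ∈ B, Commute a b) : False := by
  have hB1 : Nat.card B ≠ 1 := by rwa [Ne, Subgroup.card_eq_one]
  obtain ⟨t, ht, htB⟩ := Nat.exists_prime_and_dvd hB1
  obtain ⟨b, hb, hob⟩ := H9.exists_mem_orderOf_eq_prime ht htB
  have : ∃ u : ℕ, u.Prime ∧ u ∣ Nat.card A ∧ u ≠ t := by
    by_contra hcon
    push Not at hcon
    exact hA (H6.isSolvable_of_primes_two t t fun r hr hrA => Or.inl (hcon r hr hrA))
  obtain ⟨u, hu, huA, hut⟩ := this
  obtain ⟨a, ha, hoa⟩ := H9.exists_mem_orderOf_eq_prime hu huA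
  obtain ⟨g, hg⟩ := H9.exists_orderOf_eq_mul_of_commute (hc a ha b hb)
    ((Nat.coprime_primes hu ht).2 hut) (by rw [hoa]) (by rw [hob])
  exact h g u t hu ht hut hg

theorem not_solv {G : Type*} [Group G] [Finite G] (hr : solvableRadical G = ⊥) {M : Subgroup G}
    (hM : L.IsMinNormal M) : ¬ Group.IsSolvable M := fun hs =>
  hM.2.1 (eq_bot_iff.2 (hr ▸ L.le_solvableRadical hM.1 hs))

theorem NoPQ.exists_min {G : Type*} [Group G] [Finite G] [Nontrivial G] (h : NoPQ G)
    (hr : solvableRadical G = ⊥) :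
    ∃ M : Subgroup G, L.IsMinNormal M ∧ ∀ N : Subgroup G, N.Normal → N ≠ ⊥ → M ≤ N := by
  obtain ⟨M, hM⟩ := L.exists_isMinNormal (G := G)
  refine ⟨M, hM, fun N hN hN1 => ?_⟩
  have := hM.1
  rcases hM.inf_eq_bot_or_le N with h1 | h1
  · exact (h.false_of_commute (not_solv hr hM) hN1
      fun a ha b hb => L.commute_of_normal_of_inf_eq_bot h1 ha hb).elim
  · exact h1

theorem NoPQ.exists_simple {G : Type*} [Group G] [Finite G] [Nontrivial G] (h : NoPQ G)
    (hr : solvableRadical G = ⊥) :
    ∃ M : Subgroup G, M.Normal ∧ IsSimpleGroup M ∧ ¬ IsMulCommutative M ∧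
      ∀ N : Subgroup G, N.Normal → N ≠ ⊥ → M ≤ N := by
  obtain ⟨M, hM, hM'⟩ := h.exists_min hr
  have := hM.1
  have hnt := (Subgroup.nontrivial_iff_ne_bot M).2 hM.2.1
  have hrM : solvableRadical M = ⊥ := by
    have := L.map_subtype_solvableRadical M
    rw [hr, bot_inf_eq, Subgroup.map_eq_bot_iff_of_injective _ M.subtype_injective] at this
    exact this
  obtain ⟨S, hS, hS'⟩ := (h.subgroup M).exists_min hrM
  have hSn : (S.map M.subtype).Normal := by
    constructor
    rintro _ ⟨x, hx, rfl⟩ g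
    have := hS.1
    have h1 : S ≤ S.comap (MulAut.conjNormal g : MulAut M).toMonoidHom := by
      apply hS' _ inferInstance
      intro hb
      apply hS.2.1
      have := congrArg (Subgroup.map (MulAut.conjNormal g : MulAut M).toMonoidHom) hb
      rwa [Subgroup.map_comap_eq_self_of_surjective (MulEquiv.surjective _), Subgroup.map_bot] at this
    exact ⟨_, h1 hx, by simp⟩
  have hST : S = ⊤ := by
    rcases hM.2.2 _ hSn (Subgroup.map_subtype_le S) with h1 | h1
    · rw [Subgroup.map_eq_bot_iff_of_injective _ M.subtype_injective] at h1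
      exact (hS.2.1 h1).elim
    · apply Subgroup.map_injective M.subtype_injective
      rw [h1, ← MonoidHom.range_eq_map, Subgroup.range_subtype]
  refine ⟨M, hM.1, ⟨fun K hK => ?_⟩, fun hc => not_solv hr hM (L.isSolvable_of_isMulCommutative M), hM'⟩
  by_cases hK1 : K = ⊥
  · exact Or.inl hK1
  · exact Or.inr (eq_top_iff.2 (hST ▸ hS' K hK hK1))


/-- Let G be a finite non-solvable group in which every element has prime-power order, and let R be its largest solvable normal subgroup. Then R is a p-group for some prime p; G/R has a non-abelian simple normal subgroup contained in every nontrivial normal subgroup of G/R (its unique minimal normal subgroup); and the order of every solvable subgroup of G has at most two prime divisors. -/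
theorem result {G : Type*} [Group G] [Finite G] (hns : ¬ Group.IsSolvable G) (hpp : ∀ g : G, g ≠ 1 → IsPrimePow (orderOf g))
    (R : Subgroup G) [R.Normal] (hRs : Group.IsSolvable ↥R) (hRmax : ∀ N : Subgroup G, N.Normal → Group.IsSolvable ↥N → N ≤ R) :
    (∃ p : ℕ, p.Prime ∧ IsPGroup p ↥R) ∧
      (∃ M : Subgroup (G ⧸ R), M.Normal ∧ IsSimpleGroup ↥M ∧ ¬ IsMulCommutative ↥M ∧
        ∀ N : Subgroup (G ⧸ R), N.Normal → N ≠ ⊥ → M ≤ N) ∧
      ∀ H : Subgroup G, Group.IsSolvable ↥H → (Nat.card ↥H).primeFactors.card ≤ 2 := by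
  have h : NoPQ G := by
    intro g p q hp hq hpq e
    have hg : g ≠ 1 := by
      rintro rfl
      rw [orderOf_one] at e
      exact hp.one_lt.ne' (Nat.eq_one_of_mul_eq_one_right e.symm)
    exact H4.not_isPrimePow_mul_of_ne hp hq hpq (e ▸ hpp g hg)
  have hc : ∀ H : Subgroup G, Group.IsSolvable ↥H → (Nat.card ↥H).primeFactors.card ≤ 2 :=
    fun H hH => H4.card_primeFactors_le_two_of_isSolvable (h.subgroup H)
  refine ⟨?_, ?_, hc⟩
  · by_cases hR : Nat.card R = 1
    · exact ⟨2, Nat.prime_two, IsPGroup.of_card (n := 0) (by simpa using hR)⟩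
    obtain ⟨p, hp, hpR⟩ := Nat.exists_prime_and_dvd hR
    refine ⟨p, hp, (L.isPiSubgroup_singleton_iff hp).1 fun q hq hqR => ?_⟩
    by_contra hqp
    have : ∃ r : ℕ, r.Prime ∧ r ∣ Nat.card G ∧ r ≠ p ∧ r ≠ q := by
      by_contra hcon
      push Not at hcon
      exact hns (H6.isSolvable_of_primes_two p q fun r hr hrA => by
        by_cases h1 : r = p
        · exact Or.inl h1
        · exact Or.inr (hcon r hr hrA h1))
    obtain ⟨r, hr, hrG, hrp, hrq⟩ := this
    have := Fact.mk hr
    obtain ⟨x, hx⟩ := exists_prime_orderOf_dvd_card' r hrG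
    have hs : Group.IsSolvable (Subgroup.zpowers x ⊔ R : Subgroup G) :=
      L.isSolvable_sup_of_normal _ _ (L.isSolvable_of_isMulCommutative _) hRs
    have hN := h.subgroup (Subgroup.zpowers x ⊔ R)
    have hpq : p ≠ q := fun e => hqp e.symm
    rcases H4.exists_orderOf_mul_of_three_primes (G := (Subgroup.zpowers x ⊔ R : Subgroup G))
      hp hq hr hpq hrp.symm hrq.symm (hpR.trans (Subgroup.card_dvd_of_le le_sup_right))
      (hqR.trans (Subgroup.card_dvd_of_le le_sup_right))
      (by rw [← hx, ← Nat.card_zpowers]; exact Subgroup.card_dvd_of_le le_sup_left) with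
      ⟨g, hg⟩ | ⟨g, hg⟩ | ⟨g, hg⟩
    · exact hN g p q hp hq hpq hg
    · exact hN g p r hp hr hrp.symm hg
    · exact hN g q r hq hr hrq.symm hg
  · have hQ : NoPQ (G ⧸ R) := by
      intro g p q hp hq hpq e
      obtain ⟨y, hy⟩ := H9.exists_orderOf_eq_of_surjective (QuotientGroup.mk'_surjective R) ⟨g, e⟩
      exact h y p q hp hq hpq hy
    have hr : solvableRadical (G ⧸ R) = ⊥ := by
      apply L.eq_bot_of_comap_mk'_eq
      rw [L.comap_solvableRadical_quotient]
      exact hRmax _ inferInstance inferInstance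
    have : Nontrivial (G ⧸ R) := by
      by_contra hnt
      rw [not_nontrivial_iff_subsingleton] at hnt
      exact hns (L.isSolvable_of_normal_of_quotient R hRs inferInstance)
    exact hQ.exists_simple hr

end Cfsg.Agent.S3992
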