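import Cfsg.Statements.S3994
import Cfsg.Agent.H4.FrobCount

set_option autoImplicit false
open Cfsg

namespace Cfsg.Agent.S3994


/-- Let G be a finite group and n a positive integer. The number of elements of G whose order is divisible by n is either 0 or divisible by the largest divisor of the order of G that is coprime to n. -/
theorem result {G : Type*} [Group G] [Finite G] (n : ℕ) (hn : 0 < n) :
    Nat.card {g : G // n ∣ orderOf g} = 0 ∨
      (Nat.card G / Nat.gcd (Nat.card G) (n ^ Nat.card G)) ∣ Nat.card {g : G // n ∣ orderOf g} := by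
  right
  set N := Nat.card G with hN
  have hN0 : N ≠ 0 := Nat.card_pos.ne'
  set m := N / Nat.gcd N (n ^ N) with hm
  have hmN : m ∣ N := Nat.div_dvd_of_dvd (Nat.gcd_dvd_left _ _)
  have hcop : Nat.Coprime m n := by
    apply Nat.coprime_of_dvd
    intro p hp hpm hpn
    have h1 : p * Nat.gcd N (n ^ N) ∣ N := by
      conv_rhs => rw [← Nat.div_mul_cancel (Nat.gcd_dvd_left N (n ^ N))]
      exact Nat.mul_dvd_mul_right hpm _
    have h2 : p ^ N.factorization p ∣ Nat.gcd N (n ^ N) :=
      Nat.dvd_gcd (Nat.ordProj_dvd _ _)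
        ((pow_dvd_pow _ (Nat.factorization_lt p hN0).le).trans (pow_dvd_pow_of_dvd hpn _))
    have h3 : p ^ (N.factorization p + 1) ∣ N := by
      rw [pow_succ']
      exact (Nat.mul_dvd_mul_left p h2).trans h1
    exact Nat.pow_succ_factorization_not_dvd hN0 hp h3
  have h := H4.frobenius_dvd_card (G := G) hmN dvd_rfl (C := {g : G | n ∣ orderOf g}) (by
    intro g x hx
    show n ∣ orderOf (g * x * g⁻¹)
    rw [← MulAut.conj_apply, MulEquiv.orderOf_eq]; exact hx)
  refine h.trans (dvd_of_eq (Nat.card_congr (Equiv.subtypeEquivRight fun x => Iff.symm ?_)))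
  show _ ↔ n ∣ orderOf (x ^ m)
  refine ⟨fun h1 => ?_, fun h1 => h1.trans (orderOf_pow_dvd _)⟩
  rw [orderOf_pow]
  rw [← Nat.div_mul_cancel (Nat.gcd_dvd_left (orderOf x) m)] at h1
  exact (Nat.Coprime.coprime_dvd_right (Nat.gcd_dvd_right _ _) hcop.symm).dvd_of_dvd_mul_right h1

end Cfsg.Agent.S3994
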