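import Cfsg.Statements.S3995
import Cfsg.Agent.H4.SameOrder
import Cfsg.Agent.H3.DQ
import Cfsg.Agent.H3.RankOne

set_option autoImplicit false
open Cfsg

namespace Cfsg.Agent.S3995

open Cfsg.Agent.H4

theorem exp_eq {G : Type*} [Group G] [Nontrivial G] {p : ℕ} (hp : p.Prime) (h : ∀ x : G, x ^ p = 1) :
    Monoid.exponent G = p := by
  refine ((Nat.dvd_prime hp).1 (Monoid.exponent_dvd_of_forall_pow_eq_one h)).resolve_left fun h3 => ?_
  rw [Monoid.exp_eq_one_iff] at h3
  exact not_subsingleton G h3

theorem isPGroup_of {G : Type*} [Group G] [Finite G] {p : ℕ} (hp : p.Prime)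
    (h : ∀ q : ℕ, q.Prime → q ∣ Nat.card G → q = p) : IsPGroup p G := by
  have : IsPGroup p (⊤ : Subgroup G) := by
    rw [← L.isPiSubgroup_singleton_iff hp]
    intro r hr hd
    rw [Subgroup.card_top] at hd
    exact h r hr hd
  exact this.of_equiv Subgroup.topEquiv


/-- Let G be a finite group such that the numbers of elements of each order that occurs in G (the numbers #{g : o(g) = m}, m ranging over the element orders of G) take exactly two values, 1 and some n ≠ 1. Then either G is a p-group of exponent p and order at least 3 for some prime p, or G is the quaternion group of order 8, or G is cyclic of order 4, or G ≅ Z₂ × P for a p-group P of exponent p with p an odd prime. -/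
theorem result {G : Type*} [Group G] [Finite G] (n : ℕ) (hn : n ≠ 1) (h : ((fun m : ℕ => Nat.card {g : G // orderOf g = m}) '' Set.range (orderOf : G → ℕ)) = {1, n}) :
    (∃ p : ℕ, p.Prime ∧ IsPGroup p G ∧ 3 ≤ Nat.card G ∧ Monoid.exponent G = p) ∨
      Nonempty (G ≃* QuaternionGroup 2) ∨ (IsCyclic G ∧ Nat.card G = 4) ∨
      (∃ (p : ℕ) (P : Type) (_ : Group P) (_ : Finite P), p.Prime ∧ p ≠ 2 ∧ IsPGroup p P ∧ Monoid.exponent P = p ∧
        Nonempty (G ≃* Multiplicative (ZMod 2) × P)) := by
  have hmem : ∀ m, so G m = 0 ∨ so G m = 1 ∨ so G m = n := by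
    intro m
    by_cases h0 : so G m = 0
    · exact Or.inl h0
    · have : so G m ∈ (fun m : ℕ => so G m) '' Set.range (orderOf : G → ℕ) :=
        ⟨m, so_ne_zero_iff.1 h0, rfl⟩
      rw [h] at this
      exact Or.inr this
  have hv : ∀ m, 2 < m → so G m = 0 ∨ so G m = n := fun m hm => by
    have := hmem m; have := ne_one_of_two_lt (G := G) hm; tauto
  obtain ⟨g, hg⟩ : ∃ g : G, so G (orderOf g) = n := by
    have : n ∈ (fun m : ℕ => so G m) '' Set.range (orderOf : G → ℕ) := by rw [h]; simp
    obtain ⟨_, ⟨g, rfl⟩, e⟩ := this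
    exact ⟨g, e⟩
  have hn0 : n ≠ 0 := hg ▸ so_ne_zero_iff.2 ⟨g, rfl⟩
  have hg1 : orderOf g ≠ 1 := fun e => hn (by rw [← hg, e, so_one])
  have : Nontrivial G := ⟨g, 1, mt orderOf_eq_one_iff.2 hg1⟩
  have h3 : 3 ≤ Nat.card G := by
    have := sum_so_le (G := G) {1, orderOf g}
    rw [Finset.sum_pair hg1.symm, so_one, hg] at this
    omega
  have lt : ∀ {t : ℕ}, t.Prime → t ≠ 2 → 2 < t := fun ht h2 => lt_of_le_of_ne ht.two_le h2.symm
  have hpn : ∀ p : ℕ, p.Prime → p ≠ 2 → p ∣ Nat.card G → so G p = n := fun p hp hp2 hpd =>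
    (hv p (lt hp hp2)).resolve_left (so_ne_zero_of_prime hp hpd)
  have hno : ∀ p m : ℕ, p.Prime → p ≠ 2 → p ∣ Nat.card G → 2 < m → p.Coprime m → so G m = 0 := by
    intro p m hp hp2 hpd hm hc
    refine (hv m hm).resolve_right fun e => ?_
    exact false_of_dvd_one_add hp hp2 (hpn p hp hp2 hpd ▸ dvd_one_add_so hp hpd)
      (e ▸ dvd_so_add hp hpd hc) (hv _ (by have := hp.two_le; nlinarith))
  have huniq : ∀ p q : ℕ, p.Prime → p ≠ 2 → p ∣ Nat.card G → q.Prime → q ≠ 2 → q ∣ Nat.card G →
      q = p := by
    intro p q hp hp2 hpd hq hq2 hqd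
    by_contra hqp
    exact so_ne_zero_of_prime hq hqd (hno p q hp hp2 hpd (lt hq hq2)
      ((Nat.coprime_primes hp hq).2 (Ne.symm hqp)))
  have hsq : ∀ p : ℕ, p.Prime → p ≠ 2 → p ∣ Nat.card G → so G (p ^ 2) = 0 := by
    intro p hp hp2 hpd
    refine (hv _ (by rw [pow_two]; exact two_lt_mul hp hp)).resolve_right fun e => ?_
    exact false_of_dvd_one_add hp hp2 (hpn p hp hp2 hpd ▸ dvd_one_add_so hp hpd) (c := 0)
      (e ▸ prime_dvd_so_sq hp) (Or.inl rfl)
  by_cases h2 : 2 ∣ Nat.card G
  · rcases hmem 2 with e | e | e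
    · exact (so_ne_zero_of_prime Nat.prime_two h2 e).elim
    · obtain ⟨z, hz⟩ := (so_ne_zero_iff (G := G) (m := 2)).1 (by omega)
      have hzc := mem_center_of_so_two e hz
      have f2 := Fact.mk Nat.prime_two
      by_cases hex : ∃ p : ℕ, p.Prime ∧ p ≠ 2 ∧ p ∣ Nat.card G
      · obtain ⟨p, hp, hp2, hpd⟩ := hex
        right; right; right
        have fp := Fact.mk hp
        have h4 : ¬ 4 ∣ Nat.card G := by
          intro h4
          have := four_dvd_add_so h4
          rw [e, hno p 4 hp hp2 hpd (by norm_num)
            (((Nat.coprime_primes hp Nat.prime_two).2 hp2).pow_right 2)] at this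
          omega
        obtain ⟨P⟩ : Nonempty (Sylow p G) := inferInstance
        have hidx : (P : Subgroup G).index = 2 := by
          apply Nat.dvd_antisymm
          · rw [Nat.dvd_iff_prime_pow_dvd_dvd]
            intro t k ht hk
            rcases Nat.eq_zero_or_pos k with rfl | hk0
            · simp
            have htd : t ∣ (P : Subgroup G).index := (dvd_pow_self t hk0.ne').trans hk
            by_cases ht2 : t = 2
            · subst ht2
              have : ¬ 2 ≤ k := fun h2 => h4 (((pow_dvd_pow 2 h2).trans hk).trans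
                (Subgroup.index_dvd_card _))
              obtain rfl : k = 1 := by omega
              simp
            · have := huniq p t hp hp2 hpd ht ht2 (htd.trans (Subgroup.index_dvd_card _))
              exact (P.not_dvd_index (this ▸ htd)).elim
          · rw [← (P : Subgroup G).card_mul_index] at h2
            refine ((Nat.Prime.dvd_mul Nat.prime_two).1 h2).resolve_left fun h5 => ?_
            obtain ⟨k, hk⟩ := P.isPGroup'.exists_card_eq
            rw [hk] at h5
            exact hp2 ((Nat.prime_dvd_prime_iff_eq Nat.prime_two hp).1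
              (Nat.prime_two.dvd_of_dvd_pow h5)).symm
        have hPexp : ∀ x : P, x ^ p = 1 := by
          intro x
          obtain ⟨k, hk⟩ := P.isPGroup' x
          exact Subtype.ext (pow_eq_one_of_so_sq hp (hsq p hp hp2 hpd) (congrArg Subtype.val hk))
        have : Nontrivial P := by
          rw [← Finite.one_lt_card_iff_nontrivial]
          exact lt_of_lt_of_le hp.one_lt (Nat.le_of_dvd Nat.card_pos (P.dvd_card_of_dvd_card hpd))
        have hzcard : Nat.card (Subgroup.zpowers z) = 2 := by rw [Nat.card_zpowers, hz]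
        let e1 : Multiplicative (ZMod 2) ≃* Subgroup.zpowers z :=
          mulEquivOfPrimeCardEq (p := 2) (by simp) hzcard
        let e2 : Shrink.{0} P ≃* P := Shrink.mulEquiv
        have hcomm : ∀ (a : Subgroup.zpowers z) (b : P), Commute ((Subgroup.zpowers z).subtype a)
            ((P : Subgroup G).subtype b) := by
          rintro ⟨_, k, rfl⟩ b
          exact (show Commute z b from (Subgroup.mem_center_iff.1 hzc b).symm).zpow_left k
        let f := MonoidHom.noncommCoprod _ _ hcomm
        have hf : Function.Bijective f := by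
          rw [Nat.bijective_iff_injective_and_card]
          constructor
          · rw [MonoidHom.noncommCoprod_injective]
            refine ⟨Subgroup.subtype_injective _, Subgroup.subtype_injective _, ?_⟩
            rw [Subgroup.range_subtype, Subgroup.range_subtype]
            apply Subgroup.disjoint_of_coprime_natCard
            obtain ⟨k, hk⟩ := P.isPGroup'.exists_card_eq
            rw [hzcard, hk]
            exact ((Nat.coprime_primes Nat.prime_two hp).2 hp2.symm).pow_right k
          · rw [Nat.card_prod, hzcard, ← hidx, mul_comm]; exact (P : Subgroup G).card_mul_index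
        refine ⟨p, Shrink.{0} P, inferInstance, Finite.of_equiv _ e2.symm.toEquiv, hp, hp2,
          P.isPGroup'.of_equiv e2.symm, ?_, ⟨(MulEquiv.ofBijective f hf).symm.trans
            (e1.symm.prodCongr e2.symm)⟩⟩
        rw [Monoid.exponent_eq_of_mulEquiv e2]
        exact exp_eq hp hPexp
      · push Not at hex
        have hP : IsPGroup 2 G := isPGroup_of Nat.prime_two fun q hq hqd => by
          by_contra hq2; exact hex q hq hq2 hqd
        have h8 : so G 8 = 0 := by
          refine (hv 8 (by norm_num)).resolve_right fun e8 => ?_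
          have e4 : so G 4 = n := (hv 4 (by norm_num)).resolve_left fun e4 =>
            hn0 (e8 ▸ so_eq_zero_of_dvd e4 (by norm_num))
          obtain ⟨y, hy⟩ := (so_ne_zero_iff (G := G) (m := 4)).1 (by omega)
          have h5 := four_dvd_add_so (hy ▸ orderOf_dvd_natCard y)
          have h6 : 4 ∣ so G 8 := totient_dvd_so 8
          omega
        have hdiv : ∀ y : G, orderOf y ∣ 4 := by
          intro y
          obtain ⟨k, hk⟩ := IsPGroup.iff_orderOf.1 hP y
          have : ¬ 3 ≤ k := fun h5 => so_ne_zero_iff.2 ⟨y, hk⟩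
            (so_eq_zero_of_dvd h8 (pow_dvd_pow 2 h5))
          rw [hk]
          exact pow_dvd_pow 2 (show k ≤ 2 by omega)
        have hs := (Nat.card_eq_one_iff_unique.1 e).1
        rcases H3.isCyclic_or_quaternion_of_unique_involution hP (fun x y hx hy =>
          congrArg Subtype.val (Subsingleton.elim (⟨x, hx⟩ : {g : G // orderOf g = 2}) ⟨y, hy⟩))
          with hc | ⟨k, hk, ⟨e'⟩⟩
        · right; right; left
          refine ⟨hc, ?_⟩
          obtain ⟨y, hy⟩ := IsCyclic.exists_ofOrder_eq_natCard (α := G)
          have h5 := hdiv y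
          rw [hy] at h5
          have := Nat.le_of_dvd (by norm_num) h5
          omega
        · right; left
          obtain ⟨x, y, hx, -⟩ := H3.exists_gens_of_mulEquiv_quaternion e'
          have h5 : 2 * 2 ^ k ≤ 4 := Nat.le_of_dvd (by norm_num) (hx ▸ hdiv x)
          have h6 : k < 2 := by
            by_contra h7
            have : 2 ^ 2 ≤ 2 ^ k := Nat.pow_le_pow_right (by norm_num) (by omega)
            omega
          obtain rfl : k = 1 := by omega
          exact ⟨e'⟩
    · left
      have h5 := dvd_one_add_so Nat.prime_two h2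
      have hx : ∀ x : G, x ^ 2 = 1 := by
        intro x
        rw [← orderOf_dvd_iff_pow_eq_one]
        have h6 : ¬ 2 < orderOf x := by
          intro h6
          have h7 := two_dvd_so (G := G) h6
          have := (hv _ h6).resolve_left (so_ne_zero_iff.2 ⟨x, rfl⟩)
          omega
        have := orderOf_pos x
        interval_cases orderOf x <;> simp at *
      exact ⟨2, Nat.prime_two, fun x => ⟨1, hx x⟩, h3, exp_eq Nat.prime_two hx⟩
  · left
    obtain ⟨p, hp, hpd⟩ := Nat.exists_prime_and_dvd (show Nat.card G ≠ 1 by omega)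
    have hp2 : p ≠ 2 := fun e => h2 (e ▸ hpd)
    have hP : IsPGroup p G := isPGroup_of hp fun q hq hqd =>
      huniq p q hp hp2 hpd hq (fun e => h2 (e ▸ hqd)) hqd
    refine ⟨p, hp, hP, h3, exp_eq hp fun x => ?_⟩
    obtain ⟨k, hk⟩ := hP x
    exact pow_eq_one_of_so_sq hp (hsq p hp hp2 hpd) hk

end Cfsg.Agent.S3995
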