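import Cfsg.Statements.S3996
import Cfsg.Agent.H4.SameOrder
import Cfsg.Agent.L.SimpleRed

set_option autoImplicit false
open Cfsg

namespace Cfsg.Agent.S3996

open Cfsg.Agent.H4

theorem solv_of_odd {G : Type*} [Group G] [Finite G]
    (h : ∀ p q : ℕ, p.Prime → p ≠ 2 → q.Prime → q ≠ 2 → p ≠ q → p ∣ Nat.card G →
      q ∣ Nat.card G → False) : Group.IsSolvable G := by
  by_cases h1 : ∃ p : ℕ, p.Prime ∧ p ≠ 2 ∧ p ∣ Nat.card G
  · obtain ⟨p, hp, hp2, hpd⟩ := h1
    refine H6.isSolvable_of_primes_two 2 p fun r hr hrd => ?_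
    by_contra hc
    push Not at hc
    exact h r p hr hc.1 hp hp2 hc.2 hrd hpd
  · push Not at h1
    refine H6.isSolvable_of_primes_two 2 2 fun r hr hrd => ?_
    by_contra hc
    push Not at hc
    exact h1 r hr hc.1 hrd

theorem four_case {G : Type*} [Group G] [Finite G] {a b p q : ℕ} (h : Vals G a b)
    (h4 : so G 4 = a) (ha : ¬ 4 ∣ a) (hp : p.Prime) (hp2 : p ≠ 2) (hq : q.Prime) (hq2 : q ≠ 2)
    (hpq : p ≠ q) (hpd : p ∣ Nat.card G) (hqd : q ∣ Nat.card G) : False := by
  have lt : ∀ {t : ℕ}, t.Prime → t ≠ 2 → 2 < t := fun ht h2 => lt_of_le_of_ne ht.two_le h2.symm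
  have c4 : ∀ {t : ℕ}, t.Prime → t ≠ 2 → t.Coprime 4 := fun ht h2 =>
    ((Nat.coprime_primes ht Nat.prime_two).2 h2).pow_right 2
  have v4 : ∀ m n : ℕ, 2 < m → 2 < n → m.Coprime n → so G (m * n) = 0 ∨ so G (m * n) = b := by
    intro m n hm hn hc
    have h1 := four_dvd_so_mul (G := G) hm hn hc
    rcases h (m * n) (by nlinarith) with e | e | e
    · exact Or.inl e
    · exact (ha (e ▸ h1)).elim
    · exact Or.inr e
  have key : ∀ t : ℕ, t.Prime → t ≠ 2 → t ∣ Nat.card G → so G t = a →
      so G (t * 4) = b ∧ ¬ t ∣ b := by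
    intro t ht ht2 htd e
    have h1 := dvd_one_add_so ht htd
    have h2 := dvd_so_add ht htd (c4 ht ht2)
    rw [e] at h1
    rw [h4] at h2
    rcases v4 t 4 (lt ht ht2) (by norm_num) (c4 ht ht2) with e' | e'
    · exact (false_of_dvd_one_add ht ht2 h1 h2 (Or.inl e')).elim
    · refine ⟨e', fun h3 => ?_⟩
      rw [e'] at h2
      exact false_of_dvd_one_add ht ht2 h1 (c := 0) ((Nat.dvd_add_left h3).1 h2) (Or.inl rfl)
  have fin : ∀ t m : ℕ, t.Prime → t ≠ 2 → t ∣ Nat.card G → ¬ t ∣ b → 2 < m → t.Coprime m →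
      so G m = b → False := by
    intro t m ht ht2 htd htb hm hc e
    have h1 := dvd_so_add ht htd hc
    rw [e] at h1
    rcases v4 t m (lt ht ht2) hm hc with e' | e'
    · rw [e'] at h1; exact htb h1
    · rw [e', ← two_mul] at h1
      exact htb (((Nat.Prime.dvd_mul ht).1 h1).resolve_left
        fun h => ht2 ((Nat.prime_dvd_prime_iff_eq ht Nat.prime_two).1 h))
  have cpq := (Nat.coprime_primes hp hq).2 hpq
  rcases h.prime hp hp2 hpd with h1 | h1 <;> rcases h.prime hq hq2 hqd with h2 | h2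
  · exact fin q (p * 4) hq hq2 hqd (key q hq hq2 hqd h2).2 (by have := hp.two_le; omega)
      (cpq.symm.mul_right (c4 hq hq2)) (key p hp hp2 hpd h1).1
  · exact fin p q hp hp2 hpd (key p hp hp2 hpd h1).2 (lt hq hq2) cpq h2
  · exact fin q p hq hq2 hqd (key q hq hq2 hqd h2).2 (lt hp hp2) cpq.symm h1
  · have h3 := (h.symm.same hp hp2 hq hpq hpd h1 h2).1
    exact ha (h3 ▸ four_dvd_so_mul (lt hp hp2) (lt hq hq2) cpq)

theorem odd_case {G : Type*} [Group G] [Finite G] {a b : ℕ} (h : Vals G a b)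
    (h2 : so G 2 = a) (hd : 2 ∣ Nat.card G) : Group.IsSolvable G := by
  have h1 := dvd_one_add_so Nat.prime_two hd
  rw [h2] at h1
  have hv : ∀ m, 2 < m → so G m = 0 ∨ so G m = b := by
    intro m hm
    have := two_dvd_so (G := G) hm
    rcases h m hm with e | e | e
    · exact Or.inl e
    · omega
    · exact Or.inr e
  refine solv_of_odd fun p q hp hp2 hq hq2 hpq hpd hqd => ?_
  have e1 := (hv p (lt_of_le_of_ne hp.two_le hp2.symm)).resolve_left (so_ne_zero_of_prime hp hpd)
  have e2 := (hv q (lt_of_le_of_ne hq.two_le hq2.symm)).resolve_left (so_ne_zero_of_prime hq hqd)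
  exact false_of_dvd_one_add hp hp2 (e1 ▸ dvd_one_add_so hp hpd)
    (e2 ▸ dvd_so_add hp hpd ((Nat.coprime_primes hp hq).2 hpq)) (hv _ (two_lt_mul hp hq))

theorem solv_of_dvd {G H : Type*} [Group G] [Finite G] [Group H] [Finite H] {a b : ℕ}
    (h : Vals G a b) (h4 : ¬ 4 ∣ Nat.card G) (hH : Nat.card H ∣ Nat.card G)
    (h2 : ¬ 2 ∣ Nat.card H) : Group.IsSolvable H := by
  apply H6.isSolvable_of_card_primeFactors_le_two
  by_contra hc
  push Not at hc
  obtain ⟨p, q, r, hp, hq, hr, hpq, hpr, hqr⟩ := Finset.two_lt_card_iff.1 hc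
  have d1 := Nat.dvd_of_mem_primeFactors hp
  have d2 := Nat.dvd_of_mem_primeFactors hq
  have d3 := Nat.dvd_of_mem_primeFactors hr
  exact h.false_of_three h4 (Nat.prime_of_mem_primeFactors hp) (fun e => h2 (e ▸ d1))
    (Nat.prime_of_mem_primeFactors hq) (fun e => h2 (e ▸ d2)) (Nat.prime_of_mem_primeFactors hr)
    (fun e => h2 (e ▸ d3)) hpq hpr hqr (d1.trans hH) (d2.trans hH) (d3.trans hH)


/-- A finite group in which the numbers of elements of each order that occurs (the numbers #{g : o(g) = m}, m ranging over the element orders) take exactly three different values is solvable. -/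
theorem result {G : Type*} [Group G] [Finite G] (h : (((fun m : ℕ => Nat.card {g : G // orderOf g = m}) '' Set.range (orderOf : G → ℕ))).ncard = 3) : Group.IsSolvable G := by
  obtain ⟨a, b, hab⟩ := exists_vals_of_ncard h
  have hv := vals_of_forall hab
  by_cases h2 : 2 ∣ Nat.card G
  · rcases hab 2 with e | e | e | e
    · exact (so_ne_zero_of_prime Nat.prime_two h2 e).elim
    · by_cases h4 : 4 ∣ Nat.card G
      · have h5 := four_dvd_add_so h4
        rw [e] at h5
        refine solv_of_odd fun p q hp hp2 hq hq2 hpq hpd hqd => ?_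
        rcases hv 4 (by norm_num) with e' | e' | e'
        · omega
        · exact four_case hv e' (by omega) hp hp2 hq hq2 hpq hpd hqd
        · exact four_case hv.symm e' (by omega) hp hp2 hq hq2 hpq hpd hqd
      · obtain ⟨z, hz⟩ := (so_ne_zero_iff (G := G) (m := 2)).1 (by omega)
        have := H3.zpowers_normal_of_mem_center (mem_center_of_so_two e hz)
        refine L.isSolvable_of_normal_of_quotient (Subgroup.zpowers z)
          (L.isSolvable_of_isMulCommutative _) (solv_of_dvd hv h4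
            (Subgroup.card_quotient_dvd_card _) fun h6 => h4 ?_)
        rw [Subgroup.card_eq_card_quotient_mul_card_subgroup (Subgroup.zpowers z), Nat.card_zpowers,
          hz]
        exact Nat.mul_dvd_mul_right h6 2
    · exact odd_case hv e h2
    · exact odd_case hv.symm e h2
  · exact solv_of_dvd hv (fun h4 => h2 (dvd_trans (by norm_num) h4)) dvd_rfl h2

end Cfsg.Agent.S3996
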