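import Cfsg.Statements.S3998
import Cfsg.Agent.H4.OrderType

set_option autoImplicit false
open Cfsg

namespace Cfsg.Agent.S3998

open Subgroup Cfsg.Agent.L Cfsg.Agent.H1 Cfsg.Agent.H4


/-- Let G and H be finite groups with the same order type (for every m the same number of elements of order m). If G is supersolvable then H is solvable. -/
theorem result {G H : Type*} [Group G] [Finite G] [Group H] [Finite H] (hT : (∀ m : ℕ, Nat.card {g : G // orderOf g = m} = Nat.card {h : H // orderOf h = m})) (hG : Cfsg.IsSupersolvable G) :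
    Group.IsSolvable H := by
  obtain ⟨e, he⟩ := exists_equiv_orderOf hT
  have key : ∀ d k : ℕ, Nat.card H < k + d →
      ∃ M : Subgroup H, M.Normal ∧ IsPiHall {q | k ≤ q} M ∧ Group.IsSolvable M := by
    intro d
    induction d with
    | zero =>
      intro k hk
      refine ⟨⊥, inferInstance, ⟨isPiSubgroup_bot _, fun p _ hp hd => ?_⟩, inferInstance⟩
      rw [index_bot] at hd
      have := Nat.le_of_dvd Nat.card_pos hd
      have : k ≤ p := hp
      omega
    | succ d ih =>
      intro k hk
      obtain ⟨M, hM, hH, hs⟩ := ih (k + 1) (by omega)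
      by_cases hp : k.Prime
      · have : Fact k.Prime := ⟨hp⟩
        obtain ⟨P⟩ : Nonempty (Sylow k H) := inferInstance
        have h1 := isPiHall_sup_sylow hH P
        have h2 : insert k {q | k + 1 ≤ q} = {q | k ≤ q} := by
          ext q; simp only [Set.mem_insert_iff, Set.mem_setOf_eq]; omega
        rw [h2] at h1
        exact ⟨_, normal_of_isPiHall_of_equiv e he (IsSupersolvable.isPiHall_piCore hG k) h1, h1,
          isSolvable_sup_of_normal (isSolvable_of_isPGroup P.isPGroup') hs⟩
      · refine ⟨M, hM, ⟨fun p hp' hd => ?_, fun p hp' hπ => hH.2 p hp' ?_⟩, hs⟩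
        · have : k + 1 ≤ p := hH.1 p hp' hd
          show k ≤ p
          omega
        · have h1 : k ≤ p := hπ
          have h2 : k ≠ p := fun h => hp (h ▸ hp')
          show k + 1 ≤ p
          omega
  obtain ⟨M, -, hH, hs⟩ := key (Nat.card H + 1) 0 (by omega)
  have : M = ⊤ := by
    rw [← index_eq_one]
    by_contra hne
    obtain ⟨p, hp, hd⟩ := Nat.exists_prime_and_dvd hne
    exact hH.2 p hp (Nat.zero_le p) hd
  subst this
  exact Group.isSolvable_of_surjective (f := (⊤ : Subgroup H).subtype) fun x => ⟨⟨x, trivial⟩, rfl⟩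

end Cfsg.Agent.S3998
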