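import Cfsg.Statements.S3999
import Cfsg.Agent.H4.FrobOrder

set_option autoImplicit false
open Cfsg

namespace Cfsg.Agent.S3999

open Subgroup Cfsg.Agent.L Cfsg.Agent.H4


/-- Let F be a finite Frobenius group (it has a Frobenius complement) and G a finite group with the same order type as F (for every m the same number of elements of order m). Then G is a Frobenius group; moreover G is solvable if and only if F is. -/
theorem result {F G : Type*} [Group F] [Finite F] [Group G] [Finite G] (hF : (∃ C : Subgroup F, Cfsg.IsFrobeniusComplement C)) (hT : (∀ m : ℕ, Nat.card {g : F // orderOf g = m} = Nat.card {h : G // orderOf h = m})) :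
    (∃ C : Subgroup G, Cfsg.IsFrobeniusComplement C) ∧ (Group.IsSolvable G ↔ Group.IsSolvable F) := by
  obtain ⟨e, he⟩ := exists_equiv_orderOf hT
  obtain ⟨C, hC⟩ := hF
  obtain ⟨K, hKn, -, hK, -⟩ := H9.frob_exists_isFrobAction hC
  set π : Set ℕ := {q | q ∣ Nat.card K} with hπ
  have hKH : IsPiHall π K := ⟨fun q _ hd => hd, fun q hq hd hd' =>
    hq.one_lt.ne' (Nat.eq_one_of_dvd_coprimes (H9.frob_coprime_kernel_index hC hK) hd hd')⟩
  have hLH := isPiHall_piCore_of_equiv e he hKH (H5.isNilpotent_frobeniusKernel hC hK)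
  set L := piCore π G with hL
  have hcard : Nat.card F = Nat.card G := Nat.card_congr e
  have hKL : Nat.card K = Nat.card L := card_eq_of_isPiHall_of_card_eq hKH hLH hcard
  have hL1 : L ≠ ⊥ := fun h => H9.frob_kernel_ne_bot hC hK (by
    rw [← card_eq_one, hKL, h, card_bot])
  have hL2 : L ≠ ⊤ := fun h => H9.frob_kernel_ne_top hC hK (by
    apply eq_top_of_card_eq
    rw [hKL, h, card_top, hcard])
  obtain ⟨D, hD, hDL⟩ := H9.exists_frob_of_forall_not_mem hL1 hL2 (by
    intro x hx k hk hc
    by_contra hk1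
    rw [mem_iff_of_normal_isPiHall hLH] at hx hk
    obtain ⟨q, hq, hqx, hqπ⟩ : ∃ q : ℕ, q.Prime ∧ q ∣ orderOf x ∧ q ∉ π := by
      by_contra hcon
      push Not at hcon
      exact hx hcon
    obtain ⟨r, hr, hrk⟩ := Nat.exists_prime_and_dvd (fun h => hk1 (orderOf_eq_one_iff.1 h))
    have hrπ := hk r hr hrk
    have hqr : q.Coprime r := (Nat.coprime_primes hq hr).2 (fun h => hqπ (h ▸ hrπ))
    have o1 := orderOf_pow_orderOf_div (orderOf_pos x).ne' hqx
    have o2 := orderOf_pow_orderOf_div (orderOf_pos k).ne' hrk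
    have hcm : Commute (x ^ (orderOf x / q)) (k ^ (orderOf k / r)) := Commute.pow_pow hc _ _
    have o3 := hcm.orderOf_mul_eq_mul_orderOf_of_coprime (by rw [o1, o2]; exact hqr)
    rw [o1, o2] at o3
    set g := e.symm (x ^ (orderOf x / q) * k ^ (orderOf k / r)) with hg
    have o4 : orderOf g = q * r := by rw [← he, hg, Equiv.apply_symm_apply, o3]
    have o5 : orderOf (g ^ q) = r := by
      rw [orderOf_pow_of_dvd hq.ne_zero (o4 ▸ dvd_mul_right q r), o4,
        Nat.mul_div_cancel_left _ hq.pos]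
    have h1 : g ^ q ∈ K := mem_of_normal_isPiHall hKH fun s hs hd => by
      rw [o5] at hd
      rw [(Nat.prime_dvd_prime_iff_eq hs hr).1 hd]; exact hrπ
    have h2 : g ∈ K := H9.frob_centralizer_le_kernel hC hK h1 (fun h => by
      rw [h, orderOf_one] at o5; exact hr.one_lt.ne o5)
      (mem_centralizer_singleton_iff.2 ((Commute.refl g).pow_right q).eq)
    exact hqπ ((mem_iff_of_normal_isPiHall hKH).1 h2 q hq (o4 ▸ dvd_mul_right q r)))
  refine ⟨⟨D, hD⟩, fun h => ?_, fun h => ?_⟩
  · exact isSolvable_of_frob_of_equiv e.symm (fun g => by rw [← he, Equiv.apply_symm_apply])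
      hD hDL hC hK hKL.symm
  · exact isSolvable_of_frob_of_equiv e he hC hK hD hDL hKL

end Cfsg.Agent.S3999
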