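import Cfsg.Statements.S4001
import Cfsg.Agent.H9.TwoFrob
import Cfsg.Agent.L.SimpleRed

set_option autoImplicit false
open Cfsg

namespace Cfsg.Agent.S4001

/-- Let G be a 2-Frobenius group: it has normal subgroups H < K with K a Frobenius group with kernel H and G/H a Frobenius group with kernel K/H. Then G is solvable; K/H has odd order coprime to the order of H and to the order of G/K (it is the image of an odd-order Hall subgroup); G/K is cyclic; and the prime graph of G has exactly two connected components, both complete: for distinct primes p, q dividing the order of G, G has an element of order pq exactly when p and q either both divide the order of K/H or both do not. -/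
theorem result {G : Type*} [Group G] [Finite G] (H K : Subgroup G) [H.Normal] [K.Normal] (hlt : H < K)
    (hK : ∃ C : Subgroup ↥K, Cfsg.IsFrobeniusComplement C ∧ Cfsg.frobeniusKernel C = (H.subgroupOf K : Set ↥K))
    (hGH : ∃ C : Subgroup (G ⧸ H), Cfsg.IsFrobeniusComplement C ∧ Cfsg.frobeniusKernel C = (K.map (QuotientGroup.mk' H) : Set (G ⧸ H))) :
    Group.IsSolvable G ∧ Odd (Nat.card (↥K ⧸ H.subgroupOf K)) ∧
      Nat.Coprime (Nat.card (↥K ⧸ H.subgroupOf K)) (Nat.card ↥H * Nat.card (G ⧸ K)) ∧ IsCyclic (G ⧸ K) ∧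
      ∀ p q : ℕ, p.Prime → q.Prime → p ≠ q → p ∣ Nat.card G → q ∣ Nat.card G →
        ((∃ g : G, orderOf g = p * q) ↔ (p ∣ Nat.card (↥K ⧸ H.subgroupOf K) ↔ q ∣ Nat.card (↥K ⧸ H.subgroupOf K))) := by
  obtain ⟨C, hC, hCK⟩ := hK
  obtain ⟨D, hD, hDK⟩ := hGH
  obtain ⟨hodd, hCc, hDc, hc⟩ := H9.twoFrob_cyclic hC hCK hD hDK
  have hcC : Nat.card (↥K ⧸ H.subgroupOf K) = Nat.card C := H9.frob_index_kernel hC hCK
  have hcH : Nat.card (H.subgroupOf K) = Nat.card H := H2.card_subgroupOf_of_le hlt.le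
  have eD : (G ⧸ K) ≃* D := (QuotientGroup.quotientQuotientEquivQuotient H K hlt.le).symm.trans
    (H9.frob_isComplement' hD hDK).symm.QuotientMulEquiv
  have hcD : Nat.card (G ⧸ K) = Nat.card D := Nat.card_congr eD.toEquiv
  have hGK : IsCyclic (G ⧸ K) := isCyclic_of_surjective _ eD.symm.surjective
  have hHn : Group.IsNilpotent H :=
    (H2.isNilpotent_subgroupOf_iff hlt.le).1 (H5.isNilpotent_frobeniusKernel hC hCK)
  have hKn := H5.isNilpotent_frobeniusKernel hD hDK
  have cop1 : (Nat.card C).Coprime (Nat.card H) := hcH ▸ (H9.frob_coprime_kernel hC hCK).symm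
  have cop2 : (Nat.card C).Coprime (Nat.card (G ⧸ K)) :=
    hcD ▸ hc ▸ H9.frob_coprime_kernel hD hDK
  have hcK : Nat.card K = Nat.card H * Nat.card C := by
    rw [← hcH, (H9.frob_isComplement' hC hCK).card_mul_card]
  have hcG : Nat.card G = Nat.card H * Nat.card C * Nat.card (G ⧸ K) := by
    rw [← hcK]; exact (K.card_mul_index).symm
  have fa : ∀ x ∈ K, x ∉ H → ∀ h ∈ H, x * h = h * x → h = 1 := fun x hx hxH h hh e =>
    congrArg Subtype.val (H9.frob_kernel_eq_one_of_commute hC hCK (x := ⟨x, hx⟩)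
      (k := ⟨h, hlt.le hh⟩) hxH hh (Subtype.ext e))
  have fb : ∀ x, x ∉ K → ∀ k ∈ K, x * k = k * x → k ∈ H := by
    intro x hx k hk e
    refine (QuotientGroup.eq_one_iff k).1 (H9.frob_kernel_eq_one_of_commute hD hDK
      (x := QuotientGroup.mk' H x) (k := QuotientGroup.mk' H k) (fun h => hx ?_)
      (Subgroup.mem_map_of_mem _ hk) (by rw [← map_mul, ← map_mul, e]))
    rwa [← Subgroup.mem_comap, QuotientGroup.comap_map_mk', sup_eq_right.2 hlt.le] at h
  have inK : ∀ (x : G) (r : ℕ), r.Prime → r ∣ Nat.card C → orderOf x = r → x ∈ K ∧ x ∉ H := by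
    intro x r hr hd ho
    refine ⟨H8.mem_of_coprime_index (ho ▸ Nat.Coprime.coprime_dvd_left hd cop2), fun hx => ?_⟩
    exact (Nat.Prime.coprime_iff_not_dvd hr).1 (Nat.Coprime.coprime_dvd_left hd cop1)
      (ho ▸ H.orderOf_dvd_natCard hx)
  have key1 : ∀ p q : ℕ, p.Prime → q.Prime → p ≠ q → (∃ g : G, orderOf g = p * q) →
      p ∣ Nat.card C → q ∣ Nat.card C := by
    rintro p q hp hq hpq ⟨g, hg⟩ hpC
    obtain ⟨a, ha⟩ := H9.exists_pow_orderOf_eq (x := g) (hg ▸ dvd_mul_right p q)
    obtain ⟨b, hb⟩ := H9.exists_pow_orderOf_eq (x := g) (hg ▸ dvd_mul_left q p)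
    obtain ⟨h1, h2⟩ := inK _ p hp hpC ha
    have h3 : g ^ b ∈ K := by
      by_contra h
      exact h2 (fb _ h _ h1 (Commute.pow_pow_self g b a))
    have h4 : g ^ b ∉ H := by
      intro h
      rw [fa _ h1 h2 _ h (Commute.pow_pow_self g a b), orderOf_one] at hb
      exact hq.one_lt.ne hb
    have h5 : orderOf (QuotientGroup.mk' H (g ^ b)) = q := by
      refine ((Nat.dvd_prime hq).1 (hb ▸ orderOf_map_dvd _ _)).resolve_left fun h => h4 ?_
      exact (QuotientGroup.eq_one_iff _).1 (orderOf_eq_one_iff.1 h)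
    rw [hc, ← h5]
    exact Subgroup.orderOf_dvd_natCard _ (Subgroup.mem_map_of_mem _ h3)
  have key2 : ∀ p q : ℕ, p.Prime → q.Prime → p ≠ q → p ∣ Nat.card H → ¬ q ∣ Nat.card H →
      ¬ q ∣ Nat.card C → q ∣ Nat.card G → ∃ g : G, orderOf g = p * q := by
    intro p q hp hq hpq hpH hqH hqC hqG
    by_contra hno
    obtain ⟨r, hr, hrC⟩ := Nat.exists_prime_and_dvd
      (mt Subgroup.card_eq_one.1 (H9.frob_ne_bot hC))
    have := Fact.mk hr
    obtain ⟨ρ, -, hρ⟩ := H9.exists_mem_orderOf_eq_prime (A := (⊤ : Subgroup G)) hr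
      (by rw [Subgroup.card_top, hcG]; exact (hrC.mul_left _).mul_right _)
    obtain ⟨hρK, hρH⟩ := inK ρ r hr hrC hρ
    set R := Subgroup.zpowers ρ with hR
    have hcR : Nat.card R = r := by rw [hR, Nat.card_zpowers, hρ]
    have hrH : ¬ r ∣ Nat.card H :=
      (Nat.Prime.coprime_iff_not_dvd hr).1 (Nat.Coprime.coprime_dvd_left hrC cop1)
    have hRH : R ≤ Subgroup.normalizer (H : Set G) := le_top.trans (Subgroup.normalizer_eq_top H).ge
    have hn : (R ⊔ H).Normal := by
      have e : R ⊔ H = (R.map (QuotientGroup.mk' H)).comap (QuotientGroup.mk' H) := by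
        rw [QuotientGroup.comap_map_mk', sup_comm]
      rw [e]
      have hcyc : IsCyclic (K.map (QuotientGroup.mk' H)) := by
        have hφ := H9.frob_isFrobAction hD hDK
        refine isCyclic_of_surjective (((QuotientGroup.mk' H).subgroupMap K).comp C.subtype) ?_
        rintro ⟨_, k, hk, rfl⟩
        obtain ⟨⟨h, c⟩, e⟩ := (H9.frob_isComplement' hC hCK).2 ⟨k, hk⟩
        refine ⟨c, Subtype.ext ?_⟩
        have e' : ((h : K) : G) * ((c : K) : G) = k := congrArg Subtype.val e
        change QuotientGroup.mk' H ((c : K) : G) = QuotientGroup.mk' H k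
        rw [← e', map_mul, QuotientGroup.mk'_apply H ((h : K) : G),
          (QuotientGroup.eq_one_iff ((h : K) : G)).2 h.2, one_mul]
      have := H9.normal_of_le_isCyclic (K.map (QuotientGroup.mk' H))
        (Subgroup.map_mono (Subgroup.zpowers_le.2 hρK : R ≤ K))
      infer_instance
    have hfr : Subgroup.normalizer (R : Set G) ⊔ H = ⊤ := by
      refine eq_top_iff.2 fun x _ => ?_
      obtain ⟨g, hg, hgx⟩ := H1.frattini_argument (p := r) (le_sup_left : R ≤ R ⊔ H)
        (IsPGroup.of_card (n := 1) (by rw [hcR, pow_one])) (by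
          intro h
          have h1 := H1.card_sup_dvd hRH
          rw [← H1.card_mul_relIndex (le_sup_left : R ≤ R ⊔ H)] at h1
          exact hrH (h.trans (Nat.dvd_of_mul_dvd_mul_left Nat.card_pos h1)))
        (x := x) ((Subgroup.normalizer_eq_top _).ge (Subgroup.mem_top x))
      have h1 : g ∈ Subgroup.normalizer (R : Set G) ⊔ H :=
        sup_le_sup_right Subgroup.le_normalizer H hg
      simpa using mul_mem (inv_mem h1) (Subgroup.mem_sup_left hgx)
    have hqN : q ∣ Nat.card (Subgroup.normalizer (R : Set G)) := by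
      have h1 := H1.card_sup_dvd (A := Subgroup.normalizer (R : Set G)) (N := H)
        (le_top.trans (Subgroup.normalizer_eq_top H).ge)
      rw [hfr, Subgroup.card_top] at h1
      exact ((Nat.Prime.dvd_mul hq).1 (hqG.trans h1)).resolve_right hqH
    obtain ⟨y, hyN, hy⟩ := H9.exists_mem_orderOf_eq_prime hq hqN
    have hyK : y ∉ K := by
      intro h
      have := hy ▸ K.orderOf_dvd_natCard h
      rw [hcK] at this
      exact ((Nat.Prime.dvd_mul hq).1 this).elim hqH hqC
    set A := Subgroup.zpowers y ⊔ R with hA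
    have hcA : Nat.card A ∣ q * r := by
      have := H1.card_sup_dvd (Subgroup.zpowers_le.2 hyN)
      rwa [Nat.card_zpowers, hy, hcR] at this
    set P := pCoreOf p H with hP
    have hP1 : Nontrivial P := (Subgroup.nontrivial_iff_ne_bot _).2
      (H9.pCoreOf_ne_bot_of_isNilpotent hHn hp hpH)
    have hAP : A ≤ Subgroup.normalizer (P : Set G) := (le_top.trans
      (Subgroup.normalizer_eq_top H).ge).trans (H2.normalizer_le_normalizer_pCoreOf p H)
    have hφ := H9.isFrobAction_conjAction hAP (by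
      intro a ha ha1 k hk e
      by_contra hk1
      obtain ⟨l, hl, hla⟩ := Nat.exists_prime_and_dvd (mt orderOf_eq_one_iff.1 ha1)
      rcases (Nat.Prime.dvd_mul hl).1 (hla.trans ((A.orderOf_dvd_natCard ha).trans hcA)) with h | h
      · obtain rfl := (Nat.prime_dvd_prime_iff_eq hl hq).1 h
        have := Fact.mk hp
        obtain ⟨j, hj⟩ := H8.exists_orderOf_eq_pow_of_mem (H2.isPGroup_pCoreOf p H) hk
        refine hno (H9.exists_orderOf_eq_mul_of_commute (x := k) (y := a) e.symm
          ((Nat.coprime_primes hp hq).2 hpq) ?_ hla)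
        rw [hj]
        refine dvd_pow_self p fun h0 => hk1 ?_
        rwa [h0, pow_zero, orderOf_eq_one_iff] at hj
      · obtain rfl := (Nat.prime_dvd_prime_iff_eq hl hr).1 h
        obtain ⟨i, hi⟩ := H9.exists_pow_orderOf_eq hla
        obtain ⟨h1, h2⟩ := inK _ l hl hrC hi
        exact hk1 (fa _ h1 h2 k (H2.pCoreOf_le p H hk) (Commute.pow_left e i)))
    have hρA : ρ ∈ A := Subgroup.mem_sup_right (Subgroup.mem_zpowers ρ)
    have hyA : y ∈ A := Subgroup.mem_sup_left (Subgroup.mem_zpowers y)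
    have hcomm := hφ.commute_of_normalizes hq hr (a := ⟨ρ, hρA⟩) (b := ⟨y, hyA⟩)
      (by rw [Subgroup.orderOf_mk, hρ]) (Subtype.ext (hy ▸ pow_orderOf_eq_one y)) (by
        have e : Subgroup.zpowers (⟨ρ, hρA⟩ : A) = R.subgroupOf A := by
          ext x
          rw [Subgroup.mem_subgroupOf, hR, Subgroup.mem_zpowers_iff, Subgroup.mem_zpowers_iff]
          exact exists_congr fun k => Subtype.ext_iff
        rw [e, ← Subgroup.subgroupOf_normalizer_eq le_sup_right]
        exact hyN)
    exact hρH (fb y hyK ρ hρK (congrArg Subtype.val hcomm.eq).symm)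
  refine ⟨?_, hcC ▸ hodd, hcC ▸ Nat.Coprime.mul_right cop1 cop2, hGK, ?_⟩
  · have : Group.IsSolvable K := L.isSolvable_of_map_mk' H K inferInstance
    exact L.isSolvable_of_normal_of_quotient K inferInstance inferInstance
  · intro p q hp hq hpq hpG hqG
    rw [hcC]
    refine ⟨fun h => ⟨key1 p q hp hq hpq h, key1 q p hq hp hpq.symm (mul_comm p q ▸ h)⟩,
      fun h => ?_⟩
    by_cases hpC : p ∣ Nat.card C
    · have hcm := H2.card_map_subtype C
      have := L.isNilpotent_of_isMulCommutative C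
      exact H9.exists_orderOf_eq_mul_of_isNilpotent (A := C.map K.subtype)
        (L.isNilpotent_map _ _) hp hq hpq (hcm ▸ hpC) (hcm ▸ h.1 hpC)
    have hqC : ¬ q ∣ Nat.card C := fun h' => hpC (h.2 h')
    by_cases hpH : p ∣ Nat.card H <;> by_cases hqH : q ∣ Nat.card H
    · exact H9.exists_orderOf_eq_mul_of_isNilpotent hHn hp hq hpq hpH hqH
    · exact key2 p q hp hq hpq hpH hqH hqC hqG
    · exact mul_comm q p ▸ key2 q p hq hp hpq.symm hqH hpH hpC hpG
    · have := L.isNilpotent_of_isMulCommutative (G ⧸ K)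
      refine H9.exists_orderOf_eq_of_surjective (QuotientGroup.mk'_surjective K)
        (H9.exists_orderOf_eq_mul_of_isNilpotent (A := ⊤) inferInstance hp hq hpq ?_ ?_) <;>
        rw [Subgroup.card_top]
      · rw [hcG] at hpG
        exact ((Nat.Prime.dvd_mul hp).1 hpG).resolve_left fun h =>
          ((Nat.Prime.dvd_mul hp).1 h).elim hpH hpC
      · rw [hcG] at hqG
        exact ((Nat.Prime.dvd_mul hq).1 hqG).resolve_left fun h =>
          ((Nat.Prime.dvd_mul hq).1 h).elim hqH hqC

end Cfsg.Agent.S4001
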