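import Cfsg.Statements.S4002
import Cfsg.Agent.H4.Higman

set_option autoImplicit false
open Cfsg

namespace Cfsg.Agent.S4002

theorem three_primes (n : ℕ) (hn : 7 ≤ n) : ∃ p q r : ℕ, p.Prime ∧ q.Prime ∧ r.Prime ∧ p < q ∧ q < r ∧
    r ≤ n ∧ n < p * q := by
  by_cases h1 : n ≤ 14
  · exact ⟨3, 5, 7, by norm_num, by norm_num, by norm_num, by norm_num, by norm_num, hn, by omega⟩
  by_cases h2 : n ≤ 34
  · exact ⟨5, 7, 11, by norm_num, by norm_num, by norm_num, by norm_num, by norm_num, by omega,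
      by omega⟩
  obtain ⟨a, ha, ha4⟩ : ∃ a, 8 * a ≤ n ∧ n ≤ 8 * a + 7 := ⟨n / 8, by omega, by omega⟩
  have h4 : 4 ≤ a := by omega
  obtain ⟨p, hp, hp1, hp2⟩ := Nat.exists_prime_lt_and_le_two_mul a (by omega)
  obtain ⟨q, hq, hq1, hq2⟩ := Nat.exists_prime_lt_and_le_two_mul (2 * a) (by omega)
  obtain ⟨r, hr, hr1, hr2⟩ := Nat.exists_prime_lt_and_le_two_mul (4 * a) (by omega)
  refine ⟨p, q, r, hp, hq, hr, by omega, by omega, by omega, ?_⟩
  have : (a + 1) * (2 * a + 1) ≤ p * q := Nat.mul_le_mul hp1 hq1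
  nlinarith


/-- If the set of element orders of a finite group G is {1, 2, …, n} with n ≥ 7, then G is not solvable. -/
theorem result {G : Type*} [Group G] [Finite G] (n : ℕ) (hn : 7 ≤ n) (h : Set.range (orderOf : G → ℕ) = {k : ℕ | 1 ≤ k ∧ k ≤ n}) : ¬ Group.IsSolvable G := by
  intro hs
  obtain ⟨p, q, r, hp, hq, hr, hpq, hqr, hrn, hn'⟩ := three_primes n hn
  have hd : ∀ s : ℕ, s.Prime → s ≤ n → s ∣ Nat.card G := by
    intro s hs hsn
    have : s ∈ Set.range (orderOf : G → ℕ) := by rw [h]; exact ⟨hs.one_le, hsn⟩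
    obtain ⟨g, rfl⟩ := this
    exact orderOf_dvd_natCard g
  have hle : ∀ g : G, orderOf g ≤ n := fun g => by
    have : orderOf g ∈ Set.range (orderOf : G → ℕ) := ⟨g, rfl⟩
    rw [h] at this; exact this.2
  have h1 : p * q ≤ p * r := Nat.mul_le_mul_left _ hqr.le
  have h2 : p * r ≤ q * r := Nat.mul_le_mul_right _ hpq.le
  rcases H4.exists_orderOf_mul_of_three_primes hp hq hr hpq.ne (by omega) hqr.ne
    (hd p hp (by omega)) (hd q hq (by omega)) (hd r hr hrn) with ⟨g, hg⟩ | ⟨g, hg⟩ | ⟨g, hg⟩ <;>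
  · have := hle g; omega

end Cfsg.Agent.S4002
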