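import Cfsg.Statements.S4004
import Cfsg.Agent.H4.SameOrder
import Cfsg.Agent.H8.MaxSolv

set_option autoImplicit false
open Cfsg

namespace Cfsg.Agent.S4004

open Cfsg.Agent.H4

theorem exists_normal_prime_index {G : Type*} [Group G] [Finite G] [Nontrivial G]
    [Group.IsSolvable G] : ∃ M : Subgroup G, M.Normal ∧ M.index.Prime := by
  obtain ⟨p, hp, h⟩ := H8.exists_pResidual_ne_top_of_isSolvable (G := G)
  have := Fact.mk hp
  have hQ := H8.isPGroup_quotient_pResidual (G := G) hp
  have : Nontrivial (G ⧸ pResidual p G) := QuotientGroup.nontrivial_iff.2 h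
  obtain ⟨M, hM, -⟩ := (eq_top_or_exists_le_coatom (⊥ : Subgroup (G ⧸ pResidual p G))).resolve_left
    bot_ne_top
  have hi := H3.index_eq_of_isCoatom hQ hM
  have := H3.normal_of_index_eq_prime hQ hi
  exact ⟨M.comap (QuotientGroup.mk' _), inferInstance, by
    rwa [Subgroup.index_comap_of_surjective _ (QuotientGroup.mk'_surjective _), hi]⟩

theorem so_mul_ne {G : Type*} [Group G] [Finite G] {a b p q : ℕ} (hp : p.Prime) (hp2 : p ≠ 2)
    (hq : q.Prime) (hq2 : q ≠ 2) (hpq : p ≠ q) (hpd : p ∣ Nat.card G) (ha : so G p = a)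
    (hb : so G q = b) : so G (p * q) ≠ a := by
  intro e
  have h1 := dvd_one_add_so hp hpd
  have h2 := dvd_so_add hp hpd ((Nat.coprime_primes hp hq).2 hpq)
  have h3 := two_mul_so_le (G := G) hp hq hq2 hpq fun h4 => by
    rw [ha] at h1
    rw [e] at h2
    exact false_of_dvd_one_add hp hp2 h1 (c := 0) ((Nat.dvd_add_right h4).1 h2) (Or.inl rfl)
  have := two_le_so_of_odd_prime hp hp2 hpd
  omega

theorem so_sq_eq {G : Type*} [Group G] [Finite G] {a b p q : ℕ} (h : Vals G a b) (hp : p.Prime)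
    (hq : q.Prime) (hq2 : q ≠ 2) (hpq : p ≠ q) (hpd : p ∣ Nat.card G) (hqd : q ∣ Nat.card G)
    (ha : so G p = a) (hb : so G q = b) (h0 : so G (p * q) = 0) : so G (p ^ 2) = 0 := by
  have h1 := dvd_one_add_so hp hpd
  have h1' := dvd_one_add_so hq hqd
  have h3 := prime_dvd_so_sq (G := G) hp
  rcases h (p ^ 2) (by rw [pow_two]; exact two_lt_mul hp hp) with h4 | h4 | h4
  · exact h4
  · rw [ha] at h1
    exact (hp.one_lt.ne' (Nat.dvd_one.1 ((Nat.dvd_add_left (h4 ▸ h3)).1 h1))).elim
  · have h5 := dvd_so_add hq hqd (((Nat.coprime_primes hq hp).2 hpq.symm).pow_right 2)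
    rw [h4] at h5
    rw [hb] at h1'
    exact (false_of_dvd_one_add hq hq2 h1' h5 (Or.inl (so_eq_zero_of_dvd h0
      ⟨p, by ring⟩))).elim

theorem main {G : Type*} [Group G] [Finite G] {a b p q : ℕ} (h : Vals G a b) (hp : p.Prime)
    (hp2 : p ≠ 2) (hq : q.Prime) (hq2 : q ≠ 2) (hpq : p ≠ q) (hpd : p ∣ Nat.card G)
    (hqd : q ∣ Nat.card G) (ha : so G p = a) (hb : so G q = b) :
    so G (p * q) = 0 ∧ so G (p ^ 2) = 0 ∧ so G (q ^ 2) = 0 := by
  have h0 : so G (p * q) = 0 := by
    rcases h _ (two_lt_mul hp hq) with e | e | e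
    · exact e
    · exact (so_mul_ne hp hp2 hq hq2 hpq hpd ha hb e).elim
    · exact (so_mul_ne hq hq2 hp hp2 hpq.symm hqd hb ha (mul_comm p q ▸ e)).elim
  exact ⟨h0, so_sq_eq h hp hq hq2 hpq hpd hqd ha hb h0,
    so_sq_eq h.symm hq hp hp2 hpq.symm hqd hpd hb ha (mul_comm p q ▸ h0)⟩

theorem not_same {G : Type*} [Group G] [Finite G] {a b p q : ℕ} (h : Vals G a b) (hp : p.Prime)
    (hp2 : p ≠ 2) (hq : q.Prime) (hq2 : q ≠ 2) (hpq : p ≠ q) (hpd : p ∣ Nat.card G)
    (hqd : q ∣ Nat.card G) (hall : ∀ t : ℕ, t.Prime → t ∣ Nat.card G → t = p ∨ t = q)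
    (ha : so G p = a) (hb : so G q = a) : False := by
  have hd : Nat.card G ∣ 1 + a := by
    rw [Nat.dvd_iff_prime_pow_dvd_dvd]
    intro t k ht hk
    rcases Nat.eq_zero_or_pos k with rfl | hk0
    · simp
    rcases hall t ht ((dvd_pow_self t hk0.ne').trans hk) with rfl | rfl
    · exact h.pow_dvd ht hp2 hq hpq hpd ha hb hk
    · exact h.pow_dvd ht hq2 hp hpq.symm hqd hb ha hk
  have h5 := Nat.le_of_dvd (by omega) hd
  have h6 := sum_so_le (G := G) {p, q}
  rw [Finset.sum_pair hpq, ha, hb] at h6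
  have := two_le_so_of_odd_prime hp hp2 hpd
  omega


/-- Let G be a finite group of odd order in which the numbers of elements of each order that occurs (the numbers #{g : o(g) = m}, m ranging over the element orders of G) take exactly three different values. Then the order of G has at most two prime divisors; and if it has exactly two, then every Sylow subgroup of G for a prime dividing its order has prime exponent, G is a Frobenius group, and some Frobenius complement of G has prime order. -/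
theorem result {G : Type*} [Group G] [Finite G] (hodd : Odd (Nat.card G)) (h : (((fun m : ℕ => Nat.card {g : G // orderOf g = m}) '' Set.range (orderOf : G → ℕ))).ncard = 3) :
    (Nat.card G).primeFactors.card ≤ 2 ∧
      ((Nat.card G).primeFactors.card = 2 →
        (∀ (p : ℕ) [Fact p.Prime] (P : Sylow p G), p ∣ Nat.card G → Monoid.exponent ↥(P : Subgroup G) = p) ∧
        ∃ C : Subgroup G, Cfsg.IsFrobeniusComplement C ∧ (Nat.card ↥C).Prime) := by
  obtain ⟨a, b, hab⟩ := exists_vals_of_ncard h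
  have hv := vals_of_forall hab
  have h2 : ¬ 2 ∣ Nat.card G := hodd.not_two_dvd_nat
  have ne2 : ∀ t : ℕ, t ∣ Nat.card G → t ≠ 2 := fun t ht e => h2 (e ▸ ht)
  constructor
  · by_contra hc
    push Not at hc
    obtain ⟨p, q, r, hp, hq, hr, hpq, hpr, hqr⟩ := Finset.two_lt_card_iff.1 hc
    have d1 := Nat.dvd_of_mem_primeFactors hp
    have d2 := Nat.dvd_of_mem_primeFactors hq
    have d3 := Nat.dvd_of_mem_primeFactors hr
    exact hv.false_of_three (fun h4 => h2 (dvd_trans (by norm_num) h4))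
      (Nat.prime_of_mem_primeFactors hp) (ne2 _ d1) (Nat.prime_of_mem_primeFactors hq) (ne2 _ d2)
      (Nat.prime_of_mem_primeFactors hr) (ne2 _ d3) hpq hpr hqr d1 d2 d3
  intro hc
  obtain ⟨p, q, hpq, e⟩ := Finset.card_eq_two.1 hc
  have hp' : p ∈ (Nat.card G).primeFactors := by rw [e]; simp
  have hq' : q ∈ (Nat.card G).primeFactors := by rw [e]; simp
  have hp := Nat.prime_of_mem_primeFactors hp'
  have hq := Nat.prime_of_mem_primeFactors hq'
  have hpd := Nat.dvd_of_mem_primeFactors hp'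
  have hqd := Nat.dvd_of_mem_primeFactors hq'
  have hp2 := ne2 _ hpd
  have hq2 := ne2 _ hqd
  have hall : ∀ t : ℕ, t.Prime → t ∣ Nat.card G → t = p ∨ t = q := by
    intro t ht htd
    have : t ∈ (Nat.card G).primeFactors := Nat.mem_primeFactors.2 ⟨ht, htd, Nat.card_pos.ne'⟩
    rw [e] at this
    simpa using this
  have hm : so G (p * q) = 0 ∧ so G (p ^ 2) = 0 ∧ so G (q ^ 2) = 0 := by
    rcases hv.prime hp hp2 hpd with h1 | h1 <;> rcases hv.prime hq hq2 hqd with h3 | h3
    · exact (not_same hv hp hp2 hq hq2 hpq hpd hqd hall h1 h3).elim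
    · exact main hv hp hp2 hq hq2 hpq hpd hqd h1 h3
    · exact main hv.symm hp hp2 hq hq2 hpq hpd hqd h1 h3
    · exact (not_same hv.symm hp hp2 hq hq2 hpq hpd hqd hall h1 h3).elim
  have hsq : ∀ t : ℕ, t.Prime → t ∣ Nat.card G → so G (t ^ 2) = 0 := by
    intro t ht htd
    rcases hall t ht htd with rfl | rfl
    · exact hm.2.1
    · exact hm.2.2
  have hmul : ∀ s t : ℕ, s.Prime → t.Prime → s ≠ t → ∀ g : G, orderOf g ≠ s * t := by
    intro s t hs ht hst g hg
    have h0 : so G (s * t) ≠ 0 := so_ne_zero_iff.2 ⟨g, hg⟩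
    have hd := hg ▸ orderOf_dvd_natCard g
    rcases hall s hs ((dvd_mul_right s t).trans hd) with rfl | rfl <;>
      rcases hall t ht ((dvd_mul_left t s).trans hd) with rfl | rfl
    · exact hst rfl
    · exact h0 hm.1
    · exact h0 (mul_comm s t ▸ hm.1)
    · exact hst rfl
  constructor
  · intro t ht P htd
    have h1 : Monoid.exponent P ∣ t := by
      apply Monoid.exponent_dvd_of_forall_pow_eq_one
      intro x
      obtain ⟨k, hk⟩ := P.isPGroup' x
      exact Subtype.ext (pow_eq_one_of_so_sq ht.out (hsq t ht.out htd) (congrArg Subtype.val hk))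
    refine ((Nat.dvd_prime ht.out).1 h1).resolve_left fun h3 => ?_
    rw [Monoid.exp_eq_one_iff] at h3
    have := P.dvd_card_of_dvd_card htd
    rw [Nat.card_eq_one_iff_unique.2 ⟨h3, inferInstance⟩] at this
    exact ht.out.one_lt.ne' (Nat.dvd_one.1 this)
  · have : Group.IsSolvable G := H6.isSolvable_of_primes_two p q hall
    have : Nontrivial G := by
      rw [← Finite.one_lt_card_iff_nontrivial]
      exact lt_of_lt_of_le hq.one_lt (Nat.le_of_dvd Nat.card_pos hqd)
    obtain ⟨M, hMn, hr⟩ := exists_normal_prime_index (G := G)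
    have hrd : M.index ∣ Nat.card G := M.index_dvd_card
    have hMt : M ≠ ⊤ := fun e => by rw [e, Subgroup.index_top] at hr; exact Nat.not_prime_one hr
    have hdv : ∀ y : G, y ∉ M → M.index ∣ orderOf y := by
      intro y hy
      by_contra hnd
      exact hy (H8.mem_of_coprime_index ((Nat.Prime.coprime_iff_not_dvd hr).2 hnd).symm)
    have hord : ∀ y : G, y ∉ M → y ^ M.index = 1 := by
      intro y hy
      obtain ⟨c, hc⟩ := hdv y hy
      by_cases hc1 : c = 1
      · rw [← orderOf_dvd_iff_pow_eq_one, hc, hc1, mul_one]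
      exfalso
      obtain ⟨t, ht, htc⟩ := Nat.exists_prime_and_dvd hc1
      obtain ⟨k, hk⟩ := H9.exists_pow_orderOf_eq (hc ▸ Nat.mul_dvd_mul_left M.index htc)
      by_cases e : M.index = t
      · exact so_ne_zero_iff.2 ⟨_, hk⟩ (by rw [← e, ← pow_two]; exact hsq _ hr hrd)
      · exact hmul _ _ hr ht e _ hk
    obtain ⟨y, hy⟩ : ∃ y : G, y ∉ M := by
      by_contra hcon
      push Not at hcon
      exact hMt (eq_top_iff.2 fun y _ => hcon y)
    have hnil := H5.isNilpotent_of_coset_pow hr M y (by rw [Subgroup.normalizer_eq_top]; trivial)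
      fun g hg => hord _ fun hm => hy ((Subgroup.mul_mem_cancel_left M hg).1 hm)
    obtain ⟨s, hs, hsd, hsr⟩ : ∃ s : ℕ, s.Prime ∧ s ∣ Nat.card G ∧ s ≠ M.index := by
      by_cases e : p = M.index
      · exact ⟨q, hq, hqd, fun e' => hpq (e.trans e'.symm)⟩
      · exact ⟨p, hp, hpd, e⟩
    have hsM : s ∣ Nat.card M := by
      rw [← M.card_mul_index] at hsd
      exact ((Nat.Prime.dvd_mul hs).1 hsd).resolve_right
        fun h3 => hsr ((Nat.prime_dvd_prime_iff_eq hs hr).1 h3)
    have hM1 : M ≠ ⊥ := by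
      rintro rfl
      rw [Subgroup.card_bot] at hsM
      exact hs.one_lt.ne' (Nat.dvd_one.1 hsM)
    obtain ⟨C, hC, hK⟩ := H9.exists_frob_of_forall_not_mem hM1 hMt (by
      intro x hx k hk hc
      by_contra hk1
      obtain ⟨t, ht, htk⟩ := Nat.exists_prime_and_dvd (mt orderOf_eq_one_iff.1 hk1)
      have hts : t = s := by
        by_contra hts
        obtain ⟨g, hg⟩ := H9.exists_orderOf_eq_mul_of_isNilpotent hnil ht hs hts
          (htk.trans (M.orderOf_dvd_natCard hk)) hsM
        exact hmul _ _ ht hs hts g hg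
      subst hts
      obtain ⟨g, hg⟩ := H9.exists_orderOf_eq_mul_of_commute (x := x) (y := k) hc
        ((Nat.coprime_primes hr ht).2 hsr.symm) (hdv x hx) htk
      exact hmul _ _ hr ht hsr.symm g hg)
    exact ⟨C, hC, H9.frob_index_kernel hC hK ▸ hr⟩

end Cfsg.Agent.S4004
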