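import Cfsg.Statements.S4005
import Cfsg.Agent.H4.Ord4

set_option autoImplicit false
open Cfsg

namespace Cfsg.Agent.S4005


/-- A finite group whose set of element orders is exactly {1, 2, 3} has either a normal elementary abelian 3-subgroup of index 2 or a normal elementary abelian 2-subgroup of index 3. -/
theorem result {G : Type*} [Group G] [Finite G] (h : Set.range (orderOf : G → ℕ) = {k : ℕ | 1 ≤ k ∧ k ≤ 3}) :
    (∃ N : Subgroup G, N.Normal ∧ Cfsg.IsElementaryAbelian 3 N ∧ N.index = 2) ∨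
      (∃ N : Subgroup G, N.Normal ∧ Cfsg.IsElementaryAbelian 2 N ∧ N.index = 3) := by
  have hle : ∀ g : G, 1 ≤ orderOf g ∧ orderOf g ≤ 3 := fun g => by
    have : orderOf g ∈ Set.range (orderOf : G → ℕ) := ⟨g, rfl⟩
    rw [h] at this; exact this
  have h23 : ∀ g : G, g ^ 3 = 1 ∨ g ^ 2 = 1 := by
    intro g
    rw [← orderOf_dvd_iff_pow_eq_one, ← orderOf_dvd_iff_pow_eq_one]
    obtain ⟨h1, h2⟩ := hle g
    interval_cases orderOf g <;> simp
  have h4 : H4.Ord4 G := fun g => (h23 g).imp_right fun e => by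
    rw [show 4 = 2 * 2 from rfl, pow_mul, e, one_pow]
  obtain ⟨t, ht⟩ : 2 ∈ Set.range (orderOf : G → ℕ) := by rw [h]; simp
  obtain ⟨x, hx⟩ : 3 ∈ Set.range (orderOf : G → ℕ) := by rw [h]; simp
  have := h4.isSolvable
  rcases h4.fitting_cases with hF | hF
  · right
    have hsq : ∀ v ∈ fittingSubgroup G, v ^ 2 = 1 := fun v hv => by
      rcases h23 v with e | e
      · rw [H4.eq_one_of_mem_isPGroup_of_coprime hF hv e (by norm_num), one_pow]
      · exact e
    refine ⟨fittingSubgroup G, inferInstance, ⟨⟨⟨fun a b => Subtype.ext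
      (H4.commute_of_sq (hsq _ a.2) (hsq _ b.2) (hsq _ (a * b).2))⟩⟩, hsq⟩, ?_⟩
    rcases (h4.two_case hF hx).2 with h3 | ⟨⟨s, hs, hs2, -⟩, -⟩
    · exact h3
    · exfalso
      apply hs
      apply L.centralizer_fittingSubgroup_le
      rw [Subgroup.mem_centralizer_iff]
      intro v hv
      refine H4.commute_of_sq (hsq v hv) hs2 ((h23 _).resolve_left fun e => hs ?_)
      rw [← QuotientGroup.eq_one_iff]
      have e1 : ((v * s : G) : G ⧸ fittingSubgroup G) = s := by
        rw [QuotientGroup.mk_mul, (QuotientGroup.eq_one_iff _).2 hv, one_mul]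
      calc (s : G ⧸ fittingSubgroup G) = (s : G ⧸ fittingSubgroup G) ^ 3 *
            ((s : G ⧸ fittingSubgroup G) ^ 2)⁻¹ := by group
        _ = 1 := by
          nth_rewrite 1 [← e1]
          rw [← QuotientGroup.mk_pow, ← QuotientGroup.mk_pow, e, hs2]; simp
  · left
    obtain ⟨h1, h2, h3, h5⟩ := h4.three_case hF L.centralizer_fittingSubgroup_le ht
    refine ⟨fittingSubgroup G, inferInstance, h1, ?_⟩
    have hsq : ∀ q : G ⧸ fittingSubgroup G, q ^ 2 = 1 := by
      intro q
      obtain ⟨g, rfl⟩ := QuotientGroup.mk_surjective q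
      rcases h23 g with e | e
      · have : (g : G ⧸ fittingSubgroup G) = 1 := by
          calc (g : G ⧸ fittingSubgroup G) = (g : G ⧸ fittingSubgroup G) ^ 4 *
            ((g : G ⧸ fittingSubgroup G) ^ 3)⁻¹ := by group
          _ = 1 := by rw [h2, ← QuotientGroup.mk_pow, e]; simp
        rw [this, one_pow]
      · rw [← QuotientGroup.mk_pow, e]; rfl
    rcases h5 with hc | ⟨⟨e⟩⟩
    · obtain ⟨g, hg⟩ := IsCyclic.exists_ofOrder_eq_natCard (α := G ⧸ fittingSubgroup G)
      have h6 : orderOf g ∣ 2 := orderOf_dvd_of_pow_eq_one (hsq g)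
      rw [hg] at h6
      exact ((Nat.dvd_prime Nat.prime_two).1 h6).resolve_left Finite.one_lt_card.ne'
    · exfalso
      obtain ⟨y, -, hy, -⟩ := H3.exists_gens_of_mulEquiv_quaternion e
      have h6 : orderOf y ∣ 2 := orderOf_dvd_of_pow_eq_one (hsq y)
      rw [hy] at h6
      norm_num at h6

end Cfsg.Agent.S4005
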