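import Cfsg.Statements.S4006
import Cfsg.Agent.H4.Ord4

set_option autoImplicit false
open Cfsg

namespace Cfsg.Agent.S4006


/-- A finite group whose set of element orders is exactly {1, 2, 3, 4} has a normal subgroup N such that either N is a 2-group of exponent 4 and nilpotency class at most 2 with G/N of order 3, or N is an elementary abelian 2-group with G/N isomorphic to the symmetric group of degree 3, or N is an elementary abelian 3-group with G/N cyclic of order 4 or quaternion of order 8. -/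
theorem result {G : Type*} [Group G] [Finite G] (h : Set.range (orderOf : G → ℕ) = {k : ℕ | 1 ≤ k ∧ k ≤ 4}) :
    ∃ (N : Subgroup G) (_ : N.Normal),
      (IsPGroup 2 ↥N ∧ Monoid.exponent ↥N = 4 ∧ Group.nilpotencyClass ↥N ≤ 2 ∧ N.index = 3) ∨
      (Cfsg.IsElementaryAbelian 2 N ∧ Nonempty (G ⧸ N ≃* Equiv.Perm (Fin 3))) ∨
      (Cfsg.IsElementaryAbelian 3 N ∧ ((IsCyclic (G ⧸ N) ∧ N.index = 4) ∨ Nonempty (G ⧸ N ≃* QuaternionGroup 2))) := by
  have hle : ∀ g : G, 1 ≤ orderOf g ∧ orderOf g ≤ 4 := fun g => by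
    have : orderOf g ∈ Set.range (orderOf : G → ℕ) := ⟨g, rfl⟩
    rw [h] at this; exact this
  have h4 : H4.Ord4 G := by
    intro g
    rw [← orderOf_dvd_iff_pow_eq_one, ← orderOf_dvd_iff_pow_eq_one]
    obtain ⟨h1, h2⟩ := hle g
    interval_cases orderOf g <;> simp
  obtain ⟨t, ht⟩ : 2 ∈ Set.range (orderOf : G → ℕ) := by rw [h]; simp
  obtain ⟨x, hx⟩ : 3 ∈ Set.range (orderOf : G → ℕ) := by rw [h]; simp
  obtain ⟨y, hy⟩ : 4 ∈ Set.range (orderOf : G → ℕ) := by rw [h]; simp
  have hy4 : y ^ 4 = 1 := hy ▸ pow_orderOf_eq_one y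
  have := h4.isSolvable
  refine ⟨fittingSubgroup G, inferInstance, ?_⟩
  rcases h4.fitting_cases with hF | hF
  · obtain ⟨hcos, hc⟩ := h4.two_case hF hx
    have hv4 : ∀ v ∈ fittingSubgroup G, v ^ 4 = 1 := fun v hv => h4.four_of_mem hF hv
    rcases hc with h3 | ⟨⟨s, hs, hs2, hsx⟩, he⟩
    · refine Or.inl ⟨hF, ?_, ?_, h3⟩
      · have hyV : y ∈ fittingSubgroup G := by
          have h5 := H3.pow_mem_of_index_eq h3 y
          have : y = (y ^ 3)⁻¹ := by rw [eq_inv_iff_mul_eq_one, ← pow_succ', hy4]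
          rw [this]; exact Subgroup.inv_mem _ h5
        apply Nat.dvd_antisymm
        · exact Monoid.exponent_dvd_of_forall_pow_eq_one fun v => Subtype.ext (hv4 v v.2)
        · rw [← hy, ← Subgroup.orderOf_mk y hyV]
          exact Monoid.order_dvd_exponent _
      · rw [← Subgroup.lowerCentralSeries_eq_bot_iff_nilpotencyClass_le]
        change ⁅⁅(⊤ : Subgroup (fittingSubgroup G)), ⊤⁆, ⊤⁆ = ⊥
        rw [Subgroup.commutator_eq_bot_iff_le_centralizer, Subgroup.commutator_le]
        intro a _ b _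
        rw [Subgroup.mem_centralizer_iff]
        intro c _
        exact Subtype.ext (H4.commutator_commute_of_coset_cube
          (fun v hv => Subgroup.Normal.conj_mem inferInstance v hv x) hcos hv4 a.2 b.2 c.2).symm
    · refine Or.inr (Or.inl ⟨H4.sq_eq_one_of_symm_three hcos hv4 hs2 hsx fun v hv => ?_, he⟩)
      refine (h4 _).resolve_left fun e => hs ?_
      rw [← QuotientGroup.eq_one_iff]
      have e1 : ((v * s : G) : G ⧸ fittingSubgroup G) = s := by
        rw [QuotientGroup.mk_mul, (QuotientGroup.eq_one_iff _).2 hv, one_mul]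
      calc (s : G ⧸ fittingSubgroup G) = (s : G ⧸ fittingSubgroup G) ^ 3 *
            ((s : G ⧸ fittingSubgroup G) ^ 2)⁻¹ := by group
        _ = 1 := by
          nth_rewrite 1 [← e1]
          rw [← QuotientGroup.mk_pow, ← QuotientGroup.mk_pow, e, hs2]; simp
  · obtain ⟨h1, h2, h3, h5⟩ := h4.three_case hF L.centralizer_fittingSubgroup_le ht
    refine Or.inr (Or.inr ⟨h1, h5.imp_left fun hc => ⟨hc, ?_⟩⟩)
    obtain ⟨g, hg⟩ := @IsCyclic.exists_ofOrder_eq_natCard (G ⧸ fittingSubgroup G) _ hc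
    have h6 : orderOf g ∣ 4 := orderOf_dvd_of_pow_eq_one (h2 g)
    rw [hg] at h6
    apply Nat.dvd_antisymm h6
    have : orderOf (y : G ⧸ fittingSubgroup G) = 2 ^ (1 + 1) := by
      have := Fact.mk Nat.prime_two
      apply orderOf_eq_prime_pow _ (h2 _)
      intro e
      have := H4.eq_one_of_mem_isPGroup_of_coprime (n := 2) hF ((QuotientGroup.eq_one_iff _).1 e)
        (by rw [← pow_mul]; exact hy4) (by norm_num)
      have := orderOf_dvd_of_pow_eq_one this
      rw [hy] at this
      norm_num at this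
    exact (show 4 = 2 ^ (1 + 1) from rfl) ▸ this ▸ orderOf_dvd_natCard _

end Cfsg.Agent.S4006
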