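import Cfsg.Statements.S4008
import Cfsg.Agent.P19.App
import Cfsg.Agent.P19.Main

set_option autoImplicit false
open Cfsg

namespace Cfsg.Agent.S4008

/-- Let G be a finite non-solvable group of even order having an odd prime divisor r of its order such that G has no element of order 2r. Let R be the largest solvable normal subgroup of G. Then G/R has a non-abelian simple normal subgroup S with trivial centralizer (so G/R embeds in the automorphism group of S and contains its inner automorphisms). -/
theorem result {G : Type*} [Group G] [Finite G] (hns : ¬ Group.IsSolvable G) (heven : Even (Nat.card G))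
    (r : ℕ) (hr : r.Prime) (hodd : r ≠ 2) (hrG : r ∣ Nat.card G) (hno : ∀ g : G, orderOf g ≠ 2 * r)
    (R : Subgroup G) [R.Normal] (hRs : Group.IsSolvable ↥R) (hRmax : ∀ N : Subgroup G, N.Normal → Group.IsSolvable ↥N → N ≤ R) :
    ∃ S : Subgroup (G ⧸ R), S.Normal ∧ IsSimpleGroup ↥S ∧ ¬ IsMulCommutative ↥S ∧
      Subgroup.centralizer (S : Set (G ⧸ R)) = ⊥ :=
  P19.App.s4008 P19.cop hns hr hodd hrG hno R hRs hRmax

end Cfsg.Agent.S4008
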