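import Cfsg.Statements.S4197
import Cfsg.Agent.H9.Tree

set_option autoImplicit false
open Cfsg

namespace Cfsg.Agent.S4197

/-- A permutation group of degree n, that is a subgroup S of the symmetric group on a finite set with n elements, has at most 2^(n−1) conjugacy classes. (For n = 0 both sides equal 1 with truncated subtraction.) -/
theorem result {α : Type*} [Fintype α] [DecidableEq α] (S : Subgroup (Equiv.Perm α)) : Nat.card (ConjClasses S) ≤ 2 ^ (Fintype.card α - 1) := by
  have h := H9Tree.classNum_mul_le S α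
  rw [Nat.card_eq_fintype_card (α := α)] at h
  rcases isEmpty_or_nonempty α with e | ⟨⟨a⟩⟩
  · simpa using le_trans (Nat.le_mul_of_pos_right _ (Nat.two_pow_pos _)) h
  · have h1 : 0 < (H9Tree.orbs α (⊤ : Subgroup S)).ncard :=
      (Set.ncard_pos (Set.toFinite _)).2 ⟨_, a, rfl⟩
    have h2 : 0 < Fintype.card α := Fintype.card_pos_iff.2 ⟨a⟩
    refine Nat.le_of_mul_le_mul_right ?_ two_pos
    rw [← pow_succ, Nat.sub_add_cancel h2]
    exact le_trans (Nat.mul_le_mul_left _ (Nat.le_self_pow h1.ne' 2)) h

end Cfsg.Agent.S4197
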