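import Cfsg.Statements.S4202
import Cfsg.Agent.H9.Tree4

set_option autoImplicit false
open Cfsg

namespace Cfsg.Agent.S4202

/-- Let S be a permutation group on a finite set with n ≥ 3 elements (a subgroup of its symmetric group) whose order is not divisible by p, where p is one of 3, 5, 7. Then the number k(S) of conjugacy classes of S satisfies k(S)² ≤ 3^(n−1), that is k(S) ≤ √3^(n−1). -/
theorem result {α : Type*} [Fintype α] [DecidableEq α] (S : Subgroup (Equiv.Perm α)) (hn : 3 ≤ Fintype.card α) (p : ℕ) (hp : p = 3 ∨ p = 5 ∨ p = 7) (hcop : ¬ p ∣ Nat.card S) : Nat.card (ConjClasses S) ^ 2 ≤ 3 ^ (Fintype.card α - 1) := by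
  rw [← Nat.card_eq_fintype_card] at hn ⊢
  refine H9Tree.classNum_sq_le (Or.inl fun h => hcop (Dvd.dvd.trans ?_ h)) hn
  rcases hp with rfl | rfl | rfl <;> decide

end Cfsg.Agent.S4202
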