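import Cfsg.Statements.S4203
import Cfsg.Agent.H9.SylowNum
import Cfsg.Agent.H6.Burnside
import Cfsg.Agent.L.MinNormal

set_option autoImplicit false
open Cfsg

namespace Cfsg.Agent.S4203

open Subgroup

theorem relIndex_modEq {G : Type*} [Group G] [Finite G] {p : ℕ} [Fact p.Prime] {N P M : Subgroup G}
    (hPN : P ≤ N) (hP : IsPGroup p P) (hPi : ¬ p ∣ P.relIndex N)
    (hM : normalizer (P : Set G) ≤ M) : M.relIndex N ≡ 1 [MOD p] := by
  have hPM : P ≤ M ⊓ N := le_inf (le_normalizer.trans hM) hPN
  have h1 := H9.card_sylow_subgroup hPN hP hPi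
  have h2 := H9.card_sylow_subgroup hPM hP (fun h => hPi (h.trans
    ⟨_, (relIndex_mul_relIndex _ _ _ hPM inf_le_right).symm⟩))
  have h3 := card_sylow_modEq_one p N
  have h4 := card_sylow_modEq_one p (M ⊓ N : Subgroup G)
  rw [h1] at h3
  rw [h2] at h4
  have h5 : (normalizer (P : Set G)).relIndex (M ⊓ N) * M.relIndex N =
      (normalizer (P : Set G)).relIndex N := by
    rw [← inf_relIndex_right (normalizer (P : Set G)) (M ⊓ N), ← inf_relIndex_right M N,
      relIndex_mul_relIndex _ _ _ inf_le_right inf_le_right, ← inf_assoc, inf_eq_left.2 hM,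
      inf_relIndex_right]
  rw [← h5] at h3
  have := (h4.mul_right (M.relIndex N)).symm.trans h3
  rwa [one_mul] at this

/-- A finite group in which every maximal subgroup has index a prime or the square of a prime is solvable. -/
theorem result {G : Type*} [Group G] [Finite G] (h : ∀ M : Subgroup G, IsCoatom M → ∃ p : ℕ, p.Prime ∧ (M.index = p ∨ M.index = p ^ 2)) : Group.IsSolvable G := by
  revert h
  refine L.induction_on_card (P := fun G _ _ => (∀ M : Subgroup G, IsCoatom M →
    ∃ p : ℕ, p.Prime ∧ (M.index = p ∨ M.index = p ^ 2)) → Group.IsSolvable G) G ?_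
  intro G _ _ ih h
  rcases subsingleton_or_nontrivial G with hG | hG
  · infer_instance
  obtain ⟨N, hN⟩ := L.exists_isMinNormal (G := G)
  have := hN.1
  have hq : Group.IsSolvable (G ⧸ N) := by
    refine ih _ (L.card_quotient_lt N hN.2.1) fun M hM => ?_
    have h1 := h (M.comap (QuotientGroup.mk' N))
      (Subgroup.isCoatom_comap_of_surjective (QuotientGroup.mk'_surjective N) hM)
    rwa [index_comap_of_surjective _ (QuotientGroup.mk'_surjective N)] at h1
  have hs : Group.IsSolvable N := by
    have hne : (Nat.card N).primeFactors.Nonempty := by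
      rw [Nat.nonempty_primeFactors]
      exact (one_lt_card_iff_ne_bot N).2 hN.2.1
    set p := (Nat.card N).primeFactors.max' hne with hpdef
    have hpm : p ∈ (Nat.card N).primeFactors := Finset.max'_mem _ _
    have hp := Nat.prime_of_mem_primeFactors hpm
    have hmax : ∀ r : ℕ, r.Prime → r ∣ Nat.card N → r ≤ p := fun r hr hrd =>
      Finset.le_max' _ _ (Nat.mem_primeFactors.2 ⟨hr, hrd, Nat.card_pos.ne'⟩)
    have := Fact.mk hp
    obtain ⟨P, hPN, hP, hPi⟩ := H1.exists_sylow_le p N
    by_cases hPn : normalizer (P : Set G) = ⊤
    · have hPb : P ≠ ⊥ := by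
        rintro rfl
        rw [relIndex_bot_left] at hPi
        exact hPi (Nat.dvd_of_mem_primeFactors hpm)
      have := hN.2.2 P (normalizer_eq_top_iff.1 hPn)
      have hPN' : P = N := by tauto
      subst hPN'
      exact H1.isSolvable_of_isPGroup hP
    · obtain ⟨M, hM, hle⟩ := (eq_top_or_exists_le_coatom _).resolve_left hPn
      have h1 := relIndex_modEq hPN hP hPi hle
      have h2 : M ⊔ N = ⊤ := by
        rw [eq_top_iff]
        intro x _
        obtain ⟨g, hg, hgx⟩ := H1.frattini_argument hPN hP hPi (x := x)
          (by rw [normalizer_eq_top]; trivial)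
        have : x = g⁻¹ * (g * x) := by group
        rw [this]
        exact mul_mem (mem_sup_right (inv_mem hg)) (mem_sup_left (hle hgx))
      have h3 : M.relIndex N = M.index := by
        rw [H8.relIndex_eq_relIndex_sup M N (by rw [normalizer_eq_top N]; exact le_top), h2,
          relIndex_top_right]
      obtain ⟨q, hq, hMq⟩ := h M hM
      have hqN : q ∣ Nat.card N := by
        refine dvd_trans ?_ (relIndex_dvd_card M N)
        rw [h3]
        rcases hMq with e | e <;> rw [e]
        exact dvd_pow_self q two_ne_zero
      have hqp := hmax q hq hqN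
      have hq2 := hq.two_le
      rw [h3] at h1
      have hp3 : p ≤ 3 := by
        rcases hMq with e | e <;> rw [e] at h1
        · have := (Nat.modEq_iff_dvd' hq.one_le).1 h1.symm
          have := Nat.le_of_dvd (by omega) this
          omega
        · have h4 := (Nat.modEq_iff_dvd' (Nat.one_le_pow _ _ hq.pos)).1 h1.symm
          have h5 : q ^ 2 - 1 = (q + 1) * (q - 1) := by
            have := Nat.sq_sub_sq q 1
            simpa using this
          rw [h5] at h4
          rcases (Nat.Prime.dvd_mul hp).1 h4 with h6 | h6
          · have h7 := Nat.le_of_dvd (by omega) h6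
            rcases Nat.eq_or_lt_of_le hqp with h8 | h8
            · rw [h8] at h6
              exact absurd ((Nat.dvd_add_right dvd_rfl).1 h6) (by
                rw [Nat.dvd_one]; exact hp.ne_one)
            · have h9 : p = q + 1 := by omega
              rcases hq.eq_two_or_odd' with h10 | h10
              · omega
              · have := hp.eq_two_or_odd'
                rcases this with h11 | h11
                · omega
                · rw [h9] at h11
                  exact absurd h11 (by rw [Nat.not_odd_iff_even]; exact h10.add_one)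
          · have := Nat.le_of_dvd (by omega) h6
            omega
      refine H6.isSolvable_of_primes_two 2 3 fun r hr hrd => ?_
      have := hmax r hr hrd
      have := hr.two_le
      omega
  exact Group.isSolvable_of_ker_le_range N.subtype (QuotientGroup.mk' N) (by simp)

end Cfsg.Agent.S4203
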