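import Cfsg.Statements.S4212
import Cfsg.Agent.H4.FrobCount

set_option autoImplicit false
open Cfsg

namespace Cfsg.Agent.S4212

open Subgroup

theorem card_conj_class {G : Type*} [Group G] (c : G) :
    Nat.card {y : G // IsConj c y} = (centralizer {c}).index := by
  have h : (centralizer {c}).index = (MulAction.stabilizer (ConjAct G) c).index := by
    rw [centralizer_eq_comap_stabilizer]
    exact index_comap_of_surjective _ (ConjAct.toConjAct (G := G)).surjective
  rw [h, MulAction.index_stabilizer, ← Nat.card_coe_set_eq]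
  refine Nat.card_congr (Equiv.subtypeEquivRight fun y => ?_)
  rw [ConjAct.mem_orbit_conjAct, isConj_comm]

theorem card_root_conj {G : Type*} [Group G] {c y : G} (h : IsConj c y) (n : ℕ) :
    Nat.card {x : G // x ^ n = y} = Nat.card {x : G // x ^ n = c} := by
  obtain ⟨g, rfl⟩ := isConj_iff.mp h
  refine (Nat.card_congr (Equiv.subtypeEquiv (MulAut.conj g).toEquiv fun x => ?_)).symm
  show _ ↔ (MulAut.conj g x) ^ n = MulAut.conj g c
  rw [← map_pow, (MulAut.conj g).injective.eq_iff]


/-- Let `G` be a finite group of order `g`, `c` an element whose conjugacy class has `h` elements, and `n` a natural number. Then the number of elements `x` of `G` with `x^n` conjugate to `c` is a multiple of `gcd(hn, g)`. -/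
theorem result {G : Type*} [Group G] [Finite G] (c : G) (n : ℕ) : Nat.gcd (Nat.card {y : G // IsConj c y} * n) (Nat.card G) ∣ Nat.card {x : G // IsConj c (x ^ n)} := by
  classical
  have := Fintype.ofFinite G
  have h1 : Nat.card {x : G // IsConj c (x ^ n)} =
      Nat.card {y : G // IsConj c y} * Nat.card {x : G // x ^ n = c} := by
    let e : {x : G // IsConj c (x ^ n)} ≃ Σ y : {y : G // IsConj c y}, {x : G // x ^ n = y} :=
      { toFun := fun x => ⟨⟨x.1 ^ n, x.2⟩, x.1, rfl⟩
        invFun := fun p => ⟨p.2.1, by rw [p.2.2]; exact p.1.2⟩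
        left_inv := fun x => rfl
        right_inv := by
          rintro ⟨⟨y, hy⟩, x, h⟩
          have h' : x ^ n = y := h
          subst h'
          rfl }
    rw [Nat.card_congr e, Nat.card_sigma]
    rw [Finset.sum_congr rfl (fun y _ => card_root_conj y.2 n)]
    simp
  let C := centralizer ({c} : Set G)
  have hc : c ∈ C := mem_centralizer_singleton_iff.mpr rfl
  have h2 : Nat.card {x : G // x ^ n = c} =
      Nat.card {x : C // x ^ n ∈ ({⟨c, hc⟩} : Set C)} := by
    refine Nat.card_congr
      { toFun := fun x => ⟨⟨x.1, ?_⟩, Subtype.ext x.2⟩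
        invFun := fun x => ⟨x.1.1, congrArg Subtype.val x.2⟩
        left_inv := fun x => rfl
        right_inv := fun x => rfl }
    obtain ⟨x, rfl⟩ := x
    exact mem_centralizer_singleton_iff.mpr (Commute.self_pow _ _).eq
  have h3 := H4.frobenius_dvd_card (G := C) (Nat.gcd_dvd_right n _) (Nat.gcd_dvd_left n _)
    (C := {⟨c, hc⟩}) (by
      rintro g _ rfl
      apply Subtype.ext
      show g.1 * c * g.1⁻¹ = c
      rw [mem_centralizer_singleton_iff.mp g.2]; simp)
  rw [h1, h2, card_conj_class, ← C.index_mul_card, Nat.gcd_mul_left]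
  exact Nat.mul_dvd_mul_left _ h3

end Cfsg.Agent.S4212
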