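import Cfsg.Statements.S4213
import Cfsg.Agent.H4.FrobCount
import Cfsg.Agent.H1.SZ
import Cfsg.Agent.L.MinNormal

set_option autoImplicit false
open Cfsg

namespace Cfsg.Agent.S4213

open Subgroup

theorem of_card_eq {G : Type*} [Group G] [Finite G] {n : ℕ}
    (hcount : Nat.card {x : G // x ^ n = 1} = n) (H : Subgroup G) (hH : Nat.card H = n) :
    ∃ H : Subgroup G, H.Normal ∧ (H : Set G) = {x : G | x ^ n = 1} := by
  have h1 : (H : Set G) = {x : G | x ^ n = 1} := by
    refine Set.eq_of_subset_of_ncard_le (fun x hx => ?_) ?_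
    · exact orderOf_dvd_iff_pow_eq_one.1 (hH ▸ H.orderOf_dvd_natCard hx)
    · rw [← Nat.card_coe_set_eq, ← Nat.card_coe_set_eq]
      exact (hcount.trans hH.symm).le
  refine ⟨H, ⟨fun x hx g => ?_⟩, h1⟩
  have h2 : x ^ n = 1 := (Set.ext_iff.1 h1 x).1 hx
  exact (Set.ext_iff.1 h1 _).2 (by simp [conj_pow, h2])

theorem main (G : Type*) [Group G] [Finite G] : Group.IsSolvable G → ∀ n : ℕ, n ∣ Nat.card G →
    Nat.card {x : G // x ^ n = 1} = n →
    ∃ H : Subgroup G, H.Normal ∧ (H : Set G) = {x : G | x ^ n = 1} := by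
  refine L.induction_on_card (P := fun G _ _ => Group.IsSolvable G → ∀ n : ℕ, n ∣ Nat.card G →
    Nat.card {x : G // x ^ n = 1} = n →
    ∃ H : Subgroup G, H.Normal ∧ (H : Set G) = {x : G | x ^ n = 1}) G ?_
  intro G _ _ ih hs n hn hcount
  rcases subsingleton_or_nontrivial G with hG | hG
  · refine ⟨⊤, inferInstance, ?_⟩
    ext x
    simp [Subsingleton.elim x 1]
  obtain ⟨K, p, hK, hp, hE⟩ := L.exists_isMinNormal_isElementaryAbelian (G := G)
  have := hK.1
  have hfp := Fact.mk hp
  obtain ⟨i, hi⟩ := IsPGroup.iff_card.1 (L.IsElementaryAbelian.isPGroup hE)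
  have hcard := card_eq_card_quotient_mul_card_subgroup K
  have hn0 : 0 < n := Nat.pos_of_dvd_of_pos hn Nat.card_pos
  have ih' := ih (G ⧸ K) (L.card_quotient_lt K hK.2.1) inferInstance
  have hpos : ∀ u : ℕ, 0 < Nat.card {x : G ⧸ K // x ^ u = 1} := fun u =>
    Nat.card_pos_iff.2 ⟨⟨⟨1, one_pow u⟩⟩, inferInstance⟩
  by_cases hpn : p ∣ n
  · set g := n.gcd (Nat.card K) with hg
    have hg0 : 0 < g := Nat.gcd_pos_of_pos_left _ hn0
    obtain ⟨u, hu⟩ : g ∣ n := Nat.gcd_dvd_left _ _
    obtain ⟨v, hv⟩ : g ∣ Nat.card K := Nat.gcd_dvd_right _ _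
    have huv : u.Coprime v := by
      have h1 := Nat.gcd_mul_left g u v
      rw [← hu, ← hv, ← hg] at h1
      exact (Nat.eq_of_mul_eq_mul_left hg0 ((mul_one g).trans h1)).symm
    have hu1 : u ∣ Nat.card (G ⧸ K) := by
      refine huv.dvd_of_dvd_mul_right (Nat.dvd_of_mul_dvd_mul_left hg0 ?_)
      rw [← hu, mul_left_comm, ← hv, ← hcard]
      exact hn
    have hpg : p ∣ g := by
      refine Nat.dvd_gcd hpn ?_
      rw [hi]
      refine dvd_pow_self p ?_
      rintro rfl
      exact hK.2.1 (card_eq_one.1 (by simpa using hi))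
    obtain ⟨k, hk⟩ := H4.frobenius_dvd_card_pow_eq_one hu1 dvd_rfl
    have h1 : Nat.card {x : G ⧸ K // x ^ u = 1} * Nat.card K ≤ n := by
      have h2 := QuotientGroup.card_preimage_mk K {x : G ⧸ K | x ^ u = 1}
      rw [mul_comm, ← hcount]
      refine h2.ge.trans (Nat.card_le_card_of_injective
        (fun x => ⟨x.1, ?_⟩) fun x y h => Subtype.ext (by simpa using h))
      have h3 : x.1 ^ u ∈ K := (QuotientGroup.eq_one_iff _).1 x.2
      obtain ⟨t, ht⟩ := hpg
      rw [hu, ht, mul_comm, pow_mul, pow_mul, hE.2 _ h3, one_pow]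
    have hk0 : 0 < k := by
      have := hpos u
      rw [hk] at this
      exact Nat.pos_of_mul_pos_left this
    have hv0 : 0 < v := by
      have := Nat.card_pos (α := K)
      rw [hv] at this
      exact Nat.pos_of_mul_pos_left this
    have hu0 : 0 < u := Nat.pos_of_dvd_of_pos hu1 Nat.card_pos
    have h2 : k * v ≤ 1 := by
      refine Nat.le_of_mul_le_mul_left ?_ (Nat.mul_pos hg0 hu0)
      rw [hk, hv] at h1
      calc g * u * (k * v) = u * k * (g * v) := by ring
        _ ≤ n := h1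
        _ = g * u * 1 := by rw [mul_one, hu]
    have hk1 : k = 1 := by nlinarith
    have hv1 : v = 1 := by nlinarith
    obtain ⟨H, -, hH⟩ := ih' u hu1 (by rw [hk, hk1, mul_one])
    refine of_card_eq hcount (H.comap (QuotientGroup.mk' K)) ?_
    have h3 : Nat.card H = u := by
      rw [← SetLike.coe_sort_coe, hH]
      exact hk.trans (by rw [hk1, mul_one])
    rw [L.card_comap_mk', h3, hv, hv1, mul_one, hu, mul_comm]
  · have hcop : n.Coprime (Nat.card K) := by
      rw [hi]
      exact ((Nat.Prime.coprime_iff_not_dvd hp).2 hpn).symm.pow_right i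
    have hn1 : n ∣ Nat.card (G ⧸ K) := hcop.dvd_of_dvd_mul_right (hcard ▸ hn)
    have h1 : Nat.card {x : G ⧸ K // x ^ n = 1} ≤ n := by
      conv_rhs => rw [← hcount]
      refine Nat.card_le_card_of_surjective (fun x : {x : G // x ^ n = 1} =>
        (⟨x.1, by rw [← QuotientGroup.mk_pow, x.2]; rfl⟩ : {x : G ⧸ K // x ^ n = 1})) ?_
      rintro ⟨y, hy⟩
      obtain ⟨y, rfl⟩ := QuotientGroup.mk_surjective y
      obtain ⟨a, ha1, ha2⟩ := Nat.chineseRemainder hcop 1 0
      have h2 : y ^ n ∈ K := (QuotientGroup.eq_one_iff _).1 hy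
      refine ⟨⟨y ^ a, ?_⟩, Subtype.ext ?_⟩
      · obtain ⟨t, rfl⟩ := (Nat.modEq_zero_iff_dvd).1 ha2
        rw [← pow_mul, mul_comm, pow_mul, pow_mul,
          orderOf_dvd_iff_pow_eq_one.1 (K.orderOf_dvd_natCard h2), one_pow]
      · show ((y : G ⧸ K)) ^ a = y
        conv_rhs => rw [← pow_one (y : G ⧸ K)]
        exact pow_eq_pow_of_modEq ha1 hy
    have h2 : Nat.card {x : G ⧸ K // x ^ n = 1} = n :=
      le_antisymm h1 (Nat.le_of_dvd (hpos n) (H4.frobenius_dvd_card_pow_eq_one hn1 dvd_rfl))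
    obtain ⟨H, -, hH⟩ := ih' n hn1 h2
    have h3 : Nat.card H = n := by
      rw [← SetLike.coe_sort_coe, hH]
      exact h2
    have h4 : K.relIndex (H.comap (QuotientGroup.mk' K)) = n := by
      rw [L.relIndex_eq_card_map_mk',
        map_comap_eq_self_of_surjective (QuotientGroup.mk'_surjective K), h3]
    obtain ⟨C, -, -, -, hC⟩ := H1.exists_complement_of_coprime (QuotientGroup.le_comap_mk' K H)
      le_normalizer_of_normal (h4 ▸ hcop.symm)
    exact of_card_eq hcount C (hC.trans h4)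


/-- If `G` is a finite solvable group and `n` divides the order of `G` and exactly `n` elements `x` of `G` satisfy `x^n = 1`, then these elements form a normal subgroup. -/
theorem result {G : Type*} [Group G] [Finite G] [Group.IsSolvable G] (n : ℕ) (hn : n ∣ Nat.card G) (hcount : Nat.card {x : G // x ^ n = 1} = n) : ∃ H : Subgroup G, H.Normal ∧ (H : Set G) = {x : G | x ^ n = 1} := by
  exact main G inferInstance n hn hcount

end Cfsg.Agent.S4213
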