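import Cfsg.Statements.S4214
import Cfsg.Agent.H9.SylowNum
import Cfsg.Agent.H1.Hall
import Cfsg.Agent.H8.MaxSolv
import Cfsg.Agent.L.PLength

set_option autoImplicit false
open Cfsg

namespace Cfsg.Agent.S4214

open Subgroup

/-- the property required of each factor -/
def Good (G : Type*) [Group G] (m f : ℕ) : Prop :=
  (∃ q e : ℕ, q.Prime ∧ f = q ^ e) ∧ (∃ K L : Subgroup G, K.Normal ∧ L.Normal ∧ K < L ∧
    (∀ M : Subgroup G, M.Normal → K ≤ M → M ≤ L → M = K ∨ M = L) ∧ f ∣ K.relIndex L) ∧
    (∃ q : ℕ, q.Prime ∧ q ∣ m ∧ f ≡ 1 [MOD q])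

theorem Good.of_quotient {G : Type*} [Group G] (N : Subgroup G) [N.Normal] {m m' f : ℕ}
    (hm : m' ∣ m) (h : Good (G ⧸ N) m' f) : Good G m f := by
  obtain ⟨h1, ⟨K, L, hK, hL, hKL, hmin, hf⟩, q, hq, hqm, hfq⟩ := h
  have hs := QuotientGroup.mk'_surjective N
  refine ⟨h1, ⟨K.comap (QuotientGroup.mk' N), L.comap (QuotientGroup.mk' N), hK.comap _,
    hL.comap _, (comap_lt_comap_of_surjective hs).2 hKL, fun M hM h2 h3 => ?_, ?_⟩,
    q, hq, hqm.trans hm, hfq⟩
  · have hNM : N ≤ M := (QuotientGroup.le_comap_mk' N K).trans h2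
    have e : (M.map (QuotientGroup.mk' N)).comap (QuotientGroup.mk' N) = M := by
      rw [comap_map_eq, QuotientGroup.ker_mk', sup_eq_left.2 hNM]
    rcases hmin (M.map (QuotientGroup.mk' N)) (hM.map _ hs)
      (by rw [← map_comap_eq_self_of_surjective hs K]; exact map_mono h2)
      (map_le_iff_le_comap.2 h3) with h | h
    · left; rw [← h, e]
    · right; rw [← h, e]
  · rwa [Cfsg.Agent.L.relIndex_comap_mk']

theorem centralizer_chain {G : Type*} [Group G] [Finite G] [Group.IsSolvable G] {q : ℕ}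
    [hq : Fact q.Prime] {N : Subgroup G} [N.Normal] (hN : IsPGroup q N) (H : Subgroup G) :
    (Nat.card H).Coprime (Nat.card N) → ∃ l : List ℕ,
      (centralizer (H : Set G)).relIndex N = l.prod ∧ ∀ f ∈ l, f ∣ Nat.card N ∧
        ∃ r : ℕ, r.Prime ∧ r ∣ Nat.card H ∧ f ≡ 1 [MOD r] := by
  induction H using H1.subgroup_strong_induction with | h H ih => ?_
  intro hcop
  by_cases hH : H = ⊥
  · refine ⟨[], ?_, by simp⟩
    rw [hH, List.prod_nil, relIndex_eq_one]
    intro x _ y hy
    rw [SetLike.mem_coe, mem_bot] at hy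
    simp [hy]
  have : Nontrivial H := (nontrivial_iff_ne_bot H).2 hH
  obtain ⟨r, hr, hrH⟩ := H8.exists_pResidual_ne_top_of_isSolvable (G := H)
  have := Fact.mk hr
  set K := pResidualOf r H with hK
  have hKH : K < H := by
    refine lt_of_le_of_ne (H8.pResidualOf_le r H) fun h => hrH ?_
    apply map_injective H.subtype_injective
    rw [← MonoidHom.range_eq_map, range_subtype]
    exact h
  obtain ⟨k, hk⟩ := H8.exists_relIndex_pResidualOf (p := r) H
  have hrd : r ∣ Nat.card H := by
    refine dvd_trans ?_ (relIndex_dvd_card K H)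
    rw [hk]
    refine dvd_pow_self r ?_
    rintro rfl
    rw [pow_zero, relIndex_eq_one] at hk
    exact hKH.not_ge hk
  obtain ⟨R, hRH, hR, hRi⟩ := H1.exists_sylow_le r H
  have hsup : R ⊔ K = H := by
    have hle : R ⊔ K ≤ H := sup_le hRH hKH.le
    refine le_antisymm hle (relIndex_eq_one.1 ?_)
    have h1 : (R ⊔ K).relIndex H ∣ r ^ k := hk ▸ relIndex_dvd_of_le_left H le_sup_right
    have h2 : (R ⊔ K).relIndex H ∣ R.relIndex H := relIndex_dvd_of_le_left H le_sup_left
    exact (Nat.Coprime.pow_right k (((Nat.Prime.coprime_iff_not_dvd hr).2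
      fun h => hRi (h.trans h2)).symm)).eq_one_of_dvd h1
  obtain ⟨l, hl, hl'⟩ := ih K hKH (hcop.coprime_dvd_left (card_dvd_of_le hKH.le))
  set M := centralizer (K : Set G) ⊓ N with hM
  have hRM : R ≤ normalizer (M : Set G) :=
    H1.le_normalizer_inf (H1.le_normalizer_centralizer 
      (hRH.trans (le_normalizer.trans (H8.le_normalizer_pResidualOf r H))))
      (by rw [normalizer_eq_top N]; exact le_top)
  have hrM : ¬ r ∣ Nat.card M := fun h =>
    hr.ne_one (Nat.eq_one_of_dvd_coprimes hcop hrd (h.trans (card_dvd_of_le inf_le_right)))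
  have h1 := H9.partsOne_relIndex_centralizer hR hRM hrM q hq.out
  obtain ⟨a, ha⟩ := (hN.to_le (inf_le_right : M ≤ N)).index ((centralizer (R : Set G)).subgroupOf M)
  change (centralizer (R : Set G)).relIndex M = q ^ a at ha
  rw [ha, hq.out.factorization_pow, Finsupp.single_eq_same] at h1
  refine ⟨q ^ a :: l, ?_, ?_⟩
  · rw [List.prod_cons, ← hl, ← ha, ← inf_relIndex_right (centralizer (K : Set G)) N,
      ← inf_relIndex_right (centralizer (R : Set G)) M,
      relIndex_mul_relIndex _ _ _ inf_le_right inf_le_right, ← inf_assoc, inf_relIndex_right,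
      ← hsup]
    congr 1
    apply le_antisymm
    · exact le_inf (centralizer_le (SetLike.coe_subset_coe.2 le_sup_left))
        (centralizer_le (SetLike.coe_subset_coe.2 le_sup_right))
    · rw [← le_centralizer_iff, sup_le_iff]
      exact ⟨le_centralizer_iff.1 inf_le_left, le_centralizer_iff.1 inf_le_right⟩
  · intro f hf
    rcases List.mem_cons.1 hf with rfl | hf
    · exact ⟨ha ▸ (relIndex_dvd_card _ M).trans (card_dvd_of_le inf_le_right), r, hr, hrd, h1⟩
    · obtain ⟨h2, s, hs, hsK, h3⟩ := hl' f hf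
      exact ⟨h2, s, hs, hsK.trans (card_dvd_of_le hKH.le), h3⟩

theorem main (G : Type*) [Group G] [Finite G] : Group.IsSolvable G → ∀ H : Subgroup G,
    (Nat.card H).Coprime H.index → ∃ l : List ℕ, (normalizer (H : Set G)).index = l.prod ∧
      ∀ f ∈ l, Good G (Nat.card H) f := by
  refine L.induction_on_card (P := fun G _ _ => Group.IsSolvable G → ∀ H : Subgroup G,
    (Nat.card H).Coprime H.index → ∃ l : List ℕ, (normalizer (H : Set G)).index = l.prod ∧
      ∀ f ∈ l, Good G (Nat.card H) f) G ?_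
  intro G _ _ ih hs H hH
  rcases subsingleton_or_nontrivial G with hG | hG
  · exact ⟨[], by rw [List.prod_nil, index_eq_one]; exact Subsingleton.elim _ _, by simp⟩
  obtain ⟨N, hN⟩ := L.exists_isMinNormal (G := G)
  have := hN.1
  obtain ⟨q, hq, hNq⟩ := hN.exists_isPGroup
  have := Fact.mk hq
  have hsurj := QuotientGroup.mk'_surjective N
  obtain ⟨l, hl, hl'⟩ := ih (G ⧸ N) (L.card_quotient_lt N hN.2.1) inferInstance
    (H.map (QuotientGroup.mk' N))
    ((hH.coprime_dvd_left (card_map_dvd H _)).coprime_dvd_right (index_map_dvd H hsurj))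
  have hl2 : ∀ f ∈ l, Good G (Nat.card H) f := fun f hf =>
    Good.of_quotient N (card_map_dvd H _) (hl' f hf)
  by_cases hqH : q ∣ Nat.card H
  · have hNH : N ≤ H := L.le_of_isPiSubgroup_of_index ((L.isPiSubgroup_singleton_iff hq).2 hNq)
      (fun r hr hrq hd => by
        rw [Set.mem_singleton_iff] at hrq
        subst hrq
        exact hr.ne_one (Nat.eq_one_of_dvd_coprimes hH hqH hd))
    refine ⟨l, ?_, hl2⟩
    rw [← hl, ← index_comap_of_surjective _ hsurj, comap_normalizer_eq_of_surjective _ hsurj,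
      comap_map_eq, QuotientGroup.ker_mk', sup_eq_left.2 hNH]
  · have hcop : (Nat.card H).Coprime (Nat.card N) := by
      obtain ⟨n, hn⟩ := IsPGroup.iff_card.1 hNq
      rw [hn]
      exact Nat.Coprime.pow_right n ((Nat.Prime.coprime_iff_not_dvd hq).2 hqH).symm
    obtain ⟨l1, hl1, hl1'⟩ := centralizer_chain hNq H hcop
    refine ⟨l1 ++ l, ?_, ?_⟩
    · rw [List.prod_append, ← hl, ← hl1, H1.normalizer_map_mk' N hcop (Or.inl inferInstance),
        index_map, QuotientGroup.ker_mk', QuotientGroup.range_mk', index_top, mul_one,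
        ← inf_relIndex_right (centralizer (H : Set G)) N, inf_comm,
        ← H1.inf_normalizer_eq_inf_centralizer (by rw [normalizer_eq_top N]; exact le_top)
          (H1.inf_eq_bot_of_coprime' hcop), inf_comm, inf_relIndex_right,
        H8.relIndex_eq_relIndex_sup _ N (by rw [normalizer_eq_top N]; exact le_top),
        relIndex_mul_index le_sup_left]
    · intro f hf
      rcases List.mem_append.1 hf with hf | hf
      · obtain ⟨h1, h2⟩ := hl1' f hf
        refine ⟨?_, ⟨⊥, N, inferInstance, hN.1, bot_lt_iff_ne_bot.2 hN.2.1,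
          fun M hM _ hMN => ?_, by rwa [relIndex_bot_left]⟩, h2⟩
        · obtain ⟨n, hn⟩ := IsPGroup.iff_card.1 hNq
          rw [hn] at h1
          obtain ⟨e, -, he⟩ := (Nat.dvd_prime_pow hq).1 h1
          exact ⟨q, e, hq, he⟩
        · have := hN.2.2 M hM
          tauto
      · exact hl2 f hf

/-- Let `G` be a finite solvable group of order `mn` with `gcd(m, n) = 1`. Then the number of subgroups of order `m` is a product of natural numbers each of which is a power of a prime, divides the order of some chief factor of `G` (a quotient `L/K` of normal subgroups `K < L` of `G` with no normal subgroup of `G` strictly between them), and is congruent to `1` modulo some prime divisor of `m`. -/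
theorem result {G : Type*} [Group G] [Finite G] [Group.IsSolvable G] (m n : ℕ) (hG : Nat.card G = m * n) (hmn : Nat.Coprime m n) : ∃ (k : ℕ) (f : Fin k → ℕ), Nat.card {H : Subgroup G // Nat.card H = m} = ∏ i, f i ∧ ∀ i, (∃ q e : ℕ, q.Prime ∧ f i = q ^ e) ∧ (∃ K L : Subgroup G, K.Normal ∧ L.Normal ∧ K < L ∧ (∀ M : Subgroup G, M.Normal → K ≤ M → M ≤ L → M = K ∨ M = L) ∧ f i ∣ K.relIndex L) ∧ (∃ q : ℕ, q.Prime ∧ q ∣ m ∧ f i ≡ 1 [MOD q]) := by
  let π : Set ℕ := {p | p ∣ m}
  have hm0 : 0 < m := Nat.pos_of_mul_pos_right (hG ▸ Nat.card_pos)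
  have hall : ∀ K : Subgroup G, IsPiHall π K ↔ Nat.card K = m := by
    intro K
    have hK := K.card_mul_index
    constructor
    · rintro ⟨h1, h2⟩
      have c1 : (Nat.card K).Coprime n := Nat.Coprime.symm <| Nat.coprime_of_dvd fun p hp hpn hpK =>
        hp.ne_one (Nat.eq_one_of_dvd_coprimes hmn (h1 p hp hpK) hpn)
      have c2 : m.Coprime K.index := Nat.coprime_of_dvd fun p hp hpm => h2 p hp hpm
      exact Nat.dvd_antisymm (c1.dvd_of_dvd_mul_right (hG ▸ K.card_subgroup_dvd_card))
        (c2.dvd_of_dvd_mul_right (by rw [hK, hG]; exact dvd_mul_right m n))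
    · intro h
      have hi : K.index = n := by
        rw [h, hG] at hK
        exact Nat.eq_of_mul_eq_mul_left hm0 hK
      exact ⟨fun p _ hp => show p ∣ m from h ▸ hp, fun p hp hpm hd =>
        hp.ne_one (Nat.eq_one_of_dvd_coprimes hmn hpm (hi ▸ hd))⟩
  obtain ⟨H, hH⟩ := H1.exists_isPiHall_of_isSolvable (G := G) π
  have hHm := (hall H).1 hH
  have hi : H.index = n := by
    have hK := H.card_mul_index
    rw [hHm, hG] at hK
    exact Nat.eq_of_mul_eq_mul_left hm0 hK
  obtain ⟨l, hl, hl'⟩ := main G inferInstance H (by rwa [hHm, hi])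
  rw [hHm] at hl'
  refine ⟨l.length, l.get, ?_, fun i => hl' _ (List.get_mem l i)⟩
  rw [← List.prod_ofFn, List.ofFn_get, ← hl]
  let f : G ⧸ normalizer (H : Set G) → {K : Subgroup G // Nat.card K = m} :=
    Quotient.lift (fun g => ⟨H.map (MulAut.conj g).toMonoidHom, by rw [H1.card_map_conj, hHm]⟩)
      (fun a b hab => by
        have h := H1.map_conj_eq_self_iff.2 (QuotientGroup.leftRel_apply.1 hab)
        refine Subtype.ext ?_
        show H.map _ = H.map _
        conv_lhs => rw [← h]
        rw [H1.map_conj_map_conj, mul_inv_cancel_left])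
  refine (Nat.card_congr (Equiv.ofBijective f ⟨?_, ?_⟩)).symm
  · intro a b
    induction a using QuotientGroup.induction_on with | H a => ?_
    induction b using QuotientGroup.induction_on with | H b => ?_
    intro h
    have h' : H.map (MulAut.conj a).toMonoidHom = H.map (MulAut.conj b).toMonoidHom :=
      congrArg Subtype.val h
    rw [QuotientGroup.eq, ← H1.map_conj_eq_self_iff, ← H1.map_conj_map_conj, ← h',
      H1.map_conj_map_conj, inv_mul_cancel, H1.map_conj_one]
  · rintro ⟨K, hK⟩
    obtain ⟨g, hg⟩ := H1.exists_conj_eq_isPiHall_of_isSolvable ((hall K).2 hK) hH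
    exact ⟨(g : G ⧸ normalizer (H : Set G)), Subtype.ext hg⟩

end Cfsg.Agent.S4214
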