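import Cfsg.Statements.S4216
import Cfsg.Agent.H8.Frobenius

set_option autoImplicit false
open Cfsg

namespace Cfsg.Agent.S4216

/-- Grün's first Theorem: if `P` is a Sylow `p`-subgroup of the finite group `G`, then `P ∩ G'` is the subgroup generated by `P ∩ N_G(P)'` together with the subgroups `P ∩ z P' z⁻¹` for all `z ∈ G`, where `'` denotes the derived subgroup and `N_G(P)` the normalizer of `P`. -/
theorem result {G : Type*} [Group G] [Finite G] {p : ℕ} [Fact p.Prime] (P : Sylow p G) : (P : Subgroup G) ⊓ commutator G = ((P : Subgroup G) ⊓ ⁅Subgroup.normalizer ((P : Subgroup G) : Set G), Subgroup.normalizer ((P : Subgroup G) : Set G)⁆) ⊔ ⨆ z : G, (P : Subgroup G) ⊓ (⁅(P : Subgroup G), (P : Subgroup G)⁆).map (MulAut.conj z).toMonoidHom := by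
  apply le_antisymm
  · rw [inf_comm, Subgroup.commutator_inf_eq_focalSubgroup]
    set K := ((P : Subgroup G) ⊓ ⁅Subgroup.normalizer ((P : Subgroup G) : Set G),
      Subgroup.normalizer ((P : Subgroup G) : Set G)⁆) ⊔ _ with hK
    rw [Subgroup.focalSubgroup_def, Subgroup.closure_le]
    rintro _ ⟨hg, x, hx, u, rfl⟩
    have h3 : u * x * u⁻¹ ∈ (P : Subgroup G) := by
      have : u * x * u⁻¹ = (x * u * x⁻¹ * u⁻¹)⁻¹ * x := by group
      rw [this]
      exact mul_mem (inv_mem hg) hx
    have := H8.alperin_induction P (fun D g => ∀ d ∈ D, d * g * d⁻¹ * g⁻¹ ∈ K)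
      (fun D D' g hle h d hd => h d (hle hd))
      (fun D g k h1 h2 d hd => by
        have := K.mul_mem (h1 d hd) (h2 _ (H8.conj_mem_conj_smul g hd))
        convert this using 1
        group)
      (fun d _ => by simp)
      (fun Q _ hQ y hy1 ⟨k, hy2⟩ d hd => by
        apply Subgroup.mem_sup_right
        obtain ⟨n, hn, hn2⟩ := H8.exists_conj_le_of_not_dvd_relIndex P.isPGroup'.to_inf_left
          (H8.isPGroup_zpowers_of_orderOf hy2) (Subgroup.zpowers_le.2 hy1) hQ.1
        have h4 := hn2 (H8.conj_mem_conj_smul n (Subgroup.mem_zpowers y))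
        have h5 := (Subgroup.mem_normalizer_iff.1 hn d).1 hd
        refine Subgroup.mem_iSup_of_mem n⁻¹ ⟨?_, _, Subgroup.commutator_mem_commutator h5.1 h4.1, ?_⟩
        · have := (P : Subgroup G).mul_mem hd.1
            ((Subgroup.mem_normalizer_iff.1 hy1 _).1 (inv_mem hd)).1
          rw [← mul_assoc, ← mul_assoc] at this
          exact this
        · simp [commutatorElement_def, mul_assoc])
      (fun y hy d hd => Subgroup.mem_sup_left ⟨Subgroup.le_normalizer_iff_commutator_le_left.1 le_rfl
        (Subgroup.commutator_mem_commutator hd hy),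
        Subgroup.commutator_mem_commutator (Subgroup.le_normalizer hd) hy⟩)
      (Subgroup.zpowers x) ((Subgroup.zpowers_le).2 hx) u (by
        rw [H8.conj_smul_eq_map, MonoidHom.map_zpowers]; exact (Subgroup.zpowers_le).2 h3)
    exact this x (Subgroup.mem_zpowers x)
  · refine sup_le (inf_le_inf_left _ (Subgroup.commutator_mono le_top le_top))
      (iSup_le fun z => inf_le_inf_left _ ?_)
    rw [Subgroup.map_commutator]
    exact Subgroup.commutator_mono le_top le_top

end Cfsg.Agent.S4216
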