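import Cfsg.Statements.S4217
import Cfsg.Agent.H7.Gaschutz

set_option autoImplicit false
open Cfsg

namespace Cfsg.Agent.S4217

/-- Let `A` be an abelian normal subgroup of the finite group `G`. Then `A` has a complement in `G` if and only if, for every prime `p` dividing the index of `A`, there are a Sylow `p`-subgroup `S` of `G/A` and a subgroup `K` of `G` with `K ∩ A = 1` and `KA` equal to the preimage of `S` (that is, `A` has a complement in the preimage of a Sylow `p`-subgroup of `G/A`). -/
theorem result {G : Type*} [Group G] [Finite G] (A : Subgroup G) [A.Normal] (hA : IsMulCommutative A) : (∃ K : Subgroup G, K.IsComplement' A) ↔ ∀ p : ℕ, p.Prime → p ∣ A.index → ∃ (S : Sylow p (G ⧸ A)) (K : Subgroup G), K ⊓ A = ⊥ ∧ K ⊔ A = (S : Subgroup (G ⧸ A)).comap (QuotientGroup.mk' A) := by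
  constructor
  · rintro ⟨K, hK⟩ p hp _
    have : Fact p.Prime := ⟨hp⟩
    obtain ⟨S⟩ : Nonempty (Sylow p (G ⧸ A)) := inferInstance
    refine ⟨S, K ⊓ (S : Subgroup (G ⧸ A)).comap (QuotientGroup.mk' A), ?_, ?_⟩
    · rw [eq_bot_iff, ← hK.disjoint.eq_bot]
      exact inf_le_inf_right _ inf_le_left
    · have hAS : A ≤ (S : Subgroup (G ⧸ A)).comap (QuotientGroup.mk' A) := by
        intro a ha
        rw [Subgroup.mem_comap, QuotientGroup.mk'_apply, (QuotientGroup.eq_one_iff a).2 ha]
        exact one_mem _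
      apply le_antisymm (sup_le inf_le_right hAS)
      intro x hx
      obtain ⟨⟨k, a⟩, rfl⟩ := hK.2 x
      refine Subgroup.mul_mem_sup ⟨k.2, ?_⟩ a.2
      have := Subgroup.mul_mem _ hx (Subgroup.inv_mem _ (hAS a.2))
      rwa [mul_inv_cancel_right] at this
  · intro h
    apply H7.gaschutz_of_forall_prime
    intro p hp hpA
    have : Fact p.Prime := ⟨hp⟩
    obtain ⟨S, K, h1, h2⟩ := h p hp hpA
    refine ⟨_, K, h1, h2, ?_⟩
    rw [Subgroup.index_comap_of_surjective _ (QuotientGroup.mk'_surjective A)]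
    exact S.not_dvd_index

end Cfsg.Agent.S4217
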