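import Cfsg.Statements.S4218
import Cfsg.Agent.H7.AutPGroup
import Cfsg.Agent.L.PLength

set_option autoImplicit false
open Cfsg

namespace Cfsg.Agent.S4218

theorem mem_pCore_of_frattini {G : Type*} [Group G] [Finite G] {p : ℕ} [hp : Fact p.Prime]
    (hG : Cfsg.IsPSolvable p G) (h1 : pPrimeCore p G = ⊥) (g : G)
    (hg : ∀ x : pCore p G, MulAut.conjNormal g x * x⁻¹ ∈ frattini (pCore p G)) : g ∈ pCore p G := by
  let φ : G →* MulAut (pCore p G) := MulAut.conjNormal
  let A := (H7.quotAut (frattini (pCore p G))).ker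
  have hA : IsPGroup p A := H7.isPGroup_of_trivial_on_frattini_quotient (L.isPGroup_pCore p) A
    fun α hα => (H7.mem_ker_quotAut _ α).1 hα
  have hker : φ.ker ≤ pCore p G := by
    refine le_trans ?_ (L.centralizer_pCore_le hp.out hG h1)
    intro y hy x hx
    have : φ y ⟨x, hx⟩ = ⟨x, hx⟩ := by rw [MonoidHom.mem_ker.1 hy]; rfl
    have h2 : y * x * y⁻¹ = x := congrArg Subtype.val this
    rw [mul_inv_eq_iff_eq_mul] at h2
    exact h2.symm
  have hK : IsPGroup p (A.comap φ) :=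
    hA.comap_of_ker_isPGroup φ ((L.isPGroup_pCore p).to_le hker)
  exact L.le_pCore inferInstance hK ((H7.mem_ker_quotAut _ _).2 hg)

/-- Let `G` be a finite `p`-solvable group, `N₀ = O_{p'}(G)`, `P₁ = O_{p',p}(G)`, and let `F ≤ P₁` be the preimage of the Frattini subgroup of `P₁/N₀`. Then an element `g` of `G` induces the identity on `P₁/F` by conjugation (that is, `g x g⁻¹ x⁻¹ ∈ F` for all `x ∈ P₁`) if and only if `g ∈ P₁`: the group `G/P₁` acts faithfully on `P₁/F`. -/
theorem result {G : Type*} [Group G] [Finite G] {p : ℕ} [Fact p.Prime] (hG : Cfsg.IsPSolvable p G) (g : G) : (∀ x ∈ Cfsg.pPrimePCore p G, g * x * g⁻¹ * x⁻¹ ∈ ((frattini (↥(Cfsg.pPrimePCore p G) ⧸ (Cfsg.pPrimeCore p G).subgroupOf (Cfsg.pPrimePCore p G))).comap (QuotientGroup.mk' ((Cfsg.pPrimeCore p G).subgroupOf (Cfsg.pPrimePCore p G)))).map (Cfsg.pPrimePCore p G).subtype) ↔ g ∈ Cfsg.pPrimePCore p G := by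
  have hp : Fact p.Prime := inferInstance
  constructor
  · intro h
    let f : pPrimePCore p G →* pCore p (G ⧸ pPrimeCore p G) :=
      ((QuotientGroup.mk' (pPrimeCore p G)).comp (pPrimePCore p G).subtype).codRestrict _
        (fun x => x.2)
    let fb : ↥(pPrimePCore p G) ⧸ (pPrimeCore p G).subgroupOf (pPrimePCore p G) →*
        pCore p (G ⧸ pPrimeCore p G) := QuotientGroup.lift _ f (fun x hx =>
      Subtype.ext ((QuotientGroup.eq_one_iff (x : G)).2 hx))
    have hfb : Function.Surjective fb := by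
      rintro ⟨y, hy⟩
      obtain ⟨x, rfl⟩ := QuotientGroup.mk_surjective y
      exact ⟨((⟨x, hy⟩ : pPrimePCore p G) : _ ⧸ _), rfl⟩
    refine mem_pCore_of_frattini (L.IsPSolvable.quotient hp.out hG _)
      (L.pPrimeCore_quotient_pPrimeCore hp.out) (g : G ⧸ pPrimeCore p G) ?_
    rintro ⟨y, hy⟩
    obtain ⟨x, rfl⟩ := QuotientGroup.mk_surjective y
    obtain ⟨z, hz, hzx⟩ := h x hy
    have := frattini_le_comap_frattini_of_surjective hfb hz
    rw [Subgroup.mem_comap] at this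
    convert this using 1
    refine Subtype.ext ?_
    show _ = ((z : G) : G ⧸ pPrimeCore p G)
    have hzx' : (z : G) = g * x * g⁻¹ * x⁻¹ := hzx
    rw [hzx']
    rfl
  · intro hg x hx
    have hpg : IsPGroup p (↥(pPrimePCore p G) ⧸ (pPrimeCore p G).subgroupOf (pPrimePCore p G)) := by
      intro y
      obtain ⟨y, rfl⟩ := QuotientGroup.mk_surjective y
      obtain ⟨k, hk⟩ := L.isPGroup_pCore p (G := G ⧸ pPrimeCore p G) ⟨(y : G), y.2⟩
      refine ⟨k, ?_⟩
      rw [← QuotientGroup.mk_pow, QuotientGroup.eq_one_iff, Subgroup.mem_subgroupOf,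
        ← QuotientGroup.eq_one_iff]
      exact congrArg Subtype.val hk
    have := hpg.isNilpotent
    refine ⟨⟨g, hg⟩ * ⟨x, hx⟩ * ⟨g, hg⟩⁻¹ * ⟨x, hx⟩⁻¹, ?_, rfl⟩
    apply H7.commutator_le_frattini
    simp only [map_mul, map_inv]
    exact Subgroup.commutator_mem_commutator (Subgroup.mem_top _) (Subgroup.mem_top _)

end Cfsg.Agent.S4218
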