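import Cfsg.Statements.S4219
import Cfsg.Agent.H1.Basic

set_option autoImplicit false
open Cfsg

namespace Cfsg.Agent.S4219

/-- Let a finite group `G` act `t`-fold transitively on a finite set, let `H` be the stabilizer of `t` distinct points and `P` a Sylow `p`-subgroup of `H`. Then the normalizer of `P` in `G` is `t`-fold transitive on the fixed points of `P`: any `t` distinct fixed points of `P` can be carried to any other `t` distinct fixed points of `P` by an element normalizing `P`. -/
theorem result {G : Type*} [Group G] [Finite G] {α : Type*} [Fintype α] [MulAction G α] {t : ℕ} (hG : MulAction.IsMultiplyPretransitive G α t) (x : Fin t ↪ α) {p : ℕ} [Fact p.Prime] (P : Sylow p (MulAction.stabilizer G x)) (a b : Fin t ↪ α) (ha : ∀ i, a i ∈ MulAction.fixedPoints ((P : Subgroup (MulAction.stabilizer G x)).map (MulAction.stabilizer G x).subtype) α) (hb : ∀ i, b i ∈ MulAction.fixedPoints ((P : Subgroup (MulAction.stabilizer G x)).map (MulAction.stabilizer G x).subtype) α) : ∃ g ∈ Subgroup.normalizer ((((P : Subgroup (MulAction.stabilizer G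 x)).map (MulAction.stabilizer G x).subtype) : Subgroup G) : Set G), g • a = b := by
  have := hG
  set Q := (P : Subgroup (MulAction.stabilizer G x)).map (MulAction.stabilizer G x).subtype with hQ
  have hQp : IsPGroup p Q := P.isPGroup'.map _
  have hQH : Q ≤ MulAction.stabilizer G x := Subgroup.map_subtype_le _
  have hQi : ¬ p ∣ Q.relIndex (MulAction.stabilizer G x) := by
    rw [Subgroup.relIndex, hQ, Subgroup.subgroupOf,
      Subgroup.comap_map_eq_self_of_injective (MulAction.stabilizer G x).subtype_injective]
    exact P.not_dvd_index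
  have key : ∀ c : Fin t ↪ α, (∀ i, c i ∈ MulAction.fixedPoints Q α) →
      ∃ n ∈ Subgroup.normalizer (Q : Set G), n • c = x := by
    intro c hc
    obtain ⟨g, hg⟩ := MulAction.exists_smul_eq G c x
    have h1 : Q.map (MulAut.conj g).toMonoidHom ≤ MulAction.stabilizer G x := by
      rw [H1.map_conj_le_iff]
      intro y hy
      rw [MulAction.mem_stabilizer_iff, ← hg, mul_smul, mul_smul, inv_smul_smul]
      congr 1
      ext i
      exact hc i ⟨y, hy⟩
    obtain ⟨h, hh, hle⟩ := H1.exists_conj_le_sylow hQp hQi h1 (hQp.map _)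
    rw [H1.map_conj_map_conj] at hle
    refine ⟨h * g, H1.map_conj_eq_self_iff.1
      (H1.eq_of_le_of_card_le hle (H1.card_map_conj _ _).ge), ?_⟩
    rw [mul_smul, hg]
    exact hh
  obtain ⟨n, hn, hna⟩ := key a ha
  obtain ⟨m, hm, hmb⟩ := key b hb
  exact ⟨m⁻¹ * n, mul_mem (inv_mem hm) hn, by rw [mul_smul, hna, ← hmb, inv_smul_smul]⟩

end Cfsg.Agent.S4219
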