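import Cfsg.Statements.S4221
import Cfsg.Agent.H7.Quad5

set_option autoImplicit false
open Cfsg

namespace Cfsg.Agent.S4221

open Subgroup Equiv MulAction

/-- Let `G` be a `4`-fold transitive permutation group on a finite set of `n` points in which the pointwise stabilizer of some four distinct points has odd order. Then `n = 4` or `n = 5` with `G` the full symmetric group, or `n = 6` or `n = 7` with `G` the alternating group, or `n = 11` and `G` has order `7920`. -/
theorem result {α : Type*} [Fintype α] [DecidableEq α] (G : Subgroup (Equiv.Perm α)) (hG : MulAction.IsMultiplyPretransitive G α 4) (x : Fin 4 ↪ α) (hodd : Odd (Nat.card (MulAction.stabilizer G x))) : ((Fintype.card α = 4 ∨ Fintype.card α = 5) ∧ G = ⊤) ∨ ((Fintype.card α = 6 ∨ Fintype.card α = 7) ∧ G = alternatingGroup α) ∨ (Fintype.card α = 11 ∧ Nat.card G = 7920) := by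
  have q := H7.q4_of hG x hodd
  have hcard : Nat.card G = Nat.card (stabilizer G x) * (Fintype.card α).descFactorial 4 :=
    H7.card_eq_of_four hG x
  have h4 : 4 ≤ Fintype.card α := by simpa using Fintype.card_le_of_embedding x
  have hprim : IsPreprimitive G α := isPreprimitive_of_is_two_pretransitive
    (isMultiplyPretransitive_of_le (n := 4) (by norm_num) (by rwa [Nat.card_eq_fintype_card]))
  have hne : 6 ≤ Fintype.card α → G ≠ ⊤ := by
    intro h6 hG'
    obtain ⟨y⟩ : Nonempty (Fin 6 ↪ α) := Function.Embedding.nonempty_of_card_le (by simpa using h6)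
    have hne : ∀ i j : Fin 6, i ≠ j → y i ≠ y j := fun i j h => y.injective.ne h
    have hg : swap (y 4) (y 5) ∈ G := hG' ▸ mem_top _
    have key : ∀ i : Fin 6, i ≠ 4 → i ≠ 5 → (⟨_, hg⟩ : G) • y i = y i := fun i h4 h5 =>
      swap_apply_of_ne_of_ne (hne _ _ h4) (hne _ _ h5)
    have := q.eq_one (s := ⟨_, hg⟩) (Subtype.ext (swap_mul_self _ _))
      (show H7.D4 (y 0) (y 1) (y 2) (y 3) from
        ⟨hne _ _ (by decide), hne _ _ (by decide), hne _ _ (by decide), hne _ _ (by decide),
          hne _ _ (by decide), hne _ _ (by decide)⟩)
      (key _ (by decide) (by decide)) (key _ (by decide) (by decide))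
      (key _ (by decide) (by decide)) (key _ (by decide) (by decide))
    exact hne 4 5 (by decide) (swap_eq_one_iff.1 (congrArg Subtype.val this))
  have halt : 6 ≤ Fintype.card α → alternatingGroup α ≤ G → G = alternatingGroup α := by
    intro h6 h
    haveI : Nontrivial α := Fintype.one_lt_card_iff_nontrivial.1 (by omega)
    have h1 : G.index ∣ 2 := alternatingGroup.index_eq_two (α := α) ▸ index_dvd_of_le h
    rcases (Nat.dvd_prime Nat.prime_two).1 h1 with h2 | h2
    · exact absurd (index_eq_one.1 h2) (hne h6)
    · exact Perm.eq_alternatingGroup_of_index_eq_two h2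
  by_cases h8 : 8 ≤ Fintype.card α
  · right; right
    rcases q.card_eq h8 hprim with h | ⟨h, h'⟩
    · exfalso
      haveI : Fact (Nat.Prime 7) := ⟨by norm_num⟩
      obtain ⟨g, hg⟩ := exists_prime_orderOf_dvd_card' (G := G) 7 (by
        rw [hcard, h]; exact Dvd.dvd.mul_left (by decide) _)
      refine q.not_alternating_le h8 (H7.alternatingGroup_le_of_prime_order hprim g.2
        (p := 7) (by norm_num) (by rw [orderOf_coe, hg]) ?_ (by omega))
      have := Finset.card_le_univ (g : Perm α).support
      omega
    · refine ⟨h, ?_⟩
      have : stabilizer G x = ⊥ := by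
        rw [eq_bot_iff]
        intro g hg
        have hne : ∀ i j : Fin 4, i ≠ j → x i ≠ x j := fun i j h => x.injective.ne h
        exact h' g (x 0) (x 1) (x 2) (x 3)
          ⟨hne _ _ (by decide), hne _ _ (by decide), hne _ _ (by decide), hne _ _ (by decide),
            hne _ _ (by decide), hne _ _ (by decide)⟩ (DFunLike.congr_fun hg 0)
          (DFunLike.congr_fun hg 1) (DFunLike.congr_fun hg 2) (DFunLike.congr_fun hg 3)
      rw [hcard, this, card_bot, h]
      rfl
  · have : Fintype.card α = 4 ∨ Fintype.card α = 5 ∨ Fintype.card α = 6 ∨ Fintype.card α = 7 := by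
      omega
    rcases this with h | h | h | h
    · refine Or.inl ⟨Or.inl h, Perm.eq_top_of_isMultiplyPretransitive ?_⟩
      exact isMultiplyPretransitive_of_le (n := 4) (by rw [Nat.card_eq_fintype_card]; omega)
        (by rwa [Nat.card_eq_fintype_card])
    · refine Or.inl ⟨Or.inr h, Perm.eq_top_of_isMultiplyPretransitive ?_⟩
      rw [Nat.card_eq_fintype_card, h]; exact hG
    · refine Or.inr (Or.inl ⟨Or.inl h, halt (by omega) ?_⟩)
      apply IsMultiplyPretransitive.alternatingGroup_le
      rw [Nat.card_eq_fintype_card, h]; exact hG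
    · refine Or.inr (Or.inl ⟨Or.inr h, halt (by omega) ?_⟩)
      haveI : Nontrivial α := Fintype.one_lt_card_iff_nontrivial.1 (by omega)
      haveI := alternatingGroup.isSimpleGroup (α := α) (by rw [Nat.card_eq_fintype_card]; omega)
      have h1 := G.card_mul_index
      rw [Nat.card_perm, hcard, Nat.card_eq_fintype_card (α := α), h] at h1
      have h2 : 0 < Nat.card (stabilizer G x) := Nat.card_pos
      have h3 : G.index ≤ 6 := by
        have e1 : Nat.descFactorial 7 4 = 840 := by decide
        have e2 : Nat.factorial 7 = 5040 := by decide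
        rw [e1, e2] at h1
        nlinarith
      have h5 : (G.subgroupOf (alternatingGroup α)).index ≤ G.index := by
        have := relIndex_le_of_le_right (H := G) (le_top : alternatingGroup α ≤ ⊤)
          (by rw [relIndex_top_right]; exact FiniteIndex.index_ne_zero)
        rwa [relIndex_top_right] at this
      have h6 := H6.eq_top_of_index_lt_prime (G.subgroupOf (alternatingGroup α)) (r := 7)
        (by norm_num) (by
          have := two_mul_nat_card_alternatingGroup (α := α)
          rw [Nat.card_perm, Nat.card_eq_fintype_card (α := α), h] at this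
          have e2 : Nat.factorial 7 = 5040 := by decide
          omega) (by omega)
      exact subgroupOf_eq_top.1 h6

end Cfsg.Agent.S4221
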