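import Cfsg.Statements.S4220
import Cfsg.Agent.H7.Miller
import Cfsg.Agent.S4221

set_option autoImplicit false
open Cfsg

namespace Cfsg.Agent.S4220

open Subgroup Equiv MulAction
open scoped commutatorElement Pointwise

theorem eq_one_of_central {β : Type*} [Fintype β] [DecidableEq β] (h3 : 3 ≤ Fintype.card β)
    {σ : Perm β} (h : ∀ τ : Perm β, σ * τ = τ * σ) : σ = 1 := by
  ext a
  by_contra ha
  change ¬ σ a = a at ha
  obtain ⟨c, -, hc⟩ := Finset.exists_mem_notMem_of_card_lt_card
    (show ({a, σ a} : Finset β).card < (Finset.univ : Finset β).card by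
      rw [Finset.card_univ]
      have := Finset.card_le_two (a := a) (b := σ a)
      omega)
  simp only [Finset.mem_insert, Finset.mem_singleton, not_or] at hc
  have := congrArg (fun τ : Perm β => τ a) (h (swap (σ a) c))
  simp only [Perm.mul_apply, swap_apply_left] at this
  rw [swap_apply_of_ne_of_ne (Ne.symm ha) (Ne.symm hc.1)] at this
  exact hc.2 this.symm

theorem exists_mil {α : Type*} [Fintype α] [DecidableEq α] (G : Subgroup (Perm α)) {k p r : ℕ}
    [hp : Fact p.Prime] (hpk : k < p) (hG : IsMultiplyPretransitive G α (r + 1))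
    (F : Finset α) (hF : F.card = r) (hF' : Fᶜ.card = k * p) :
    ∃ P : Subgroup (Perm α), H7.Mil p P F ∧ P ≤ G ⊓ fixingSubgroup (Perm α) (F : Set α) ∧
      ¬ p ∣ P.relIndex (G ⊓ fixingSubgroup (Perm α) (F : Set α)) := by
  set H := G ⊓ fixingSubgroup (Perm α) (F : Set α) with hH
  obtain ⟨P, -, h1, h2, h3⟩ := H1.exists_sylow_of_le (p := p) (bot_le : ⊥ ≤ H) IsPGroup.of_bot
  have hfix : ∀ y ∈ H, ∀ a ∈ F, y a = a := fun y hy a ha => H6.mem_fix.1 hy.2 a ha
  have hnot : ∀ y ∈ H, ∀ a ∉ F, y a ∉ F := fun y hy a ha h =>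
    ha (y.injective (hfix y hy _ h) ▸ h)
  have horb : ∀ a ∉ F, orbit H a = (Fᶜ : Finset α) := by
    intro a ha
    ext b
    rw [Finset.mem_coe, Finset.mem_compl]
    constructor
    · rintro ⟨y, rfl⟩
      exact hnot y y.2 a ha
    · intro hb
      obtain ⟨g, hg, hg'⟩ := H6.exists_mem_agree hG (insert a F)
        (by rw [Finset.card_insert_of_notMem ha, hF]) (swap a b)
      refine ⟨⟨g, hg, H6.mem_fix.2 fun c hc => ?_⟩, ?_⟩
      · rw [hg' c (Finset.mem_insert_of_mem hc), swap_apply_of_ne_of_ne]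
        · rintro rfl; exact ha hc
        · rintro rfl; exact hb hc
      · show g a = b
        rw [hg' a (Finset.mem_insert_self _ _), swap_apply_left]
  refine ⟨P, ⟨h2, fun y hy => hfix y (h1 hy), fun a ha => ?_⟩, h1, h3⟩
  obtain ⟨j, hj⟩ := h2.index (stabilizer P a)
  have hj0 : j ≠ 0 := by
    rintro rfl
    rw [pow_zero, index_eq_one] at hj
    have k1 : P ≤ stabilizer (Perm α) a := fun y hy =>
      (hj ▸ mem_top (⟨y, hy⟩ : P) : (⟨y, hy⟩ : P) ∈ stabilizer P a)
    have k2 := relIndex_dvd_of_le_left H k1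
    have k3 : (stabilizer (Perm α) a).relIndex H = k * p := by
      rw [← hF', ← Set.ncard_coe_finset, ← horb a ha, ← index_stabilizer]
      rfl
    exact h3 ((Dvd.intro_left k k3.symm).trans k2)
  have hj2 : p ^ j < p ^ 2 := by
    rw [← hj, index_stabilizer]
    have : (orbit P a).ncard ≤ ((Fᶜ : Finset α) : Set α).ncard := by
      refine Set.ncard_le_ncard ?_
      rintro _ ⟨y, rfl⟩
      exact Finset.mem_compl.2 (hnot y (h1 y.2) a ha)
    rw [Set.ncard_coe_finset, hF'] at this
    have := hp.out.pos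
    nlinarith
  have := (Nat.pow_lt_pow_iff_right hp.out.one_lt).1 hj2
  rw [hj, show j = 1 by omega, pow_one]

/-- Let `n = kp + r` with `p` prime, `1 ≤ k < p` and `r > k`, excluding the case `k = 1, r = 2`. Then a permutation group of degree `n` that is `(r + 1)`-fold transitive contains the alternating group. -/
theorem result {α : Type*} [Fintype α] [DecidableEq α] (G : Subgroup (Equiv.Perm α)) {k p r : ℕ} (hp : p.Prime) (hn : Fintype.card α = k * p + r) (hk : 1 ≤ k) (hpk : k < p) (hrk : k < r) (hex : ¬ (k = 1 ∧ r = 2)) (hG : MulAction.IsMultiplyPretransitive G α (r + 1)) : alternatingGroup α ≤ G := by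
  classical
  haveI := Fact.mk hp
  by_contra hnA
  have hp2 := hp.two_le
  have hr3 : 3 ≤ r := by omega
  have hkp : p ≤ k * p := Nat.le_mul_of_pos_left p hk
  have h4 : IsMultiplyPretransitive G α 4 :=
    isMultiplyPretransitive_of_le (n := r + 1) (by omega) (by rw [Nat.card_eq_fintype_card]; omega)
  have hGr : IsMultiplyPretransitive G α r :=
    isMultiplyPretransitive_of_le (n := r + 1) (by omega) (by rw [Nat.card_eq_fintype_card]; omega)
  have hprim : IsPreprimitive G α := isPreprimitive_of_is_two_pretransitive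
    (isMultiplyPretransitive_of_le (n := 4) (by norm_num) (by rw [Nat.card_eq_fintype_card]; omega))
  obtain ⟨F, -, hF⟩ := Finset.exists_subset_card_eq (s := (Finset.univ : Finset α)) (n := r)
    (by rw [Finset.card_univ]; omega)
  have hF' : Fᶜ.card = k * p := by rw [Finset.card_compl, hF, hn]; simp
  obtain ⟨P, m, hPH, hPi⟩ := exists_mil G hpk hG F hF hF'
  have hM : ∀ g ∈ G, (∀ a ∉ F, g a = a) → g = 1 := by
    intro g hg h
    by_contra h1
    refine hnA (H7.alternatingGroup_le_of_support_le hGr (by omega) hg h1 ?_ (by omega))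
    rw [← hF]
    refine Finset.card_le_card fun a ha => ?_
    by_contra k
    exact Perm.mem_support.1 ha (h a k)
  have hnc : ∀ y ∈ P, y.support.card ≤ p → y = 1 := by
    intro y hy h
    by_contra h1
    exact hnA (H7.alternatingGroup_le_of_prime_order hprim (hPH hy).1 hp
      (orderOf_eq_prime (m.pow_eq_one hy) h1) (by omega) (by omega))
  -- small cases
  have hk1 : k ≠ 1 := by
    rintro rfl
    obtain ⟨a, ha⟩ : Fᶜ.Nonempty := Finset.card_pos.1 (by omega)
    obtain ⟨x, hx, hxa⟩ := m.exists_moved (Finset.mem_compl.1 ha)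
    have := hnc x hx (by
      rw [← one_mul p, ← hF']
      exact Finset.card_le_card fun b hb =>
        Finset.mem_compl.2 fun k => Perm.mem_support.1 hb (m.fix x hx b k))
    exact hxa (by rw [this]; rfl)
  obtain ⟨x⟩ : Nonempty (Fin 4 ↪ α) := Function.Embedding.nonempty_of_card_le (by simp; omega)
  have hn9 : Fintype.card α ≠ 9 := by
    intro h9
    rcases Nat.even_or_odd (Nat.card (stabilizer G x)) with h | h
    · obtain ⟨t, ht⟩ := exists_prime_orderOf_dvd_card' (G := stabilizer G x) 2 h.two_dvd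
      have ht' : orderOf ((t : G) : Perm α) = 2 := by rw [orderOf_coe, orderOf_coe, ht]
      obtain ⟨j, hj⟩ := H6.le_card_support_of_prime Nat.prime_two ht'
      have hs : ((t : G) : Perm α).support ⊆ (Finset.univ.map x)ᶜ := fun b hb => by
        rw [Finset.mem_compl, Finset.mem_map]
        rintro ⟨i, -, rfl⟩
        exact Perm.mem_support.1 hb (DFunLike.congr_fun t.2 i)
      have := Finset.card_le_card hs
      rw [Finset.card_compl, Finset.card_map, h9] at this
      simp only [Finset.card_univ, Fintype.card_fin] at this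
      refine hnA (H7.alternatingGroup_le_of_support_le h4 (by omega) (t : G).2 ?_ (by omega)
        (by omega))
      intro e
      rw [e, orderOf_one] at ht'
      omega
    · have := S4221.result G h4 x h
      omega
  have hn10 : Fintype.card α ≠ 10 := by
    intro h
    haveI : Fact (Nat.Prime 7) := ⟨by norm_num⟩
    obtain ⟨g, hg⟩ := exists_prime_orderOf_dvd_card' (G := G) 7 (by
      rw [H7.card_eq_of_four h4 x, h]; exact Dvd.dvd.mul_left (by decide) _)
    refine hnA (H7.alternatingGroup_le_of_prime_order hprim g.2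
      (p := 7) (by norm_num) (by rw [orderOf_coe, hg]) ?_ (by omega))
    have := Finset.card_le_univ (g : Perm α).support
    omega
  have hcase : 5 ≤ r ∨ (k ≤ 3 ∧ r < p) := by
    by_cases h5 : 5 ≤ r
    · exact Or.inl h5
    right
    refine ⟨by omega, ?_⟩
    by_contra hlt
    have h4' : p ≠ 4 := by rintro rfl; exact absurd hp (by decide)
    have : p = 3 := by omega
    subst this
    have : k = 2 := by omega
    subst this
    omega
  -- the normalizer
  let N := G ⊓ normalizer (P : Set (Perm α))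
  have hNF : ∀ g ∈ N, ∀ a ∈ F, g a ∈ F := by
    intro g hg a ha
    by_contra h
    obtain ⟨y, hy, hya⟩ := m.exists_moved h
    have := m.fix _ ((mem_normalizer_iff''.1 hg.2 y).1 hy) a ha
    rw [Perm.mul_apply, Perm.mul_apply, Perm.inv_eq_iff_eq] at this
    exact hya this
  have hNF' : ∀ g ∈ N, ∀ a, g a ∈ F ↔ a ∈ F := fun g hg a =>
    ⟨fun h => by simpa using hNF _ (inv_mem hg) _ h, hNF g hg a⟩
  let ψ : N →* Perm F :=
    { toFun := fun g => (g : Perm α).subtypePerm (hNF' g g.2)
      map_one' := by ext; rfl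
      map_mul' := fun _ _ => by ext; rfl }
  have hψ : Function.Surjective ψ := by
    intro σ
    obtain ⟨g, hg, hg'⟩ := H6.exists_mem_agree hGr F hF (Perm.ofSubtype σ)
    have k1 : ∀ a ∈ F, g⁻¹ a ∈ F := by
      intro a ha
      have h1 : Perm.ofSubtype σ⁻¹ a ∈ F := by
        rw [Perm.ofSubtype_apply_of_mem _ ha]; exact Subtype.prop _
      have h2 := hg' _ h1
      rw [← Perm.mul_apply (Perm.ofSubtype σ), ← map_mul, mul_inv_cancel, map_one, Perm.one_apply,
        ← Perm.eq_inv_iff_eq] at h2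
      exact h2 ▸ h1
    obtain ⟨h, hh, hhg⟩ := H1.frattini_argument hPH m.hP hPi (x := g)
      (mem_normalizer_fintype fun n hn => ⟨G.mul_mem (G.mul_mem hg hn.1) (G.inv_mem hg),
        H6.mem_fix.mpr fun a ha => by
          rw [Perm.mul_apply, Perm.mul_apply, H6.mem_fix.mp hn.2 _ (k1 a ha)]
          simp⟩)
    refine ⟨⟨h * g, G.mul_mem hh.1 hg, hhg⟩, ?_⟩
    ext a
    show h (g a) = σ a
    rw [hg' a a.2, Perm.ofSubtype_apply_of_mem _ a.2]
    exact H6.mem_fix.1 hh.2 _ (Subtype.prop _)
  let O : SubMulAction N (Set α) :=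
    { carrier := {s | ∃ a ∉ F, s = orbit P a}
      smul_mem' := by
        rintro g _ ⟨a, ha, rfl⟩
        refine ⟨(g : Perm α) a, fun h => ha ((hNF' g g.2 a).1 h), ?_⟩
        ext b
        rw [Set.mem_smul_set]
        constructor
        · rintro ⟨_, ⟨y, rfl⟩, rfl⟩
          refine ⟨⟨g * y * (g : Perm α)⁻¹, (mem_normalizer_iff.1 g.2.2 y).1 y.2⟩, ?_⟩
          show ((g : Perm α) * y * (g : Perm α)⁻¹) ((g : Perm α) a) = (g : Perm α) ((y : Perm α) a)
          simp
        · rintro ⟨y, rfl⟩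
          refine ⟨_, ⟨⟨(g : Perm α)⁻¹ * y * g, (mem_normalizer_iff''.1 g.2.2 y).1 y.2⟩, rfl⟩, ?_⟩
          show (g : Perm α) (((g : Perm α)⁻¹ * y * g) a) = (y : Perm α) ((g : Perm α) a)
          simp }
  have hO : Nat.card O = k := by
    have h1 := Finset.card_eq_sum_card_image (fun a => orbit P a) Fᶜ
    have h2 : ∀ s ∈ Fᶜ.image (fun a => orbit P a), (Fᶜ.filter fun a => orbit P a = s).card = p := by
      intro s hs
      obtain ⟨a, ha, rfl⟩ := Finset.mem_image.1 hs
      rw [← m.ncard_orbit (Finset.mem_compl.1 ha), ← Set.ncard_coe_finset]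
      congr 1
      ext b
      simp only [Finset.coe_filter, Set.mem_setOf_eq, orbit_eq_iff, and_iff_right_iff_imp]
      rintro ⟨y, rfl⟩
      exact Finset.mem_compl.2 (m.notMem (Finset.mem_compl.1 ha) y.2)
    rw [Finset.sum_congr rfl h2, hF', Finset.sum_const, smul_eq_mul] at h1
    rw [Nat.eq_of_mul_eq_mul_right hp.pos h1, ← Nat.card_eq_finsetCard]
    refine Nat.card_congr (Equiv.subtypeEquivRight fun s => ?_)
    simp only [Finset.mem_image, Finset.mem_compl]
    exact ⟨fun ⟨a, ha, e⟩ => ⟨a, ha, e.symm⟩, fun ⟨a, ha, e⟩ => ⟨a, ha, e.symm⟩⟩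
  let N1 := (toPermHom N O).ker
  have hN1 : ∀ g ∈ N1, ∀ a ∉ F, ∃ z ∈ P, (g : Perm α) a = z a := by
    intro g hg a ha
    have h1 : g • orbit P a = orbit P a :=
      congrArg (fun σ : Perm O => ((σ ⟨orbit P a, a, ha, rfl⟩ : O) : Set α)) hg
    have h2 : g • a ∈ orbit P a := h1 ▸ Set.smul_mem_smul_set (mem_orbit_self a)
    obtain ⟨z, hz⟩ := h2
    exact ⟨z, z.2, hz.symm⟩
  have hA : N1.map ψ ≠ ⊥ := by
    intro h
    have h1 := N1.index_map_dvd hψ
    rw [h, index_bot, Nat.card_perm, index_ker, Nat.card_eq_finsetCard, hF] at h1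
    have h2 := h1.trans (card_subgroup_dvd_card _)
    haveI : Finite O := Subtype.finite
    rw [Nat.card_perm, hO] at h2
    have := Nat.le_of_dvd (Nat.factorial_pos k) h2
    exact absurd ((Nat.factorial_lt hk).2 hrk) (not_lt.2 this)
  have hC : ∀ c ∈ ⁅N1, N1⁆, (c : Perm α) ∈ centralizer (P : Set (Perm α)) := by
    intro c hc
    have : ⁅N1, N1⁆ ≤ (centralizer (P : Set (Perm α))).comap N.subtype :=
      commutator_le.2 fun g hg h hh =>
        m.commutator_mem_centralizer g.2.2 h.2.2 (hN1 g hg) (hN1 h hh)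
    exact this hc
  rcases hcase with h5 | ⟨h3, hrp⟩
  · haveI := Subgroup.Normal.map (inferInstance : N1.Normal) ψ hψ
    have h5' : 5 ≤ Nat.card F := by rw [Nat.card_eq_finsetCard]; omega
    have h1 := Perm.alternatingGroup_le_of_normal h5' ((nontrivial_iff_ne_bot _).2 hA)
    have h2 : ⁅⁅N1, N1⁆, ⁅N1, N1⁆⁆ = ⊥ := by
      rw [eq_bot_iff, commutator_le]
      intro c hc d hd
      rw [mem_bot]
      apply Subtype.ext
      refine hM _ (⁅c, d⁆).2.1 fun a ha => ?_
      have key : ∀ b ∉ F, (c : Perm α) ((d : Perm α) b) = (d : Perm α) ((c : Perm α) b) :=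
        fun b hb => m.comm_of_centralizer (hC c hc) (hC d hd)
          (hN1 c (commutator_le_left _ _ hc) b hb) (hN1 d (commutator_le_left _ _ hd) b hb)
      show (c : Perm α) ((d : Perm α) ((c : Perm α)⁻¹ ((d : Perm α)⁻¹ a))) = a
      rw [key]
      · simp
      · intro h
        rw [hNF' _ (inv_mem c.2), hNF' _ (inv_mem d.2)] at h
        exact ha h
    have h3 := commutator_mono (commutator_mono h1 h1) (commutator_mono h1 h1)
    rw [commutator_alternatingGroup_eq_self h5', commutator_alternatingGroup_eq_self h5',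
      ← map_commutator, ← map_commutator, h2, Subgroup.map_bot] at h3
    haveI := alternatingGroup.isSimpleGroup h5'
    exact (nontrivial_iff_ne_bot _).1 inferInstance (eq_bot_iff.2 h3)
  · apply hA
    rw [eq_bot_iff]
    rintro _ ⟨g, hg, rfl⟩
    rw [mem_bot]
    refine eq_one_of_central (by rw [Fintype.card_coe]; omega) fun τ => ?_
    obtain ⟨h, rfl⟩ := hψ τ
    obtain ⟨l, hl⟩ := m.exists_scalar (by rw [hF']; exact Nat.mul_le_mul_right p h3) hnc
      (inv_mem g.2.2) (by simpa using hN1 g hg)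
    have hc : ((⁅g, h⁆ : N) : Perm α) ∈ centralizer (P : Set (Perm α)) := by
      intro y hy
      have e1 := hl y hy
      have e2 := hl _ ((mem_normalizer_iff.1 (inv_mem h.2.2) y).1 hy)
      rw [conj_pow, ← e1] at e2
      show y * ((g : Perm α) * h * (g : Perm α)⁻¹ * (h : Perm α)⁻¹) =
        (g : Perm α) * h * (g : Perm α)⁻¹ * (h : Perm α)⁻¹ * y
      calc y * ((g : Perm α) * h * (g : Perm α)⁻¹ * (h : Perm α)⁻¹)
          = g * h * ((h : Perm α)⁻¹ * ((g : Perm α)⁻¹ * y * (g : Perm α)⁻¹⁻¹) * (h : Perm α)⁻¹⁻¹)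
            * (g : Perm α)⁻¹ * (h : Perm α)⁻¹ := by group
        _ = _ := by rw [← e2]; group
    have hc1 : ⁅g, h⁆ ∈ N1 := commutator_le_left N1 ⊤ (commutator_mem_commutator hg (mem_top h))
    have hc2 : ⁅g, h⁆ ^ p = 1 := Subtype.ext (hM _ (⁅g, h⁆ ^ p).2.1 fun a ha =>
      m.pow_apply_of_centralizer hc (hN1 _ hc1 a ha))
    have hc3 : orderOf (ψ ⁅g, h⁆) ∣ p := orderOf_dvd_of_pow_eq_one (by rw [← map_pow, hc2, map_one])
    rcases (Nat.dvd_prime hp).1 hc3 with e | e
    · rw [orderOf_eq_one_iff, map_commutatorElement, commutatorElement_eq_one_iff_mul_comm] at e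
      exact e
    · have := orderOf_dvd_natCard (ψ ⁅g, h⁆)
      rw [e, Nat.card_perm, Nat.card_eq_finsetCard, hF, hp.dvd_factorial] at this
      omega

end Cfsg.Agent.S4220
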