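import Cfsg.Statements.S4227
import Cfsg.Agent.S3783
import Cfsg.Agent.H6.Burnside
import Cfsg.Agent.L.PLength

set_option autoImplicit false
open Cfsg

namespace Cfsg.Agent.S4227

theorem comm_of_six {G : Type*} [Group G] [Finite G] (h : ∀ x : G, x ^ 6 = 1) {q : ℕ}
    [hq : Fact q.Prime] (h3 : q ≠ 3) (Q : Sylow q G) : IsMulCommutative (Q : Subgroup G) := by
  have key : ∀ x : (Q : Subgroup G), x * x = 1 := fun x => by
    obtain ⟨k, hk⟩ := IsPGroup.iff_orderOf.1 Q.2 x
    have h1 : orderOf x ∣ 2 * 3 := orderOf_dvd_of_pow_eq_one (Subtype.ext (h x))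
    have h2 : (orderOf x).Coprime 3 :=
      hk ▸ ((Nat.coprime_primes hq.out Nat.prime_three).2 h3).pow_left k
    rw [← sq]
    exact orderOf_dvd_iff_pow_eq_one.1 (h2.dvd_of_dvd_mul_right h1)
  refine ⟨⟨fun x y => ?_⟩⟩
  have e : ∀ z : (Q : Subgroup G), z⁻¹ = z := fun z => inv_eq_of_mul_eq_one_right (key z)
  rw [← e (x * y), mul_inv_rev, e, e]

/-- A finite group in which every element has order dividing `6` has `2`-length at most `1` and `3`-length at most `1`. -/
theorem result {G : Type*} [Group G] [Finite G] (h : ∀ x : G, x ^ 6 = 1) : Cfsg.PLengthLE 2 1 G ∧ Cfsg.PLengthLE 3 1 G := by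
  have hs : ∀ (H : Type _) [Group H] [Finite H], (∀ x : H, x ^ 6 = 1) → Group.IsSolvable H :=
    fun H _ _ h => H6.isSolvable_of_primes_two 2 3 fun r hr hd => by
      have := Fact.mk hr
      obtain ⟨x, hx⟩ := exists_prime_orderOf_dvd_card' r hd
      have h1 : r ∣ 2 * 3 := hx ▸ orderOf_dvd_of_pow_eq_one (h x)
      exact (hr.dvd_mul.1 h1).imp (Nat.prime_dvd_prime_iff_eq hr Nat.prime_two).1
        (Nat.prime_dvd_prime_iff_eq hr Nat.prime_three).1
  have := hs G h
  constructor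
  · refine L.PLengthLE.of_quotient_coprime Nat.prime_two (pPrimeCore 2 G)
      (L.coprime_card_pPrimeCore 2) ?_
    have h' : ∀ x : G ⧸ pPrimeCore 2 G, x ^ 6 = 1 := fun x => by
      obtain ⟨y, rfl⟩ := QuotientGroup.mk'_surjective _ x
      rw [← map_pow, h, map_one]
    have h1 := L.centralizer_pCore_le (G := G ⧸ pPrimeCore 2 G) Nat.prime_two
      (L.isPSolvable_of_isSolvable Nat.prime_two) (L.pPrimeCore_quotient_pPrimeCore Nat.prime_two)
    obtain ⟨P, hP⟩ := (L.isPGroup_pCore (G := G ⧸ pPrimeCore 2 G) 2).exists_le_sylow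
    have := comm_of_six h' (by norm_num) P
    have h2 : (P : Subgroup (G ⧸ pPrimeCore 2 G)) ≤ pCore 2 _ :=
      (P.1.le_centralizer.trans (Subgroup.centralizer_le hP)).trans h1
    refine (L.pLengthLE_one_iff Nat.prime_two).2 ⟨⊥, pCore 2 _, inferInstance, inferInstance, bot_le,
      by simp, ?_, ?_⟩
    · rw [Subgroup.relIndex_bot_left]
      exact IsPGroup.iff_card.1 (L.isPGroup_pCore 2)
    · exact Nat.Coprime.coprime_dvd_left (Subgroup.index_dvd_of_le h2)
        ((Nat.Prime.coprime_iff_not_dvd Nat.prime_two).2 P.not_dvd_index).symm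
  · refine S3783.result (L.isPSolvable_of_isSolvable Nat.prime_three)
      (fun q _ hq Q => comm_of_six h hq Q) 1 fun P x hx => ?_
    obtain ⟨k, hk⟩ := IsPGroup.iff_orderOf.1 P.2 ⟨x, hx⟩
    rw [Subgroup.orderOf_mk] at hk
    have h1 : orderOf x ∣ 2 * 3 := orderOf_dvd_of_pow_eq_one (h x)
    have h2 : (orderOf x).Coprime 2 := hk ▸ (by norm_num : Nat.Coprime 3 2).pow_left k
    exact orderOf_dvd_iff_pow_eq_one.1 (h2.dvd_of_dvd_mul_left h1)

end Cfsg.Agent.S4227
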