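import Cfsg.Statements.S4272
import Cfsg.Agent.P7.RT2
import Cfsg.Agent.P7.Final

set_option autoImplicit false
open Cfsg

namespace Cfsg.Agent.S4272

/-- Let G be a finite non-abelian simple group whose Sylow 2-subgroups are abelian. If G admits no faithful doubly transitive action on a finite set, then G has order 175560 (the order of the first Janko group). -/
theorem result {G : Type*} [Group G] [Finite G] [IsSimpleGroup G] (hG : ¬ IsMulCommutative G) (P : Sylow 2 G) (hP : IsMulCommutative (P : Subgroup G)) (hno : ∀ (Ω : Type) [Fintype Ω] [MulAction G Ω] [FaithfulSMul G Ω], ¬ MulAction.IsMultiplyPretransitive G Ω 2) : Nat.card G = 175560 := by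
  refine (P7.t2_or P7.k3All ‹_› hG fun Q hQ => ?_).resolve_left fun ⟨Ω, _, _, _, h⟩ => hno Ω h
  exact FT.isMulComm_iff_le_cent.2 (P7.AS.comm_two ⟨FT.isSyl_top_coe Nat.prime_two P,
    FT.isMulComm_iff_le_cent.1 hP⟩ hQ le_top)

end Cfsg.Agent.S4272
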