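import Cfsg.Statements.S4276
import Cfsg.Agent.H8.Design

set_option autoImplicit false
open Cfsg

namespace Cfsg.Agent.S4276

/-- Let G be a doubly transitive group of permutations of a finite set Ω of size n, let o ∈ Ω, and let α be an automorphism of G of odd order. Suppose that the image under α of the stabilizer of o has an orbit on Ω whose length k is coprime to n. Then α is induced by conjugation by a permutation of Ω normalizing G, and k = 1 or k = n − 1. -/
theorem result {Ω : Type*} [Fintype Ω] (G : Subgroup (Equiv.Perm Ω)) (h2 : MulAction.IsMultiplyPretransitive G Ω 2) (o : Ω) (α : MulAut G) (hα : Odd (orderOf α)) (ω : Ω) (hk : (Nat.card (MulAction.orbit ((MulAction.stabilizer G o).map α.toMonoidHom) ω)).Coprime (Fintype.card Ω)) : (∃ σ : Equiv.Perm Ω, σ ∈ Subgroup.normalizer (G : Set (Equiv.Perm Ω)) ∧ ∀ g : G, ((α g : G) : Equiv.Perm Ω) = σ * (g : Equiv.Perm Ω) * σ⁻¹) ∧ (Nat.card (MulAction.orbit ((MulAction.stabilizer G o).map α.toMonoidHom) ω) = 1 ∨ Nat.card (MulAction.orbit ((MulAction.stabilizer G o).map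 α.toMonoidHom) ω) = Fintype.card Ω - 1) := by
  obtain ⟨σ, hσ1, hσ⟩ := H8.exists_perm_of_odd G h2 o α hα ω hk
  refine ⟨⟨σ, hσ1, hσ⟩, ?_⟩
  have h1 : (MulAction.stabilizer G o).map α.toMonoidHom = MulAction.stabilizer G (σ o) := by
    ext g
    obtain ⟨g, rfl⟩ := α.surjective g
    have h3 : α g • σ o = σ (g • o) := by
      change ((α g : G) : Equiv.Perm Ω) (σ o) = σ ((g : Equiv.Perm Ω) o)
      rw [hσ]; simp
    rw [MulAction.mem_stabilizer_iff, h3, σ.injective.eq_iff, ← MulAction.mem_stabilizer_iff]
    exact Subgroup.mem_map_iff_mem (f := α.toMonoidHom) α.injective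
  rw [h1]
  by_cases hω : ω = σ o
  · left
    have : MulAction.orbit (MulAction.stabilizer G (σ o)) ω = {ω} := by
      ext x
      constructor
      · rintro ⟨g, rfl⟩
        rw [hω]; exact g.2
      · rintro rfl
        exact MulAction.mem_orbit_self _
    rw [this]; simp
  · right
    have : MulAction.orbit (MulAction.stabilizer G (σ o)) ω = {σ o}ᶜ := by
      ext x
      constructor
      · rintro ⟨g, rfl⟩ h
        apply hω
        have h3 : (g : G) • ω = (g : G) • σ o := by rw [g.2]; exact h
        exact smul_left_cancel _ h3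
      · intro hx
        obtain ⟨g, hg1, hg2⟩ := MulAction.is_two_pretransitive_iff.1 h2 hω hx
        exact ⟨⟨g, hg2⟩, hg1⟩
    rw [this, Nat.card_coe_set_eq, Set.ncard_compl, Set.ncard_singleton, Nat.card_eq_fintype_card]

end Cfsg.Agent.S4276
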