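import Cfsg.Statements.S4277
import Cfsg.Agent.H8.Design
import Cfsg.Agent.H8.PrimeDegree
import Cfsg.Agent.H8.Alperin

set_option autoImplicit false
open Cfsg

namespace Cfsg.Agent.S4277

open Subgroup in
theorem mem_inn {G : Type*} [Group G] [Finite G] {p : ℕ} [hp : Fact p.Prime] (H : Subgroup G)
    (hH : H.index = p) [FaithfulSMul G (G ⧸ H)] (h2 : MulAction.IsMultiplyPretransitive G (G ⧸ H) 2)
    (hcop : (Nat.card H).Coprime p) {t : G} (ht : orderOf t = p) {α : MulAut G}
    (hα : Odd (orderOf α)) (hαt : α t = t) : α ∈ Cfsg.Inn G := by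
  classical
  have := Fintype.ofFinite (G ⧸ H)
  have hΩ : Nat.card (G ⧸ H) = p := hH
  have : Nontrivial (G ⧸ H) := Finite.one_lt_card_iff_nontrivial.1 (hΩ ▸ hp.out.one_lt)
  obtain ⟨m, hm⟩ := hα
  set β := (α ^ (m + 1))⁻¹ with hβ
  have hββ : β * β = α⁻¹ := by
    rw [hβ, ← mul_inv_rev, ← pow_add, show m + 1 + (m + 1) = orderOf α + 1 by omega, pow_succ,
      pow_orderOf_eq_one, one_mul]
  set o : G ⧸ H := ((1 : G) : G ⧸ H)
  let A : Matrix (G ⧸ H) (G ⧸ H) ℤ :=
    Matrix.of fun x y => if ∃ g : G, g • o = x ∧ β g • o = y then 1 else 0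
  have hA : H8.Design.Inv 1 β A := by
    intro g x y
    simp only [A, Matrix.of_apply]
    refine if_congr ⟨?_, ?_⟩ rfl rfl
    · rintro ⟨u, h1, h3⟩
      refine ⟨g⁻¹ * u, ?_, ?_⟩
      · rw [mul_smul, h1]; exact inv_smul_smul g x
      · rw [map_mul, mul_smul, h3, map_inv, inv_smul_smul]
    · rintro ⟨u, rfl, rfl⟩
      exact ⟨g * u, mul_smul _ _ _, by rw [map_mul, mul_smul]⟩
  have hs : ∑ x, A x o = Nat.card (MulAction.orbit (H.comap β.toMonoidHom) o) := by
    simp only [A, Matrix.of_apply, Finset.sum_boole, Nat.cast_inj]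
    symm
    apply Nat.subtype_card
    intro x
    simp only [Finset.mem_filter, Finset.mem_univ, true_and]
    constructor
    · rintro ⟨g, rfl, hg⟩
      rw [← MulAction.mem_stabilizer_iff, MulAction.stabilizer_quotient] at hg
      exact ⟨⟨g, hg⟩, rfl⟩
    · rintro ⟨⟨g, hg⟩, rfl⟩
      exact ⟨g, rfl, by rwa [← MulAction.mem_stabilizer_iff, MulAction.stabilizer_quotient]⟩
  obtain ⟨ω, hω⟩ := H8.Design.exists_fixed h2 hA (fun x y => by
    simp only [A, Matrix.of_apply]; split_ifs <;> simp) o (by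
      rw [hs, Nat.isCoprime_iff_coprime, ← Nat.card_eq_fintype_card, hΩ]
      refine Nat.Coprime.coprime_dvd_left ?_ hcop
      rw [Nat.card_coe_set_eq, ← MulAction.index_stabilizer]
      exact (index_dvd_card _).trans (card_comap_dvd_of_injective H _ β.injective))
  rw [hββ] at hω
  have hne : ∃ x : G ⧸ H, t • x ≠ x := by
    by_contra hc
    push Not at hc
    have : t = 1 := FaithfulSMul.eq_of_smul_eq_smul (α := G ⧸ H) fun x => by rw [hc, one_smul]
    rw [this, orderOf_one] at ht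
    exact hp.out.ne_one ht.symm
  obtain ⟨j, rfl⟩ := H8.exists_pow_smul_eq_of_prime hΩ ht hne o ω
  refine ⟨t ^ j, MulEquiv.ext fun g => FaithfulSMul.eq_of_smul_eq_smul (α := G ⧸ H) fun x => ?_⟩
  obtain ⟨i, rfl⟩ := H8.exists_pow_smul_eq_of_prime hΩ ht hne (t ^ j • o) x
  obtain ⟨k, hk⟩ := H8.exists_pow_smul_eq_of_prime hΩ ht hne o (g • t ^ i • o)
  have h3 := hω (α ((t ^ k)⁻¹ * g * t ^ i)) (by
    rw [MulAut.inv_apply_self, mul_smul, mul_smul, ← hk, inv_smul_smul])
  rw [map_mul, map_mul, map_inv, map_pow, map_pow, hαt, mul_smul, mul_smul, inv_smul_eq_iff] at h3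
  have hc : ∀ a b : ℕ, t ^ a • t ^ b • o = t ^ b • t ^ a • o := fun a b => by
    rw [← mul_smul, ← mul_smul, pow_mul_comm]
  rw [h3, MulAut.conj_apply, hc i j, mul_smul, mul_smul, inv_smul_smul, ← hk, hc]

/-- A case of the Schreier conjecture: if a finite simple group G has a subgroup of prime index, then the outer automorphism group of G is solvable. -/
theorem result {G : Type*} [Group G] [Finite G] [IsSimpleGroup G] (H : Subgroup G) (hH : H.index.Prime) : Group.IsSolvable (Cfsg.Out G) := by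
  by_cases hab : IsMulCommutative G
  · have : IsCyclic G := by
      let _ : CommGroup G := { (inferInstance : Group G) with mul_comm := hab.is_comm.comm }
      infer_instance
    have : Group.IsSolvable (MulAut G) := Group.isSolvable_of_comm fun a b =>
      (IsCyclic.mulAutMulEquiv G).injective (by rw [map_mul, map_mul, mul_comm])
    infer_instance
  set p := H.index with hp
  have := Fact.mk hH
  have hker : (MulAction.toPermHom G (G ⧸ H)).ker = ⊥ := by
    rw [← Subgroup.normalCore_eq_ker]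
    refine (H.normalCore_normal.eq_bot_or_eq_top).resolve_right fun h => hH.ne_one ?_
    rw [hp, Subgroup.index_eq_one, eq_top_iff, ← h]
    exact H.normalCore_le
  have hinj := (MonoidHom.ker_eq_bot_iff _).1 hker
  have : FaithfulSMul G (G ⧸ H) := ⟨fun {a b} h => hinj (Equiv.ext h)⟩
  have hcop : (Nat.card H).Coprime p := by
    have h1 : Nat.card G ∣ p.factorial := by
      have := Subgroup.card_dvd_of_injective _ hinj
      rwa [Nat.card_perm] at this
    rw [← H.card_mul_index, ← hp, ← Nat.mul_factorial_pred hH.ne_zero, mul_comm] at h1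
    have h2 := Nat.dvd_of_mul_dvd_mul_left hH.pos h1
    refine (hH.coprime_iff_not_dvd.2 fun hd => ?_).symm
    have := hH.dvd_factorial.1 (hd.trans h2)
    have := hH.pos
    omega
  obtain ⟨t, ht⟩ := exists_prime_orderOf_dvd_card' (G := G) p (hp ▸ H.index_dvd_card)
  have h2 : MulAction.IsMultiplyPretransitive G (G ⧸ H) 2 := by
    refine (H8.two_trans_or_derivedSeries (Ω := G ⧸ H) hp.symm ht).resolve_right fun h => hab ?_
    have : Group.IsSolvable G := ⟨⟨2, h⟩⟩
    exact ⟨⟨IsSimpleGroup.comm_iff_isSolvable.2 this⟩⟩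
  -- `⟨t⟩` is a Sylow subgroup
  have hP : IsPGroup p (Subgroup.zpowers t) := H8.isPGroup_zpowers_of_orderOf (k := 1) (by simpa)
  have hPi : ¬ p ∣ (Subgroup.zpowers t).index := by
    have e1 := (Subgroup.zpowers t).card_mul_index
    rw [Nat.card_zpowers, ht, ← H.card_mul_index, ← hp, mul_comm] at e1
    rw [Nat.eq_of_mul_eq_mul_right hH.pos e1]
    exact hH.coprime_iff_not_dvd.1 hcop.symm
  have hN : ∀ x : Cfsg.Out G, ∃ α : MulAut G, (α : Cfsg.Out G) = x ∧ ∃ i : ℤ, α t = t ^ i := by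
    intro x
    obtain ⟨α, rfl⟩ := QuotientGroup.mk_surjective x
    obtain ⟨g, -, hg⟩ := H8.exists_conj_le_of_not_dvd_relIndex (K := ⊤) hP
      (hP.map α.toMonoidHom) le_top (by rwa [Subgroup.relIndex_top_right])
    obtain ⟨i, hi⟩ := H8.conj_smul_le_iff.1 hg _
      (Subgroup.mem_map_of_mem α.toMonoidHom (Subgroup.mem_zpowers t))
    refine ⟨MulAut.conj g * α, ?_, i, hi.symm⟩
    rw [QuotientGroup.mk_mul, (QuotientGroup.eq_one_iff (N := Cfsg.Inn G) (MulAut.conj g)).2
      ⟨g, rfl⟩, one_mul]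
  let C : Subgroup (MulAut G) := MulAction.stabilizer (MulAut G) t
  have hC : commutator (Cfsg.Out G) ≤ C.map (QuotientGroup.mk' _) := by
    rw [commutator_def, Subgroup.commutator_le]
    intro x _ y _
    obtain ⟨α, hα, i, hi⟩ := hN x⁻¹
    obtain ⟨β, hβ, j, hj⟩ := hN y⁻¹
    refine ⟨α⁻¹ * β⁻¹ * α * β, ?_, by
      simp only [QuotientGroup.mk'_apply, QuotientGroup.mk_mul, QuotientGroup.mk_inv, hα, hβ,
        inv_inv, commutatorElement_def]⟩
    have e1 : α (β t) = β (α t) := by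
      rw [hi, hj, map_zpow, map_zpow, hi, hj, ← zpow_mul, ← zpow_mul, mul_comm]
    change α⁻¹ (β⁻¹ (α (β t))) = t
    rw [e1, MulAut.inv_apply_self, MulAut.inv_apply_self]
  have hC2 : IsPGroup 2 (C.map (QuotientGroup.mk' (Cfsg.Inn G))) := by
    rintro ⟨_, α, hα, rfl⟩
    obtain ⟨a, b, -, hb, hab, -, ⟨k, hk⟩, hbc⟩ := H8.exists_pPart_pPrimePart Nat.prime_two α
    refine ⟨k, Subtype.ext ?_⟩
    have h3 := mem_inn H hp.symm h2 hcop ht (Nat.coprime_two_right.1 hbc)
      ((Subgroup.zpowers_le.2 hα) hb)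
    simp only [SubmonoidClass.mk_pow, OneMemClass.coe_one, QuotientGroup.mk'_apply]
    rw [hab, QuotientGroup.mk_mul, (QuotientGroup.eq_one_iff b).2 h3, mul_one,
      ← QuotientGroup.mk_pow, ← hk, pow_orderOf_eq_one, QuotientGroup.mk_one]
  have := (hC2.to_le hC).isNilpotent
  exact (Group.isSolvable_iff_subgroup_quotient (commutator (Cfsg.Out G))).2
    ⟨inferInstance, Group.isSolvable_of_comm (Abelianization.commGroup _).mul_comm⟩

end Cfsg.Agent.S4277
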