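import Cfsg.Statements.S4278
import Cfsg.Agent.Ch.G2Main

set_option autoImplicit false
open Cfsg

namespace Cfsg.Agent.S4278

/-- In the Chevalley group of type G₂ over a finite field of odd order, any two involutions are conjugate. -/
theorem result {F : Type*} [Field F] [Fintype F] (hF : Odd (Fintype.card F)) (s t : ↥(Cfsg.Lie.chevG2.group F)) (hs : orderOf s = 2) (ht : orderOf t = 2) : IsConj s t := by
  exact (Ch.G2.conj_t0 hF hs).trans (Ch.G2.conj_t0 hF ht).symm

end Cfsg.Agent.S4278
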