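import Cfsg.Statements.S4279
import Cfsg.Agent.Ch.G2Main

set_option autoImplicit false
open Cfsg

namespace Cfsg.Agent.S4279

/-- In the Chevalley group G of type G₂ over a finite field F of odd order q, the centralizer of an involution t has order q²(q² − 1)² and contains two elementwise commuting subgroups, each isomorphic to SL(2, F), which meet exactly in the subgroup generated by t and whose join has index 2 in the centralizer. -/
theorem result {F : Type*} [Field F] [Fintype F] (hF : Odd (Fintype.card F)) (t : ↥(Cfsg.Lie.chevG2.group F)) (ht : orderOf t = 2) : Nat.card (Subgroup.centralizer ({t} : Set ↥(Cfsg.Lie.chevG2.group F))) = Fintype.card F ^ 2 * (Fintype.card F ^ 2 - 1) ^ 2 ∧ ∃ L₁ L₂ : Subgroup ↥(Cfsg.Lie.chevG2.group F), Nonempty (L₁ ≃* Matrix.SpecialLinearGroup (Fin 2) F) ∧ Nonempty (L₂ ≃* Matrix.SpecialLinearGroup (Fin 2) F) ∧ (∀ x ∈ L₁, ∀ y ∈ L₂, x * y = y * x) ∧ L₁ ⊓ L₂ = Subgroup.zpowers t ∧ L₁ ⊔ L₂ ≤ Subgroup.centralizer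 ({t} : Set ↥(Cfsg.Lie.chevG2.group F)) ∧ (L₁ ⊔ L₂).relIndex (Subgroup.centralizer ({t} : Set ↥(Cfsg.Lie.chevG2.group F))) = 2 := by
  have hc := Ch.G2.conj_t0 hF ht
  have hcard := (Ch.card_cent_conj hc).trans (Ch.G2.card_t0 hF)
  refine ⟨hcard, ?_⟩
  obtain ⟨φ, ψ, h1, h2, h3, h4, h5⟩ := Ch.G2.exists_hom hF
  obtain ⟨g, hg⟩ := isConj_iff.mp hc.symm
  have := (Ch.G2.ok.cgG (Ch.two_ne_of_odd hF)).finiteG
  refine Ch.two_SL2 (G := Ch.G2.K.D.group F) ((MulAut.conj g).toMonoidHom.comp φ)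
    ((MulAut.conj g).toMonoidHom.comp ψ) ((MulAut.conj g).injective.comp h1)
    ((MulAut.conj g).injective.comp h2) (fun a b => ?_) ht ?_ ?_ hcard
  · change MulAut.conj g _ * MulAut.conj g _ = MulAut.conj g _ * MulAut.conj g _
    rw [← map_mul, ← map_mul, h3]
  · rw [← hg, ← h4]; rfl
  · rw [← hg, ← h5]; rfl

end Cfsg.Agent.S4279
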