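import Cfsg.Statements.S4280
import Cfsg.Agent.Ch.OkF4
import Cfsg.Agent.Ch.Two

set_option autoImplicit false
open Cfsg

namespace Cfsg.Agent.S4280

/-- In the Chevalley group of type F₄ over a finite field of odd order q there are exactly two conjugacy classes of involutions; the centralizer of an involution in one class has order q¹⁶(q² − 1)(q⁴ − 1)(q⁶ − 1)(q⁸ − 1), and in the other class q¹⁰(q² − 1)²(q⁴ − 1)(q⁶ − 1). -/
theorem result {F : Type*} [Field F] [Fintype F] (hF : Odd (Fintype.card F)) : ∃ s t : ↥(Cfsg.Lie.chevF4.group F), orderOf s = 2 ∧ orderOf t = 2 ∧ ¬ IsConj s t ∧ (∀ u : ↥(Cfsg.Lie.chevF4.group F), orderOf u = 2 → IsConj u s ∨ IsConj u t) ∧ Nat.card (Subgroup.centralizer ({s} : Set ↥(Cfsg.Lie.chevF4.group F))) = Fintype.card F ^ 16 * (Fintype.card F ^ 2 - 1) * (Fintype.card F ^ 4 - 1) * (Fintype.card F ^ 6 - 1) * (Fintype.card F ^ 8 - 1) ∧ Nat.card (Subgroup.centralizer ({t} : Set ↥(Cfsg.Lie.chevF4.group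 F))) = Fintype.card F ^ 10 * (Fintype.card F ^ 2 - 1) ^ 2 * (Fintype.card F ^ 4 - 1) * (Fintype.card F ^ 6 - 1) := by
  have hq : 2 ≤ Fintype.card F := Fintype.one_lt_card
  refine Ch.F4.ok.two_classes hF Ch.F4.hW Ch.F4.ha Ch.F4.hb (by decide) (by decide)
    (by decide +kernel) ?_ ?_ ?_
  all_goals
    generalize Fintype.card F = q at hq
    have h : ∀ k, 1 ≤ q ^ k := fun k => Nat.one_le_pow _ _ (by omega)
    have h1 : 1 ≤ q := by omega
  · change (q - 1) ^ 4 * _ * _ = _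
    simp only [Ch.F4.Ea, List.map_cons, List.map_nil, List.sum_cons, List.sum_nil,
      List.prod_cons, List.prod_nil]
    zify [h, h1]
    ring
  · change (q - 1) ^ 4 * _ * _ = _
    simp only [Ch.F4.Eb, List.map_cons, List.map_nil, List.sum_cons, List.sum_nil,
      List.prod_cons, List.prod_nil]
    zify [h, h1]
    ring
  · have p : ∀ k, k ≠ 0 → 0 < q ^ k - 1 := fun k hk =>
      Nat.sub_pos_of_lt (Nat.one_lt_pow hk (by omega))
    have e1 : q ^ 16 * (q ^ 2 - 1) * (q ^ 4 - 1) * (q ^ 6 - 1) * (q ^ 8 - 1) =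
      q ^ 10 * (q ^ 2 - 1) * (q ^ 4 - 1) * (q ^ 6 - 1) * (q ^ 6 * (q ^ 8 - 1)) := by ring
    have e2 : q ^ 10 * (q ^ 2 - 1) ^ 2 * (q ^ 4 - 1) * (q ^ 6 - 1) =
      q ^ 10 * (q ^ 2 - 1) * (q ^ 4 - 1) * (q ^ 6 - 1) * (q ^ 2 - 1) := by ring
    rw [e1, e2]
    intro hc
    have := Nat.eq_of_mul_eq_mul_left (Nat.mul_pos (Nat.mul_pos (Nat.mul_pos (h _)
      (p 2 (by decide))) (p 4 (by decide))) (p 6 (by decide))) hc
    have h3 : q ^ 2 ≤ q ^ 6 := Nat.pow_le_pow_right h1 (by decide)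
    have h4 := Nat.le_mul_of_pos_right (q ^ 6) (p 8 (by decide))
    have := h 2
    omega

end Cfsg.Agent.S4280
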