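import Cfsg.Statements.S4281
import Cfsg.Agent.Ch.OkE8
import Cfsg.Agent.Ch.Two

set_option autoImplicit false
open scoped BigOperators
open Cfsg

namespace Cfsg.Agent.S4281

/-- In the Chevalley group of type E₈ over a finite field of odd order q there are exactly two conjugacy classes of involutions; the centralizer of an involution in one class has order q⁵⁶(q⁸ − 1)·∏_{i=1}^{7}(q^{2i} − 1), and in the other class q⁶⁴(q² − 1)²(q⁶ − 1)(q⁸ − 1)(q¹⁰ − 1)(q¹² − 1)(q¹⁴ − 1)(q¹⁸ − 1). -/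
theorem result {F : Type*} [Field F] [Fintype F] (hF : Odd (Fintype.card F)) : ∃ s t : ↥(Cfsg.Lie.chevE8.group F), orderOf s = 2 ∧ orderOf t = 2 ∧ ¬ IsConj s t ∧ (∀ u : ↥(Cfsg.Lie.chevE8.group F), orderOf u = 2 → IsConj u s ∨ IsConj u t) ∧ Nat.card (Subgroup.centralizer ({s} : Set ↥(Cfsg.Lie.chevE8.group F))) = Fintype.card F ^ 56 * (Fintype.card F ^ 8 - 1) * ∏ i ∈ Finset.Icc 1 7, (Fintype.card F ^ (2 * i) - 1) ∧ Nat.card (Subgroup.centralizer ({t} : Set ↥(Cfsg.Lie.chevE8.group F))) = Fintype.card F ^ 64 * (Fintype.card F ^ 2 - 1) ^ 2 * (Fintype.card F ^ 6 - 1) * (Fintype.card F ^ 8 - 1) * (Fintype.card F ^ 10 - 1) * (Fintype.card F ^ 12 - 1) * (Fintype.card F ^ 14 - 1) * (Fintype.card F ^ 18 - 1) := by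
  have hq : 2 ≤ Fintype.card F := Fintype.one_lt_card
  have hI : Finset.Icc 1 7 = ({1, 2, 3, 4, 5, 6, 7} : Finset ℕ) := by decide
  rw [hI, Finset.prod_insert (by decide), Finset.prod_insert (by decide),
    Finset.prod_insert (by decide), Finset.prod_insert (by decide), Finset.prod_insert (by decide),
    Finset.prod_insert (by decide), Finset.prod_singleton]
  refine Ch.E8.ok.two_classes hF Ch.E8.hW Ch.E8.ha Ch.E8.hb (by decide) (by decide)
    (by decide +kernel) ?_ ?_ ?_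
  all_goals
    generalize Fintype.card F = q at hq
    have h : ∀ k, 1 ≤ q ^ k := fun k => Nat.one_le_pow _ _ (by omega)
    have h1 : 1 ≤ q := by omega
  · change (q - 1) ^ 8 * _ * _ = _
    simp only [Ch.E8.Ea, List.map_cons, List.map_nil, List.sum_cons, List.sum_nil,
      List.prod_cons, List.prod_nil]
    zify [h, h1]
    ring
  · change (q - 1) ^ 8 * _ * _ = _
    simp only [Ch.E8.Eb, List.map_cons, List.map_nil, List.sum_cons, List.sum_nil,
      List.prod_cons, List.prod_nil]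
    zify [h, h1]
    ring
  · have p : ∀ k, k ≠ 0 → 0 < q ^ k - 1 := fun k hk =>
      Nat.sub_pos_of_lt (Nat.one_lt_pow hk (by omega))
    have e1 : q ^ 56 * (q ^ 8 - 1) * ((q ^ (2 * 1) - 1) * ((q ^ (2 * 2) - 1) * ((q ^ (2 * 3) - 1) *
      ((q ^ (2 * 4) - 1) * ((q ^ (2 * 5) - 1) * ((q ^ (2 * 6) - 1) * (q ^ (2 * 7) - 1))))))) =
      q ^ 56 * (q ^ 2 - 1) * (q ^ 6 - 1) * (q ^ 8 - 1) * (q ^ 10 - 1) * (q ^ 12 - 1) *
        (q ^ 14 - 1) * ((q ^ 4 - 1) * (q ^ 8 - 1)) := by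
      norm_num only
      ac_rfl
    have e2 : q ^ 64 * (q ^ 2 - 1) ^ 2 * (q ^ 6 - 1) * (q ^ 8 - 1) * (q ^ 10 - 1) * (q ^ 12 - 1) *
        (q ^ 14 - 1) * (q ^ 18 - 1) =
      q ^ 56 * (q ^ 2 - 1) * (q ^ 6 - 1) * (q ^ 8 - 1) * (q ^ 10 - 1) * (q ^ 12 - 1) *
        (q ^ 14 - 1) * ((q ^ 8 * (q ^ 18 - 1)) * (q ^ 2 - 1)) := by ring
    rw [e1, e2]
    intro hc
    have := Nat.eq_of_mul_eq_mul_left (Nat.mul_pos (Nat.mul_pos (Nat.mul_pos (Nat.mul_pos
      (Nat.mul_pos (Nat.mul_pos (h _) (p 2 (by decide))) (p 6 (by decide))) (p 8 (by decide)))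
      (p 10 (by decide))) (p 12 (by decide))) (p 14 (by decide))) hc
    have h3 : q ^ 4 ≤ q ^ 18 := Nat.pow_le_pow_right h1 (by decide)
    have h4 := Nat.le_mul_of_pos_right (q ^ 8 * (q ^ 18 - 1)) (p 2 (by decide))
    have h5 : (q ^ 4 - 1) * (q ^ 8 - 1) < (q ^ 18 - 1) * q ^ 8 :=
      Nat.mul_lt_mul_of_le_of_lt (by omega) (by have := h 8; omega) (p 18 (by decide))
    rw [this, mul_comm (q ^ 18 - 1)] at h5
    omega

end Cfsg.Agent.S4281
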