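import Cfsg.Statements.S4282
import Cfsg.Agent.H1.RepExtra

set_option autoImplicit false
open Cfsg

namespace Cfsg.Agent.S4282

/-- A critical case behind the Hall–Higman theorem. Let p ≠ q be primes and G a finite group generated by a normal q-subgroup Q and a cyclic p-subgroup generated by x, such that the centralizer of every non-identity element of that cyclic subgroup is its product with the centre of G. Let K be an algebraically closed field of characteristic p and ρ a faithful representation of G on a nonzero finite-dimensional K-space whose restriction to Q is irreducible. If s is the least exponent with (ρ(x) − 1)^s = 0, then |⟨x⟩| − 1 ≤ s ≤ |⟨x⟩|; and if s = |⟨x⟩| − 1 then |⟨x⟩| − 1 is a power of q and Q is non-abelian. -/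
theorem result {G : Type*} [Group G] [Finite G] (p q : ℕ) [Fact p.Prime] [Fact q.Prime] (hpq : p ≠ q) (Q : Subgroup G) [Q.Normal] (hQ : IsPGroup q Q) (x : G) (hx : IsPGroup p (Subgroup.zpowers x)) (hgen : Q ⊔ Subgroup.zpowers x = ⊤) (hC : ∀ y ∈ Subgroup.zpowers x, y ≠ 1 → Subgroup.centralizer ({y} : Set G) = Subgroup.zpowers x ⊔ Subgroup.center G) {K : Type*} [Field K] [IsAlgClosed K] [CharP K p] {V : Type*} [AddCommGroup V] [Module K V] [FiniteDimensional K V] [Nontrivial V] (ρ : Representation K G V) (hfaith : Function.Injective ρ) (hirr : ∀ W : Submodule K V, (∀ g ∈ Q, Submodule.map (ρ g) W ≤ W) → W = ⊥ ∨ W = ⊤) (s : ℕ) (hs : (ρ x - 1) ^ s = 0) (hmin : ∀ k < s, (ρ x - 1) ^ k ≠ 0) : Nat.card (Subgroup.zpowers x) - 1 ≤ s ∧ s ≤ Nat.card (Subgroup.zpowers x) ∧ (s = Nat.card (Subgroup.zpowers x) - 1 → (∃ b : ℕ, Nat.card (Subgroup.zpowers x) - 1 = q ^ b) ∧ ¬ IsMulCommutative Q) := by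
  have hp : p.Prime := Fact.out
  have hq : q.Prime := Fact.out
  obtain ⟨n, hn⟩ := IsPGroup.iff_card.mp hx
  have hord : orderOf x = p ^ n := by rw [← Nat.card_zpowers, hn]
  have hxn : x ^ p ^ n = 1 := by rw [← hord, pow_orderOf_eq_one]
  have hs0 : s ≠ 0 := by
    rintro rfl
    exact one_ne_zero hs
  have hle : s ≤ p ^ n := by
    by_contra hc
    refine hmin (p ^ n) (by omega) ?_
    rw [H1.sub_one_pow_pow hp (H1.cast_end_eq_zero p), ← map_pow, hxn, map_one, sub_self]
  rw [hn]
  rcases hle.lt_or_eq with hlt | heq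
  swap
  · exact ⟨by omega, hle, fun h => by have := pow_pos hp.pos n; omega⟩
  have hxN : x ∈ Subgroup.normalizer (Q : Set G) := Subgroup.le_normalizer_of_normal
    (Subgroup.mem_top x)
  have hirr' : H1.IrrBy (Set.range (ρ.comp Q.subtype)) := fun W hW =>
    hirr W fun g hg => by
      rintro _ ⟨v, hv, rfl⟩
      exact hW _ ⟨⟨g, hg⟩, rfl⟩ v hv
  have hx1 : ρ x ≠ 1 := by
    intro h
    rw [← map_one ρ] at h
    rw [hfaith h, orderOf_one] at hord
    omega
  have hcrit := H1.crit_modular hp hirr'
    (H1.cast_card_ne_zero_of_isPGroup hq hQ (H1.cast_ne_zero_of_prime_ne hp hq hpq.symm))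
    (H1.cov_conjAutOf ρ hxN) (H1.conjAutOf_pow_eq_one hxN (hxn ▸ one_mem _)) (by
      intro i hi0 hi y hy
      have h1 : x ^ i ≠ 1 := pow_ne_one_of_lt_orderOf hi0.ne' (hord ▸ hi)
      have h2 : (y : G) ∈ Subgroup.centralizer ({x ^ i} : Set G) := by
        rw [Subgroup.mem_centralizer_singleton_iff]
        have := congrArg Subtype.val hy
        rw [H1.coe_conjAutOf_pow] at this
        exact (mul_inv_eq_iff_eq_mul.mp this).symm
      rw [hC _ (Subgroup.npow_mem_zpowers x i) h1] at h2
      obtain ⟨a, ha, z, hz, he⟩ :=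
        (H1.mem_sup_iff_of_le_normalizer Subgroup.le_normalizer_of_normal).mp h2
      have ha1 : a = 1 := by
        by_contra hne
        have h3 : ∀ w : Q, (w : G) ∈ Subgroup.centralizer ({a} : Set G) → (w : G) * x = x * w := by
          intro w hw
          rw [hC a ha hne] at hw
          refine (Subgroup.mem_centralizer_singleton_iff).mp ((sup_le ?_ ?_ :
            _ ≤ Subgroup.centralizer ({x} : Set G)) hw)
          · exact Subgroup.zpowers_le.mpr (Subgroup.mem_centralizer_singleton_iff.mpr rfl)
          · exact Subgroup.center_le_centralizer _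
        -- `a` is a `p`-element and `y = a z` is a `q`-element
        obtain ⟨m, hm⟩ := hQ y
        have h4 : a ^ q ^ m ∈ Subgroup.center G := by
          have h5 : (a * z) ^ q ^ m = 1 := by rw [he]; exact congrArg Subtype.val hm
          rw [Commute.mul_pow (Subgroup.mem_center_iff.mp hz a), mul_eq_one_iff_eq_inv] at h5
          rw [h5]
          exact inv_mem (pow_mem hz _)
        have h5 : a ^ q ^ m ≠ 1 := by
          intro h
          have h6 := orderOf_dvd_of_pow_eq_one h
          have h7 : orderOf a ∣ p ^ n := hord ▸ orderOf_dvd_of_mem_zpowers ha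
          exact hne (orderOf_eq_one_iff.mp (Nat.eq_one_of_dvd_coprimes
            (Nat.Coprime.pow _ _ ((Nat.coprime_primes hp hq).mpr hpq)) h7 h6))
        have h6 := hC _ (pow_mem ha _) h5
        have h7 : ∀ g : G, g * x = x * g := by
          intro g
          have : g ∈ Subgroup.zpowers x ⊔ Subgroup.center G := by
            rw [← h6, Subgroup.mem_centralizer_singleton_iff]
            exact Subgroup.mem_center_iff.mp h4 g
          refine (Subgroup.mem_centralizer_singleton_iff).mp ((sup_le ?_ ?_ :
            _ ≤ Subgroup.centralizer ({x} : Set G)) this)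
          · exact Subgroup.zpowers_le.mpr (Subgroup.mem_centralizer_singleton_iff.mpr rfl)
          · exact Subgroup.center_le_centralizer _
        obtain ⟨c, hc⟩ := hirr'.exists_eq_smul (T := ρ x) (by
          rintro _ ⟨g, rfl⟩
          change ρ x * ρ g = ρ g * ρ x
          rw [← map_mul, ← map_mul, h7])
        have h8 : (c - 1) ^ s = 0 := by
          rw [hc, show c • (1 : Module.End K V) - 1 = (c - 1) • 1 by rw [sub_smul, one_smul],
            smul_pow, one_pow, smul_eq_zero] at hs
          exact hs.resolve_right one_ne_zero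
        rw [sub_eq_zero.mp (pow_eq_zero_iff hs0 |>.mp h8), one_smul] at hc
        exact hx1 hc
      rw [ha1, one_mul] at he
      refine H1.mem_scalarSub_of_commute hirr' fun w => ?_
      rw [← map_mul, ← map_mul]
      congr 1
      exact Subtype.ext (by
        rw [Subgroup.coe_mul, Subgroup.coe_mul, ← he]
        exact (Subgroup.mem_center_iff.mp hz _).symm)) hx1 hs hlt
  refine ⟨hcrit.1.ge, hle, fun _ => ⟨?_, fun hc => ?_⟩⟩
  · rw [← hcrit.2]
    exact H1.exists_finrank_eq_pow hq _ hQ rfl _ hirr'
  · have h1 : ∀ y : Q, ∃ c : K, ρ y = c • 1 := fun y =>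
      H1.mem_scalarSub_of_commute hirr' (x := y) fun w => by
        rw [← map_mul, ← map_mul, hc.is_comm.comm]
    obtain ⟨v, hv⟩ := exists_ne (0 : V)
    have h2 : Module.finrank K V = 1 := by
      rw [finrank_eq_one_iff_of_nonzero v hv]
      refine (hirr' _ ?_).resolve_left (by simpa using hv)
      rintro _ ⟨y, rfl⟩ w hw
      obtain ⟨c, hc⟩ := h1 y
      change ρ y w ∈ _
      rw [hc]
      exact Submodule.smul_mem _ c hw
    rw [hcrit.1, ← hcrit.2, h2, pow_one] at hs
    exact hx1 (sub_eq_zero.mp hs)

end Cfsg.Agent.S4282
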