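import Cfsg.Statements.S4283
import Cfsg.Agent.H9.ClassSize
import Cfsg.Agent.H9.FrobKernel

set_option autoImplicit false
open Cfsg

namespace Cfsg.Agent.S4283

/-- Let G be a finite group with centre Z and let K, H be abelian subgroups of G containing Z such that G/Z is a Frobenius group with complement H/Z and kernel K/Z. Then the conjugacy class sizes of G are exactly 1, [G : K] and [G : H], and these two indices are coprime. (This is the converse half of the characterization of finite groups whose conjugacy class sizes are exactly 1, m and n with m and n coprime.) -/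
theorem result {G : Type*} [Group G] [Finite G] (K H : Subgroup G) (hZK : Subgroup.center G ≤ K) (hZH : Subgroup.center G ≤ H) (hK : IsMulCommutative K) (hH : IsMulCommutative H) (hFrob : Cfsg.IsFrobeniusComplement (H.map (QuotientGroup.mk' (Subgroup.center G)))) (hker : Cfsg.frobeniusKernel (H.map (QuotientGroup.mk' (Subgroup.center G))) = (K.map (QuotientGroup.mk' (Subgroup.center G)) : Set (G ⧸ Subgroup.center G))) : Set.range (fun x : G => (Subgroup.centralizer ({x} : Set G)).index) = ({1, K.index, H.index} : Set ℕ) ∧ K.index.Coprime H.index := by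
  set f := QuotientGroup.mk' (Subgroup.center G) with hf
  have hfs : Function.Surjective f := QuotientGroup.mk'_surjective _
  have hkf : f.ker = Subgroup.center G := QuotientGroup.ker_mk' _
  have h1 : ∀ x : G, f x = 1 ↔ x ∈ Subgroup.center G := fun x => QuotientGroup.eq_one_iff x
  have hcK : ∀ x ∈ K, x ∉ Subgroup.center G → Subgroup.centralizer ({x} : Set G) = K := by
    intro x hx hxZ
    apply le_antisymm
    · intro y hy
      have h2 := H9.frob_centralizer_le_kernel hFrob hker (Subgroup.mem_map_of_mem f hx)
        (fun h => hxZ ((h1 x).1 h)) (H9.map_centralizer_singleton_le f x ⟨y, hy, rfl⟩)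
      rw [← Subgroup.mem_comap, Subgroup.comap_map_eq_self (hkf.le.trans hZK)] at h2
      exact h2
    · intro y hy
      rw [Subgroup.mem_centralizer_singleton_iff]
      exact congrArg Subtype.val (hK.is_comm.comm (⟨y, hy⟩ : K) ⟨x, hx⟩)
  have hcH : ∀ x ∈ H, x ∉ Subgroup.center G → Subgroup.centralizer ({x} : Set G) = H := by
    intro x hx hxZ
    apply le_antisymm
    · intro y hy
      have h2 := H9.frob_centralizer_le hFrob (Subgroup.mem_map_of_mem f hx)
        (fun h => hxZ ((h1 x).1 h)) (H9.map_centralizer_singleton_le f x ⟨y, hy, rfl⟩)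
      rw [← Subgroup.mem_comap, Subgroup.comap_map_eq_self (hkf.le.trans hZH)] at h2
      exact h2
    · intro y hy
      rw [Subgroup.mem_centralizer_singleton_iff]
      exact congrArg Subtype.val (hH.is_comm.comm (⟨y, hy⟩ : H) ⟨x, hx⟩)
  constructor
  · ext n
    simp only [Set.mem_range, Set.mem_insert_iff, Set.mem_singleton_iff]
    constructor
    · rintro ⟨x, rfl⟩
      by_cases hxZ : x ∈ Subgroup.center G
      · exact Or.inl (H9.index_centralizer_eq_one_iff.2 hxZ)
      by_cases hxK : x ∈ K
      · exact Or.inr (Or.inl (by rw [hcK x hxK hxZ]))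
      refine Or.inr (Or.inr ?_)
      have h2 : f x ∉ Cfsg.frobeniusKernel (H.map f) := by
        rw [hker, SetLike.mem_coe, ← Subgroup.mem_comap, Subgroup.comap_map_eq_self (hkf.le.trans hZK)]
        exact hxK
      obtain ⟨-, g, hg⟩ := H9.not_mem_frobeniusKernel.1 h2
      obtain ⟨g, rfl⟩ := hfs g
      rw [← map_inv, ← map_mul, ← map_mul, ← Subgroup.mem_comap,
        Subgroup.comap_map_eq_self (hkf.le.trans hZH)] at hg
      rw [← H9.index_centralizer_conj g x, hcH _ hg]
      intro h
      apply hxZ
      rw [← H9.index_centralizer_eq_one_iff] at h ⊢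
      rwa [H9.index_centralizer_conj] at h
    · rintro (rfl | rfl | rfl)
      · exact ⟨1, H9.index_centralizer_eq_one_iff.2 (one_mem _)⟩
      · obtain ⟨⟨_, x, hx, rfl⟩, hx1⟩ :=
          Subgroup.ne_bot_iff_exists_ne_one.1 (H9.frob_kernel_ne_bot hFrob hker)
        exact ⟨x, by rw [hcK x hx fun h => hx1 (Subtype.ext ((h1 x).2 h))]⟩
      · obtain ⟨⟨_, x, hx, rfl⟩, hx1⟩ := Subgroup.ne_bot_iff_exists_ne_one.1 hFrob.1
        exact ⟨x, by rw [hcH x hx fun h => hx1 (Subtype.ext ((h1 x).2 h))]⟩
  · rw [← Subgroup.index_map_eq K hfs (hkf.le.trans hZK), ← Subgroup.index_map_eq H hfs (hkf.le.trans hZH),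
      H9.frob_index_kernel hFrob hker]
    exact H9.frob_coprime_card_index hFrob

end Cfsg.Agent.S4283
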