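import Cfsg.Statements.S4292
import Cfsg.Agent.H8.FpfRep

set_option autoImplicit false
open Cfsg

namespace Cfsg.Agent.S4292

theorem aux (k V : Type*) [Field k] [AddCommGroup V] [Module k V] {v : V} (hv : v ≠ 0) :
    ∃ f : Module.Dual k V, f v ≠ 0 := Module.Projective.exists_dual_ne_zero k hv

/-- Let A and B be nontrivial finite groups. Then the direct product A × B occurs as a Frobenius complement if and only if A and B both occur as Frobenius complements and the orders of A and B are coprime. -/
theorem result {A B : Type*} [Group A] [Finite A] [Nontrivial A] [Group B] [Finite B] [Nontrivial B] :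
    (∃ (L : Type) (_ : Group L) (_ : Finite L) (H : Subgroup L), Cfsg.IsFrobeniusComplement H ∧ Nonempty ((A × B) ≃* H)) ↔
    ((∃ (L : Type) (_ : Group L) (_ : Finite L) (H : Subgroup L), Cfsg.IsFrobeniusComplement H ∧ Nonempty (A ≃* H)) ∧
     (∃ (L : Type) (_ : Group L) (_ : Finite L) (H : Subgroup L), Cfsg.IsFrobeniusComplement H ∧ Nonempty (B ≃* H)) ∧
     (Nat.card A).Coprime (Nat.card B)) := by
  constructor
  · intro h
    obtain ⟨N, _, _, _, φ, hφ, -⟩ := H8.IsFC.exists_action h
    refine ⟨H8.isFC_of_action (hφ.comp (MonoidHom.inl A B) (Prod.mk_left_injective 1)),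
      H8.isFC_of_action (hφ.comp (MonoidHom.inr A B) (Prod.mk_right_injective 1)), ?_⟩
    by_contra hc
    obtain ⟨p, hp, h1, h2⟩ := Nat.Prime.not_coprime_iff_dvd.1 hc
    have := Fact.mk hp
    obtain ⟨a, ha⟩ := exists_prime_orderOf_dvd_card' p h1
    obtain ⟨b, hb⟩ := exists_prime_orderOf_dvd_card' p h2
    obtain ⟨k, hk⟩ := hφ.mem_zpowers_of_commute hp (a := (a, 1)) (b := (1, b))
      (by rw [Prod.orderOf_mk, ha, orderOf_one, Nat.lcm_one_right])
      (by rw [Prod.pow_mk, one_pow, ← hb, pow_orderOf_eq_one]; rfl) (by simp [Commute, SemiconjBy])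
    have h3 : (1 : B) = b := by simpa using congrArg Prod.snd hk
    rw [← h3, orderOf_one] at hb
    exact hp.ne_one hb.symm
  · rintro ⟨hA, hB, hc⟩
    obtain ⟨l, hl1, hl⟩ := Nat.exists_infinite_primes (Nat.card A + Nat.card B + 1)
    have := Fact.mk hl
    obtain ⟨V, _, _, _, ρ, hV, hρ⟩ := H8.IsFC.exists_rep_prime hA hl (fun hd => by
      have := Nat.le_of_dvd Nat.card_pos hd
      omega)
    obtain ⟨W, _, _, _, σ, hW, hσ⟩ := H8.IsFC.exists_rep_prime hB hl (fun hd => by
      have := Nat.le_of_dvd Nat.card_pos hd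
      omega)
    have : Finite (V →ₗ[ℤ] W) := DFunLike.finite _
    have : Nontrivial (V →ₗ[ℤ] W) := by
      let _ : Module (ZMod l) V := AddCommGroup.zmodModule hV
      let _ : Module (ZMod l) W := AddCommGroup.zmodModule hW
      obtain ⟨v, hv⟩ := exists_ne (0 : V)
      obtain ⟨w, hw⟩ := exists_ne (0 : W)
      obtain ⟨f, hf⟩ := aux (ZMod l) V hv
      refine ⟨⟨(f.smulRight w).toAddMonoidHom.toIntLinearMap, 0, fun h => ?_⟩⟩
      have := LinearMap.congr_fun h v
      simp [hf, hw] at this
    let τ := Representation.linHom (ρ.comp (MonoidHom.fst A B)) (σ.comp (MonoidHom.snd A B))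
    refine H8.isFC_of_rep τ fun x hx f hf => ?_
    have h1 : ∀ i : ℕ, τ (x ^ i) f = f := by
      intro i
      induction i with
      | zero => rw [pow_zero, map_one, Module.End.one_apply]
      | succ i ih => rw [pow_succ, map_mul, Module.End.mul_apply, hf, ih]
    obtain ⟨a, b⟩ := x
    by_cases ha : a = 1
    · subst ha
      have hb : b ≠ 1 := by rintro rfl; exact hx rfl
      ext v
      refine hσ b hb _ ?_
      simpa [τ] using LinearMap.congr_fun hf v
    · have h2 : (a ^ Nat.card B)⁻¹ ≠ 1 := by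
        rw [Ne, inv_eq_one]
        intro h
        exact ha (orderOf_eq_one_iff.1 (Nat.eq_one_of_dvd_coprimes hc (orderOf_dvd_natCard a)
          (orderOf_dvd_of_pow_eq_one h)))
      have h3 : ∀ v, f (ρ (a ^ Nat.card B)⁻¹ v) = f v := fun v => by
        simpa [τ] using LinearMap.congr_fun (h1 (Nat.card B)) v
      have h4 : Function.Injective (ρ (a ^ Nat.card B)⁻¹ - 1 : Module.End ℤ V) := by
        rw [injective_iff_map_eq_zero]
        intro v hv
        exact hρ _ h2 v (by simpa [sub_eq_zero] using hv)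
      ext v
      obtain ⟨u, rfl⟩ := Finite.surjective_of_injective h4 v
      simp [h3]

end Cfsg.Agent.S4292
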