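import Cfsg.Statements.S4293
import Cfsg.Agent.H8.FpfRep

set_option autoImplicit false
open Cfsg

namespace Cfsg.Agent.S4293

/-- A nontrivial finite subgroup of the multiplicative group of a division ring occurs as a Frobenius complement of some finite Frobenius group. -/
theorem result {D : Type*} [DivisionRing D] (H : Subgroup Dˣ) [Finite H] (hH : H ≠ ⊥) :
    ∃ (L : Type) (_ : Group L) (_ : Finite L) (C : Subgroup L), Cfsg.IsFrobeniusComplement C ∧ Nonempty (H ≃* C) := by
  have : Nontrivial H := (Subgroup.nontrivial_iff_ne_bot H).2 hH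
  let ψ : H →* D := (Units.coeHom D).comp H.subtype
  have hψ : Function.Injective ψ := Units.val_injective.comp H.subtype_injective
  have hker := H8.normIdeal_le_ker ℤ (MonoidAlgebra.lift ℤ D H ψ).toRingHom (fun a ha => by
    have h1 := congrArg (MonoidAlgebra.lift ℤ D H ψ) (H8.of_mul_nrm ℤ a)
    rw [map_mul, MonoidAlgebra.lift_of, ← sub_eq_zero, ← sub_one_mul, mul_eq_zero] at h1
    exact h1.resolve_left fun h => ha (hψ (by rw [map_one, ← sub_eq_zero, h])))
  have hr : ∀ r : ℤ, (r : MonoidAlgebra ℤ H) ∈ H8.normIdeal ℤ H → (r : D) = 0 := fun r hr => by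
    simpa using hker hr
  obtain ⟨l, hl, hl0, hl1⟩ : ∃ l : ℕ, l.Coprime (Nat.card H) ∧ l ≠ 0 ∧
      ∀ r : ℤ, (r : D) = 0 → ¬ (l : ℤ) ∣ r - 1 := by
    obtain ⟨p, hp⟩ := CharP.exists D
    rcases CharP.char_is_prime_or_zero D p with h | rfl
    · refine ⟨p, h.coprime_iff_not_dvd.2 fun hd => ?_, h.ne_zero, fun r h1 h2 => ?_⟩
      · have := Fact.mk h
        obtain ⟨a, ha⟩ := exists_prime_orderOf_dvd_card' p hd
        have h1 : (ψ a - 1) ^ p = 0 := by
          rw [sub_pow_char_of_commute _ (Commute.one_right _), ← map_pow, ← ha,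
            pow_orderOf_eq_one, map_one, one_pow, sub_self]
        have h2 : a = 1 := hψ (by rw [map_one, ← sub_eq_zero, pow_eq_zero_iff h.ne_zero |>.1 h1])
        rw [h2, orderOf_one] at ha
        exact h.ne_one ha.symm
      · rw [CharP.intCast_eq_zero_iff D p] at h1
        have h3 := dvd_sub h1 h2
        rw [sub_sub_cancel] at h3
        exact h.not_dvd_one (by exact_mod_cast h3)
    · have := CharP.charP_to_charZero D
      obtain ⟨l, hl1, hl⟩ := Nat.exists_infinite_primes (Nat.card H + 1)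
      refine ⟨l, hl.coprime_iff_not_dvd.2 fun hd => ?_, hl.ne_zero, fun r h1 h2 => ?_⟩
      · have := Nat.le_of_dvd Nat.card_pos hd
        omega
      · rw [Int.cast_eq_zero] at h1
        rw [h1, zero_sub, dvd_neg] at h2
        exact hl.not_dvd_one (by exact_mod_cast h2)
  obtain ⟨V, _, _, _, ρ, -, hρ⟩ := H8.exists_rep_of_normIdeal hl hl0 fun r h => hl1 r (hr r h)
  exact H8.isFC_of_rep ρ hρ

end Cfsg.Agent.S4293
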