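import Cfsg.Statements.S4295
import Cfsg.Agent.H9.FrobCompl2
import Cfsg.Agent.H9.FrobExamples

set_option autoImplicit false
open Cfsg

namespace Cfsg.Agent.S4295

theorem exists_ring (n : ℕ) (hn : Odd n) : ∃ (R : Type) (_ : CommRing R) (_ : Finite R),
    Nat.card R = n ∧ (∃ a b : R, a ^ 2 + b ^ 2 = -1) ∧ ∃ c : R, 2 * c = 1 := by
  induction n using Nat.recOnMul with
  | zero => exact absurd hn (by decide)
  | one => exact ⟨PUnit, inferInstance, inferInstance, by simp, ⟨0, 0, rfl⟩, 0, rfl⟩
  | prime p hp =>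
    have := Fact.mk hp
    refine ⟨ZMod p, inferInstance, inferInstance, Nat.card_zmod p, ZMod.sq_add_sq p (-1), ?_⟩
    obtain ⟨m, hm⟩ := hn
    refine ⟨(m : ZMod p) + 1, ?_⟩
    have : ((2 * m + 1 : ℕ) : ZMod p) = 0 := by rw [← hm, ZMod.natCast_self]
    push_cast at this
    linear_combination this
  | mul a b iha ihb =>
    obtain ⟨R, _, _, h1, ⟨x, y, h2⟩, c, h3⟩ := iha (Nat.odd_mul.1 hn).1
    obtain ⟨S, _, _, h4, ⟨z, w, h5⟩, d, h6⟩ := ihb (Nat.odd_mul.1 hn).2
    refine ⟨R × S, inferInstance, inferInstance, by rw [Nat.card_prod, h1, h4],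
      ⟨(x, z), (y, w), Prod.ext h2 h5⟩, (c, d), Prod.ext h3 h6⟩


/-- For a natural number m the following are equivalent: (a) some finite group has a Frobenius complement isomorphic to the quaternion group of order 8 whose Frobenius kernel (the identity together with the elements lying in no conjugate of the complement) has exactly m elements; (b) m is an odd perfect square greater than 1. -/
theorem result (m : ℕ) :
    (∃ (L : Type) (_ : Group L) (_ : Finite L) (H : Subgroup L), Cfsg.IsFrobeniusComplement H ∧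
        Nonempty (H ≃* QuaternionGroup 2) ∧ Nat.card (Cfsg.frobeniusKernel H) = m) ↔
    (Odd m ∧ IsSquare m ∧ 1 < m) := by
  constructor
  · rintro ⟨L, _, _, H, hF, ⟨e⟩, rfl⟩
    obtain ⟨K, _, _, hK, hφ⟩ := H9.frob_exists_isFrobAction hF
    rw [hK]
    have : Fact (Nat.Prime 2) := ⟨Nat.prime_two⟩
    have hP : IsPGroup 2 (⊤ : Subgroup H) := by
      refine IsPGroup.of_card (n := 3) ?_
      rw [Subgroup.card_top, Nat.card_congr e.toEquiv, Nat.card_eq_fintype_card,
        QuaternionGroup.card]
      rfl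
    have hnc : ¬ IsCyclic (⊤ : Subgroup H) := by
      intro hc
      have h1 : IsCyclic (QuaternionGroup 2) :=
        isCyclic_of_surjective _ (Subgroup.topEquiv.symm.symm.trans e).surjective
      have h2 : ∀ a b : QuaternionGroup 2, a * b = b * a := h1.commGroup.mul_comm
      exact absurd (h2 (QuaternionGroup.a 1) (QuaternionGroup.xa 0)) (by decide)
    obtain ⟨h1, h2⟩ := hφ.odd_and_isSquare hP hnc
    exact ⟨h1, h2, Finite.one_lt_card (α := K)⟩
  · rintro ⟨h1, ⟨n, rfl⟩, h2⟩
    obtain ⟨R, _, _, hR, ⟨a, b, hab⟩, c, hc⟩ := exists_ring n (Nat.odd_mul.1 h1).1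
    have : Nontrivial R := by
      rw [← Finite.one_lt_card_iff_nontrivial, hR]
      by_contra h
      have : n ≤ 1 := by omega
      nlinarith
    have hx2 : (!![a, b; b, -a] : Matrix (Fin 2) (Fin 2) R) ^ 2 = -1 := by
      rw [sq]
      ext i j
      fin_cases i <;> fin_cases j <;> simp <;> first | linear_combination hab | ring
    have e1 : (!![a, b; b, -a] : Matrix (Fin 2) (Fin 2) R) ^ (2 * 2) = 1 := by
      rw [pow_mul, hx2, neg_one_sq]
    have e2 : (!![0, 1; -1, 0] : Matrix (Fin 2) (Fin 2) R) * !![0, 1; -1, 0] =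
        !![a, b; b, -a] ^ 2 := by
      rw [hx2]
      ext i j
      fin_cases i <;> fin_cases j <;> simp
    have e3 : (!![a, b; b, -a] : Matrix (Fin 2) (Fin 2) R) * !![0, 1; -1, 0] * !![a, b; b, -a] =
        !![0, 1; -1, 0] := by
      ext i j
      fin_cases i <;> fin_cases j <;> simp <;>
        first | linear_combination hab | linear_combination -hab | ring
    have hneg : ∀ v : Fin 2 → R, (-1 : Matrix (Fin 2) (Fin 2) R).mulVec v = v → v = 0 := by
      intro v hv
      rw [Matrix.neg_mulVec, Matrix.one_mulVec] at hv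
      ext i
      have := congrFun hv i
      rw [Pi.neg_apply] at this
      change v i = 0
      linear_combination (-c) * this - v i * hc
    obtain ⟨L, _, _, H, a1, a2, a3⟩ := H9.exists_frob_of_matrix (H9.quatHom 2 _ _ e1 e2 e3)
      (H9.quatHom_fpf 2 _ _ e1 e2 e3 (by
        intro k hk1 hk2 v hv
        apply hneg
        have hsq : ((!![a, b; b, -a] : Matrix (Fin 2) (Fin 2) R) ^ k * !![a, b; b, -a] ^ k).mulVec v
            = v := by rw [← Matrix.mulVec_mulVec, hv, hv]
        rw [← sq, ← pow_mul, mul_comm, pow_mul, hx2] at hsq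
        have hk : k < 4 := hk2
        interval_cases k
        · rwa [pow_one] at hsq
        · rwa [hx2] at hv
        · rwa [(by decide : Odd 3).neg_one_pow] at hsq))
    exact ⟨L, _, inferInstance, H, a1, a2, by rw [a3, hR, sq]⟩

end Cfsg.Agent.S4295
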