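import Cfsg.Statements.S4297
import Cfsg.Agent.H9.FrobExamples

set_option autoImplicit false
open Cfsg

namespace Cfsg.Agent.S4297

theorem aux {F : Type} [Field F] [Finite F] (n : ℕ) [NeZero n] (z w : F) (hzw : z * w = 1)
    (hz : orderOf z = 2 * n) :
    ∃ (L : Type) (_ : Group L) (_ : Finite L) (H : Subgroup L), Cfsg.IsFrobeniusComplement H ∧
      Nonempty (H ≃* QuaternionGroup n) := by
  have hpow : ∀ k : ℕ, (Matrix.diagonal ![z, w]) ^ k = Matrix.diagonal ![z ^ k, w ^ k] := by
    intro k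
    rw [Matrix.diagonal_pow]
    congr 1
    ext i
    fin_cases i <;> rfl
  have hk : ∀ k : ℕ, z ^ k * w ^ k = 1 := fun k => by rw [← mul_pow, hzw, one_pow]
  have hz2 : z ^ (2 * n) = 1 := by rw [← hz, pow_orderOf_eq_one]
  have hne : ∀ k : ℕ, 0 < k → k < 2 * n → z ^ k ≠ 1 := fun k h1 h2 =>
    pow_ne_one_of_lt_orderOf h1.ne' (hz ▸ h2)
  have hn := NeZero.pos n
  have hzn : z ^ n = -1 := by
    have : (z ^ n) ^ 2 = 1 := by rw [← pow_mul, mul_comm, hz2]
    exact (sq_eq_one_iff.1 this).resolve_left (hne n hn (by omega))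
  have hwn : w ^ n = -1 := by
    have := hk n
    rw [hzn] at this
    linear_combination -this
  have hw2 : w ^ (2 * n) = 1 := by
    have := hk (2 * n)
    rwa [hz2, one_mul] at this
  have h1 : (Matrix.diagonal ![z, w]) ^ (2 * n) = 1 := by
    rw [hpow, hz2, hw2]
    ext i j
    fin_cases i <;> fin_cases j <;> simp
  have h2 : (!![0, -1; 1, 0] : Matrix (Fin 2) (Fin 2) F) * !![0, -1; 1, 0] =
      (Matrix.diagonal ![z, w]) ^ n := by
    rw [hpow, hzn, hwn]
    ext i j
    fin_cases i <;> fin_cases j <;> simp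
  have h3 : (Matrix.diagonal ![z, w]) * (!![0, -1; 1, 0] : Matrix (Fin 2) (Fin 2) F) *
      (Matrix.diagonal ![z, w]) = !![0, -1; 1, 0] := by
    ext i j
    fin_cases i <;> fin_cases j <;> simp [hzw, mul_comm w z]
  obtain ⟨L, _, _, H, a1, a2, -⟩ := H9.exists_frob_of_matrix (H9.quatHom n _ _ h1 h2 h3)
    (H9.quatHom_fpf n _ _ h1 h2 h3 (by
      intro k hk1 hk2 v hv
      rw [hpow] at hv
      have b1 := hne k hk1 hk2
      have b2 : w ^ k ≠ 1 := by
        intro h
        have := hk k
        rw [h, mul_one] at this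
        exact b1 this
      have c0 := congrFun hv 0
      have c1 := congrFun hv 1
      rw [Matrix.mulVec_diagonal] at c0 c1
      ext i
      fin_cases i
      · by_contra h0
        exact b1 (mul_right_cancel₀ h0 (c0.trans (one_mul _).symm))
      · by_contra h0
        exact b2 (mul_right_cancel₀ h0 (c1.trans (one_mul _).symm))))
  exact ⟨L, _, inferInstance, H, a1, a2⟩

/-- For every n ≥ 2 the dicyclic group of order 4n (generated by an element a of order 2n and an element x with x² = aⁿ and x a x⁻¹ = a⁻¹) occurs as a Frobenius complement of some finite Frobenius group. -/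
theorem result (n : ℕ) (hn : 2 ≤ n) :
    ∃ (L : Type) (_ : Group L) (_ : Finite L) (H : Subgroup L), Cfsg.IsFrobeniusComplement H ∧ Nonempty (H ≃* QuaternionGroup n) := by
  have : NeZero n := ⟨by omega⟩
  obtain ⟨p, _, ζ, hζ⟩ := H9.exists_prime_orderOf_eq (n := 2 * n) (by omega)
  exact aux n (ζ : ZMod p) ((ζ⁻¹ : (ZMod p)ˣ) : ZMod p) ζ.mul_inv (by rw [orderOf_units, hζ])

end Cfsg.Agent.S4297
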