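import Cfsg.Statements.S4299
import Cfsg.Agent.H9.FrobExamples

set_option autoImplicit false
open Cfsg

namespace Cfsg.Agent.S4299

/-- Every nontrivial finite cyclic group occurs as a Frobenius complement of some finite Frobenius group. -/
theorem result {C : Type*} [Group C] [Finite C] [IsCyclic C] [Nontrivial C] :
    ∃ (L : Type) (_ : Group L) (_ : Finite L) (H : Subgroup L), Cfsg.IsFrobeniusComplement H ∧ Nonempty (C ≃* H) := by
  obtain ⟨p, _, ζ, hζ⟩ := H9.exists_prime_orderOf_eq (n := Nat.card C) Nat.card_pos.ne'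
  have hc : Nat.card (Subgroup.zpowers ζ) = Nat.card C := by rw [Nat.card_zpowers, hζ]
  have : Nontrivial (Subgroup.zpowers ζ) :=
    Finite.one_lt_card_iff_nontrivial.1 (hc ▸ Finite.one_lt_card)
  obtain ⟨L, _, _, H, h1, ⟨e⟩, -⟩ := H9.exists_frob_of_distribMulAction (Subgroup.zpowers ζ) (ZMod p)
    (by
      intro a ha v hv
      by_contra h0
      apply ha
      apply Subtype.ext
      apply Units.ext
      have : ((a : (ZMod p)ˣ) : ZMod p) * v = 1 * v := by rw [one_mul]; exact hv
      exact mul_right_cancel₀ h0 this)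
  exact ⟨L, _, inferInstance, H, h1, ⟨(mulEquivOfCyclicCardEq hc.symm).trans e.symm⟩⟩

end Cfsg.Agent.S4299
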