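import Cfsg.Statements.S4301


set_option autoImplicit false
open Cfsg

namespace Cfsg.Agent.S4301

theorem exists_emb {X : Type*} {k : ℕ} (e : Fin (k + 2) ↪ X) {p q : X} (hpq : p ≠ q) :
    ∃ a : Fin (k + 2) ↪ X, a 0 = p ∧ a 1 = q := by
  classical
  refine ⟨e.trans (Equiv.swap (Equiv.swap (e 0) p (e 1)) q * Equiv.swap (e 0) p).toEmbedding, ?_, ?_⟩
  · simp only [Function.Embedding.trans_apply, Equiv.coe_toEmbedding, Equiv.Perm.mul_apply,
      Equiv.swap_apply_left]
    apply Equiv.swap_apply_of_ne_of_ne _ hpq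
    intro h
    have : Equiv.swap (e 0) p (e 0) = Equiv.swap (e 0) p (e 1) := by
      rw [Equiv.swap_apply_left]; exact h
    exact absurd (e.injective ((Equiv.swap (e 0) p).injective this)) (by simp)
  · simp only [Function.Embedding.trans_apply, Equiv.coe_toEmbedding, Equiv.Perm.mul_apply,
      Equiv.swap_apply_left]

/-- One-point extension of a multiply transitive group. Let X be a set and G a group of permutations of Option X (the set X with one extra point ∗ = none) all of whose elements fix ∗, such that G is k-transitive on the points of X for some k ≥ 2, X having at least k points. Suppose a permutation h of Option X and an element g of G satisfy: h interchanges ∗ with a point x of X and fixes a point y of X; g interchanges x and y; (g h)³ and h² lie in G; and for every f in G fixing x, the product h f h lies in G and fixes x. Then an element of the group generated by G and h fixes ∗ exactly when it lies in G, and that group acts (k+1)-transitively on Option X. -/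
theorem result {X : Type*} (G : Subgroup (Equiv.Perm (Option X))) (hfix : ∀ f ∈ G, f none = none)
    (k : ℕ) (hk : 2 ≤ k) (hkX : Nonempty (Fin k ↪ X))
    (htrans : ∀ a b : Fin k ↪ X, ∃ f ∈ G, ∀ i, f (some (a i)) = some (b i))
    (h g : Equiv.Perm (Option X)) (hg : g ∈ G) (x y : X)
    (h1 : h none = some x) (h2 : h (some x) = none) (h3 : h (some y) = some y)
    (h4 : g (some x) = some y) (h5 : g (some y) = some x)
    (h6 : (g * h) ^ 3 ∈ G) (h7 : h ^ 2 ∈ G)
    (h8 : ∀ f ∈ G, f (some x) = some x → h * f * h ∈ G ∧ (h * f * h) (some x) = some x) :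
    (∀ f ∈ Subgroup.closure ((G : Set (Equiv.Perm (Option X))) ∪ {h}), f none = none ↔ f ∈ G) ∧
      MulAction.IsMultiplyPretransitive (Subgroup.closure ((G : Set (Equiv.Perm (Option X))) ∪ {h})) (Option X) (k + 1) := by
  obtain ⟨k, rfl⟩ : ∃ j, k = j + 2 := ⟨k - 2, by omega⟩
  obtain ⟨e⟩ := hkX
  have hxy : x ≠ y := by
    rintro rfl
    rw [h2] at h3
    exact absurd h3 (by simp)
  have htwo : ∀ p q r s : X, p ≠ q → r ≠ s → ∃ f ∈ G, f (some p) = some r ∧ f (some q) = some s := by
    intro p q r s hpq hrs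
    obtain ⟨a, ha0, ha1⟩ := exists_emb e hpq
    obtain ⟨b, hb0, hb1⟩ := exists_emb e hrs
    obtain ⟨f, hf, hab⟩ := htrans a b
    exact ⟨f, hf, by rw [← ha0, ← hb0, hab], by rw [← ha1, ← hb1, hab]⟩
  have hne : ∀ f ∈ G, ∀ z : X, f (some z) ≠ none := by
    intro f hf z hz
    rw [← hfix f hf] at hz
    exact absurd (f.injective hz) (by simp)
  have key : ∀ f ∈ G, h * f * h ∈ G ∨ ∃ a ∈ G, ∃ b ∈ G, h * f * h = a * h * b := by
    intro f hf
    by_cases hfx : f (some x) = some x
    · exact Or.inl (h8 f hf hfx).1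
    right
    obtain ⟨z, hz⟩ := Option.ne_none_iff_exists'.1 (hne f hf x)
    have hxz : x ≠ z := by
      rintro rfl
      exact hfx hz
    obtain ⟨u, hu, hux, huy⟩ := htwo x y x z hxy hxz
    have hv : (u * g)⁻¹ * f ∈ G := G.mul_mem (G.inv_mem (G.mul_mem hu hg)) hf
    have hvx : ((u * g)⁻¹ * f) (some x) = some x := by
      rw [Equiv.Perm.mul_apply, Equiv.Perm.inv_eq_iff_eq, Equiv.Perm.mul_apply, h4, huy, hz]
    refine ⟨(h * u * h) * (h ^ 2)⁻¹ * g⁻¹ * (g * h) ^ 3,
      G.mul_mem (G.mul_mem (G.mul_mem (h8 u hu hux).1 (G.inv_mem h7)) (G.inv_mem hg)) h6,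
      (h ^ 2)⁻¹ * g⁻¹ * (h ^ 2)⁻¹ * (h * ((u * g)⁻¹ * f) * h),
      G.mul_mem (G.mul_mem (G.mul_mem (G.inv_mem h7) (G.inv_mem hg)) (G.inv_mem h7))
        (h8 _ hv hvx).1, ?_⟩
    simp only [pow_succ, pow_zero, one_mul]
    group
  let S : Subgroup (Equiv.Perm (Option X)) :=
    { carrier := {f | f ∈ G ∨ ∃ a ∈ G, ∃ b ∈ G, f = a * h * b}
      one_mem' := Or.inl G.one_mem
      mul_mem' := by
        rintro f₁ f₂ (hf₁ | ⟨a, ha, b, hb, rfl⟩) (hf₂ | ⟨c, hc, d, hd, rfl⟩)
        · exact Or.inl (G.mul_mem hf₁ hf₂)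
        · exact Or.inr ⟨f₁ * c, G.mul_mem hf₁ hc, d, hd, by group⟩
        · exact Or.inr ⟨a, ha, b * f₂, G.mul_mem hb hf₂, by group⟩
        · rcases key (b * c) (G.mul_mem hb hc) with h' | ⟨u, hu, v, hv, h'⟩
          · left
            have : a * h * b * (c * h * d) = a * (h * (b * c) * h) * d := by group
            rw [this]
            exact G.mul_mem (G.mul_mem ha h') hd
          · right
            refine ⟨a * u, G.mul_mem ha hu, v * d, G.mul_mem hv hd, ?_⟩
            have : a * h * b * (c * h * d) = a * (h * (b * c) * h) * d := by group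
            rw [this, h']
            group
      inv_mem' := by
        rintro f (hf | ⟨a, ha, b, hb, rfl⟩)
        · exact Or.inl (G.inv_mem hf)
        · refine Or.inr ⟨b⁻¹, G.inv_mem hb, (h ^ 2)⁻¹ * a⁻¹,
            G.mul_mem (G.inv_mem h7) (G.inv_mem ha), ?_⟩
          simp only [pow_succ, pow_zero, one_mul]
          group }
  have hle : Subgroup.closure ((G : Set (Equiv.Perm (Option X))) ∪ {h}) ≤ S := by
    rw [Subgroup.closure_le]
    rintro f (hf | rfl)
    · exact Or.inl hf
    · exact Or.inr ⟨1, G.one_mem, 1, G.one_mem, by simp⟩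
  have hGle : ∀ f ∈ G, f ∈ Subgroup.closure ((G : Set (Equiv.Perm (Option X))) ∪ {h}) :=
    fun f hf => Subgroup.subset_closure (Or.inl hf)
  have hh : h ∈ Subgroup.closure ((G : Set (Equiv.Perm (Option X))) ∪ {h}) :=
    Subgroup.subset_closure (Or.inr rfl)
  constructor
  · intro f hf
    refine ⟨fun h0 => ?_, hfix f⟩
    rcases hle hf with hf | ⟨a, ha, b, hb, rfl⟩
    · exact hf
    · rw [Equiv.Perm.mul_apply, Equiv.Perm.mul_apply, hfix b hb, h1] at h0
      exact absurd h0 (hne a ha x)
  · have hone : ∀ w : Option X, ∃ f ∈ Subgroup.closure ((G : Set (Equiv.Perm (Option X))) ∪ {h}),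
        f w = none := by
      rintro (_ | z)
      · exact ⟨1, Subgroup.one_mem _, rfl⟩
      · by_cases hz : z = x
        · exact ⟨h, hh, hz ▸ h2⟩
        · obtain ⟨u, hu, hux, -⟩ := htwo z x x y hz hxy
          exact ⟨h * u, Subgroup.mul_mem _ hh (hGle u hu), by
            rw [Equiv.Perm.mul_apply, hux, h2]⟩
    have hred : ∀ a : Fin (k + 2 + 1) ↪ Option X,
        ∃ f ∈ Subgroup.closure ((G : Set (Equiv.Perm (Option X))) ∪ {h}),
          f (a 0) = none ∧ ∃ a' : Fin (k + 2) ↪ X, ∀ i, f (a i.succ) = some (a' i) := by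
      intro a
      obtain ⟨f, hf, hf0⟩ := hone (a 0)
      have : ∀ i : Fin (k + 2), ∃ z, f (a i.succ) = some z := by
        intro i
        refine Option.ne_none_iff_exists'.1 fun h0 => ?_
        rw [← hf0] at h0
        exact Fin.succ_ne_zero i (a.injective (f.injective h0))
      choose a' ha' using this
      refine ⟨f, hf, hf0, ⟨a', fun i j hij => ?_⟩, ha'⟩
      have : f (a i.succ) = f (a j.succ) := by rw [ha', ha', hij]
      exact Fin.succ_injective _ (a.injective (f.injective this))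
    refine ⟨fun a b => ?_⟩
    obtain ⟨f₁, hf₁, ha0, a', ha'⟩ := hred a
    obtain ⟨f₂, hf₂, hb0, b', hb'⟩ := hred b
    obtain ⟨u, hu, hab⟩ := htrans a' b'
    refine ⟨⟨f₂⁻¹ * u * f₁, Subgroup.mul_mem _ (Subgroup.mul_mem _ (Subgroup.inv_mem _ hf₂)
      (hGle u hu)) hf₁⟩, ?_⟩
    ext1 i
    change (f₂⁻¹ * u * f₁) (a i) = b i
    rw [Equiv.Perm.mul_apply, Equiv.Perm.mul_apply, Equiv.Perm.inv_eq_iff_eq]
    refine Fin.cases ?_ (fun j => ?_) i
    · rw [ha0, hb0, hfix u hu]
    · rw [ha', hb', hab]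

end Cfsg.Agent.S4301
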