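import Cfsg.Statements.S4303
import Cfsg.Agent.H9.SylowNum

set_option autoImplicit false
universe u
open Cfsg

namespace Cfsg.Agent.S4303

/-- For a finite group `G` and a prime `p`, the number of Sylow `p`-subgroups of `G` is a product of natural numbers each of which is either a prime power congruent to 1 modulo `p` or the number of Sylow `p`-subgroups of some finite simple group. -/
theorem result {G : Type u} [Group G] [Finite G]
    (p : ℕ) [Fact p.Prime] :
    ∃ l : List ℕ, l.prod = Nat.card (Sylow p G) ∧
      ∀ m ∈ l, (IsPrimePow m ∧ m % p = 1) ∨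
        ∃ (S : Type u) (_ : Group S) (_ : Finite S), IsSimpleGroup S ∧ m = Nat.card (Sylow p S) := by
  obtain ⟨m, l, h1, h2, h3⟩ := H9.exists_card_sylow_factorization p G
  have hm : m ≠ 0 := by rintro rfl; exact Nat.card_pos.ne' (by simpa using h2.symm)
  refine ⟨(m.primeFactors.toList.map fun q => q ^ m.factorization q) ++ l, ?_, ?_⟩
  · rw [List.prod_append, Finset.prod_map_toList, ← h2]
    congr 1
    exact Nat.prod_factorization_pow_eq_self hm
  · intro x hx
    rcases List.mem_append.1 hx with hx | hx
    · left
      obtain ⟨q, hq, rfl⟩ := List.mem_map.1 hx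
      rw [Finset.mem_toList] at hq
      have hqp := Nat.prime_of_mem_primeFactors hq
      refine ⟨hqp.isPrimePow.pow ?_, ?_⟩
      · exact (hqp.factorization_pos_of_dvd hm (Nat.dvd_of_mem_primeFactors hq)).ne'
      · have := h1 q hqp
        rw [Nat.ModEq, Nat.mod_eq_of_lt (Fact.out : p.Prime).one_lt] at this
        exact this
    · right
      obtain ⟨S, i1, i2, d1, -, d3, -⟩ := h3 x hx
      exact ⟨S, i1, i2, d1, d3⟩

end Cfsg.Agent.S4303
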