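import Cfsg.Statements.S4314
import Cfsg.Agent.H7.ClassProd
import Cfsg.Agent.H7.ClassAux
import Cfsg.Agent.H9.ClassSize
import Cfsg.Agent.H1.Basic
import Cfsg.Agent.H9.TwoFrob

set_option autoImplicit false
open Cfsg

namespace Cfsg.Agent.S4314

section
open Subgroup
open scoped commutatorElement

variable {G : Type*} [Group G] [Finite G]

theorem eq_top_of_prime_index {C K : Subgroup G} (hp : C.index.Prime) (h : C ≤ K) (hne : ¬ K ≤ C) :
    K = ⊤ := by
  have e := relIndex_mul_index h
  rcases (Nat.dvd_prime hp).1 (Dvd.intro_left _ e) with h1 | h1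
  · exact index_eq_one.1 h1
  · rw [h1, mul_eq_right₀ hp.ne_zero, relIndex_eq_one] at e
    exact absurd e hne

theorem cs_le_cs_mul {x y : G} (hc : (H7.cs x).Coprime (H7.cs y)) : H7.cs y ≤ H7.cs (x * y) := by
  rw [H7.cs, H7.cs, ← H7.card_carrier_eq_index, ← H7.card_carrier_eq_index]
  refine Nat.card_le_card_of_injective (fun z => ⟨x * z.1, ?_⟩) fun a b e =>
    Subtype.ext (mul_left_cancel (congrArg Subtype.val e))
  obtain ⟨h, hh⟩ := isConj_iff.1 (ConjClasses.mk_eq_mk_iff_isConj.1
    (ConjClasses.mem_carrier_iff_mk_eq.1 z.2).symm)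
  obtain ⟨k, h1, h2⟩ := H7.exists_conj_pair hc 1 h
  refine ConjClasses.mem_carrier_iff_mk_eq.2 (ConjClasses.mk_eq_mk_iff_isConj.2
    (IsConj.symm (isConj_iff.2 ⟨k, ?_⟩)))
  rw [one_mul, inv_one, mul_one] at h1
  rw [← hh, ← h2]
  conv_rhs => rw [← h1]
  group

theorem two_primes (h : ∀ x : G, H7.cs x = 1 ∨ (H7.cs x).Prime) {x y : G} (hx : (H7.cs x).Prime)
    (hy : (H7.cs y).Prime) (hlt : H7.cs x < H7.cs y) :
    ∃ p q : ℕ, p.Prime ∧ q.Prime ∧ p ≠ q ∧ Nat.card (G ⧸ center G) = p * q ∧
      ¬ IsMulCommutative (G ⧸ center G) := by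
  have hc : (H7.cs x).Coprime (H7.cs y) := (Nat.coprime_primes hx hy).2 hlt.ne
  obtain ⟨N, hN, hNd, hN1⟩ := H7.exists_normal_classStab y
  have hxy := cs_le_cs_mul hc
  replace hN1 := hN1 x hc (by
    rcases h (x * y) with h1 | h1
    · rw [h1]; exact Nat.coprime_one_right _
    · exact (Nat.coprime_primes hx h1).2 (hlt.trans_le hxy).ne)
  set q := H7.cs y with hq
  have hNq : Nat.card N = q := by
    refine ((Nat.dvd_prime hy).1 hNd).resolve_left fun h1 => hx.ne_one ?_
    rw [card_eq_one] at h1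
    rw [H9.index_centralizer_eq_one_iff, mem_center_iff]
    intro g
    have := hN1 g
    rwa [h1, mem_bot, inv_mul_eq_one, eq_mul_inv_iff_mul_eq, eq_comm] at this
  obtain ⟨n, hn, hno⟩ := H9.exists_mem_orderOf_eq_prime (A := N) hy (by rw [hNq])
  have hn1 : n ≠ 1 := fun e => hy.ne_one (by rw [← hno, e, orderOf_one])
  have hNn : zpowers n = N :=
    H1.eq_of_le_of_card_le (zpowers_le.2 hn) (by rw [Nat.card_zpowers, hno, hNq])
  set C := centralizer ({n} : Set G) with hC
  have hCN : ∀ c ∈ C, ∀ m ∈ N, c * m = m * c := by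
    intro c hc m hm
    rw [← hNn] at hm
    exact mem_centralizer_singleton_iff.1 (H9.centralizer_le_of_mem_zpowers hm hc)
  have hNC : N ≤ C := by
    rw [← hNn, zpowers_le]; exact mem_centralizer_singleton_iff.2 rfl
  have hCtop : C ≠ ⊤ := by
    intro e
    have hz : ∀ g, ∀ m ∈ N, g * m = m * g := fun g => hCN g (e ▸ mem_top g)
    let f : G →* G := MonoidHom.mk' (fun g => x⁻¹ * (g * x * g⁻¹)) (by
      intro a b
      have := hz a _ (hN1 b)
      calc x⁻¹ * (a * b * x * (a * b)⁻¹) = x⁻¹ * a * x * (x⁻¹ * (b * x * b⁻¹)) * a⁻¹ := by group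
        _ = x⁻¹ * a * x * a⁻¹ * (a * (x⁻¹ * (b * x * b⁻¹))) * a⁻¹ := by group
        _ = _ := by rw [this]; group)
    have h1 : f.ker = centralizer {x} := by
      ext g
      rw [MonoidHom.mem_ker, mem_centralizer_singleton_iff]
      change x⁻¹ * (g * x * g⁻¹) = 1 ↔ _
      rw [inv_mul_eq_one, eq_mul_inv_iff_mul_eq, eq_comm]
    have h2 : f.range ≤ N := by
      rintro _ ⟨g, rfl⟩; exact hN1 g
    have h3 : H7.cs x ∣ q := by
      rw [H7.cs, ← h1, index_ker, ← hNq]; exact card_dvd_of_le h2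
    exact hlt.ne ((Nat.prime_dvd_prime_iff_eq hx hy).1 h3)
  have hr : C.index.Prime := (h n).resolve_left fun e => hCtop (index_eq_one.1 e)
  have hrq : C.index ≠ q := by
    intro e
    rw [hC, ← H7.card_carrier_eq_index, Nat.card_coe_set_eq] at e
    have h1 : (ConjClasses.mk n).carrier ⊂ (N : Set G) := by
      refine ⟨fun z hz => ?_, fun hs => ?_⟩
      · obtain ⟨k, rfl⟩ := isConj_iff.1 (ConjClasses.mk_eq_mk_iff_isConj.1
          (ConjClasses.mem_carrier_iff_mk_eq.1 hz).symm)
        exact hN.conj_mem n hn k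
      · exact hn1 (isConj_one_left.1 (ConjClasses.mk_eq_mk_iff_isConj.1
          (ConjClasses.mem_carrier_iff_mk_eq.1 (hs (one_mem N)))).symm)
    have := Set.ncard_lt_ncard h1 (Set.toFinite _)
    rw [e, ← Nat.card_coe_set_eq] at this
    exact this.ne hNq.symm
  have hw : ∀ w, w ∉ C → H7.cs w = q ∧ centralizer {w} ⊓ N = ⊥ ∧ centralizer {w} ⊔ N = ⊤ := by
    intro w hw
    have h1 : ¬ N ≤ centralizer {w} := fun e =>
      hw (mem_centralizer_singleton_iff.2 (mem_centralizer_singleton_iff.1 (e hn)).symm)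
    have h2 : (centralizer ({w} : Set G)).relIndex N = q :=
      ((Nat.dvd_prime hy).1 (hNq ▸ relIndex_dvd_card _ N)).resolve_left
        (mt relIndex_eq_one.1 h1)
    have h3 := H9.relIndex_dvd_index_of_normal_right (centralizer ({w} : Set G)) N
    rw [h2] at h3
    have h4 : (H7.cs w).Prime := (h w).resolve_left fun e => hy.ne_one (Nat.dvd_one.1 (e ▸ h3))
    refine ⟨((Nat.prime_dvd_prime_iff_eq hy h4).1 h3).symm, ?_,
      eq_top_of_prime_index h4 le_sup_left fun e => h1 (le_sup_right.trans e)⟩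
    have := H1.card_inf_mul_relIndex (centralizer ({w} : Set G)) N
    rwa [h2, hNq, mul_eq_right₀ hy.ne_zero, card_eq_one] at this
  have hG' : ∀ g w : G, ⁅g, w⁆ ∈ N := by
    have : (center (G ⧸ N)).comap (QuotientGroup.mk' N) = ⊤ := by
      refine H7.eq_top_of_compl_subset hCtop fun w hw' => ?_
      rw [mem_comap, mem_center_iff]
      intro g
      obtain ⟨g, rfl⟩ := QuotientGroup.mk'_surjective N g
      obtain ⟨c, hc, m, hm, rfl⟩ := mem_sup_of_normal_right.1 ((hw w hw').2.2 ▸ mem_top g)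
      rw [map_mul, QuotientGroup.mk'_apply N m, (QuotientGroup.eq_one_iff m).2 hm, mul_one,
        ← map_mul, ← map_mul, mem_centralizer_singleton_iff.1 hc]
    intro g w
    have h1 := mem_center_iff.1 (mem_comap.1 (this ▸ mem_top w)) (QuotientGroup.mk' N g)
    rw [← QuotientGroup.eq_one_iff, ← QuotientGroup.mk'_apply, map_commutatorElement,
      commutatorElement_eq_one_iff_mul_comm, h1]
  obtain ⟨w, hwC⟩ : ∃ w, w ∉ C := by
    by_contra hc
    push Not at hc
    exact hCtop (eq_top_iff.2 fun g _ => hc g)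
  obtain ⟨hw1, hw2, -⟩ := hw w hwC
  have hCab : ∀ c ∈ C, ∀ d ∈ C, c * d = d * c := by
    intro c hc d hd
    rw [← commutatorElement_eq_one_iff_mul_comm, ← mem_bot, ← hw2]
    refine ⟨mem_centralizer_singleton_iff.2 ?_, hG' c d⟩
    have e1 : w * c * w⁻¹ = ⁅w, c⁆ * c := by rw [commutatorElement_def]; group
    have e2 : w * d * w⁻¹ = ⁅w, d⁆ * d := by rw [commutatorElement_def]; group
    have e3 : w * ⁅c, d⁆ * w⁻¹ = ⁅c, d⁆ := by
      rw [conjugate_commutatorElement, e1, e2]
      have a1 := hG' w c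
      have a2 := hG' w d
      generalize ⁅w, c⁆ = s at a1
      generalize ⁅w, d⁆ = t at a2
      have b1 : Commute c t := hCN c hc t a2
      have b2 : Commute (t * d * c⁻¹) s := hCN _ (mul_mem (mul_mem (hNC a2) hd) (inv_mem hc)) s a1
      have b3 : Commute c s := hCN c hc s a1
      have b4 : Commute (d * c⁻¹ * d⁻¹) t :=
        hCN _ (mul_mem (mul_mem hd (inv_mem hc)) (inv_mem hd)) t a2
      rw [commutatorElement_def, commutatorElement_def]
      calc s * c * (t * d) * (s * c)⁻¹ * (t * d)⁻¹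
          = (s * c) * (t * d * c⁻¹ * s⁻¹) * d⁻¹ * t⁻¹ := by group
        _ = (c * s) * (s⁻¹ * (t * d * c⁻¹)) * d⁻¹ * t⁻¹ := by rw [b3.eq, b2.inv_right.eq]
        _ = c * (t * (d * c⁻¹ * d⁻¹)) * t⁻¹ := by group
        _ = _ := by rw [← b4.eq]; group
    exact (mul_inv_eq_iff_eq_mul.1 e3).symm
  have hZ : center G = centralizer {w} ⊓ C := by
    refine le_antisymm (le_inf (center_le_centralizer _) (center_le_centralizer _)) fun z hz => ?_
    rw [← H9.index_centralizer_eq_one_iff, index_eq_one]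
    refine eq_top_of_prime_index hr (fun c hc => mem_centralizer_singleton_iff.2
      (hCab c hc z hz.2)) fun e => hwC (e ?_)
    exact mem_centralizer_singleton_iff.2 (mem_centralizer_singleton_iff.1 hz.1).symm
  refine ⟨q, C.index, hy, hr, hrq.symm, ?_, fun hcomm => hn1 ?_⟩
  · rw [← index_eq_card, hZ, H9.index_inf_of_coprime, ← hw1]
    rw [show (centralizer ({w} : Set G)).index = q from hw1]
    exact (Nat.coprime_primes hy hr).2 hrq.symm
  · have h1 : ⁅n, w⁆ ∈ center G := by
      rw [← QuotientGroup.eq_one_iff, ← QuotientGroup.mk'_apply, map_commutatorElement,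
        commutatorElement_eq_one_iff_mul_comm, mul_comm']
    have h2 : ⁅n, w⁆ ∈ centralizer {w} ⊓ N := ⟨center_le_centralizer _ h1, hG' n w⟩
    rw [hw2, mem_bot, commutatorElement_eq_one_iff_mul_comm] at h2
    rw [← mem_bot, ← hw2]
    exact ⟨mem_centralizer_singleton_iff.2 h2, hn⟩

theorem one_prime {q : ℕ} (hq : q.Prime) (h : ∀ x : G, H7.cs x = 1 ∨ H7.cs x = q) :
    Subgroup.upperCentralSeries G 2 = ⊤ := by
  have := Fact.mk hq
  have h1 : IsPGroup q (G ⧸ center G) := by
    refine IsPGroup.iff_card.2 ⟨_, Nat.eq_prime_pow_of_unique_prime_dvd Nat.card_pos.ne' ?_⟩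
    intro r hr hd
    by_contra hrq
    have := Fact.mk hr
    refine H9.not_dvd_index_iff_exists_sylow_le.2 ⟨default,
      H7.sylow_le_center_of_not_dvd_class (fun x hx => ?_) _⟩ hd
    rcases h x with e | e
    · exact hr.ne_one (Nat.dvd_one.1 (e ▸ hx))
    · exact hrq ((Nat.prime_dvd_prime_iff_eq hr hq).1 (e ▸ hx))
  have h2 : Group.IsNilpotent G := Group.of_quotient_center_nilpotent h1.isNilpotent
  have h3 : ∀ x : G, commutator G ≤ centralizer {x} := by
    intro x
    rcases h x with e | e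
    · rw [index_eq_one.1 e]; exact le_top
    · have hp : (centralizer ({x} : Set G)).index.Prime := by
        rw [show (centralizer ({x} : Set G)).index = q from e]; exact hq
      have hco : IsCoatom (centralizer ({x} : Set G)) :=
        ⟨fun e => hp.ne_one (index_eq_one.2 e), fun K hK => eq_top_of_prime_index hp hK.le hK.not_ge⟩
      have := NormalizerCondition.normal_of_coatom _ Group.normalizerCondition_of_isNilpotent hco
      have : IsCyclic (G ⧸ centralizer ({x} : Set G)) := isCyclic_of_prime_card e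
      exact Normal.quotient_commutative_iff_commutator_le.1 inferInstance
  refine eq_top_iff.2 fun a _ => Subgroup.mem_upperCentralSeries_succ_iff.2 fun b => ?_
  rw [Subgroup.upperCentralSeries_one, mem_center_iff]
  intro g
  exact (mem_centralizer_singleton_iff.1
    (h3 g (commutator_mem_commutator (mem_top a) (mem_top b)))).symm

end

/-- Let `G` be a finite group every conjugacy class of which has size 1 or a prime. Then either `G` is nilpotent of class at most 2, or `G/Z(G)` is a non-abelian group of order `pq` for distinct primes `p, q` (a Frobenius group of order `pq`). -/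
theorem result {G : Type*} [Group G] [Finite G]
    (h : ∀ x : G, (Subgroup.centralizer ({x} : Set G)).index = 1 ∨ ((Subgroup.centralizer ({x} : Set G)).index).Prime) :
    Subgroup.upperCentralSeries G 2 = ⊤ ∨
      ∃ p q : ℕ, p.Prime ∧ q.Prime ∧ p ≠ q ∧ Nat.card (G ⧸ Subgroup.center G) = p * q ∧ ¬ IsMulCommutative (G ⧸ Subgroup.center G) := by
  by_cases h1 : ∃ x y : G, (H7.cs x).Prime ∧ (H7.cs y).Prime ∧ H7.cs x < H7.cs y
  · obtain ⟨x, y, hx, hy, hlt⟩ := h1
    exact Or.inr (two_primes h hx hy hlt)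
  left
  push Not at h1
  by_cases h2 : ∃ y : G, (H7.cs y).Prime
  · obtain ⟨y, hy⟩ := h2
    exact one_prime hy fun x => (h x).imp_right fun hx => (h1 y x hy hx).antisymm (h1 x y hx hy)
  · exact one_prime Nat.prime_two fun x => Or.inl ((h x).resolve_right fun hx => h2 ⟨x, hx⟩)

end Cfsg.Agent.S4314
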