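import Cfsg.Statements.S4316
import Cfsg.Agent.H1.Semidirect
import Cfsg.Agent.H1.Generation
import Cfsg.Agent.H3.RankOne
import Cfsg.Agent.H8.Alperin

set_option autoImplicit false
universe u
open Cfsg

namespace Cfsg.Agent.S4316

section
open Subgroup

theorem relIndex_pos {X : Type*} [Group X] [Finite X] (H K : Subgroup X) : 0 < H.relIndex K :=
  Nat.pos_of_ne_zero (index_ne_zero_of_finite (H := H.subgroupOf K))

theorem relIndex_le_prod {X : Type*} [Group X] [Finite X] {B P : Subgroup X}
    (hB : IsMulCommutative B) (hnc : ¬ IsCyclic B) (hBP : B ≤ normalizer (P : Set X))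
    (hcop : (Nat.card B).Coprime (Nat.card P)) [Group.IsNilpotent P] (s : Finset X)
    (hs : ∀ b, b ∈ s ↔ b ∈ B ∧ b ≠ 1) (Q : Subgroup X) (hQP : Q ≤ P)
    (hBQ : B ≤ normalizer (Q : Set X)) :
    Q.relIndex P ≤ ∏ b ∈ s, Q.relIndex (P ⊓ centralizer ({b} : Set X)) := by
  classical
  induction Q using WellFoundedGT.induction with
  | ind Q ih =>
  rcases hQP.eq_or_lt with rfl | hlt
  · rw [relIndex_self]
    exact Finset.one_le_prod' fun b _ => relIndex_pos _ _
  have h1 := H8.lt_inf_normalizer_of_lt hlt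
  set Q₁ := P ⊓ normalizer (Q : Set X) with hQ₁
  have hBQ₁ : B ≤ normalizer (Q₁ : Set X) :=
    H1.le_normalizer_inf hBP (H1.le_normalizer_normalizer hBQ)
  have : ∃ b ∈ B, b ≠ 1 ∧ ¬ Q₁ ⊓ centralizer ({b} : Set X) ≤ Q := by
    by_contra h
    push Not at h
    exact h1.not_ge (H1.le_of_forall_centralizer_le hB hnc hBQ₁
      (H1.coprime_of_le hcop le_rfl inf_le_left) h)
  obtain ⟨b₀, hb₀, hb₀1, hT⟩ := this
  set T := Q₁ ⊓ centralizer ({b₀} : Set X) with hTdef
  have hTN : T ≤ normalizer (Q : Set X) := inf_le_left.trans inf_le_right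
  have hRP : T ⊔ Q ≤ P := sup_le (inf_le_left.trans inf_le_left) hQP
  have hlt' : Q < T ⊔ Q := lt_of_le_of_ne le_sup_right fun h => hT (h ▸ le_sup_left)
  have ih' := ih (T ⊔ Q) hlt' hRP (H1.le_normalizer_sup
    (H1.le_normalizer_inf_centralizer_singleton_of_comm hB hb₀ hBQ₁) hBQ)
  have e1 : Q.relIndex P = Q.relIndex T * (T ⊔ Q).relIndex P := by
    rw [← H1.relIndex_sup_of_le_normalizer hTN, relIndex_mul_relIndex _ _ _ le_sup_right hRP]
  have e2 : ∀ b, Q.relIndex (P ⊓ centralizer ({b} : Set X)) =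
      Q.relIndex ((T ⊔ Q) ⊓ (P ⊓ centralizer ({b} : Set X))) *
        (T ⊔ Q).relIndex (P ⊓ centralizer ({b} : Set X)) := by
    intro b
    rw [relIndex_inf_mul_relIndex, inf_eq_left.2 (le_sup_right : Q ≤ T ⊔ Q)]
  rw [Finset.prod_congr rfl (fun b _ => e2 b), Finset.prod_mul_distrib, e1]
  refine Nat.mul_le_mul ?_ ih'
  refine le_trans ?_ (Finset.single_le_prod' (f := fun b =>
    Q.relIndex ((T ⊔ Q) ⊓ (P ⊓ centralizer ({b} : Set X)))) (fun b _ => relIndex_pos _ _)
    ((hs b₀).2 ⟨hb₀, hb₀1⟩))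
  refine relIndex_le_of_le_right ?_ (relIndex_pos _ _).ne'
  exact le_inf le_sup_left (inf_le_inf_right _ inf_le_left)

theorem relIndex_dvd_factorial {X : Type*} [Group X] [Finite X] {B G H : Subgroup X}
    (hB : IsMulCommutative B) (hnc : ¬ IsCyclic B) (hBG : B ≤ normalizer (G : Set X))
    (hcop : (Nat.card B).Coprime (Nat.card G)) (hBH : B ≤ normalizer (H : Set X)) {m : ℕ}
    (hm : 1 ≤ m)
    (h : ∀ b ∈ B, b ≠ 1 → H.relIndex (G ⊓ centralizer ({b} : Set X)) ≤ m) :
    H.relIndex G ∣ (m ^ Nat.card B).factorial := by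
  classical
  rw [Nat.dvd_iff_prime_pow_dvd_dvd]
  intro p k hp hk
  have : Fact p.Prime := ⟨hp⟩
  obtain ⟨P, hPG, hP, hPi, hBP⟩ := H1.exists_invariant_sylow hBG hcop
    (Or.inl (H1.isSolvable_of_isMulCommutative hB)) p
  have := hP.isNilpotent
  set s : Finset X := (Set.toFinite (B : Set X)).toFinset.erase 1 with hs
  have h1 := relIndex_le_prod hB hnc hBP (H1.coprime_of_le hcop le_rfl hPG) s
    (by intro b; simp [hs, and_comm]) (H ⊓ P) inf_le_right (H1.le_normalizer_inf hBH hBP)
  have h2 : ∏ b ∈ s, (H ⊓ P).relIndex (P ⊓ centralizer ({b} : Set X)) ≤ m ^ s.card := by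
    refine Finset.prod_le_pow_card _ _ _ fun b hb => ?_
    have hb' : b ∈ B ∧ b ≠ 1 := by simpa [hs, and_comm] using hb
    refine le_trans ?_ (h b hb'.1 hb'.2)
    rw [← inf_relIndex_right, inf_assoc, inf_eq_right.2 (inf_le_left (a := P)),
      inf_relIndex_right]
    exact relIndex_le_of_le_right (inf_le_inf_right _ hPG) (relIndex_pos _ _).ne'
  have h3 : s.card ≤ Nat.card B := by
    refine Finset.card_erase_le.trans ?_
    rw [← Set.ncard_eq_toFinset_card]
    exact (Nat.card_coe_set_eq (B : Set X)).ge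
  have h4 : p ^ k ∣ (H ⊓ P).relIndex P := by
    have e1 : (H ⊓ P).relIndex P * P.relIndex G = (H ⊓ P).relIndex G :=
      relIndex_mul_relIndex _ _ _ inf_le_right hPG
    have e2 : H.relIndex G ∣ (H ⊓ P).relIndex G := relIndex_dvd_of_le_left _ inf_le_left
    refine Nat.Coprime.dvd_of_dvd_mul_right ?_ (e1 ▸ hk.trans e2)
    exact Nat.Coprime.pow_left _ ((Nat.Prime.coprime_iff_not_dvd hp).2 hPi)
  refine Nat.dvd_factorial (pow_pos hp.pos _) ?_
  exact (Nat.le_of_dvd (relIndex_pos _ _) h4).trans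
    (h1.trans (h2.trans (Nat.pow_le_pow_right hm h3)))

theorem relIndex_centralizer_le {X : Type*} [Group X] [Finite X] {L : Subgroup X} {y : X}
    (hy : y ∈ L) : (centralizer ({y} : Set X)).relIndex L ≤ Nat.card (⁅L, L⁆ : Subgroup X) := by
  refine Nat.card_le_card_of_injective
    (fun t : L ⧸ (centralizer ({y} : Set X)).subgroupOf L =>
      (⟨(t.out : X) * y * (t.out : X)⁻¹ * y⁻¹, commutator_mem_commutator t.out.2 hy⟩ :
        (⁅L, L⁆ : Subgroup X))) ?_
  intro a b hab
  have h1 : (a.out : X) * y * (a.out : X)⁻¹ = (b.out : X) * y * (b.out : X)⁻¹ :=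
    mul_right_cancel (congrArg Subtype.val hab)
  rw [← QuotientGroup.out_eq' a, ← QuotientGroup.out_eq' b, QuotientGroup.eq, mem_subgroupOf,
    mem_centralizer_singleton_iff]
  push_cast
  calc (a.out : X)⁻¹ * b.out * y = (a.out : X)⁻¹ * (b.out * y * (b.out : X)⁻¹) * b.out := by group
    _ = (a.out : X)⁻¹ * (a.out * y * (a.out : X)⁻¹) * b.out := by rw [h1]
    _ = _ := by group

theorem card_le_of_generators {K : Type*} [Group K] [Finite K] (Y : Finset K)
    (hY : closure (Y : Set K) = ⊤) {k e c : ℕ} (hk : Y.card ≤ k) (he0 : 0 < e) (hc0 : 0 < c)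
    (he : ∀ y ∈ Y, y ^ e = 1) (hc : ∀ y ∈ Y, (centralizer ({y} : Set K)).index ≤ c) :
    Nat.card K ≤ (c ^ k * e) ^ (c ^ k * k) * c ^ k := by
  have h1 : (center K).index ≤ c ^ k := by
    have e1 : center K = ⨅ y : Y, centralizer ({(y : K)} : Set K) := by
      rw [← centralizer_univ, ← coe_top, ← hY, centralizer_closure]
      ext x
      simp only [mem_iInf, mem_centralizer_iff, Set.mem_singleton_iff, forall_eq, Subtype.forall,
        Finset.mem_coe]
    rw [e1]
    refine (index_iInf_le _).trans ((Finset.prod_le_pow_card _ _ c fun (y : Y) _ => hc y y.2).trans ?_)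
    rw [Finset.card_univ, Fintype.card_coe]
    exact Nat.pow_le_pow_right hc0 hk
  have h2 : ∀ x : K, (x ^ (center K).index) ^ e = 1 := by
    intro x
    have hx : x ∈ Subgroup.closure (Y : Set K) := hY ▸ mem_top x
    induction hx using closure_induction with
    | mem y hy => rw [← pow_mul, mul_comm, pow_mul, he y hy, one_pow]
    | one => simp
    | mul a b _ _ ha hb =>
      have e1 : (a * b) ^ (center K).index = a ^ (center K).index * b ^ (center K).index :=
        congrArg Subtype.val (map_mul (MonoidHom.transferCenterPow K) a b)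
      have e2 : Commute (a ^ (center K).index) (b ^ (center K).index) :=
        mem_center_iff.1 ((center K).pow_index_mem b) _
      rw [e1, e2.mul_pow, ha, hb, one_mul]
    | inv a _ ha => rw [inv_pow, inv_pow, ha, inv_one]
  have h3 : Nat.card (center K) ∣ ((center K).index * e) ^ Group.rank (center K) := by
    let _ : CommGroup (center K) := { (inferInstance : Group (center K)) with
      mul_comm := fun a b => Subtype.ext (mem_center_iff.1 b.2 a) }
    exact card_dvd_exponent_pow_rank' (center K) fun z => Subtype.ext (by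
      rw [coe_pow, pow_mul]; exact h2 z)
  have h4 : Group.rank (center K) ≤ c ^ k * k :=
    (rank_le_index_mul_rank _).trans (Nat.mul_le_mul h1 ((Group.rank_le hY).trans hk))
  have h0 : 0 < (center K).index := Nat.pos_of_ne_zero index_ne_zero_of_finite
  rw [← card_mul_index (center K)]
  refine Nat.mul_le_mul ?_ h1
  refine (Nat.le_of_dvd (by positivity) h3).trans ?_
  refine (Nat.pow_le_pow_left (Nat.mul_le_mul_right e h1) _).trans ?_
  exact Nat.pow_le_pow_right (by positivity) h4

theorem amb {X : Type*} [Group X] [Finite X] {q m : ℕ} (hq : q.Prime) {A G : Subgroup X}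
    (hA : IsElementaryAbelian q A) (hcard : Nat.card A = q ^ 3)
    (hAG : A ≤ normalizer (G : Set X)) (hcop : (Nat.card A).Coprime (Nat.card G))
    (h : ∀ a ∈ A, a ≠ 1 → Nat.card (⁅G ⊓ centralizer ({a} : Set X),
      G ⊓ centralizer ({a} : Set X)⁆ : Subgroup X) ≤ m) :
    Nat.card (⁅G, G⁆ : Subgroup X) ≤ ((m ^ q ^ 2).factorial ^ (q ^ 3 * m) * m.factorial) ^
      ((m ^ q ^ 2).factorial ^ (q ^ 3 * m) * (q ^ 3 * m)) * (m ^ q ^ 2).factorial ^ (q ^ 3 * m) := by
  classical
  set D : X → Subgroup X := fun a =>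
    ⁅G ⊓ centralizer ({a} : Set X), G ⊓ centralizer ({a} : Set X)⁆ with hD
  have hA1 : A ≠ ⊥ := by
    intro h0
    rw [h0, card_bot] at hcard
    exact (Nat.one_lt_pow three_ne_zero hq.one_lt).ne hcard
  have hm : 1 ≤ m := by
    obtain ⟨⟨a, ha⟩, ha1⟩ := ne_bot_iff_exists_ne_one.1 hA1
    exact le_trans Nat.card_pos (h a ha fun h0 => ha1 (Subtype.ext h0))
  have hDG : ∀ a, D a ≤ G := fun a =>
    (H1.commutator_le_of_le_normalizer le_normalizer).trans inf_le_left
  have hAD : ∀ a ∈ A, A ≤ normalizer (D a : Set X) := fun a ha =>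
    H1.le_normalizer_commutator (H1.le_normalizer_inf_centralizer_singleton_of_comm hA.1 ha hAG)
      (H1.le_normalizer_inf_centralizer_singleton_of_comm hA.1 ha hAG)
  set Y : Set X := {y | ∃ a ∈ A, a ≠ 1 ∧ y ∈ D a ∧
    ∃ B : Subgroup X, B ≤ A ∧ B.relIndex A = q ∧ y ∈ centralizer (B : Set X)} with hY
  set K := closure Y with hK
  have hDK : ∀ a ∈ A, a ≠ 1 → D a ≤ K := fun a ha ha1 =>
    H1.le_of_forall_hyperplane hq hA hA1 (hAD a ha) (H1.coprime_of_le hcop le_rfl (hDG a))
      fun B hB hBi y hy => subset_closure ⟨a, ha, ha1, hy.1, B, hB, hBi, hy.2⟩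
  have hKG : K ≤ G := (closure_le _).2 fun y ⟨a, _, _, hy, _⟩ => hDG a hy
  have hcomm : ∀ B B' : Subgroup X, B ≤ A → B.relIndex A = q → B' ≤ A → B'.relIndex A = q →
      ⁅G ⊓ centralizer (B : Set X), G ⊓ centralizer (B' : Set X)⁆ ≤ K := by
    intro B B' hB hBi hB' hBi'
    have hne : B ⊓ B' ≠ ⊥ := by
      intro h0
      have := relIndex_inf_le (H := B) (K := B') (L := A)
      rw [h0, relIndex_bot_left, hcard, hBi, hBi', ← sq] at this
      exact absurd this (not_le.2 (Nat.pow_lt_pow_right hq.one_lt (by norm_num)))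
    obtain ⟨⟨a, ha⟩, ha1⟩ := ne_bot_iff_exists_ne_one.1 hne
    refine le_trans ?_ (hDK a (hB ha.1) fun h0 => ha1 (Subtype.ext h0))
    exact commutator_mono
      (inf_le_inf_left _ (centralizer_le (Set.singleton_subset_iff.2 ha.1)))
      (inf_le_inf_left _ (centralizer_le (Set.singleton_subset_iff.2 ha.2)))
  have hGN : G ≤ normalizer (K : Set X) := by
    refine H1.le_of_forall_hyperplane hq hA hA1 hAG hcop fun B hB hBi x hx => ?_
    refine mem_normalizer_fintype fun k hk => ?_
    have : K ≤ K.comap (MulAut.conj x).toMonoidHom := by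
      refine (closure_le _).2 fun y hy => ?_
      have hyK : y ∈ K := subset_closure hy
      obtain ⟨a, -, -, hya, B', hB', hBi', hyB⟩ := hy
      have h1 : x * y * x⁻¹ * y⁻¹ ∈ K :=
        hcomm B B' hB hBi hB' hBi' (commutator_mem_commutator hx ⟨hDG a hya, hyB⟩)
      have := K.mul_mem h1 hyK
      rw [inv_mul_cancel_right] at this
      exact this
    exact this hk
  have hGG : ⁅G, G⁆ ≤ K := by
    refine (H1.le_commStab_iff.1 (H1.le_of_forall_hyperplane hq hA hA1 hAG hcop
      fun B hB hBi => H1.le_commStab_iff.2 ⟨inf_le_left.trans hGN, ?_⟩)).2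
    rw [commutator_comm]
    exact (H1.le_commStab_iff.1 (H1.le_of_forall_hyperplane hq hA hA1 hAG hcop
      fun B' hB' hBi' => H1.le_commStab_iff.2
        ⟨inf_le_left.trans hGN, hcomm B B' hB hBi hB' hBi'⟩)).2
  refine (card_le_of_le hGG).trans ?_
  set Y' : Finset K := (Set.toFinite (((↑) : K → X) ⁻¹' Y)).toFinset with hY'
  have hmem : ∀ y : K, y ∈ Y' ↔ (y : X) ∈ Y := fun y => by simp [hY']
  refine card_le_of_generators Y' ?_ ?_ (Nat.factorial_pos _) (Nat.factorial_pos _) ?_ ?_
  · rw [hY', Set.Finite.coe_toFinset]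
    exact closure_closure_coe_preimage
  · have h1 : Y'.map (Function.Embedding.subtype _) ⊆
        ((Set.toFinite (A : Set X)).toFinset.erase 1).biUnion
          fun a => (Set.toFinite (D a : Set X)).toFinset := by
      intro x hx
      rw [Finset.mem_map] at hx
      obtain ⟨y, hy, rfl⟩ := hx
      obtain ⟨a, ha, ha1, hya, -⟩ := (hmem y).1 hy
      rw [Finset.mem_biUnion]
      exact ⟨a, by simp [ha, ha1], by simpa using hya⟩
    have h2 := Finset.card_le_card h1
    rw [Finset.card_map] at h2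
    refine h2.trans ((Finset.card_biUnion_le_card_mul _ _ m ?_).trans ?_)
    · intro a ha
      have ha' : a ≠ 1 ∧ a ∈ A := by simpa using ha
      rw [← Set.ncard_eq_toFinset_card, ← Nat.card_coe_set_eq]
      exact h a ha'.2 ha'.1
    · refine Nat.mul_le_mul_right _ (Finset.card_erase_le.trans ?_)
      rw [← Set.ncard_eq_toFinset_card, ← hcard]
      exact (Nat.card_coe_set_eq (A : Set X)).ge
  · intro y hy
    obtain ⟨a, ha, ha1, hya, -⟩ := (hmem y).1 hy
    apply Subtype.ext
    rw [coe_pow, coe_one, ← orderOf_dvd_iff_pow_eq_one]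
    refine Nat.dvd_factorial (orderOf_pos _) (le_trans ?_ (h a ha ha1))
    have := _root_.orderOf_le_card (x := (⟨y, hya⟩ : D a))
    rwa [← orderOf_coe] at this
  · intro y hy
    obtain ⟨a, ha, ha1, hya, B, hB, hBi, hyB⟩ := (hmem y).1 hy
    have hBe := H3.IsElementaryAbelian_mono hA hB
    have hBc : Nat.card B = q ^ 2 := by
      have := H1.card_mul_relIndex hB
      rw [hBi, hcard, pow_succ] at this
      exact Nat.eq_of_mul_eq_mul_right hq.pos this
    have h1 := relIndex_dvd_factorial (H := centralizer ({(y : X)} : Set X)) hBe.1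
      (H3.not_isCyclic_of_isElementaryAbelian hq hBe (by
        rw [hBc]; exact lt_self_pow₀ hq.one_lt one_lt_two))
      (hB.trans hAG) (H1.coprime_of_le hcop hB le_rfl)
      (H1.le_normalizer_centralizer (H := zpowers (y : X)) (by
        refine H1.le_normalizer_of_le_centralizer ?_
        rw [zpowers_eq_closure, centralizer_closure]
        intro b hb
        exact mem_centralizer_singleton_iff.2 (hyB b hb)) |>.trans (by
          rw [zpowers_eq_closure, centralizer_closure])) hm
      (fun b hb hb1 => (relIndex_centralizer_le (L := G ⊓ centralizer ({b} : Set X))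
        ⟨hDG a hya, centralizer_le (Set.singleton_subset_iff.2 hb) hyB⟩).trans (h b (hB hb) hb1))
    rw [hBc] at h1
    refine le_trans ?_ (Nat.le_of_dvd (Nat.factorial_pos _) h1)
    have e : centralizer ({y} : Set K) = (centralizer ({(y : X)} : Set X)).subgroupOf K := by
      ext z
      rw [mem_subgroupOf, mem_centralizer_singleton_iff, mem_centralizer_singleton_iff,
        Subtype.ext_iff]
      rfl
    rw [e]
    exact relIndex_le_of_le_right hKG (relIndex_pos _ _).ne'

end

/-- There is a function `f` of two natural-number arguments with the following property. Let `q` be a prime and `A` an elementary abelian group of order `q³` acting by automorphisms on a finite group `G` of order prime to `q`, and suppose that for every non-identity `a ∈ A` the derived subgroup of the fixed-point subgroup `C_G(a)` has order at most `m`. Then the derived subgroup of `G` has order at most `f(q, m)`. -/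
theorem result :
    ∃ f : ℕ → ℕ → ℕ, ∀ (q m : ℕ) (A G : Type u) [Group A] [Finite A] [Group G] [Finite G] [MulDistribMulAction A G],
      q.Prime → Nat.card A = q ^ 3 → (∀ a b : A, a * b = b * a) → (∀ a : A, a ^ q = 1) → ¬ q ∣ Nat.card G →
      (∀ a : A, a ≠ 1 → Nat.card ↥(commutator ↥(FixedPoints.subgroup (Subgroup.zpowers a) G)) ≤ m) →
      Nat.card ↥(commutator G) ≤ f q m := by
  refine ⟨fun q m => ((m ^ q ^ 2).factorial ^ (q ^ 3 * m) * m.factorial) ^
      ((m ^ q ^ 2).factorial ^ (q ^ 3 * m) * (q ^ 3 * m)) * (m ^ q ^ 2).factorial ^ (q ^ 3 * m), ?_⟩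
  intro q m A G _ _ _ _ _ hq hA hc he hd h
  set φ := MulDistribMulAction.toMulAut A G with hφ
  have key := amb (X := G ⋊[φ] A) (m := m) hq (A := H1.sdR φ ⊤) (G := H1.sdL φ ⊤)
    ⟨H1.isMulCommutative_sdR.2 ⟨⟨fun a b => Subtype.ext (hc a b)⟩⟩, by
      rintro _ ⟨a, -, rfl⟩
      rw [← map_pow, he, map_one]⟩
    (by rw [H1.card_sdR_top, hA]) (H1.sdR_le_normalizer_top _)
    (H1.coprime_sd (by
      rw [hA]; exact Nat.Coprime.pow_left _ ((Nat.Prime.coprime_iff_not_dvd hq).2 hd))) (by
      rintro _ ⟨a, -, rfl⟩ ha1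
      have e : H1.sdL φ ⊤ ⊓ Subgroup.centralizer ({SemidirectProduct.inr a} : Set (G ⋊[φ] A)) =
          H1.sdL φ (FixedPoints.subgroup (Subgroup.zpowers a) G) := by
        apply le_antisymm
        · rintro _ ⟨⟨g, -, rfl⟩, hg⟩
          refine H1.inl_mem_sdL.2 ?_
          have h1 : a • g = g := H1.inl_mem_centralizer_inr.1 hg
          rintro ⟨b, hb⟩
          exact (Subgroup.zpowers_le (H := MulAction.stabilizer A g)).2 h1 hb
        · rintro _ ⟨g, hg, rfl⟩
          exact ⟨H1.inl_mem_sdL.2 (Subgroup.mem_top g),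
            H1.inl_mem_centralizer_inr.2 (hg ⟨a, Subgroup.mem_zpowers a⟩)⟩
      rw [e, ← Subgroup.map_commutator, H1.card_sdL, ← Subgroup.map_subtype_commutator,
        Subgroup.card_subtype]
      exact h a fun h0 => ha1 (by rw [h0, map_one]))
  rwa [← Subgroup.map_commutator, H1.card_sdL] at key

end Cfsg.Agent.S4316
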