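import Cfsg.Statements.S4320


set_option autoImplicit false
open Cfsg

namespace Cfsg.Agent.S4320

section
open MonoidAlgebra

variable {G Q : Type*} [Group G] [Fintype G] [CommGroup Q]

/-- The augmentation. -/
noncomputable def aug (Q : Type*) [CommGroup Q] : MonoidAlgebra ℤ Q →ₐ[ℤ] ℤ :=
  MonoidAlgebra.lift ℤ ℤ Q 1

theorem aug_of (x : Q) : aug Q (of ℤ Q x) = 1 := by simp [aug]

theorem det_smul_eq_zero {R M ι : Type*} [CommRing R] [AddCommGroup M] [Module R M] [Fintype ι]
    [DecidableEq ι] (μ : Matrix ι ι R) (x : ι → M) (h : ∀ i, ∑ k, μ i k • x k = 0) (j : ι) :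
    μ.det • x j = 0 := by
  have h1 : ∑ k, (μ.adjugate * μ) j k • x k = 0 := by
    simp only [Matrix.mul_apply, Finset.sum_smul, mul_smul]
    rw [Finset.sum_comm]
    refine Finset.sum_eq_zero fun i _ => ?_
    rw [← Finset.smul_sum, h, smul_zero]
  rw [Matrix.adjugate_mul] at h1
  simpa [Matrix.one_apply, ite_smul] using h1

theorem exists_ann [Finite Q] (π : G →* Q) (hπ : Function.Surjective π)
    (hker : π.ker ≤ commutator G) {M : Type*} [AddCommGroup M] [Module (MonoidAlgebra ℤ Q) M]
    (D : G → M) (hD : ∀ x y, D (x * y) = D x + of ℤ Q (π x) • D y) :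
    ∃ μ : MonoidAlgebra ℤ Q, (aug Q μ).natAbs = Nat.card Q ∧ ∀ g, μ • D g = 0 := by
  classical
  let P : G → (G → ℤ) → Prop := fun g m =>
    ∃ c : G → MonoidAlgebra ℤ Q, (∀ k, aug Q (c k) = m k) ∧ D g = ∑ k, c k • D k
  have hD1 : D 1 = 0 := by
    have := hD 1 1
    rw [mul_one, map_one, map_one, one_smul] at this
    exact left_eq_add.1 this
  have P1 : P 1 0 := ⟨0, fun k => by simp, by simp [hD1]⟩
  have Pmul : ∀ {a b m n}, P a m → P b n → P (a * b) (m + n) := by
    rintro a b m n ⟨c, hc, ha⟩ ⟨d, hd, hb⟩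
    refine ⟨fun k => c k + of ℤ Q (π a) * d k, fun k => ?_, ?_⟩
    · rw [map_add, map_mul, aug_of, one_mul, hc, hd, Pi.add_apply]
    · rw [hD, ha, hb, Finset.smul_sum, ← Finset.sum_add_distrib]
      simp only [add_smul, mul_smul]
  have Pinv : ∀ {a m}, P a m → P a⁻¹ (-m) := by
    rintro a m ⟨c, hc, ha⟩
    refine ⟨fun k => -(of ℤ Q (π a⁻¹) * c k), fun k => ?_, ?_⟩
    · rw [map_neg, map_mul, aug_of, one_mul, hc, Pi.neg_apply]
    · have := hD a⁻¹ a
      rw [inv_mul_cancel, hD1, ha, Finset.smul_sum, eq_comm, add_eq_zero_iff_eq_neg] at this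
      rw [this, ← Finset.sum_neg_distrib]
      simp only [neg_smul, mul_smul]
  have Pgen : ∀ a, P a (Pi.single a 1) := by
    intro a
    refine ⟨Pi.single a 1, fun k => ?_, ?_⟩
    · by_cases h : k = a
      · subst h; simp
      · simp [h]
    · simp [Pi.single_apply, ite_smul]
  have Pcomm : ∀ g ∈ commutator G, P g 0 := by
    intro g hg
    rw [commutator_eq_closure] at hg
    induction hg using Subgroup.closure_induction with
    | mem x hx =>
      obtain ⟨a, b, rfl⟩ := hx
      have := Pmul (Pmul (Pmul (Pgen a) (Pgen b)) (Pinv (Pgen a))) (Pinv (Pgen b))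
      rw [commutatorElement_def]
      convert this using 1
      abel
    | one => exact P1
    | mul x y _ _ hx hy => simpa using Pmul hx hy
    | inv x _ hx => simpa using Pinv hx
  let f : (G → ℤ) →ₗ[ℤ] Additive Q := Fintype.linearCombination ℤ fun k => Additive.ofMul (π k)
  have hf1 : ∀ a, f (Pi.single a 1) = Additive.ofMul (π a) := fun a => by simp [f]
  have hf : Function.Surjective f := by
    intro q
    obtain ⟨a, ha⟩ := hπ q.toMul
    exact ⟨Pi.single a 1, by rw [hf1, ha]; rfl⟩
  let S : AddSubgroup (G → ℤ) :=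
    { carrier := {m | ∃ g, P g m ∧ Additive.ofMul (π g) = f m}
      zero_mem' := ⟨1, P1, by simp⟩
      add_mem' := by
        rintro m n ⟨a, ha, ha'⟩ ⟨b, hb, hb'⟩
        exact ⟨a * b, Pmul ha hb, by rw [map_mul, ofMul_mul, map_add, ha', hb']⟩
      neg_mem' := by
        rintro m ⟨a, ha, ha'⟩
        exact ⟨a⁻¹, Pinv ha, by rw [map_inv, ofMul_inv, map_neg, ha']⟩ }
  have hS : S.toIntSubmodule = ⊤ := by
    rw [Submodule.eq_top_iff_forall_basis_mem (Pi.basisFun ℤ G)]
    intro a
    rw [Pi.basisFun_apply]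
    exact ⟨a, Pgen a, (hf1 a).symm⟩
  have hrel : ∀ m ∈ LinearMap.ker f, P 1 m := by
    intro m hm
    obtain ⟨g, hg, hg'⟩ : m ∈ S.toIntSubmodule := hS ▸ Submodule.mem_top
    rw [LinearMap.mem_ker.1 hm] at hg'
    simpa using Pmul hg (Pinv (Pcomm g (hker hg')))
  have e := f.quotKerEquivOfSurjective hf
  have hfin : Finite ((G → ℤ) ⧸ LinearMap.ker f) := Finite.of_equiv _ e.symm.toEquiv
  let bN := Submodule.smithNormalFormBotBasis (Pi.basisFun ℤ G)
    ((Submodule.finiteQuotient_iff _).1 hfin)
  have hdet := Submodule.natAbs_det_basis_change (Pi.basisFun ℤ G) _ bN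
  rw [Nat.card_congr e.toEquiv, Pi.basisFun_det_apply] at hdet
  choose c hc hc' using fun i => hrel (bN i) (bN i).2
  refine ⟨(Matrix.of c).det, ?_, det_smul_eq_zero _ D fun i => (hc' i).symm.trans hD1⟩
  rw [AlgHom.map_det]
  refine Eq.trans ?_ hdet
  congr 2
  ext i k
  exact hc i k

theorem eq_smul_sum [Fintype Q] {μ : MonoidAlgebra ℤ Q} (h : ∀ x, μ * (of ℤ Q x - 1) = 0) :
    μ = μ.coeff 1 • ∑ x, of ℤ Q x := by
  classical
  ext y
  have h1 := h y⁻¹
  rw [mul_sub, mul_one, sub_eq_zero] at h1
  have h2 := congrArg (fun z => z.coeff 1) h1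
  simp only [of_apply, coeff_mul_single_apply, inv_inv, one_mul, mul_one] at h2
  rw [h2, coeff_smul_apply, coeff_sum]
  simp [Finsupp.single_apply]

end

/-- The Principal Ideal Theorem of class field theory in its group-theoretic form: for every finite group `G`, the transfer homomorphism from `G` into the abelianization `G'/G''` of its derived subgroup `G'` is the trivial homomorphism. -/
theorem result {G : Type*} [Group G] [Finite G] :
    MonoidHom.transfer (Abelianization.of : ↥(commutator G) →* Abelianization ↥(commutator G)) =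
      (1 : G →* Abelianization ↥(commutator G)) := by
  classical
  letI := Fintype.ofFinite G
  let Q := Abelianization G
  letI : Fintype Q := Fintype.ofFinite Q
  let A := Additive (Abelianization (commutator G))
  let ρ : Representation ℤ Q (Q → A) :=
    { toFun := fun x => LinearMap.funLeft ℤ A (x⁻¹ * ·)
      map_one' := by ext; simp
      map_mul' := fun x y => by ext; simp [mul_assoc] }
  letI : Module (MonoidAlgebra ℤ Q) (Q → A) := Module.compHom _ ρ.asAlgebraHom.toRingHom
  have hsm : ∀ (x : Q) (w : Q → A) (q : Q), (MonoidAlgebra.of ℤ Q x • w) q = w (x⁻¹ * q) := by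
    intro x w q
    change ρ.asAlgebraHom (MonoidAlgebra.of ℤ Q x) w q = _
    rw [Representation.asAlgebraHom_of]
    rfl
  let T : (commutator G).LeftTransversal := default
  let α : Q → G := fun q => T.2.leftQuotientEquiv q
  have hα : ∀ q, Abelianization.of (α q) = q := fun q => T.2.leftQuotientEquiv.symm_apply_apply q
  have hmem : ∀ (g : G) (q : Q), (α q)⁻¹ * (g * α ((Abelianization.of g)⁻¹ * q)) ∈ commutator G := by
    intro g q
    rw [← Abelianization.ker_of, MonoidHom.mem_ker, map_mul, map_mul, map_inv, hα, hα]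
    group
  let d : G → Q → A := fun g q => Additive.ofMul (Abelianization.of ⟨_, hmem g q⟩)
  obtain ⟨μ, h1, h2⟩ := exists_ann (G := G) (Q := Q) Abelianization.of Quot.mk_surjective
    (Abelianization.ker_of G).le (M := (Q → A) × MonoidAlgebra ℤ Q)
    (fun g => (d g, MonoidAlgebra.of ℤ Q (Abelianization.of g) - 1)) (by
      intro x y
      refine Prod.ext (funext fun q => ?_) ?_
      · change d (x * y) q = d x q + (MonoidAlgebra.of ℤ Q (Abelianization.of x) • d y) q
        rw [hsm]
        simp only [d]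
        rw [← ofMul_mul, ← map_mul]
        congr 2
        refine Subtype.ext ?_
        simp only [Subgroup.coe_mul, map_mul, mul_inv_rev, mul_assoc, mul_inv_cancel_left]
      · change _ = _ + MonoidAlgebra.of ℤ Q (Abelianization.of x) * _
        rw [map_mul, map_mul]
        ring)
  have h3 := eq_smul_sum (μ := μ) fun x => by
    obtain ⟨g, rfl⟩ : ∃ g, Abelianization.of g = x := ⟨α x, hα x⟩
    exact congrArg Prod.snd (h2 g)
  set z := μ.coeff 1
  have hz : z * z = 1 := by
    rw [h3, map_zsmul, map_sum] at h1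
    simp only [aug_of, Finset.sum_const, Finset.card_univ, smul_eq_mul, nsmul_eq_mul, mul_one,
      Int.natAbs_mul, Int.natAbs_natCast, Nat.card_eq_fintype_card] at h1
    rw [mul_eq_right₀ Fintype.card_ne_zero] at h1
    rw [← Int.natAbs_mul_self, h1]; rfl
  ext g
  have h4 : (∑ x, MonoidAlgebra.of ℤ Q x) • d g = 0 := by
    have : μ • d g = 0 := congrArg Prod.fst (h2 g)
    have e : (∑ x, MonoidAlgebra.of ℤ Q x) = (z : MonoidAlgebra ℤ Q) * μ := by
      rw [h3, zsmul_eq_mul, ← mul_assoc, ← Int.cast_mul, hz, Int.cast_one, one_mul]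
    rw [e, mul_smul, this, smul_zero]
  have h5 : ∑ q, d g q = 0 := by
    have := congrFun h4 1
    rw [Finset.sum_smul, Finset.sum_apply] at this
    simp only [hsm, mul_one] at this
    exact (Equiv.sum_comp (Equiv.inv Q) (d g)).symm.trans this
  rw [MonoidHom.transfer_def _ T, MonoidHom.one_apply, Subgroup.leftTransversals.diff]
  have h6 := congrArg Additive.toMul h5
  rw [toMul_sum] at h6
  refine Eq.trans ?_ h6
  refine Finset.prod_congr (Finset.ext fun a => iff_of_true (@Finset.mem_univ _ (_) a)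
    (@Finset.mem_univ _ (_) a)) fun q _ => ?_
  simp only [d, toMul_ofMul]
  congr 1
  refine Subtype.ext ?_
  simp only [Subgroup.smul_apply_eq_smul_apply_inv_smul]
  rfl

end Cfsg.Agent.S4320
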