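import Cfsg.Statements.S4323
import Cfsg.Agent.H9.AbFix4
import Cfsg.Agent.H1.Semidirect

set_option autoImplicit false
open Cfsg

namespace Cfsg.Agent.S4323

/-- Let `q` be a prime and `A` a non-cyclic group of order `q²` acting by automorphisms on a finite group `G` of order prime to `q`, such that the fixed-point subgroup `C_G(a)` is abelian for every non-identity `a ∈ A`. Then `G` is solvable. -/
theorem result {A G : Type*} [Group A] [Finite A]
    [Group G] [Finite G] [MulDistribMulAction A G] (q : ℕ) (hq : q.Prime) (hA : Nat.card A = q ^ 2) (hnc : ¬ IsCyclic A)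
    (hcop : ¬ q ∣ Nat.card G) (h : ∀ a : A, a ≠ 1 → IsMulCommutative ↥(FixedPoints.subgroup (Subgroup.zpowers a) G)) :
    Group.IsSolvable G := by
  have := Fact.mk hq
  let φ := MulDistribMulAction.toMulAut A G
  have hAc : IsMulCommutative A := IsPGroup.isMulCommutative_of_card_eq_prime_sq hA
  have hexp : ∀ a : A, a ^ q = 1 := by
    intro a
    have h1 : orderOf a ∣ q ^ 2 := hA ▸ orderOf_dvd_natCard a
    obtain ⟨i, hi, e⟩ := (Nat.dvd_prime_pow hq).1 h1
    rw [← orderOf_dvd_iff_pow_eq_one, e]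
    interval_cases i
    · simp
    · simp
    · exact absurd (isCyclic_of_orderOf_eq_card a (e.trans hA.symm)) hnc
  have hyp : H9.AbHyp q (H1.sdR φ ⊤) (H1.sdL φ ⊤) := by
    refine ⟨hq, H1.card_sdR_top.trans hA, ⟨H1.isMulCommutative_sdR.2 inferInstance, ?_⟩,
      H1.sdR_le_normalizer_top ⊤, H1.coprime_sd ?_, ?_⟩
    · rintro _ ⟨a, -, rfl⟩
      rw [← map_pow, hexp, map_one]
    · rw [hA]
      exact Nat.Coprime.pow_left _ ((Nat.Prime.coprime_iff_not_dvd hq).2 hcop)
    · rintro _ ⟨a, -, rfl⟩ ha1 _ ⟨⟨x, -, rfl⟩, hx⟩ _ ⟨⟨y, -, rfl⟩, hy⟩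
      have ha : a ≠ 1 := fun e => ha1 (by rw [e, map_one])
      have key : ∀ z : G, φ a z = z → z ∈ FixedPoints.subgroup (Subgroup.zpowers a) G := by
        intro z hz
        rw [FixedPoints.mem_subgroup]
        intro b
        exact (Subgroup.zpowers_le (H := MulAction.stabilizer A z)).2 hz b.2
      have := h a ha
      have e := congrArg Subtype.val (mul_comm' (⟨x, key x (H1.inl_mem_centralizer_inr.1 hx)⟩ :
        FixedPoints.subgroup (Subgroup.zpowers a) G) ⟨y, key y (H1.inl_mem_centralizer_inr.1 hy)⟩)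
      rw [← map_mul, ← map_mul]
      exact congrArg _ e
  have := hyp.solvable
  exact Group.isSolvable_of_isSolvable_injective (f := (SemidirectProduct.inl (φ := φ)).codRestrict
    (H1.sdL φ ⊤) fun g => H1.inl_mem_sdL.2 (Subgroup.mem_top g))
    fun a b e => SemidirectProduct.inl_injective (congrArg Subtype.val e)

end Cfsg.Agent.S4323
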